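import Cfsg.Agent.H4.CA1

/-! Character values off a subgroup of an abelian self-centralising section. -/

set_option autoImplicit false
set_option linter.unusedSectionVars false

namespace Cfsg.Agent.H6.U5.TT

open Cfsg Finset Subgroup H4.CA
open scoped ComplexConjugate Classical

universe u

/-- `X` dominates `k₀ (N - k₀)`, where `k₀` is the residue of `k` -/
def Dm (N k X : ℤ) : Prop := ∀ j : ℤ, (k - j * N) * ((j + 1) * N - k) ≤ X

theorem nn (x : ℤ) : 0 ≤ x * (x + 1) := by rcases le_or_gt 0 x with e | e <;> nlinarith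

theorem Dm.add {N k X k' X' : ℤ} (hN : 0 < N) (h : Dm N k X) (h' : Dm N k' X') :
    Dm N (k + k') (X + X') := fun j => by
  have h1 := h (k / N)
  have h2 := Int.emod_nonneg k hN.ne'
  have h3 := Int.emod_lt_of_pos k hN
  have h4 := Int.emod_add_mul_ediv k N
  generalize k / N = i at *
  generalize k % N = x at *
  subst h4
  rcases le_total 0 (k' - (j - i) * N) with e | e
  · have := h' (j - i)
    nlinarith [mul_nonneg h2 e]
  · have := h' (j - i - 1)
    nlinarith [mul_nonneg (sub_nonneg.2 h3.le) (neg_nonneg.2 e)]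

theorem Dm.sum {ι : Type*} {N : ℤ} (hN : 0 < N) (s : Finset ι) {k X : ι → ℤ}
    (h : ∀ i, Dm N (k i) (X i)) : Dm N (∑ i ∈ s, k i) (∑ i ∈ s, X i) := by
  induction s using Finset.induction_on with
  | empty => intro j; simp only [sum_empty]; nlinarith [mul_nonneg (mul_self_nonneg N) (nn j)]
  | insert a s ha ih => rw [sum_insert ha, sum_insert ha]; exact (h a).add hN ih

theorem dm_sq {ι : Type*} {N : ℤ} (s : Finset ι) (hs : (#s : ℤ) ≤ N) (c : ι → ℤ) :
    Dm N (∑ i ∈ s, c i) (N * ∑ i ∈ s, c i ^ 2 - (∑ i ∈ s, c i) ^ 2) := fun j => by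
  have h1 : 0 ≤ ∑ i ∈ s, (c i ^ 2 - (2 * j + 1) * c i + j * (j + 1)) :=
    sum_nonneg fun i _ => by nlinarith [nn (c i - j - 1)]
  rw [sum_add_distrib, sum_sub_distrib, ← mul_sum, sum_const, nsmul_eq_mul] at h1
  have h0 : (0 : ℤ) ≤ N := le_trans (by positivity) hs
  nlinarith [mul_nonneg h0 (add_nonneg h1 (mul_nonneg (sub_nonneg.2 hs) (nn j)))]

variable {G : Type u} [Group G] [Fintype G]

theorem inner_self' (φ : G → ℂ) :
    ((∑ g, ‖φ g‖ ^ 2 : ℝ) : ℂ) = Nat.card G * classInner φ φ := by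
  rw [classInner, mul_inv_cancel_left₀ (by exact_mod_cast Nat.card_pos.ne')]
  simp [Complex.mul_conj']

theorem nrm (c : (G →* ℂˣ) → ℤ) :
    ∑ g, ‖∑ l, (c l : ℂ) * (l g : ℂ)‖ ^ 2 = Nat.card G * (∑ l, c l ^ 2 : ℤ) := by
  have : ∀ l k : G →* ℂˣ, ∑ g, (l g : ℂ) * conj (k g : ℂ) = if l = k then (Nat.card G : ℂ) else 0 :=
    fun l k => by
      have := classInner_hom l k
      rw [classInner, inv_mul_eq_iff_eq_mul₀ (by exact_mod_cast Nat.card_pos.ne')] at this
      simpa using this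
  apply Complex.ofReal_injective
  simp only [Complex.ofReal_sum, Complex.ofReal_pow, ← Complex.mul_conj', map_sum, map_mul,
    map_intCast, sum_mul_sum, mul_mul_mul_comm]
  rw [sum_comm]
  simp only [sum_comm (s := (univ : Finset G)), ← mul_sum, this]
  simp [mul_sum, mul_comm, sq]

theorem off (B : Subgroup G) (c : (G →* ℂˣ) → ℤ) :
    ∑ g with g ∉ B, ‖∑ l, (c l : ℂ) * (l g : ℂ)‖ ^ 2 = Nat.card B * (∑ μ : B →* ℂˣ,
      (B.index * ∑ l with l.comp B.subtype = μ, c l ^ 2 -
        (∑ l with l.comp B.subtype = μ, c l) ^ 2) : ℤ) := by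
  have h1 := sum_filter_add_sum_filter_not univ (· ∈ B) fun g => ‖∑ l, (c l : ℂ) * (l g : ℂ)‖ ^ 2
  have h2 := nrm (G := B) fun μ => ∑ l with l.comp B.subtype = μ, c l
  rw [nrm, sum_subtype (p := (· ∈ B)) (F := inferInstance) _ (by simp), sum_congr rfl fun b _ => by
    rw [← sum_fiberwise (g := fun l : G →* ℂˣ => l.comp B.subtype), sum_congr rfl fun μ _ => by
      rw [sum_congr rfl fun l hl => by
        rw [show l b = μ b from DFunLike.congr_fun (mem_filter.1 hl).2 b], ← sum_mul,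
        ← Int.cast_sum]], h2] at h1
  rw [sum_sub_distrib, ← mul_sum, sum_fiberwise, eq_sub_of_add_eq' h1, ← B.index_mul_card]
  push_cast; ring

theorem par [IsMulCommutative G] (B : Subgroup G) {φ : G → ℂ} (h : IsCharacter G φ) {d : ℤ}
    (hd : φ 1 = d) : ∃ X : ℤ, Dm B.index d X ∧ ∑ g with g ∉ B, ‖φ g‖ ^ 2 = Nat.card B * X := by
  obtain ⟨n, ρ, rfl⟩ := h
  obtain ⟨m, hm⟩ := exists_mult ρ
  have hB : (0 : ℝ) < Nat.card B := by exact_mod_cast Nat.card_pos
  have h1 := off B fun l => m l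
  have h2 : d = ∑ μ : B →* ℂˣ, ∑ l with l.comp B.subtype = μ, (m l : ℤ) := by
    rw [sum_fiberwise]
    apply Int.cast_injective (α := ℂ)
    simp [← hd, hm]
  refine ⟨_, h2 ▸ Dm.sum (by exact_mod_cast Nat.pos_of_ne_zero B.index_ne_zero_of_finite) _
    fun μ => dm_sq _ ?_ _, by simpa only [hm, Int.cast_natCast] using h1⟩
  have h3 := off B fun l => if l.comp B.subtype = μ then 1 else 0
  rw [sum_eq_single μ (fun ν _ e => by
    rw [sum_eq_zero, sum_eq_zero] <;> simp +contextual [e]) (by simp)] at h3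
  have h4 := (mul_nonneg_iff_of_pos_left hB).1 (h3 ▸ sum_nonneg fun _ _ => sq_nonneg _)
  rw [sum_congr rfl fun l hl => by rw [if_pos (mem_filter.1 hl).2, one_pow],
    sum_congr (s₁ := univ.filter _) rfl fun l hl => if_pos (mem_filter.1 hl).2, sum_const,
    nsmul_one, Int.cast_nonneg_iff] at h4
  by_contra h6
  nlinarith [Int.natCast_nonneg B.index]

theorem var {s : G} {Y : Finset G} (hY : ∀ g, Commute (g * s * g⁻¹) s → g * s * g⁻¹ ∈ Y)
    {D : Finset (centralizer {s})} (hD : ∀ a ∈ D, ∀ y, Commute y a.1 → Commute y s) {f : G → ℝ}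
    (f0 : ∀ g, 0 ≤ f g) (fc : ∀ g x, f (x * g * x⁻¹) = f g) :
    Nat.card G * ∑ a ∈ D, f a ≤ #Y * Nat.card (centralizer {s}) * ∑ g, f g := by
  have h1 : #{g | g * s * g⁻¹ ∈ Y} ≤ #Y * Nat.card (centralizer {s}) := by
    rw [mul_comm]
    refine card_le_mul_card_image_of_maps_to (f := fun g => g * s * g⁻¹)
      (fun g hg => (mem_filter.1 hg).2) _ fun y _ => ?_
    rcases ({g ∈ {g | g * s * g⁻¹ ∈ Y} | g * s * g⁻¹ = y} : Finset G).eq_empty_or_nonempty with
      e | ⟨x, hx⟩
    · simp [e]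
    rw [Nat.card_eq_fintype_card, ← card_univ]
    refine card_le_card_of_injOn (fun g => if e : x⁻¹ * g ∈ centralizer {s} then ⟨_, e⟩ else 1)
      (by simp) fun g hg g' hg' e => ?_
    have k : ∀ g ∈ ({g ∈ {g | g * s * g⁻¹ ∈ Y} | g * s * g⁻¹ = y} : Finset G),
        x⁻¹ * g ∈ centralizer {s} := fun g hg => mem_centralizer_singleton_iff.2 (by
      have := (mem_filter.1 hg).2.trans (mem_filter.1 hx).2.symm
      calc _ = x⁻¹ * (g * s * g⁻¹) * g := by group
        _ = _ := by rw [this]; group)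
    simpa [k g hg, k g' hg'] using e
  calc _ = ∑ p ∈ univ ×ˢ D, f (p.1 * p.2 * p.1⁻¹) := by
        simp [sum_product, fc]
    _ = ∑ x, ∑ p ∈ univ ×ˢ D with p.1 * p.2.1 * p.1⁻¹ = x, f x := by
        rw [← sum_fiberwise (g := fun p : G × centralizer {s} => p.1 * p.2.1 * p.1⁻¹)]
        exact sum_congr rfl fun x _ => sum_congr rfl fun p hp => by rw [(mem_filter.1 hp).2]
    _ ≤ _ := by
        rw [mul_sum]
        refine sum_le_sum fun x _ => ?_
        rw [sum_const, nsmul_eq_mul]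
        refine mul_le_mul_of_nonneg_right ?_ (f0 x)
        norm_cast
        refine le_trans ?_ h1
        rcases ({p ∈ univ ×ˢ D | p.1 * p.2.1 * p.1⁻¹ = x} : Finset _).eq_empty_or_nonempty with
          e | ⟨p, hp⟩
        · simp [e]
        obtain ⟨p1, p2⟩ := mem_filter.1 hp
        refine card_le_card_of_injOn (fun p' => p.1⁻¹ * p'.1) (fun p' hp' => ?_)
          fun p' hp' p'' hp'' e => ?_
        · obtain ⟨-, p4⟩ := mem_filter.1 hp'
          refine mem_filter.2 ⟨mem_univ _, hY _ (hD _ (mem_product.1 p1).2 _ ?_)⟩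
          have e1 : p.2.1 = p.1⁻¹ * p'.1 * p'.2 * (p.1⁻¹ * p'.1)⁻¹ := by
            rw [mul_inv_rev, inv_inv, ← mul_assoc, mul_assoc _ p'.1, mul_assoc _ _ p'.1⁻¹, p4, ← p2]
            group
          rw [e1]
          exact (Commute.conj (mem_centralizer_singleton_iff.1 p'.2.2).symm _)
        · have e1 : p'.1 = p''.1 := mul_left_cancel e
          have := (mem_filter.1 hp').2.trans (mem_filter.1 hp'').2.symm
          rw [e1] at this
          exact Prod.ext e1 (Subtype.ext (by simpa using this))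

end Cfsg.Agent.H6.U5.TT
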