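import Cfsg.Agent.H8.U5Ta
import Cfsg.Agent.H8.U5Tb
import Cfsg.Agent.H4.BS2

/-! The second torus of `GU₅(q)`, `q ≡ 4 (mod 5)`. -/

set_option autoImplicit false
set_option linter.unusedSectionVars false

namespace Cfsg.Agent.H6.U5

open Cfsg Finset Subgroup H4.CA H5.U Module
open scoped ComplexConjugate Classical

namespace TT

theorem big_prime {q : ℕ} (h5 : q % 5 = 4) (h4 : q ≠ 4) :
    ∃ r k : ℕ, r.Prime ∧ r ≠ 2 ∧ r ^ k ∣ q ^ 2 + 1 ∧ 27 ≤ r ^ k := by
  by_contra! h
  have z : ∀ m : ℕ, (∀ x : ZMod m, x ^ 2 + 1 ≠ 0) → ¬ m ∣ q ^ 2 + 1 := fun m hm d =>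
    hm q (by exact_mod_cast (ZMod.natCast_eq_zero_iff _ _).2 d)
  have d : q ^ 2 + 1 ∣ 442 := (Nat.dvd_iff_prime_pow_dvd_dvd _ _).2 fun p k hp d => by
    rcases k with _ | k
    · simp
    have d1 := (dvd_pow_self p k.succ_ne_zero).trans d
    have d2 : k ≠ 0 → p ^ 2 ∣ q ^ 2 + 1 := fun e => (pow_dvd_pow p (by omega)).trans d
    by_cases p2 : p = 2
    · subst p2
      rw [not_not.1 (mt d2 (z 4 (by decide)))]; norm_num
    have h1 := h p 1 hp p2 (by rwa [pow_one])
    have h2 := fun e => h p 2 hp p2 (d2 e)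
    have h3 : p = 13 ∨ p = 17 := by
      rw [pow_one] at h1
      interval_cases p <;> first | omega | (norm_num at hp; done) |
        (refine absurd d1 (z _ ?_); decide) | skip
      obtain ⟨a, rfl⟩ : ∃ a, q = 5 * a + 4 := ⟨q / 5, by omega⟩
      rw [show (5 * a + 4) ^ 2 + 1 = 5 * (5 * a ^ 2 + 8 * a + 3) + 2 by ring] at d1
      omega
    rcases h3 with rfl | rfl <;> rw [not_not.1 (mt h2 (by norm_num))] <;> norm_num
  have := Nat.le_of_dvd (by norm_num) d
  have : q ≤ 21 := by nlinarith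
  interval_cases q <;> omega

theorem not_dm {N d X a : ℤ} (hN : 27 ≤ N) {e : ℤ} (he : e = 1 ∨ e = 2) (h : 5 * d = e + N * a)
    (hX : Dm N d X) : 4 * N < X := by
  have h1 := hX (d / N)
  have h2 := Int.emod_nonneg d (by omega : N ≠ 0)
  have h3 := Int.emod_lt_of_pos d (by omega : 0 < N)
  have h4 := Int.emod_add_mul_ediv d N
  generalize d / N = i at *
  generalize d % N = x at *
  subst h4
  obtain ⟨b, rfl⟩ : ∃ b, a = b + 5 * i := ⟨a - 5 * i, by ring⟩
  have h5 : 5 * x = e + N * b := by linarith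
  have h6 : 1 ≤ b := by
    by_contra! h7
    rcases (by omega : b = 0 ∨ b ≤ -1) with rfl | h8
    · omega
    · rcases he with rfl | rfl <;> nlinarith
  have h7 : b ≤ 4 := by by_contra! h7; rcases he with rfl | rfl <;> nlinarith
  have h8 : N + 1 ≤ 5 * x := by rcases he with rfl | rfl <;> nlinarith
  have h9 : 5 * x ≤ 4 * N + 2 := by rcases he with rfl | rfl <;> nlinarith
  nlinarith [mul_nonneg (sub_nonneg.2 h8) (sub_nonneg.2 h9)]

variable {F V : Type*} [Field F] [StarRing F] [Fintype F] [AddCommGroup V] [Module F V]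
  {h : HF F V} {q : ℕ}

theorem setup (hV : finrank F V = 5) (hq : Fintype.card F = q ^ 2) (hst : ∀ t : F, star t = t ^ q)
    {L : Subgroup (V ≃ₗ[F] V)} [Fintype L] (hL : L ≤ h.GU) (hd : q ^ 2 + 1 ∣ Nat.card L) {r k : ℕ}
    (hr : r.Prime) (r2 : r ≠ 2) (hk : r ^ k ∣ q ^ 2 + 1) (k1 : 1 < r ^ k) :
    ∃ (A : Subgroup L) (_ : IsMulCommutative A) (B : Subgroup A), r ^ k ≤ B.index ∧
      B.index ∣ q ^ 2 + 1 ∧ (∀ θ, IsClassFunction L θ → ∑ a with a ∉ B, ‖θ a.1‖ ^ 2 ≤
        4 * B.index * Nat.card B * (classInner θ θ).re) ∧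
      ∀ a ∉ B, ∃ (e : V) (c : F), ∀ (z : F) (w : V), z • (a.1 : V ≃ₗ[F] V) w = w →
        (∃ b : F, w = b • e) ∧ (z * c ≠ 1 → w = 0) := by
  haveI := Fact.mk hr
  obtain ⟨P⟩ : Nonempty (Sylow r L) := inferInstance
  have h1 := P.pow_dvd_card_of_pow_dvd_card (hk.trans hd)
  haveI : Nontrivial P := Finite.one_lt_card_iff_nontrivial.1
    (k1.trans_le (Nat.le_of_dvd Nat.card_pos h1))
  haveI := P.isPGroup'.center_nontrivial
  obtain ⟨n, n0, hn⟩ := (P.isPGroup'.to_subgroup (center P)).nontrivial_iff_card.1 inferInstance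
  obtain ⟨s0, hs⟩ := exists_prime_orderOf_dvd_card' (G := center P) r (hn ▸ dvd_pow_self r n0.ne')
  have S : ∀ s : L, orderOf s = r → St h q r s := fun s hs => ⟨hV, hq, hst, hr, r2,
    (dvd_pow_self r (by rintro rfl; simp at k1)).trans hk, hL s.2, by rw [orderOf_coe, hs]⟩
  rw [← orderOf_coe, ← orderOf_coe] at hs
  have hP : (P : Subgroup L) ≤ centralizer {s0.1.1} := fun g hg => mem_centralizer_singleton_iff.2
    (congrArg Subtype.val (mem_center_iff.1 s0.2 ⟨g, hg⟩))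
  generalize s0.1.1 = s at hs hP
  have cm : ∀ s : L, orderOf s = r → ∀ g g' : L, Commute g s → Commute g' s → Commute g g' :=
    fun s hs g g' c c' => Subtype.ext ((S s hs).comm (hL g.2) (hL g'.2) (congrArg Subtype.val c)
      (congrArg Subtype.val c'))
  have mA : ∀ a : centralizer {s}, Commute a.1 s := fun a => mem_centralizer_singleton_iff.1 a.2
  haveI hA : IsMulCommutative (centralizer {s}) := ⟨⟨fun a b => Subtype.ext
    (cm s hs _ _ (mA a) (mA b))⟩⟩
  obtain ⟨K, m, hm, e⟩ := Nat.exists_eq_pow_mul_and_not_dvd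
    (Nat.card_pos (α := centralizer {s})).ne' r hr.one_lt.ne'
  let f : centralizer {s} →* centralizer {s} := ⟨⟨(· ^ m), one_pow m⟩, fun a b =>
    Commute.mul_pow (hA.1.1 a b) m⟩
  have f1 : ∀ a, f a ^ r ^ K = 1 := fun a => by
    change (a ^ m) ^ _ = 1
    rw [← pow_mul, mul_comm, ← e, pow_card_eq_one']
  obtain ⟨i, hi⟩ := IsPGroup.iff_card.1 (show IsPGroup r f.range by
    rintro ⟨_, a, rfl⟩; exact ⟨K, Subtype.ext (f1 a)⟩)
  have c1 : Nat.card (f.range.map (L.subtype.comp (centralizer {s}).subtype)) = r ^ i :=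
    (card_map_of_injective fun _ _ e => Subtype.ext (Subtype.ext e)).trans hi
  refine ⟨_, hA, f.ker, ?_, ?_, fun θ hθ => ?_, fun a ha => ?_⟩
  · refine Nat.le_of_dvd (Nat.pos_of_ne_zero index_ne_zero_of_finite)
      (Nat.Coprime.dvd_of_dvd_mul_right (Nat.Coprime.pow_left k
        (hr.coprime_iff_not_dvd.2 fun d => ?_)) (f.ker.index_mul_card ▸ h1.trans (card_dvd_of_le hP)))
    obtain ⟨b, hb⟩ := exists_prime_orderOf_dvd_card' r d
    exact hm (hb ▸ orderOf_dvd_of_pow_eq_one (Subtype.ext b.2))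
  · rw [index_ker, hi]
    exact (S s hs).card_dvd (by rintro _ ⟨a, -, rfl⟩; exact hL a.1.2)
      (by rintro _ ⟨a, -, rfl⟩; exact congrArg Subtype.val (mA a)) c1
  · have := var (s := s) (Y := {s, s⁻¹, s ^ q, (s ^ q)⁻¹}) (fun g c => by
      simpa [Subtype.ext_iff] using (S s hs).conj4 (hL g.2) (congrArg Subtype.val c))
      (D := {a | a ∉ f.ker}) (fun a ha y c => by
        obtain ⟨b, hb⟩ := exists_prime_orderOf_dvd_card' (G := zpowers (f a)) r (by
          rw [Nat.card_zpowers]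
          obtain ⟨j, -, e⟩ := (Nat.dvd_prime_pow hr).1 (orderOf_dvd_of_pow_eq_one (f1 a))
          exact e ▸ dvd_pow_self r (by
            rintro rfl; exact (mem_filter.1 ha).2 (orderOf_eq_one_iff.1 e)))
        rw [← orderOf_coe, ← orderOf_coe] at hb
        refine cm _ hb _ _ ?_ (mA _).symm
        obtain ⟨_, j, rfl⟩ := b
        exact (c.pow_right m).zpow_right j)
      (f := fun g => ‖θ g‖ ^ 2) (fun _ => sq_nonneg _) fun g x => by rw [hθ]
    have h2 := congrArg Complex.re (inner_self' θ)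
    rw [Complex.ofReal_re, ← Complex.ofReal_natCast, Complex.re_ofReal_mul] at h2
    have h3 : (0 : ℝ) < Nat.card L := by exact_mod_cast Nat.card_pos
    have h4 : (#({s, s⁻¹, s ^ q, (s ^ q)⁻¹} : Finset L) : ℝ) ≤ 4 := by exact_mod_cast card_le_four
    refine le_of_mul_le_mul_left (le_of_eq_of_le (by congr!) (this.trans ?_)) h3
    rw [mul_left_comm, ← h2, ← f.ker.index_mul_card, Nat.cast_mul, mul_assoc 4]
    gcongr
  · exact (S s hs).fixed (hL a.1.2) (congrArg Subtype.val (mA a)) (j := m) (k := K)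
      (fun e => ha (Subtype.ext (Subtype.ext e))) (congrArg (·.1.1) (f1 a))

end TT

open TT

variable {F V : Type*} [Field F] [StarRing F] [NStar F] [Fintype F] [AddCommGroup V] [Module F V]
  {h : HF F V} {q t : ℕ}

theorem T2 (hV : finrank F V = 5) (hq : Fintype.card F = q ^ 2) (hst : ∀ t : F, star t = t ^ q)
    (h5 : q % 5 = 4) {L : Subgroup (V ≃ₗ[F] V)} (hL : L ≤ h.GU) (hd : q ^ 2 + 1 ∣ Nat.card L)
    (ht : 5 * t * (q + 1) = q ^ 5 + 1) :
    (∀ ψ, IsIrrCharacter L ψ → ψ 1 ≠ t ∧ (q ≠ 4 → ψ 1 ≠ 2 * t)) ∧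
    (q = 4 → ∀ ψ ψ', IsIrrCharacter L ψ → IsIrrCharacter L ψ' → ψ 1 = 82 → ψ' 1 = 123 →
      (∀ g : L, 5 * ‖ψ g + ψ' g‖ ≤ ∑ z ∈ univ.filter (fun z : F => z * star z = 1),
        √(Nat.card {w : V // z • (g : V ≃ₗ[F] V) w = w})) → False) := by
  haveI : FiniteDimensional F V := Module.finite_of_finrank_pos (by omega)
  haveI : Finite V := Module.finite_of_finite F
  haveI : Finite (V ≃ₗ[F] V) := DFunLike.finite _
  letI := Fintype.ofFinite L
  have key : ∀ {A : Subgroup L} [IsMulCommutative A] (B : Subgroup A) {ψ} {d : ℤ},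
      IsIrrCharacter L ψ → ψ 1 = d → (∑ a with a ∉ B, ‖ψ a.1‖ ^ 2 ≤
        4 * B.index * Nat.card B * (classInner ψ ψ).re) → ∃ X, Dm B.index d X ∧ X ≤ 4 * B.index ∧
        ∑ a with a ∉ B, ‖ψ a.1‖ ^ 2 = Nat.card B * X := fun {A} _ B ψ d h1 h2 h3 => by
    obtain ⟨X, h4, h5⟩ := par B (H4.BS.ch_comp (H4.BS.ch_irr h1) A.subtype) h2
    refine ⟨X, h4, ?_, h5⟩
    rw [H1.classInner_irr h1 h1, if_pos rfl, Complex.one_re, mul_one, mul_comm] at h3
    exact_mod_cast le_of_mul_le_mul_left (h5 ▸ h3) (by exact_mod_cast Nat.card_pos)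
  by_cases h4 : q = 4
  · subst h4
    obtain rfl : t = 41 := by omega
    obtain ⟨A, _, B, h1, h2, h3, h6⟩ := setup hV hq hst hL hd (r := 17) (k := 1) (by norm_num)
      (by norm_num) (by norm_num) (by norm_num)
    have e : B.index = 17 := le_antisymm (Nat.le_of_dvd (by norm_num) h2) h1
    refine ⟨fun ψ hψ => ⟨fun e1 => ?_, fun e => absurd rfl e⟩, fun _ ψ ψ' hψ hψ' e1 e2 hb => ?_⟩
    · obtain ⟨X, h7, h8, -⟩ := key B (d := 41) hψ e1 (h3 _ (irr_class hψ))
      have := h7 2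
      rw [e] at this h8
      omega
    obtain ⟨X, h7, -, h8⟩ := key B (d := 82) hψ e1 (h3 _ (irr_class hψ))
    obtain ⟨X', h7', -, h8'⟩ := key B (d := 123) hψ' e2 (h3 _ (irr_class hψ'))
    have h9 := h7 4
    have h9' := h7' 7
    have ne : ψ ≠ ψ' := by rintro rfl; rw [e1] at e2; norm_num at e2
    have a1 := h3 (ψ - ψ') fun g x => by simp [irr_class hψ g x, irr_class hψ' g x]
    have a2 : classInner (ψ - ψ') (ψ - ψ') = 2 := by
      have c1 := H1.classInner_irr hψ hψ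
      have c2 := H1.classInner_irr hψ hψ'
      have c3 := H1.classInner_irr hψ' hψ
      have c4 := H1.classInner_irr hψ' hψ'
      simp only [classInner, Pi.sub_apply, map_sub, sub_mul, mul_sub, sum_sub_distrib, ne, ne.symm,
        if_true, if_false] at c1 c2 c3 c4 ⊢
      linear_combination c1 - c2 - c3 + c4
    have a3 : ∑ a with a ∉ B, ‖ψ a.1 + ψ' a.1‖ ^ 2 ≤ ∑ a : A, (8 / 5 : ℝ) ^ 2 := by
      refine (sum_le_sum fun a ha => ?_).trans (sum_le_sum_of_subset_of_nonneg (filter_subset _ _)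
        fun _ _ _ => sq_nonneg _)
      obtain ⟨e, c, hc⟩ := h6 a (mem_filter.1 ha).2
      refine pow_le_pow_left₀ (norm_nonneg _) ?_ 2
      rw [le_div_iff₀' (by norm_num)]
      refine (hb a).trans ((sum_le_sum (g := fun z => 1 + if z = c⁻¹ then 3 else 0)
        fun z _ => ?_).trans ?_)
      · rw [Real.sqrt_le_iff]
        split_ifs with e1
        · refine ⟨by norm_num, ?_⟩
          have := Nat.card_le_card_of_injective
            (fun w : {w : V // z • (a.1 : V ≃ₗ[F] V) w = w} => (hc z w.1 w.2).1.choose)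
            fun w w' e => Subtype.ext (by
              rw [(hc z w.1 w.2).1.choose_spec, (hc z w'.1 w'.2).1.choose_spec]
              exact congrArg (· • _) e)
          rw [Nat.card_eq_fintype_card (α := F), hq] at this
          exact_mod_cast this
        · haveI : Subsingleton {w : V // z • (a.1 : V ≃ₗ[F] V) w = w} := ⟨fun w w' => Subtype.ext
            (((hc z _ w.2).2 (mt eq_inv_of_mul_eq_one_left e1)).trans
              ((hc z _ w'.2).2 (mt eq_inv_of_mul_eq_one_left e1)).symm)⟩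
          exact ⟨by norm_num, by exact_mod_cast Finite.card_le_one_iff_subsingleton.2 this⟩
      · have : #{z : F | z * star z = 1} ≤ 5 := (card_le_card fun z hz => by
          simpa [hst, pow_succ'] using hz).trans ((Multiset.toFinset_card_le _).trans
            (Polynomial.card_nthRoots 5 (1 : F)))
        rw [sum_add_distrib, sum_const, nsmul_one, sum_ite_eq']
        have : (#{z : F | z * star z = 1} : ℝ) ≤ 5 := by exact_mod_cast this
        split_ifs <;> linarith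
    have a4 : ∑ a with a ∉ B, ‖ψ a.1 + ψ' a.1‖ ^ 2 + ∑ a with a ∉ B, ‖(ψ - ψ') a.1‖ ^ 2 =
        2 * (Nat.card B * X + Nat.card B * X') := by
      rw [← h8, ← h8', ← sum_add_distrib, ← sum_add_distrib, mul_sum]
      exact sum_congr rfl fun a _ => parallelogram_law_with_norm ℂ _ _
    rw [sum_const, card_univ, ← Nat.card_eq_fintype_card, ← B.index_mul_card, e, nsmul_eq_mul] at a3
    rw [e] at h9 h9'
    rw [a2, e] at a1
    have b1 : (42 : ℝ) ≤ X := by exact_mod_cast h9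
    have b2 : (52 : ℝ) ≤ X' := by exact_mod_cast h9'
    have hB : (0 : ℝ) < Nat.card B := by exact_mod_cast Nat.card_pos
    rw [Complex.re_ofNat] at a1
    push_cast at a1 a3
    nlinarith [mul_le_mul_of_nonneg_left b1 hB.le, mul_le_mul_of_nonneg_left b2 hB.le]
  obtain ⟨r, k, hr, r2, hk, k1⟩ := big_prime h5 h4
  obtain ⟨A, _, B, h1, ⟨a, h2⟩, h3, -⟩ := setup hV hq hst hL hd hr r2 hk (by omega)
  have e : (5 * t : ℤ) = 1 + B.index * (a * (q ^ 2 - q)) := by
    zify at ht h2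
    apply mul_right_cancel₀ (by positivity : (q + 1 : ℤ) ≠ 0)
    rw [ht, ← mul_assoc, ← h2]; ring
  refine ⟨fun ψ hψ => ⟨fun e1 => ?_, fun _ e1 => ?_⟩, fun e => absurd e h4⟩
  · obtain ⟨X, h7, h8, -⟩ := key B (d := t) hψ e1 (h3 _ (irr_class hψ))
    exact (not_dm (by omega) (Or.inl rfl) e h7).not_ge h8
  · obtain ⟨X, h7, h8, -⟩ := key B (d := 2 * t) hψ (by simpa using e1) (h3 _ (irr_class hψ))
    exact (not_dm (a := 2 * (a * (q ^ 2 - q))) (by omega) (Or.inr rfl) (by linarith) h7).not_ge h8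

end Cfsg.Agent.H6.U5
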