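import Mathlib
import Cfsg.Agent.H7.AschComm

set_option autoImplicit false

namespace Cfsg.Agent.H8

open Matrix Module
open scoped MatrixGroups commutatorElement

variable {ι : Type} [Fintype ι] [DecidableEq ι] {F : Type*} [Field F]

/-- Eigenspace of an invertible matrix. -/
abbrev Eig (g : GL ι F) (c : F) : Submodule F (ι → F) :=
  Module.End.eigenspace (Matrix.toLin' (g : Matrix ι ι F)) c

theorem mem_Eig {g : GL ι F} {c : F} {v : ι → F} : v ∈ Eig g c ↔ (g : Matrix ι ι F) *ᵥ v = c • v := by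
  rw [Module.End.mem_eigenspace_iff, Matrix.toLin'_apply]

theorem Eig_conj (g x : GL ι F) (c : F) :
    Eig (x * g * x⁻¹) c = (Eig g c).map (Matrix.toLin' (x : Matrix ι ι F)) := by
  ext v
  rw [mem_Eig, Submodule.mem_map]
  simp only [Units.val_mul, ← mulVec_mulVec, Matrix.toLin'_apply, mem_Eig]
  constructor
  · intro h
    refine ⟨((x⁻¹ : GL ι F) : Matrix ι ι F) *ᵥ v, ?_, H7.val_mulVec_inv x v⟩
    rw [← mulVec_smul, ← h, H7.inv_mulVec_val]
  · rintro ⟨w, hw, rfl⟩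
    rw [H7.inv_mulVec_val, hw, mulVec_smul]

theorem finrank_Eig_conj (g x : GL ι F) (c : F) :
    finrank F (Eig (x * g * x⁻¹) c) = finrank F (Eig g c) := by
  rw [Eig_conj, H7.finrank_map_val]

theorem two_mul_finrank_Eig_le (g x : GL ι F) (c : F) :
    2 * finrank F (Eig g c) ≤ Fintype.card ι + finrank F ↥(Eig g c ⊓ Eig (x * g * x⁻¹) c) := by
  have h1 := Submodule.finrank_sup_add_finrank_inf_eq (Eig g c) (Eig (x * g * x⁻¹) c)
  have h2 : finrank F ↥(Eig g c ⊔ Eig (x * g * x⁻¹) c) ≤ Fintype.card ι := by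
    rw [← Module.finrank_pi F]; exact Submodule.finrank_le _
  rw [finrank_Eig_conj] at h1
  omega

theorem inf_Eig_le {g g' : GL ι F} {c : F} : Eig g c ⊓ Eig g' c ≤ Eig (g⁻¹ * g') 1 := by
  rintro v ⟨h1, h2⟩
  rw [SetLike.mem_coe, mem_Eig] at h1 h2
  rw [mem_Eig, Units.val_mul, ← mulVec_mulVec, h2, ← h1, H7.inv_mulVec_val, one_smul]

theorem two_mul_finrank_Eig_le' (g x : GL ι F) (c : F) :
    2 * finrank F (Eig g c) ≤ Fintype.card ι + finrank F (Eig (g⁻¹ * (x * g * x⁻¹)) 1) :=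
  (two_mul_finrank_Eig_le g x c).trans (Nat.add_le_add_left (Submodule.finrank_mono inf_Eig_le) _)

/-- A finite soluble group has a self-centralising normal metabelian subgroup. -/
theorem exists_metabelian_self_centralizing (G : Type*) [Group G] [Finite G] [Group.IsSolvable G] :
    ∃ A B : Subgroup G, A.Normal ∧ B.Normal ∧ (∀ a ∈ A, ∀ b ∈ A, a * b = b * a) ∧ A ≤ B ∧
      (∀ a ∈ B, ∀ b ∈ B, ⁅a, b⁆ ∈ A) ∧ ∀ g : G, (∀ b ∈ B, b * g = g * b) → g ∈ B := by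
  let P : Subgroup G → Prop := fun B => ∃ A : Subgroup G, A.Normal ∧ B.Normal ∧
    (∀ a ∈ A, ∀ b ∈ A, a * b = b * a) ∧ A ≤ B ∧ (∀ a ∈ B, ∀ b ∈ B, ⁅a, b⁆ ∈ A)
  have hP : P ⊥ := ⟨⊥, inferInstance, inferInstance, by simp, le_rfl, by simp⟩
  obtain ⟨B, hB⟩ := exists_maximal_of_wellFoundedGT P ⟨⊥, hP⟩
  obtain ⟨⟨A, hAn, hBn, hAc, hAB, hBA⟩, hmax⟩ := hB
  refine ⟨A, B, hAn, hBn, hAc, hAB, hBA, ?_⟩
  by_contra hcon
  push Not at hcon
  obtain ⟨g, hg, hgB⟩ := hcon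
  let C := Subgroup.centralizer (B : Set G)
  have hCn : C.Normal := inferInstance
  let Q : Subgroup G → Prop := fun D => D.Normal ∧ D ≤ C ∧ ¬ D ≤ B
  obtain ⟨D, hD⟩ := exists_minimal_of_wellFoundedLT Q ⟨C, hCn, le_rfl, fun h => hgB (h hg)⟩
  obtain ⟨⟨hDn, hDC, hDB⟩, hmin⟩ := hD
  have hD0 : D ≠ ⊥ := fun h => hDB (h ▸ bot_le)
  have hlt := Group.IsSolvable.commutator_lt_of_ne_bot hD0
  have hDD : ⁅D, D⁆ ≤ B := by
    by_contra hc
    exact hlt.not_ge (hmin ⟨inferInstance, hlt.le.trans hDC, hc⟩ hlt.le)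
  have hcomm : ∀ d ∈ C, ∀ b ∈ B, b * d = d * b := fun d hd b hb => hd b hb
  have hZn : (B ⊓ C).Normal := inferInstance
  have : P (B ⊔ D) := by
    refine ⟨A ⊔ (B ⊓ C), inferInstance, inferInstance, ?_,
      sup_le (hAB.trans le_sup_left) (inf_le_left.trans le_sup_left), ?_⟩
    · intro a ha b hb
      obtain ⟨a1, h1, a2, h2, rfl⟩ := Subgroup.mem_sup_of_normal_right.mp ha
      obtain ⟨b1, h3, b2, h4, rfl⟩ := Subgroup.mem_sup_of_normal_right.mp hb
      have e1 : Commute a1 b1 := hAc _ h1 _ h3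
      have e2 : Commute a1 b2 := hcomm _ h4.2 _ (hAB h1)
      have e3 : Commute b1 a2 := hcomm _ h2.2 _ (hAB h3)
      have e4 : Commute a2 b2 := hcomm _ h4.2 _ h2.1
      exact (e1.mul_right e2).mul_left (e3.symm.mul_right e4)
    · intro a ha b hb
      obtain ⟨a1, h1, a2, h2, rfl⟩ := Subgroup.mem_sup_of_normal_right.mp ha
      obtain ⟨b1, h3, b2, h4, rfl⟩ := Subgroup.mem_sup_of_normal_right.mp hb
      have e1 : Commute a1 a2 := hcomm _ (hDC h2) _ h1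
      have e2 : Commute a1 b2 := hcomm _ (hDC h4) _ h1
      have e3 : Commute b1 a2 := hcomm _ (hDC h2) _ h3
      have e4 : Commute b1 b2 := hcomm _ (hDC h4) _ h3
      have : ⁅a1 * a2, b1 * b2⁆ = ⁅a1, b1⁆ * ⁅a2, b2⁆ := by
        have e5 : Commute a1⁻¹ ⁅a2, b2⁆ :=
          ((((e1.mul_right e2).mul_right e1.inv_right).mul_right e2.inv_right)).inv_left
        have e6 : Commute b1⁻¹ ⁅a2, b2⁆ :=
          ((((e3.mul_right e4).mul_right e3.inv_right).mul_right e4.inv_right)).inv_left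
        calc ⁅a1 * a2, b1 * b2⁆ = a1 * (a2 * b1) * b2 * (a2⁻¹ * a1⁻¹) * (b2⁻¹ * b1⁻¹) := by
              simp only [commutatorElement_def, _root_.mul_inv_rev, mul_assoc]
          _ = a1 * (b1 * a2) * b2 * a2⁻¹ * (a1⁻¹ * b2⁻¹) * b1⁻¹ := by
              rw [e3.eq]; simp only [mul_assoc]
          _ = a1 * b1 * (⁅a2, b2⁆ * a1⁻¹) * b1⁻¹ := by
              rw [e2.inv_inv.eq]; simp only [commutatorElement_def, mul_assoc]
          _ = a1 * b1 * a1⁻¹ * (⁅a2, b2⁆ * b1⁻¹) := by rw [← e5.eq]; simp only [mul_assoc]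
          _ = ⁅a1, b1⁆ * ⁅a2, b2⁆ := by
              rw [← e6.eq]; simp only [commutatorElement_def, mul_assoc]
      rw [this]
      have h5 : ⁅a2, b2⁆ ∈ ⁅D, D⁆ := Subgroup.commutator_mem_commutator h2 h4
      exact Subgroup.mul_mem_sup (hBA _ h1 _ h3) ⟨hDD h5, hDC (hlt.le h5)⟩
  exact hDB (le_sup_right.trans (hmax this le_sup_left))

end Cfsg.Agent.H8
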