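import Cfsg.Agent.H8.M3S
import Cfsg.Agent.H7.PA9

/-! The residual classes in dimension three. -/

set_option autoImplicit false
set_option linter.unusedSectionVars false

namespace Cfsg.Agent.H8.M3
open Matrix Equiv Subgroup Cfsg.Geo
open scoped MatrixGroups

universe u
variable {F : Type u} [Field F] [Fintype F] {p : ℕ} [Fact p.Prime] [CharP F p] {P H : Subgroup (GL (Fin 3) F)}

local notation "K" => AlgebraicClosure F
local notation "A6" => alternatingGroup (Fin 6)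

theorem core_cases (p : ℕ) [Fact p.Prime] [CharP F p] (hc : IsResidualCore H P) (hH : H ≤ specialLinear (Fin 3) F)
    (hQ : ¬ ∃ Q, IsNondegenerateQuadraticForm Q ∧ FixesQuadForm (matrixSet P) Q) :
    specialLinear (Fin 3) F ≤ P ∨ (∃ g q, IsSU3 P g ⊤ q) ∨ (Fintype.card F = 4 ∧ Nonempty (ModSc P ≃* A6)) ∨
    ∃ (G : Type u) (_ : Group G) (_ : Finite G) (ρ : G →* PGL(3, K)) (g : GL (Fin 3) K) (κ μ : K),
      HB p ρ ∧ Lift ρ P g ∧ Ex ρ κ μ ∧ NoTv H ∧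
      ((κ + μ = -1 ∧ Nat.card (ModSc H) = 168 ∧ Nonempty (ModSc P ≃* PSL(3, ZMod 2)) ∧ Lift ρ H g ∧
        ∃ t u w y r, Ex4 ρ t u w y r κ μ) ∨
      ((κ + μ) ^ 2 = 5 ∧ ((Nonempty (ModSc P ≃* A6) ∧ (p = 5 ∨ Nonempty (ModSc H ≃* A6)) ∧
        ∃ x M M', Rep ρ x M ∧ M * M' = 1 ∧ inv3 M = κ + μ + 2 ∧ inv3 M' = κ + μ + 2) ∨
        (p = 5 ∧ Nonempty (ModSc P ≃* alternatingGroup (Fin 7)))))) := by
  have l1 := lift_map H (1 : GL (Fin 3) K)
  have i1 := (H.map (pj (1 : GL (Fin 3) K))).subtype_injective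
  generalize (H.map (pj (1 : GL (Fin 3) K))).subtype = ρ at l1 i1
  obtain ⟨e1⟩ := l1.equiv i1
  have := Finite.of_equiv _ e1.toEquiv
  have l2 := l1.sub hc.le
  have := l1.normal hc.normal
  generalize sub ρ P 1 = S at *
  have i2 : Function.Injective (ρ.comp S.subtype) := i1.comp S.subtype_injective
  obtain ⟨e2⟩ := l2.equiv i2
  have hS : SN S := SN.of_equiv ⟨hc.simple, fun h => hc.nonabelian ⟨⟨h⟩⟩⟩ e2.symm
  have top : ∀ (g : GL (Fin 3) F) F₀, (∀ A ∈ P, ∀ i j, (g⁻¹ * A * g) i j ∈ F₀) → F₀ = ⊤ := fun g F₀ h => by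
    by_contra k
    exact hc.no_subfield _ k ⟨g⁻¹, by rintro _ ⟨A, a, rfl⟩; rw [inv_inv]; exact h A a⟩
  rcases l2.tri (p := p) (H7.partA F) i2 hS hc.perfect (hc.le.trans hH) (Or.inl hc.absIrred.1) with
    hb | ⟨g, F₀, h⟩ | ⟨g, F₀, q, h⟩ | ⟨h2, ⟨e⟩, h⟩
  · have h2 := (hb.inv_rep hb.exists_inv.choose_spec).1
    obtain ⟨k, κ, μ, hx, h⟩ := (summ i1 hb).resolve_left fun h => hQ (l2.not_conic hc h2 h)
    refine Or.inr (Or.inr (Or.inr ⟨S, inferInstance, inferInstance, _, _, κ, μ, hb.cjr k, l2.cjr k, hx,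
      fun A a b => ?_, h.imp (fun ⟨a, b, c, d, _, f⟩ => ⟨b, (Nat.card_congr e1.toEquiv).trans c, d.map e2.trans,
        Lift.cjr (ρ := ρ.comp S.subtype) ⟨fun x => l1.ex x, fun A h => let ⟨x, h⟩ := l1.all A h; ⟨⟨x, a.ge trivial⟩, h⟩⟩ k, f⟩)
      fun ⟨a, b⟩ => ⟨a, b.imp (fun ⟨b, c, d⟩ => ⟨b.map e2.trans, c.symm.imp And.left fun c => c.2.map e1.trans, d⟩)
        fun ⟨b, _, c, _⟩ => ⟨b, c.map e2.trans⟩⟩⟩))
    obtain ⟨x, c⟩ := l1.all A a
    have d : x * x ∈ S := by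
      rcases h with ⟨h, -⟩ | ⟨-, ⟨-, ⟨h, -⟩ | ⟨-, h⟩, -⟩ | ⟨-, h, -⟩⟩
      exacts [h.ge trivial, h.ge trivial, mul_self_mem_of_index_two h x, h.ge trivial]
    rw [← lf_sq (g := (1 : GL (Fin 3) K))] at b
    have := hb.noE ⟨_, d⟩ ((2 : K) • ((lf 1 A).1 - 1)) ((c.mul c).congr (by
      rw [← add_zero (1 + _), ← b, two_smul]; noncomm_ring)) (by simp [b])
    exact lf_eq_one (sub_eq_zero.1 ((smul_eq_zero.1 this).resolve_left h2))
  · obtain rfl := top g F₀ fun A a => ((h A).1 a).2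
    exact Or.inl fun A a => (h A).2 ⟨mem_SL.1 a, fun _ _ => trivial⟩
  · obtain rfl := top g F₀ fun A a => ((h.2 A).1 a).2.1
    exact Or.inr (Or.inl ⟨g, q, h⟩)
  · refine Or.inr (Or.inr (Or.inl ⟨?_, ⟨e⟩⟩))
    obtain rfl : p = 2 := (Nat.prime_dvd_prime_iff_eq Fact.out Nat.prime_two).1
      ((CharP.cast_eq_zero_iff F p 2).1 (by simpa using h2))
    have h4 := core_card_le hc (p := 2) two_ne_zero h
    obtain ⟨⟨n, n0⟩, hp, hn⟩ := FiniteField.card F 2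
    rw [hn, Nat.pow_le_pow_iff_right one_lt_two] at h4
    obtain rfl | rfl : n = 1 ∨ n = 2 := by change n ≤ 2 at h4; omega
    · have := (card_quotient_dvd_card ((scalars (Fin 3) F).subgroupOf P)).trans (card_subgroup_dvd_card P)
      rw [Nat.card_congr e.toEquiv, nat_card_alternatingGroup, card_GL_field, hn] at this
      simp [Fin.prod_univ_three, Nat.factorial] at this
    · exact hn

theorem card_su {g : GL (Fin 3) F} {q : ℕ} (h : IsSU3 P g ⊤ q) : Fintype.card F = q ^ 2 := by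
  rw [← h.1, Nat.card_congr Subfield.topEquiv.toEquiv, Nat.card_eq_fintype_card]

theorem lin_cases (p : ℕ) [Fact p.Prime] [CharP F p] (hH : IsMaximalIn (specialLinear (Fin 3) F) H)
    (hS : InLinearResidualClass H) : ∃ P, IsResidualCore H P ∧
    ((Nonempty (ModSc P ≃* PSL(3, ZMod 2)) ∧ Fintype.card F = p ∧ p ≠ 2 ∧ (p % 7 = 1 ∨ p % 7 = 2 ∨ p % 7 = 4) ∧
      Nat.card (ModSc H) = 168) ∨ (Nonempty (ModSc P ≃* A6) ∧ ((Fintype.card F = p ∧ (p % 15 = 1 ∨ p % 15 = 4)) ∨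
        (Fintype.card F = p ^ 2 ∧ p ≠ 3 ∧ (p % 5 = 2 ∨ p % 5 = 3))) ∧
          (Fintype.card F = 4 ∨ (p ≠ 2 ∧ Nonempty (ModSc H ≃* A6))))) := by
  obtain ⟨P, hc, hQ, -, hU⟩ := hS
  refine ⟨P, hc, ?_⟩
  rcases core_cases p hc hH.1.le hQ with h | ⟨g, q, h⟩ | ⟨h, e⟩ | ⟨G, _, _, ρ, g, κ, μ, hb, l, hx, -, h⟩
  · exact absurd (h.trans hc.le) hH.1.not_ge
  · obtain ⟨σ, hσ⟩ := H7.exists_qHom (card_su h)
    refine absurd (exists_unitary (card_su h) hσ (H7.absIrr_iff.2 hc.absIrred).1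
      (T := H7.tw σ 1 (g⁻¹ : GL (Fin 3) F)) (fun k => H7.det_tw_ne_zero σ (G := 1) (by simp) (g⁻¹).det_ne_zero
        (by rw [k]; simp)) fun A a => ?_) hU
    have : H7.tw σ 1 (g⁻¹ * A * g : GL (Fin 3) F).1 = 1 := by
      simpa only [H7.tw, mul_one, funext hσ] using ((h.2 A).1 a).2.2
    rw [← H7.tw_mul, ← Units.val_mul, show g⁻¹ * A = g⁻¹ * A * g * g⁻¹ by simp, Units.val_mul, H7.tw_mul, this]
  · obtain rfl : p = 2 := by
      obtain ⟨n, hp, hn⟩ := FiniteField.card F p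
      exact (Nat.prime_dvd_prime_iff_eq hp Nat.prime_two).1 (hp.dvd_of_dvd_pow (n := 2)
        (show p ∣ 4 from h ▸ hn ▸ dvd_pow_self p n.ne_zero))
    exact Or.inr ⟨e, Or.inr ⟨h, by simp⟩, Or.inl h⟩
  have hφ : ∀ x, frobenius K p x = x ^ p := fun _ => rfl
  obtain ⟨s1, s2, s3⟩ := l.sizes hc hx hφ
  have h2 : p ≠ 2 := by rintro rfl; exact hx.two (by simpa using CharP.cast_eq_zero K 2)
  rcases h with ⟨a, b, c, -⟩ | ⟨a, b⟩
  · rcases frob7 (pow_one p).symm hφ a hx.km hx.ne with ⟨d, e⟩ | ⟨-, e⟩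
    exacts [Or.inl ⟨c, s1 e, h2, d, b⟩, absurd (s3 e).2 hU]
  rcases hx.frob (pow_one p).symm hφ a with ⟨c, d, e⟩ | ⟨c, -⟩ | ⟨c, d, e, f⟩
  · obtain ⟨b1, b2, -⟩ := b.resolve_right fun h => by omega
    exact Or.inr ⟨b1, Or.inl ⟨s1 c, by omega⟩, Or.inr ⟨h2, b2.resolve_left (by omega)⟩⟩
  · exact absurd (s3 c).2 hU
  · obtain ⟨b1, b2, -⟩ := b.resolve_right fun h => by omega
    exact Or.inr ⟨b1, Or.inr ⟨s2 (fun k => c (by rw [map_add, k, hx.fix k])) d, by omega, f⟩,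
      Or.inr ⟨h2, b2.resolve_left (by omega)⟩⟩

theorem uni_cases {q : ℕ} (hF : Fintype.card F = q ^ 2) (hq : 3 ≤ q)
    (hH : IsMaximalIn (GU 3 F q ⊓ specialLinear (Fin 3) F) H) (hS : InUnitaryResidualClass H) :
    ∃ P, IsResidualCore H P ∧ q.Prime ∧ NoTv H ∧
    ((Nonempty (ModSc P ≃* PSL(3, ZMod 2)) ∧ q ≠ 5 ∧ (q % 7 = 3 ∨ q % 7 = 5 ∨ q % 7 = 6) ∧ Nat.card (ModSc H) = 168) ∨
     (Nonempty (ModSc P ≃* A6) ∧ (q % 15 = 11 ∨ q % 15 = 14 ∨ q = 5) ∧ (q = 5 ∨ Nonempty (ModSc H ≃* A6))) ∨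
     (Nonempty (ModSc P ≃* alternatingGroup (Fin 7)) ∧ q = 5)) := by
  obtain ⟨P, hc, hQ, -⟩ := hS
  obtain ⟨p, _, -, hp, -⟩ := FiniteField.card' F
  have := Fact.mk hp
  obtain ⟨σ, hσ⟩ := H7.exists_qHom hF
  refine ⟨P, hc, ?_⟩
  rcases core_cases p hc (hH.1.le.trans inf_le_right) hQ with h | ⟨g, q', h⟩ | ⟨h, e⟩ |
    ⟨G, _, _, ρ, g, κ, μ, hb, l, hx, hT, h⟩
  · exact absurd (inf_le_right.trans (h.trans hc.le)) hH.1.not_ge
  · obtain rfl : q = q' := Nat.pow_left_injective two_ne_zero (hF.symm.trans (card_su h))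
    have e : P = (GU 3 F q ⊓ specialLinear (Fin 3) F).map (MulAut.conj g).toMonoidHom := Subgroup.ext fun A => by
      rw [mem_map_equiv, h.2, mem_inf, mem_GU hσ, mem_SL, MulAut.conj_symm_apply, funext hσ, and_comm]
      exact and_congr (by simp) (by rw [Units.val_mul, Units.val_mul, det_units_conj'])
    exact absurd ((eq_of_le_of_card_ge (hc.le.trans hH.1.le)
      (by rw [e, card_map_of_injective (MulAut.conj g).injective])).ge.trans hc.le) hH.1.not_ge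
  · nlinarith
  have hφ : ∀ x, frobenius K p x = x ^ p := fun _ => rfl
  obtain ⟨s1, s2, s3⟩ := l.sizes hc hx hφ
  obtain ⟨k, k0, hk⟩ := H7.exists_q_eq_pow hF p
  have t1 : frobenius K p κ ≠ κ := fun e => by
    have := s1 e
    have := Nat.le_self_pow k0.ne' p
    nlinarith
  have t2 : Fintype.card F = p ^ 2 → q = p := fun e => Nat.pow_left_injective two_ne_zero (hF.symm.trans e)
  clear hk
  rcases h with ⟨a, b, c, l', t, u, w, y, r, h⟩ | ⟨a, b⟩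
  · obtain ⟨d, e⟩ := (frob7 (pow_one p).symm hφ a hx.km hx.ne).resolve_left fun h => t1 h.2
    obtain rfl := t2 (s3 e).1
    exact ⟨hp, hT, Or.inl ⟨c, by rintro rfl; exact not_max5 hF l l' hb hc.perfect hc.le hH h a, d, b⟩⟩
  rcases hx.frob (pow_one p).symm hφ a with ⟨c, -⟩ | ⟨c, d, e⟩ | ⟨c, d, e, f⟩
  · exact absurd c t1
  · obtain rfl := t2 (s3 c).1
    exact ⟨hp, hT, Or.inr (b.imp (fun b => ⟨b.1, by omega, b.2.1⟩) And.symm)⟩
  · obtain rfl := t2 (s2 t1 d)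
    obtain ⟨-, -, x, M, M', b1, b2, b3, b4⟩ := b.resolve_right fun h => by omega
    have := l.uni hσ hφ (hc.le.trans (hH.1.le.trans inf_le_left)) b1 b2
    rw [b3, b4, map_add _ _ 2, map_ofNat, add_left_inj] at this
    exact absurd this c

theorem resSU3 {q : ℕ} (hF : Fintype.card F = q ^ 2) (hq : 3 ≤ q) : ResSU3 F q := fun H hH hS => by
  obtain ⟨P, -, hp, hT, h⟩ := uni_cases hF hq hH hS
  refine ⟨hp, hT, ?_⟩
  rcases h with ⟨-, a, b, c⟩ | ⟨-, a, b | b⟩ | ⟨-, a⟩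
  · refine Or.inr (Or.inl ⟨?_, c⟩)
    by_contra! k
    obtain ⟨k1, k2⟩ := k
    interval_cases q <;> simp_all (config := {decide := true})
  exacts [Or.inl b, or_iff_not_imp_left.2 fun k => Or.inr ⟨by omega, b⟩, Or.inl a]

end Cfsg.Agent.H8.M3
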