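import Cfsg.Agent.H8.ONonMax
import Cfsg.Agent.H7.AschSp
import Cfsg.Agent.Orth.Ext1
import Cfsg.Agent.Orth.FieldBridge

/-! Orthogonal Aschbacher theorem, part 1: reducible and imprimitive subgroups, properness. -/

set_option autoImplicit false
set_option linter.unusedSectionVars false
set_option linter.style.haveILetI false

namespace Cfsg.Agent.H8

open Module Cfsg.Agent.Orth Cfsg.Geo
open Cfsg.Agent.H7 (Irr AbsIrr IsScal NormA NormG cj Isom HForm adj spanAlg ctr gform tw frameEquiv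
  frameVec frameGram frameGL pt slot ptGL permGL)
open scoped Matrix Kronecker commutatorElement

variable {ι : Type} [Fintype ι] [DecidableEq ι] {F : Type*} [Field F] [Fintype F]
  {Q : (ι → F) → F} (hQ : IsNondegenerateQuadraticForm Q)

include hQ

lemma hfQ : HForm (RingHom.id F) 1 (QuadraticMap.polar Q) :=
  H7.hform_of_symmetric (H7.isSymmetricForm_polar hQ)

lemma Q_val {g : GL ι F} (hg : g ∈ isometryGroup F Q) (v : ι → F) :
    Q ((g : Matrix ι ι F) *ᵥ v) = Q v := by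
  have := O_Q ((mem_isometryGroup hQ).1 hg) v
  rwa [phi_apply] at this

lemma isom_of_le {H : Subgroup (GL ι F)} (hH : H ≤ isometryGroup F Q) :
    Isom (QuadraticMap.polar Q) H := by
  intro g hg u v
  have := O_B ((mem_isometryGroup hQ).1 (hH hg)) u v
  rwa [phi_apply, phi_apply, B_toQF, B_toQF] at this

omit hQ in
lemma omega_le : omegaGL Q ≤ isometryGroup F Q := Subgroup.map_subtype_le _

lemma det_of_mem_omega {g : GL ι F} (hg : g ∈ omegaGL Q) : (g : Matrix ι ι F).det = 1 := by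
  have h : omegaGL Q ≤ (Matrix.GeneralLinearGroup.det : GL ι F →* Fˣ).ker := by
    rw [omegaGL_eq_commutator, Subgroup.commutator_le]
    intro a _ b _
    rw [MonoidHom.mem_ker, map_commutatorElement, commutatorElement_eq_one_iff_mul_comm, mul_comm]
  have := h hg
  rw [MonoidHom.mem_ker] at this
  rw [← Matrix.GeneralLinearGroup.val_det_apply, this, Units.val_one]

lemma Q_zero : Q 0 = 0 := by
  have := (toQF hQ).map_zero
  rwa [toQF_apply] at this

lemma Q_smul' (c : F) (v : ι → F) : Q (c • v) = c * c * Q v := by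
  rw [hQ.smul, sq]

lemma Q_add' (u v : ι → F) : Q (u + v) = Q u + Q v + QuadraticMap.polar Q u v := H7.quad_add u v

lemma ts_of_ti (h2 : (2 : F) ≠ 0) {W : Submodule F (ι → F)}
    (hW : IsTotallySingularFor (QuadraticMap.polar Q) W) : IsTotallySingularQuad Q W := by
  intro w hw
  have := hW w hw w hw
  rw [H7.polar_self hQ] at this
  exact (mul_eq_zero.1 this).resolve_left h2

/-- singular vectors of a totally isotropic subspace -/
def singSub (W : Submodule F (ι → F)) (hW : IsTotallySingularFor (QuadraticMap.polar Q) W) :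
    Submodule F (ι → F) where
  carrier := {v | v ∈ W ∧ Q v = 0}
  add_mem' {a b} ha hb := ⟨W.add_mem ha.1 hb.1, by
    rw [Q_add' hQ, ha.2, hb.2, hW a ha.1 b hb.1]; simp⟩
  zero_mem' := ⟨W.zero_mem, Q_zero hQ⟩
  smul_mem' c a ha := ⟨W.smul_mem c ha.1, by rw [Q_smul' hQ, ha.2, mul_zero]⟩

lemma mem_singSub {W : Submodule F (ι → F)} {hW : IsTotallySingularFor (QuadraticMap.polar Q) W}
    {v : ι → F} : v ∈ singSub hQ W hW ↔ v ∈ W ∧ Q v = 0 := Iff.rfl

lemma mem_span_of_ti (h2 : (2 : F) = 0) {W : Submodule F (ι → F)}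
    (hW : IsTotallySingularFor (QuadraticMap.polar Q) W) (h0 : singSub hQ W hW = ⊥) {v w : ι → F}
    (hv : v ∈ W) (hv0 : v ≠ 0) (hw : w ∈ W) : w ∈ F ∙ v := by
  have hqv : Q v ≠ 0 := fun h => hv0 (by
    have : v ∈ singSub hQ W hW := ⟨hv, h⟩
    rwa [h0, Submodule.mem_bot] at this)
  obtain ⟨c, hc⟩ := H7.exists_sq_eq_of_two_eq_zero h2 (Q w / Q v)
  have : w + c • v ∈ singSub hQ W hW := by
    refine ⟨W.add_mem hw (W.smul_mem c hv), ?_⟩
    rw [Q_add' hQ, Q_smul' hQ, hW w hw _ (W.smul_mem c hv), ← sq, hc, div_mul_cancel₀ _ hqv]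
    linear_combination (Q w) * h2
  rw [h0, Submodule.mem_bot] at this
  rw [Submodule.mem_span_singleton]
  exact ⟨-c, by rw [neg_smul]; exact (eq_neg_of_add_eq_zero_left this).symm⟩

theorem reducible_cases {H : Subgroup (GL ι F)} (hH : H ≤ isometryGroup F Q) (h : ¬ Irr H) :
    (∃ W : Submodule F (ι → F), W ≠ ⊥ ∧ IsTotallySingularQuad Q W ∧ H ≤ subspaceStabilizer W) ∨
    (∃ W : Submodule F (ι → F), W ≠ ⊥ ∧ IsNondegenerateOn (QuadraticMap.polar Q) W ∧
      2 * finrank F W ≤ Fintype.card ι ∧ H ≤ subspaceStabilizer W) ∨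
    (¬ Odd (Fintype.card F) ∧ ∃ v : ι → F, Q v ≠ 0 ∧
      H ≤ subspaceStabilizer (Submodule.span F {v})) := by
  rcases (hfQ hQ).reducible (isom_of_le hQ hH) h with ⟨W, h0, hW, hs⟩ | ⟨W, h0, hW, hd, hs⟩ |
    ⟨k, D, hD, -, hs⟩
  · by_cases hodd : Odd (Fintype.card F)
    · exact Or.inl ⟨W, h0, ts_of_ti hQ (H7.two_ne_zero_of_odd hodd) hW, hs⟩
    have h2 := H7.two_eq_zero_of_not_odd hodd
    by_cases h1 : singSub hQ W hW = ⊥
    · obtain ⟨v, hv, hv0⟩ := W.ne_bot_iff.1 h0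
      have hWv : W = F ∙ v := le_antisymm (fun w hw => mem_span_of_ti hQ h2 hW h1 hv hv0 hw)
        ((Submodule.span_singleton_le_iff_mem _ _).2 hv)
      refine Or.inr (Or.inr ⟨hodd, v, fun hq => hv0 ?_, hWv ▸ hs⟩)
      have : v ∈ singSub hQ W hW := ⟨hv, hq⟩
      rwa [h1, Submodule.mem_bot] at this
    · refine Or.inl ⟨_, h1, fun w hw => hw.2, H7.le_subspaceStabilizer fun g hg v hv => ⟨?_, ?_⟩⟩
      · exact (H7.mem_subspaceStabilizer_iff.1 (hs hg) v).1 hv.1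
      · rw [Q_val hQ (hH hg), hv.2]
  · exact Or.inr (Or.inl ⟨W, h0, hW, hd.le, hs⟩)
  · refine Or.inr (Or.inl ⟨D 0, fun h0 => ?_, hD.nondegenerate 0, ?_, hs 0⟩)
    · have := hD.decomp.finrank_eq 0
      rw [h0, finrank_bot] at this
      exact hD.decomp.pos.ne this
    · rw [hD.decomp.finrank_eq 0, ← H7.IsMDecomposition.mul_eq hD.decomp]

/-- a pair of totally isotropic halves permuted by an irreducible group is totally singular -/
lemma ts_of_pair {H : Subgroup (GL ι F)} (hH : H ≤ isometryGroup F Q) (hirr : Irr H) {k : ℕ}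
    (hk : 2 ≤ k) {D : Fin 2 → Submodule F (ι → F)} (hD : IsMDecomposition k D)
    (hts : ∀ i, IsTotallySingularFor (QuadraticMap.polar Q) (D i))
    (hs : H ≤ decompositionStabilizer D) (i : Fin 2) : IsTotallySingularQuad Q (D i) := by
  by_cases hodd : Odd (Fintype.card F)
  · exact ts_of_ti hQ (H7.two_ne_zero_of_odd hodd) (hts i)
  have h2 := H7.two_eq_zero_of_not_odd hodd
  let T : Fin 2 → Submodule F (ι → F) := fun i => singSub hQ (D i) (hts i)
  have hT : ∀ g ∈ H, ∀ i, ∀ v ∈ T i, (g : Matrix ι ι F) *ᵥ v ∈ T 0 ⊔ T 1 := by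
    intro g hg i v hv
    obtain ⟨σ, hσ⟩ := hs hg
    have : (g : Matrix ι ι F) *ᵥ v ∈ T (σ i) :=
      ⟨hσ i ▸ ⟨v, hv.1, by simp⟩, by rw [Q_val hQ (hH hg), hv.2]⟩
    generalize σ i = j at this
    fin_cases j
    · exact Submodule.mem_sup_left this
    · exact Submodule.mem_sup_right this
  rcases hirr (T 0 ⊔ T 1) (by
    intro g hg v hv
    obtain ⟨a, ha, b, hb, rfl⟩ := Submodule.mem_sup.1 hv
    rw [Matrix.mulVec_add]
    exact Submodule.add_mem _ (hT g hg 0 a ha) (hT g hg 1 b hb)) with h | h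
  · exfalso
    have h0 : T 0 = ⊥ := le_bot_iff.1 (h ▸ le_sup_left)
    obtain ⟨v, hv, hv0⟩ := (D 0).ne_bot_iff.1 (fun h0 => by
      have := hD.finrank_eq 0
      rw [h0, finrank_bot] at this
      omega)
    have h1 : D 0 ≤ F ∙ v := fun w hw => mem_span_of_ti hQ h2 (hts 0) h0 hv hv0 hw
    have := (Submodule.finrank_mono h1).trans (finrank_span_singleton_le v)
    rw [hD.finrank_eq 0] at this
    omega
  · intro x hx
    have hx' : x ∈ T 0 ⊔ T 1 := h ▸ Submodule.mem_top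
    obtain ⟨a, ha, b, hb, rfl⟩ := Submodule.mem_sup.1 hx'
    have hdis := disjoint_of_mdec hD 0 1 (by decide)
    rw [Submodule.disjoint_def] at hdis
    fin_cases i
    · have : b = 0 := hdis b (by simpa using (D 0).sub_mem hx ha.1) hb.1
      rw [this, add_zero]; exact ha.2
    · have : a = 0 := hdis a ha.1 (by simpa using (D 1).sub_mem hx hb.1)
      rw [this, zero_add]; exact hb.2

omit hQ in
/-- `H` normalises a commutative adjoint-closed non-scalar subalgebra. -/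
def NonPrim (Q : (ι → F) → F) (H : Subgroup (GL ι F)) : Prop :=
  ∃ Z : Subalgebra F (Matrix ι ι F), NormA H Z ∧ (∀ x ∈ Z, ∀ y ∈ Z, x * y = y * x) ∧
    (∀ x ∈ Z, adj (RingHom.id F) (QuadraticMap.polar Q) x ∈ Z) ∧ ∃ x ∈ Z, ¬ IsScal x

lemma adjoin_data {H : Subgroup (GL ι F)} (S : Set (Matrix ι ι F))
    (hc : ∀ x ∈ S, ∀ y ∈ S, x * y = y * x)
    (hadj : ∀ x ∈ S, adj (RingHom.id F) (QuadraticMap.polar Q) x ∈ Algebra.adjoin F S)
    (hn : ∀ g ∈ H, ∀ x ∈ S, cj g x ∈ Algebra.adjoin F S) :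
    ∃ Z : Subalgebra F (Matrix ι ι F), NormA H Z ∧ (∀ x ∈ Z, ∀ y ∈ Z, x * y = y * x) ∧
      (∀ x ∈ Z, adj (RingHom.id F) (QuadraticMap.polar Q) x ∈ Z) ∧ ∀ x ∈ S, x ∈ Z := by
  have hf := hfQ hQ
  refine ⟨Algebra.adjoin F S, ?_, ?_, ?_, ?_⟩
  · intro g hg x hx
    induction hx using Algebra.adjoin_induction with
    | mem x hx => exact hn g hg x hx
    | algebraMap c => rw [AlgEquiv.commutes]; exact Subalgebra.algebraMap_mem _ c
    | add x y _ _ h1 h2 => rw [map_add]; exact add_mem h1 h2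
    | mul x y _ _ h1 h2 => rw [map_mul]; exact mul_mem h1 h2
  · intro x hx y hy
    exact Algebra.commute_of_mem_adjoin_of_forall_mem_commute hy fun b hb =>
      (Algebra.commute_of_mem_adjoin_of_forall_mem_commute hx fun a ha => hc b hb a ha).symm
  · intro x hx
    induction hx using Algebra.adjoin_induction with
    | mem x hx => exact hadj x hx
    | algebraMap c =>
      rw [Algebra.algebraMap_eq_smul_one, hf.adj_smul, hf.adj_one]
      exact Subalgebra.smul_mem _ (one_mem _) _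
    | add x y _ _ h1 h2 => rw [hf.adj_add]; exact add_mem h1 h2
    | mul x y _ _ h1 h2 => rw [hf.adj_mul]; exact mul_mem h2 h1
  · exact fun x hx => Algebra.subset_adjoin hx

lemma nonPrim_of_set {H : Subgroup (GL ι F)} (S : Set (Matrix ι ι F))
    (hc : ∀ x ∈ S, ∀ y ∈ S, x * y = y * x)
    (hadj : ∀ x ∈ S, adj (RingHom.id F) (QuadraticMap.polar Q) x ∈ Algebra.adjoin F S)
    (hn : ∀ g ∈ H, ∀ x ∈ S, cj g x ∈ Algebra.adjoin F S) (hns : ∃ x ∈ S, ¬ IsScal x) :
    NonPrim Q H := by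
  obtain ⟨Z, h1, h2, h3, h4⟩ := adjoin_data hQ S hc hadj hn
  obtain ⟨x, hx, h⟩ := hns
  exact ⟨Z, h1, h2, h3, x, h4 x hx, h⟩

lemma ctr_scal_of_prim {H : Subgroup (GL ι F)} (hp : ¬ NonPrim Q H)
    {A : Subalgebra F (Matrix ι ι F)} (hA : NormA H A)
    (hadj : ∀ x ∈ A, adj (RingHom.id F) (QuadraticMap.polar Q) x ∈ A) :
    ∀ z ∈ ctr A, IsScal z := by
  by_contra h
  push Not at h
  exact hp ⟨ctr A, hA.ctr, H7.ctr_comm A, fun x hx => (hfQ hQ).adj_mem_ctr hadj hx, h⟩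

theorem comm_cases (hn : 3 ≤ Fintype.card ι) {H : Subgroup (GL ι F)} (hH : H ≤ isometryGroup F Q)
    (hirr : Irr H) {Z : Subalgebra F (Matrix ι ι F)} (hZ : NormA H Z)
    (hc : ∀ x ∈ Z, ∀ y ∈ Z, x * y = y * x)
    (hadj : ∀ x ∈ Z, adj (RingHom.id F) (QuadraticMap.polar Q) x ∈ Z) :
    (∃ (t k : ℕ) (D : Fin t → Submodule F (ι → F)), IsOrthogonalMDecomposition Q k D ∧
      H ≤ decompositionStabilizer D) ∨
    (∃ (k : ℕ) (D : Fin 2 → Submodule F (ι → F)), 2 * k = Fintype.card ι ∧ IsMDecomposition k D ∧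
      (∀ i, IsTotallySingularQuad Q (D i)) ∧ H ≤ decompositionStabilizer D) ∨
    ∀ x ∈ Z, x ≠ 0 → ∃ y ∈ Z, x * y = 1 := by
  haveI : Nonempty ι := H7.nonempty_of_two_le (by omega)
  rcases (hfQ hQ).decomp_or_field (isom_of_le hQ hH) hirr hZ hc hadj with
    ⟨t, k, D, hD, hs, htr⟩ | ⟨k, D, hk, hD, hts, hs⟩ | h
  · refine Or.inl ⟨t, k, D, ⟨hD, fun i j => ?_⟩, hs⟩
    obtain ⟨h, hh, he⟩ := htr i j
    exact isometric_of_map hQ ((mem_isometryGroup hQ).1 (hH hh)) (by rw [phi_toLinearMap, he])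
  · exact Or.inr (Or.inl ⟨k, D, hk, hD, ts_of_pair hQ hH hirr (by omega) hD hts hs, hs⟩)
  · exact Or.inr (Or.inr h)

/-! ### properness -/

omit hQ in
lemma eq_of_max {H S : Subgroup (GL ι F)} (hH : IsMaximalIn (omegaGL Q) H) (hS : H ≤ S)
    (hne : ¬ omegaGL Q ≤ S) : H = S ⊓ omegaGL Q := by
  rcases hH.2 (S ⊓ omegaGL Q) (le_inf hS hH.1.le) inf_le_right with h | h
  · exact h.symm
  · exact absurd (h ▸ inf_le_left) hne

omit hQ in
lemma not_between {H S : Subgroup (GL ι F)} (hH : IsMaximalIn (omegaGL Q) H) (hS : H ≤ S)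
    (h : ∃ K : Subgroup (GL ι F), S ⊓ omegaGL Q < K ∧ K < omegaGL Q) : False := by
  obtain ⟨K, h1, h2⟩ := h
  have h3 : H < K := lt_of_le_of_lt (le_inf hS hH.1.le) h1
  rcases hH.2 K h3.le h2.le with h | h
  · exact h3.ne h.symm
  · exact h2.ne h

lemma exists_omega (hd : 5 ≤ Fintype.card ι) {g : (ι → F) ≃ₗ[F] (ι → F)} (hg : g ∈ EO (toQF hQ)) :
    ∃ x ∈ omegaGL Q, ∀ v, (x : Matrix ι ι F) *ᵥ v = g v :=
  ⟨phi.symm g, by rwa [mem_omegaGL hQ hd, MulEquiv.apply_symm_apply], fun v => by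
    rw [← phi_apply, MulEquiv.apply_symm_apply]⟩

lemma not_le_sub (hd : 5 ≤ Fintype.card ι) {W : Submodule F (ι → F)} (h0 : W ≠ ⊥) (h1 : W ≠ ⊤) :
    ¬ omegaGL Q ≤ subspaceStabilizer W := by
  intro h
  obtain ⟨g, hg, hn⟩ := exists_EO_not_stab (nd_toQF hQ) (by simpa using hd) h0 h1
  obtain ⟨x, hx, he⟩ := exists_omega hQ hd hg
  exact hn fun v hv => he v ▸ (H7.mem_subspaceStabilizer_iff.1 (h hx) v).1 hv

lemma exists_omega_out (hd : 5 ≤ Fintype.card ι) {W : Submodule F (ι → F)} (hW : 4 ≤ finrank F W)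
    {v : ι → F} (hv : v ∉ W) :
    ∃ s ∈ W, s ≠ 0 ∧ ∀ c : F, ∃ g ∈ omegaGL Q, (g : Matrix ι ι F) *ᵥ v = v + c • s := by
  obtain ⟨s, hs, hs0, h⟩ := exists_EO_out (nd_toQF hQ) (by simpa using hd) hW hv
  refine ⟨s, hs, hs0, fun c => ?_⟩
  obtain ⟨g, hg, he⟩ := h c
  obtain ⟨x, hx, he'⟩ := exists_omega hQ hd hg
  exact ⟨x, hx, by rw [he', he]⟩

lemma ts_ne_top (hd : 1 ≤ Fintype.card ι) {W : Submodule F (ι → F)}
    (hW : IsTotallySingularQuad Q W) : W ≠ ⊤ := by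
  rintro rfl
  have := (nd_toQF hQ).ndOn_top.ts_finrank_le le_rfl (TS.le_perp (Q := toQF hQ) hW)
  rw [finrank_top, finrank_fintype_fun_eq_card] at this
  omega

lemma not_le_dec (hd : 7 ≤ Fintype.card ι) {t k : ℕ} {D : Fin t → Submodule F (ι → F)}
    (hD : IsMDecomposition k D) : ¬ omegaGL Q ≤ decompositionStabilizer D := by
  intro h
  have ht := hD.two_le
  let i : Fin t := ⟨0, by omega⟩
  let W : Submodule F (ι → F) := ⨆ (j) (_ : j ≠ i), D j
  have hdis : Disjoint (D i) W := hD.indep i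
  have hsup : D i ⊔ W = ⊤ := by
    rw [eq_top_iff, ← hD.iSup_eq_top]
    refine iSup_le fun j => ?_
    by_cases hj : j = i
    · rw [hj]; exact le_sup_left
    · exact le_sup_of_le_right (le_iSup₂_of_le (f := fun j (_ : j ≠ i) => D j) j hj le_rfl)
  have hrk := finrank_sup_of_disjoint hdis
  rw [hsup, finrank_top, finrank_fintype_fun_eq_card, hD.finrank_eq i] at hrk
  have hm := H7.IsMDecomposition.mul_eq hD
  have hW : 4 ≤ finrank F W := by nlinarith
  obtain ⟨v, hv, hv0⟩ := (D i).ne_bot_iff.1 (fun h0 => by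
    have := hD.finrank_eq i
    rw [h0, finrank_bot] at this
    exact hD.pos.ne this)
  rw [Submodule.disjoint_def] at hdis
  have hvW : v ∉ W := fun h => hv0 (hdis v hv h)
  obtain ⟨s, hs, hs0, hg⟩ := exists_omega_out hQ (by omega) hW hvW
  obtain ⟨g, hg, he⟩ := hg 1
  obtain ⟨σ, hσ⟩ := h hg
  have h1 : v + s ∈ D (σ i) := by
    rw [← hσ i, ← one_smul F s, ← he]
    exact ⟨v, hv, by simp⟩
  by_cases hj : σ i = i
  · rw [hj] at h1
    exact hs0 (hdis s (by simpa using (D i).sub_mem h1 hv) hs)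
  · have : v + s ∈ W := (le_iSup₂_of_le (f := fun j (_ : j ≠ i) => D j) _ hj le_rfl) h1
    exact hvW (by simpa using W.sub_mem this hs)

omit hQ in
lemma eq_of_field_mulVec {K : Subalgebra F (Matrix ι ι F)}
    (hc : ∀ x ∈ K, ∀ y ∈ K, x * y = y * x) (hinv : ∀ x ∈ K, x ≠ 0 → ∃ y ∈ K, x * y = 1)
    {a b : Matrix ι ι F} (ha : a ∈ K) (hb : b ∈ K) {v : ι → F} (hv : v ≠ 0)
    (h : a *ᵥ v = b *ᵥ v) : a = b := by
  by_contra hne
  obtain ⟨y, hy, he⟩ := hinv (a - b) (K.sub_mem ha hb) (sub_ne_zero.2 hne)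
  apply hv
  rw [← Matrix.one_mulVec v, ← he, hc _ (K.sub_mem ha hb) _ hy, ← Matrix.mulVec_mulVec,
    Matrix.sub_mulVec, h, sub_self, Matrix.mulVec_zero]

omit hQ in
lemma exists_not_scal_of_field [Nonempty ι] {r : ℕ} (hr : 2 ≤ r) {K : Subalgebra F (Matrix ι ι F)}
    (hK : IsFieldSubalgebra r K) : ∃ x ∈ K, ¬ IsScal x := by
  by_contra h
  push Not at h
  have : K ≤ ⊥ := fun x hx => by
    obtain ⟨c, rfl⟩ := h x hx
    exact Subalgebra.smul_mem _ (one_mem _) c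
  have h1 := hK.finrank_eq
  rw [le_bot_iff.1 this, Subalgebra.finrank_bot] at h1
  omega

lemma not_le_field (hd : 5 ≤ Fintype.card ι) {r : ℕ} (hr : 2 ≤ r)
    {K : Subalgebra F (Matrix ι ι F)} (hK : IsFieldSubalgebra r K) :
    ¬ omegaGL Q ≤ subalgebraNormalizer K := by
  intro h
  haveI : Nonempty ι := H7.nonempty_of_two_le (by omega)
  obtain ⟨k, hk, hks⟩ := exists_not_scal_of_field hr hK
  set q := toQF hQ
  have hq : Nd q := nd_toQF hQ
  have hV : finrank F (ι → F) = Fintype.card ι := finrank_fintype_fun_eq_card F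
  obtain ⟨u, -, hu0, hu⟩ := exists_sing_of_three (Q := q) ⊤ (by rw [finrank_top]; omega)
  have h1 := hq.finrank_perp (F ∙ u)
  have h2 := finrank_span_singleton_le (F := F) u
  obtain ⟨w, hw, hwn⟩ := exists_mem_notMem_of_finrank_lt (H := perp q (F ∙ u))
    (X := Submodule.span F {u, k *ᵥ u}) (by
      have := finrank_span_pair_le (F := F) u (k *ᵥ u); omega)
  rw [mem_perp_span_singleton] at hw
  obtain ⟨g, hg, he⟩ := exists_omega hQ hd (eich_mem_EO (Q := q) u w)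
  have hb : cj g k ∈ K := (h hg k).1 hk
  have hf := hfQ hQ
  let k' := adj (RingHom.id F) (QuadraticMap.polar Q) k
  have hk' : ∀ a x, B q (k' *ᵥ a) x = B q a (k *ᵥ x) := fun a x => by
    rw [B_toQF, B_toQF]; exact hf.adj_spec' k a x
  have h3 := hq.finrank_perp (Submodule.span F {u, w, k' *ᵥ u, k' *ᵥ w})
  have h4 := finrank_span_four_le (F := F) u w (k' *ᵥ u) (k' *ᵥ w)
  obtain ⟨x, hx, hx0⟩ := (perp q (Submodule.span F {u, w, k' *ᵥ u, k' *ᵥ w})).ne_bot_iff.1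
    (fun h0 => by rw [h0, finrank_bot] at h3; omega)
  rw [mem_perp_span] at hx
  have hx1 : (g : Matrix ι ι F) *ᵥ x = x := by
    rw [he, eich_apply_of_perp (hx u (by simp)) (hx w (by simp))]
  have hx2 : (g : Matrix ι ι F) *ᵥ (k *ᵥ x) = k *ᵥ x := by
    rw [he, eich_apply_of_perp (by rw [← hk']; exact hx _ (by simp))
      (by rw [← hk']; exact hx _ (by simp))]
  have hbk : cj g k = k := eq_of_field_mulVec hK.comm hK.inv hb hk hx0 (by
    rw [← hx2, ← H7.cj_mulVec, hx1])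
  obtain ⟨y, hy, hyw⟩ := hq.exists_perp_B_ne (X := F ∙ u) (a := w)
    (fun hh => hwn (Submodule.span_mono (by simp) hh))
  rw [mem_perp_span_singleton] at hy
  have h5 := H7.cj_mulVec g k y
  rw [hbk, he, he, eich_apply_of_perp_left hu hw hy, eich_apply hu hw, Matrix.mulVec_sub,
    Matrix.mulVec_smul] at h5
  set β := B q u (k *ᵥ y)
  set α := B q w (k *ᵥ y) + q w * β
  have h6 : β • w = α • u - B q w y • (k *ᵥ u) := by
    have := h5
    rw [sub_eq_iff_eq_add, add_sub_right_comm, add_assoc, sub_add, eq_comm, sub_eq_self,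
      sub_eq_zero] at this
    rw [this]; abel
  have hβ : β = 0 := by
    by_contra hβ
    apply hwn
    rw [← Submodule.smul_mem_iff _ hβ, h6]
    exact Submodule.sub_mem _ (Submodule.smul_mem _ _ (left_mem_pair _ _))
      (Submodule.smul_mem _ _ (right_mem_pair _ _))
  rw [hβ, zero_smul, eq_comm, sub_eq_zero] at h6
  apply hks
  refine ⟨α / B q w y, eq_of_field_mulVec hK.comm hK.inv hk (K.smul_mem (one_mem _) _) hu0 ?_⟩
  rw [Matrix.smul_mulVec, Matrix.one_mulVec, div_eq_inv_mul, mul_smul, h6, smul_smul,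
    inv_mul_cancel₀ hyw, one_smul]

omit hQ in
lemma subfield_ne_top {F₀ : Subfield F} {r : ℕ} (hr : r.Prime)
    (h : Fintype.card F = Nat.card F₀ ^ r) : F₀ ≠ ⊤ := by
  rintro rfl
  rw [Nat.card_congr (Subfield.topEquiv (K := F)).toEquiv, Nat.card_eq_fintype_card] at h
  have h1 : 1 < Fintype.card F := Fintype.one_lt_card
  have := Nat.pow_lt_pow_right h1 hr.one_lt
  rw [pow_one] at this
  omega

lemma not_le_subfield (hd : 5 ≤ Fintype.card ι) {F₀ : Subfield F} (h0 : F₀ ≠ ⊤) (P : GL ι F) :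
    ¬ omegaGL Q ≤ subfieldSubgroup F₀ P := by
  intro h
  haveI : Nonempty ι := H7.nonempty_of_two_le (by omega)
  obtain ⟨i⟩ := ‹Nonempty ι›
  obtain ⟨θ, hθ⟩ : ∃ θ, θ ∉ F₀ := by
    by_contra hh
    push Not at hh
    exact h0 (eq_top_iff.2 fun x _ => hh x)
  let φ : (ι → F) →ₗ[F] F :=
    (LinearMap.proj i).comp (Matrix.toLin' ((P⁻¹ : GL ι F) : Matrix ι ι F))
  have hφ : ∀ x, φ x = (((P⁻¹ : GL ι F) : Matrix ι ι F) *ᵥ x) i := fun x => rfl
  have h1 := φ.finrank_range_add_finrank_ker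
  have h2 : finrank F (LinearMap.range φ) ≤ 1 := by
    simpa using (LinearMap.range φ).finrank_le
  rw [finrank_fintype_fun_eq_card] at h1
  let v := (P : Matrix ι ι F) *ᵥ Pi.single i 1
  have hv : ((P⁻¹ : GL ι F) : Matrix ι ι F) *ᵥ v = Pi.single i 1 := H7.inv_mulVec_val P _
  obtain ⟨s, hs, hs0, hg⟩ := exists_omega_out hQ hd (W := LinearMap.ker φ) (v := v) (by omega)
    (by rw [LinearMap.mem_ker, hφ, hv]; simp)
  rw [LinearMap.mem_ker, hφ] at hs
  set s' := ((P⁻¹ : GL ι F) : Matrix ι ι F) *ᵥ s with hs'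
  obtain ⟨j, hj⟩ : ∃ j, s' j ≠ 0 := Function.ne_iff.1 (fun hh => hs0 ((H7.val_mulVec_eq_zero _).1 hh))
  obtain ⟨g, hg, he⟩ := hg (θ / s' j)
  obtain ⟨d, hd0, hdd⟩ := H7.mem_subfieldSubgroup_iff.1 (h hg)
  have h3 : ∀ l, cj P⁻¹ (g : Matrix ι ι F) l i = (Pi.single i 1 + (θ / s' j) • s' : ι → F) l := by
    intro l
    have := H7.cj_mulVec P⁻¹ (g : Matrix ι ι F) v
    rw [hv, he, Matrix.mulVec_add, hv, Matrix.mulVec_smul] at this
    rw [← this]
    simp
  have hji : j ≠ i := fun hh => hj (hh ▸ hs)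
  have h4 := hdd i i
  have h5 := hdd j i
  rw [h3] at h4 h5
  simp only [Pi.add_apply, Pi.single_eq_same, Pi.smul_apply, smul_eq_mul, hs, mul_zero, add_zero,
    mul_one] at h4
  simp only [Pi.add_apply, Pi.single_eq_of_ne hji, Pi.smul_apply, smul_eq_mul, zero_add,
    div_mul_cancel₀ _ hj] at h5
  apply hθ
  have := F₀.mul_mem (F₀.inv_mem h4) h5
  rwa [← mul_assoc, inv_mul_cancel₀ hd0, one_mul] at this

end Cfsg.Agent.H8
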