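import Cfsg.Agent.H8.OAsch1

/-! Orthogonal Aschbacher theorem, part 2: extension fields. -/

set_option autoImplicit false
set_option linter.unusedSectionVars false
set_option linter.style.haveILetI false

namespace Cfsg.Agent.H8

open Module Cfsg.Agent.Orth Cfsg.Geo
open Cfsg.Agent.H7 (Irr AbsIrr IsScal NormA NormG cj Isom HForm adj spanAlg ctr gform tw frameEquiv
  frameVec frameGram frameGL pt slot ptGL permGL)
open scoped Matrix Kronecker commutatorElement

section abstr
variable {F V : Type*} [Field F] [AddCommGroup V] [Module F V] {Q : QuadraticForm F V}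
  [FiniteDimensional F V]

lemma exists_even_max (ω : V →ₗ[F] V) {t N : F} (hω : ∀ v, ω (ω v) = t • ω v - N • v)
    (hirr : ∀ a b : F, a * a + a * b * t + b * b * N = 0 → b = 0) {α β : F}
    (hadj : ∀ x y, B Q x (ω y) = α * B Q x y + β * B Q (ω x) y) (S : Set V) (hS0 : (0 : V) ∈ S)
    (hSω : ∀ x ∈ S, ω x ∈ S) (hsm : ∀ (c : F), ∀ x ∈ S, c • x ∈ S)
    (hadd : ∀ x ∈ S, ∀ y ∈ S, B Q x y = 0 → x + y ∈ S)
    (hB : ∀ x ∈ S, B Q x x = 0 ∧ B Q x (ω x) = 0) :
    ∃ U : Submodule F V, Even (finrank F U) ∧ U ≤ perp Q U ∧ (∀ u ∈ U, u ∈ S) ∧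
      ∀ x ∈ perp Q U, x ∈ S → x ∈ U := by
  obtain ⟨U, -, ⟨h1, h2, h3, h4⟩, hmax⟩ := exists_max_ts_of
    (fun U : Submodule F V => Even (finrank F U) ∧ U ≤ perp Q U ∧ (∀ u ∈ U, u ∈ S) ∧
      ∀ u ∈ U, ω u ∈ U) (U₀ := ⊥) ⟨by simp, bot_le, by simpa using hS0, by simp⟩
  refine ⟨U, h1, h2, h3, fun x hx hxS => ?_⟩
  by_contra hxU
  have key : ∀ a b : F, a • x + b • ω x ∈ U → a = 0 ∧ b = 0 := by
    intro a b h
    have h5 : (a * a + a * b * t + b * b * N) • x ∈ U := by
      have := U.sub_mem (U.smul_mem (a + b * t) h) (U.smul_mem b (h4 _ h))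
      rw [map_add, map_smul, map_smul, hω] at this
      convert this using 1
      module
    have h6 : a * a + a * b * t + b * b * N = 0 := by
      by_contra h6
      exact hxU ((U.smul_mem_iff h6).1 h5)
    have hb := hirr a b h6
    rw [hb] at h6
    exact ⟨by simpa using h6, hb⟩
  have hωx : ω x ∈ perp Q U := by
    rw [mem_perp] at hx ⊢
    intro u hu
    rw [hadj, hx u hu, hx _ (h4 u hu)]; simp
  let X := Submodule.span F ({x, ω x} : Set V)
  have hX : finrank F X = 2 := by
    have hli : LinearIndependent F ![x, ω x] := by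
      rw [LinearIndependent.pair_iff]
      intro a b h
      exact key a b (h ▸ U.zero_mem)
    have := finrank_span_eq_card hli
    rwa [Matrix.range_cons_cons_empty, Fintype.card_fin] at this
  have hdis : Disjoint U X := by
    rw [Submodule.disjoint_def]
    intro y hy hy'
    obtain ⟨a, b, rfl⟩ := mem_span_pair'.1 hy'
    obtain ⟨rfl, rfl⟩ := key a b hy
    simp
  have hXU : X ≤ perp Q U := span_pair_le hx hωx
  have hXX : X ≤ perp Q X := span_pair_le (mem_perp_pair.2 ⟨(hB x hxS).1, by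
      rw [B_comm]; exact (hB x hxS).2⟩) (mem_perp_pair.2 ⟨(hB x hxS).2, (hB _ (hSω x hxS)).1⟩)
  have := hmax (U ⊔ X) le_sup_left ⟨?_, ?_, ?_, ?_⟩
  · exact hxU (this ▸ Submodule.mem_sup_right (left_mem_pair _ _))
  · rw [finrank_sup_of_disjoint hdis, hX]
    exact h1.add even_two
  · rw [perp_sup]
    exact sup_le (le_inf h2 (le_perp_comm hXU)) (le_inf hXU hXX)
  · intro y hy
    obtain ⟨u, hu, z, hz, rfl⟩ := Submodule.mem_sup.1 hy
    refine hadd u (h3 u hu) z ?_ (hXU hz u hu)
    obtain ⟨a, b, rfl⟩ := mem_span_pair'.1 hz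
    refine hadd _ (hsm a x hxS) _ (hsm b _ (hSω x hxS)) ?_
    simp [(hB x hxS).2]
  · intro y hy
    obtain ⟨u, hu, z, hz, rfl⟩ := Submodule.mem_sup.1 hy
    rw [map_add]
    refine Submodule.add_mem_sup (h4 u hu) ?_
    obtain ⟨a, b, rfl⟩ := mem_span_pair'.1 hz
    rw [map_add, map_smul, map_smul, hω]
    exact mem_span_pair'.2 ⟨-(b * N), a + b * t, by module⟩

lemma plus_iff_four_dvd [Finite F] (hQ : Nd Q) (ω : V →ₗ[F] V) {t N : F}
    (hω : ∀ v, ω (ω v) = t • ω v - N • v)
    (hirr : ∀ a b : F, a * a + a * b * t + b * b * N = 0 → b = 0) {α β : F}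
    (hadj : ∀ x y, B Q x (ω y) = α * B Q x y + β * B Q (ω x) y)
    (hs : ∀ x, Q x = 0 → Q (ω x) = 0 ∧ B Q x (ω x) = 0) : Plus Q ⊤ ↔ 4 ∣ finrank F V := by
  obtain ⟨U, h1, h2, h3, h4⟩ := exists_even_max ω hω hirr hadj {x | Q x = 0} (by simp)
    (fun x hx => (hs x hx).1) (fun c x hx => by
      rw [Set.mem_ofPred_eq] at hx ⊢; rw [Q_smul, hx, mul_zero])
    (fun x hx y hy h => by
      rw [Set.mem_ofPred_eq] at hx hy ⊢; rw [Q_add, hx, hy, h]; simp)
    (fun x hx => ⟨B_self_of_sing Q hx, (hs x hx).2⟩)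
  have hmax : ∀ x ∈ (⊤ : Submodule F V), x ∈ perp Q U → Q x = 0 → x ∈ U := fun x _ => h4 x
  obtain ⟨a, ha⟩ := h1
  constructor
  · intro hp
    have := two_mul_finrank_of_max hQ.ndOn_top hp le_top h3 hmax
    rw [finrank_top] at this
    omega
  · intro h
    have h5 := finrank_le_of_max hQ.ndOn_top le_top h3 hmax
    have h6 := hQ.ndOn_top.ts_finrank_le le_top h2
    rw [finrank_top] at h5 h6
    exact ⟨U, le_top, h3, by rw [finrank_top]; omega⟩

lemma four_dvd_of_alt (hQ : Nd Q) (h2 : (2 : F) = 0) (ω : V →ₗ[F] V) {t N : F}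
    (hω : ∀ v, ω (ω v) = t • ω v - N • v)
    (hirr : ∀ a b : F, a * a + a * b * t + b * b * N = 0 → b = 0)
    (hadj : ∀ x y, B Q x (ω y) = B Q (ω x) y) (hs : ∀ x, B Q x (ω x) = 0) : 4 ∣ finrank F V := by
  obtain ⟨U, ⟨a, ha⟩, h3, -, h4⟩ := exists_even_max (Q := Q) ω hω hirr (α := 0) (β := 1)
    (fun x y => by rw [hadj]; simp) Set.univ trivial (fun _ _ => trivial) (fun _ _ _ => trivial)
    (fun _ _ _ _ _ => trivial) (fun x _ => ⟨by rw [B_self, h2, zero_mul], hs x⟩)
  have h5 : perp Q U = U := le_antisymm (fun x hx => h4 x hx trivial) h3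
  have := hQ.finrank_perp U
  rw [h5] at this
  omega

variable {L : Type*} [Field L] [Algebra F L] [Module L V] [IsScalarTower F L V]

lemma exists_lin {v w : V} (hsp : ∀ x, ∃ a b : L, x = a • v + b • w)
    (hli : ∀ a b : L, a • v + b • w = 0 → a = 0 ∧ b = 0) (v' w' : V) :
    ∃ j : V →ₗ[L] V, j v = v' ∧ j w = w' := by
  have h1 : LinearIndependent L ![v, w] := LinearIndependent.pair_iff.2 hli
  let b : Basis (Fin 2) L V := Basis.mk h1 (fun x _ => by
    rw [Matrix.range_cons_cons_empty]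
    exact mem_span_pair'.2 (hsp x))
  refine ⟨b.constr L ![v', w'], ?_, ?_⟩
  · have := b.constr_basis L ![v', w'] 0
    simpa [b] using this
  · have := b.constr_basis L ![v', w'] 1
    simpa [b] using this

/-- the functional `k ↦ B (k v) w` -/
def tauL (Q : QuadraticForm F V) (L : Type*) [Field L] [Algebra F L] [Module L V]
    [IsScalarTower F L V] (v w : V) : L →ₗ[F] F where
  toFun k := B Q (k • v) w
  map_add' a b := by rw [add_smul, map_add, LinearMap.add_apply]
  map_smul' c a := by rw [smul_assoc, map_smul, LinearMap.smul_apply]; rfl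

lemma tauL_apply (v w : V) (k : L) : tauL Q L v w k = B Q (k • v) w := rfl

lemma polar_of_half {j : V →ₗ[L] V} (hj : ∀ v, B Q (j v) v = Q v) (x y : V) :
    B Q (j x) y + B Q (j y) x = B Q x y := by
  have := hj (x + y)
  rw [Q_add, map_add, map_add, map_add, LinearMap.add_apply, LinearMap.add_apply, hj, hj] at this
  linear_combination this

lemma sp_of_dims [FiniteDimensional F L] (hd : finrank F V = 2 * finrank F L) {v w : V}
    (hv : v ≠ 0) (hw : w ∉ KL F L v) : (∀ x, ∃ a b : L, x = a • v + b • w) ∧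
      ∀ a b : L, a • v + b • w = 0 → a = 0 ∧ b = 0 := by
  have hli : ∀ a b : L, a • v + b • w = 0 → a = 0 ∧ b = 0 := by
    intro a b h
    have hb : b = 0 := by
      by_contra hb
      apply hw
      refine mem_KL_of_smul hb ?_
      rw [eq_neg_of_add_eq_zero_right h, ← neg_smul]
      exact smul_mem_KL _ _
    rw [hb, zero_smul, add_zero] at h
    exact ⟨(smul_eq_zero.1 h).resolve_right hv, hb⟩
  refine ⟨fun x => ?_, hli⟩
  have hw0 : w ≠ 0 := fun h => hw (h ▸ Submodule.zero_mem _)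
  have hdis : Disjoint (KL F L v) (KL F L w) := by
    rw [Submodule.disjoint_def]
    intro y h1 h2
    obtain ⟨a, rfl⟩ := mem_KL.1 h1
    obtain ⟨b, hb⟩ := mem_KL.1 h2
    rw [(hli a (-b) (by rw [neg_smul, hb, add_neg_cancel])).1, zero_smul]
  have h3 := finrank_sup_of_disjoint hdis
  rw [finrank_KL hv, finrank_KL hw0] at h3
  have h4 : KL F L v ⊔ KL F L w = ⊤ := Submodule.eq_top_of_finrank_eq (by omega)
  obtain ⟨y, hy, z, hz, rfl⟩ := Submodule.mem_sup.1 (h4 ▸ Submodule.mem_top : x ∈ _)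
  obtain ⟨a, rfl⟩ := mem_KL.1 hy
  obtain ⟨b, rfl⟩ := mem_KL.1 hz
  exact ⟨a, b, rfl⟩

lemma comm_of_coords {v w : V} (hsp : ∀ x, ∃ a b : L, x = a • v + b • w) {j j' : V →ₗ[L] V}
    {a b c d a' b' c' d' : L} (h1 : j v = a • v + b • w) (h2 : j w = c • v + d • w)
    (h1' : j' v = a' • v + b' • w) (h2' : j' w = c' • v + d' • w) (e1 : b' * c = b * c')
    (e2 : a' * b + b' * d = a * b' + b * d') (e3 : c' * a + d' * c = c * a' + d * c') (x : V) :
    j (j' x) = j' (j x) := by
  obtain ⟨s, t, rfl⟩ := hsp x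
  simp only [map_add, map_smul, h1, h2, h1', h2']
  match_scalars
  · linear_combination s * e1 + t * e3
  · linear_combination s * e2 - t * e1

theorem exists_half [Finite F] [Finite L] [Nontrivial V] (hQ : Nd Q)
    (hsa : ∀ (a : L) x y, B Q (a • x) y = B Q x (a • y)) (hd : finrank F V = 2 * finrank F L)
    (halt : (2 : F) = 0 → ∀ (a : L) x, B Q (a • x) x = 0) :
    (∃ j : V →ₗ[L] V, (∀ v, B Q (j v) v = Q v) ∧ ∀ a : L, ∃ v, j v ≠ a • v) ∧
    ∀ j j' : V →ₗ[L] V, (∀ v, B Q (j v) v = Q v) → (∀ v, B Q (j' v) v = Q v) →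
      ∀ v, j (j' v) = j' (j v) := by
  have hL : 0 < finrank F L := finrank_pos
  have hB : ∀ (a b : L) x y, B Q (a • x) (b • y) = B Q ((a * b) • x) y := fun a b x y => by
    rw [← hsa, smul_smul, mul_comm]
  by_cases h2 : (2 : F) = 0
  · have halt := halt h2
    have h2L : (2 : L) = 0 := by
      rw [← map_ofNat (algebraMap F L) 2, h2, map_zero]
    obtain ⟨v, hv⟩ := exists_ne (0 : V)
    have hperp : perp Q (KL F L v) = KL F L v := by
      refine (Submodule.eq_of_le_of_finrank_eq (fun x hx => ?_) ?_).symm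
      · obtain ⟨a, rfl⟩ := mem_KL.1 hx
        exact mem_perp_KL.2 fun b => by rw [hB, halt]
      · have := hQ.finrank_perp (KL F L v)
        rw [finrank_KL hv] at this ⊢
        omega
    obtain ⟨w, -, hw⟩ := exists_mem_notMem_of_finrank_lt (H := (⊤ : Submodule F V))
      (X := KL F L v) (by rw [finrank_KL hv, finrank_top]; omega)
    obtain ⟨hsp, hli⟩ := sp_of_dims hd hv hw
    have hτ : ∃ c, tauL Q L v w c ≠ 0 := by
      by_contra h
      push Not at h
      exact hw (hperp ▸ mem_perp_KL.2 h)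
    haveI : CharP L 2 := CharTwo.of_one_ne_zero_of_two_eq_zero one_ne_zero h2L
    haveI : Fact (Nat.Prime 2) := ⟨Nat.prime_two⟩
    let s := (frobeniusEquiv L 2).symm
    have hs : ∀ k, s k * s k = k := fun k => by
      have := (frobeniusEquiv L 2).apply_symm_apply k
      rwa [frobeniusEquiv_apply, frobenius_def, sq] at this
    have hs' : ∀ k, s (k * k) = k := fun k => by
      rw [RingEquiv.symm_apply_eq, frobeniusEquiv_apply, frobenius_def, sq]
    have hφ : ∀ u : V, ∃ e, ∀ k : L, Q (k • u) = tauL Q L v w (e * (k * k)) := by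
      intro u
      let φ : L →ₗ[F] F :=
        { toFun := fun k => Q (s k • u)
          map_add' := fun a b => by rw [map_add, add_smul, Q_add, hB, halt, add_zero]
          map_smul' := fun c a => by
            obtain ⟨d, rfl⟩ := H7.exists_sq_eq_of_two_eq_zero h2 c
            have : s (d ^ 2 • a) = d • s a := by
              rw [← hs' (d • s a), smul_mul_smul_comm, hs, sq]
            rw [this, smul_assoc, Q_smul, sq]; rfl }
      obtain ⟨e, he⟩ := exists_tau_mul hτ φ
      exact ⟨e, fun k => by rw [← he]; change _ = Q (s (k * k) • u); rw [hs']⟩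
    have hwv : ∀ k : L, B Q (k • w) v = tauL Q L v w k := fun k => by
      rw [hsa, B_comm]; rfl
    constructor
    · obtain ⟨b, hb⟩ := hφ v
      obtain ⟨c, hc⟩ := hφ w
      obtain ⟨j, h1, h2'⟩ := exists_lin hsp hli (v + b • w) (c • v)
      refine ⟨j, fun x => ?_, fun a => ?_⟩
      · obtain ⟨k, l, rfl⟩ := hsp x
        simp only [map_add, map_smul, h1, h2', smul_add, smul_smul, LinearMap.add_apply, hB, halt,
          Q_add, hb, hc, hwv, ← tauL_apply]
        simp only [zero_add, add_zero]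
        rw [show k * b * k = b * (k * k) by ring, show l * c * l = c * (l * l) by ring]
        ring
      · by_contra h
        push Not at h
        have e1 := hli (1 - a) b (by rw [sub_smul, one_smul, ← h v, h1]; abel)
        have e2 := hli c (-a) (by rw [neg_smul, ← h w, h2']; abel)
        have := e1.1
        rw [neg_eq_zero.1 e2.2] at this
        simp at this
    · have hco : ∀ j : V →ₗ[L] V, (∀ v, B Q (j v) v = Q v) → ∀ a b c d : L,
          j v = a • v + b • w → j w = c • v + d • w → a + d = 1 ∧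
            (∀ k : L, tauL Q L v w (k * b) = Q (s k • v)) ∧
            ∀ k : L, tauL Q L v w (k * c) = Q (s k • w) := by
        intro j hj a b c d h1 h2'
        refine ⟨?_, fun k => ?_, fun k => ?_⟩
        · rw [← sub_eq_zero]
          refine tau_nondeg hτ fun k => ?_
          have := polar_of_half hj (k • v) w
          simp only [map_add, map_smul, h1, h2', smul_add, smul_smul, LinearMap.add_apply, hB, halt,
            hwv, ← tauL_apply] at this
          rw [mul_sub, mul_add, map_sub, map_add, mul_one, mul_comm k d]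
          linear_combination this
        · rw [← hj]
          simp only [map_add, map_smul, h1, smul_add, smul_smul, LinearMap.add_apply, hB, halt, hwv]
          rw [zero_add, mul_right_comm, hs]
        · rw [← hj]
          simp only [map_add, map_smul, h2', smul_add, smul_smul, LinearMap.add_apply, hB, halt,
            ← tauL_apply]
          rw [add_zero, mul_right_comm, hs]
      intro j j' hj hj'
      obtain ⟨a, b, h1⟩ := hsp (j v)
      obtain ⟨c, d, h2'⟩ := hsp (j w)
      obtain ⟨a', b', h1'⟩ := hsp (j' v)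
      obtain ⟨c', d', h2''⟩ := hsp (j' w)
      obtain ⟨e1, e2, e3⟩ := hco j hj a b c d h1 h2'
      obtain ⟨e1', e2', e3'⟩ := hco j' hj' a' b' c' d' h1' h2''
      have hb : b = b' := sub_eq_zero.1 (tau_nondeg hτ fun k => by
        rw [mul_sub, map_sub, e2, e2', sub_self])
      have hc : c = c' := sub_eq_zero.1 (tau_nondeg hτ fun k => by
        rw [mul_sub, map_sub, e3, e3', sub_self])
      subst hb hc
      exact comm_of_coords hsp h1 h2' h1' h2'' rfl
        (by linear_combination b * (e1 - e1') + b * (a' - a) * h2L)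
        (by linear_combination c * (e1 - e1') + c * (d' - d) * h2L)
  · have h2L : (2 : L) ≠ 0 := by
      rw [← map_ofNat (algebraMap F L) 2]
      exact (map_ne_zero _).2 h2
    obtain ⟨v, -, hv⟩ := hQ.ndOn_top.exists_nonsing le_rfl (by rw [finrank_top]; omega)
    have hv0 : v ≠ 0 := ne_zero_of_Q_ne hv
    have hτ : ∃ c, tauL Q L v v c ≠ 0 := ⟨1, by
      rw [tauL_apply, one_smul, B_self]; exact mul_ne_zero h2 hv⟩
    have h3 := hQ.finrank_perp (KL F L v)
    rw [finrank_KL hv0] at h3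
    obtain ⟨w, hw, hw0⟩ := (perp Q (KL F L v)).ne_bot_iff.1 (fun h => by
      rw [h, finrank_bot] at h3; omega)
    rw [mem_perp_KL] at hw
    have hwv : w ∉ KL F L v := fun h => by
      obtain ⟨a, rfl⟩ := mem_KL.1 h
      apply hw0
      rw [tau_nondeg hτ (c := a) fun k => by rw [tauL_apply, ← hB, hw], zero_smul]
    obtain ⟨hsp, hli⟩ := sp_of_dims hd hv0 hwv
    have hw' : ∀ k : L, B Q (k • w) v = 0 := fun k => by rw [hsa, B_comm, hw]
    have hτ' : ∃ c, tauL Q L w w c ≠ 0 := by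
      by_contra h
      push Not at h
      refine hw0 (hQ w fun x => ?_)
      obtain ⟨a, b, rfl⟩ := hsp x
      rw [map_add, LinearMap.add_apply, hw, ← tauL_apply, h, add_zero]
    have hhalf : ∀ (u : V) (k : L), B Q ((k * 2⁻¹ * k) • u) u = Q (k • u) := fun u k => by
      have : B Q ((k * k) • u) u = 2 * B Q ((k * 2⁻¹ * k) • u) u := by
        rw [two_mul, ← LinearMap.add_apply, ← map_add, ← add_smul]
        congr 3
        field_simp
        ring
      rw [← hB, B_self] at this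
      exact (mul_left_cancel₀ h2 this).symm
    constructor
    · obtain ⟨c, hc⟩ := exists_tau_mul hτ (-tauL Q L w w)
      obtain ⟨j, h1, h2'⟩ := exists_lin hsp hli ((2⁻¹ : L) • v + w) (c • v + (2⁻¹ : L) • w)
      refine ⟨j, fun x => ?_, fun a => ?_⟩
      · obtain ⟨k, l, rfl⟩ := hsp x
        simp only [map_add, map_smul, h1, h2', smul_add, smul_smul, LinearMap.add_apply, hB, hw, hw',
          Q_add, hhalf]
        have := hc (k * l)
        rw [LinearMap.neg_apply, tauL_apply, tauL_apply] at this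
        rw [show l * c * k = c * (k * l) by ring, ← this]
        ring
      · refine ⟨v, fun h => ?_⟩
        have e1 := hli (2⁻¹ - a) 1 (by rw [sub_smul, one_smul, ← h, h1]; abel)
        exact one_ne_zero e1.2
    · have hco : ∀ j : V →ₗ[L] V, (∀ v, B Q (j v) v = Q v) → ∀ a b c d : L,
          j v = a • v + b • w → j w = c • v + d • w → a * 2 = 1 ∧ d * 2 = 1 ∧
            ∀ k : L, tauL Q L w w (k * b) + tauL Q L v v (k * c) = 0 := by
        intro j hj a b c d h1 h2'
        refine ⟨?_, ?_, fun k => ?_⟩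
        · rw [← sub_eq_zero]
          refine tau_nondeg hτ fun k => ?_
          have := polar_of_half hj (k • v) v
          simp only [map_add, map_smul, h1, smul_add, smul_smul, LinearMap.add_apply, hB, hw',
            ← tauL_apply] at this
          rw [mul_sub, mul_two, mul_add, map_sub, map_add, mul_one]
          rw [mul_comm a k] at this
          linear_combination this
        · rw [← sub_eq_zero]
          refine tau_nondeg hτ' fun k => ?_
          have := polar_of_half hj (k • w) w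
          simp only [map_add, map_smul, h2', smul_add, smul_smul, LinearMap.add_apply, hB, hw,
            ← tauL_apply] at this
          rw [mul_sub, mul_two, mul_add, map_sub, map_add, mul_one]
          rw [mul_comm d k] at this
          linear_combination this
        · have := polar_of_half hj (k • v) w
          simp only [map_add, map_smul, h1, h2', smul_add, smul_smul, LinearMap.add_apply, hB, hw,
            hw', ← tauL_apply] at this
          rw [mul_comm c k] at this
          linear_combination this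
      intro j j' hj hj'
      obtain ⟨a, b, h1⟩ := hsp (j v)
      obtain ⟨c, d, h2'⟩ := hsp (j w)
      obtain ⟨a', b', h1'⟩ := hsp (j' v)
      obtain ⟨c', d', h2''⟩ := hsp (j' w)
      obtain ⟨e1, e2, e3⟩ := hco j hj a b c d h1 h2'
      obtain ⟨e1', e2', e3'⟩ := hco j' hj' a' b' c' d' h1' h2''
      obtain rfl : d = a := mul_right_cancel₀ h2L (e2.trans e1.symm)
      obtain rfl : a' = d := mul_right_cancel₀ h2L (e1'.trans e1.symm)
      obtain rfl : d' = a' := mul_right_cancel₀ h2L (e2'.trans e1.symm)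
      refine comm_of_coords hsp h1 h2' h1' h2'' ?_ (by ring) (by ring)
      refine sub_eq_zero.1 (tau_nondeg hτ fun k => ?_)
      have f1 := e3 (k * b')
      have f2 := e3' (k * b)
      rw [mul_sub, map_sub, ← mul_assoc, ← mul_assoc]
      rw [mul_right_comm k b b'] at f2
      linear_combination f1 - f2

end abstr

variable {ι : Type} [Fintype ι] [DecidableEq ι] {F : Type*} [Field F] [Fintype F]
  {Q : (ι → F) → F} (hQ : IsNondegenerateQuadraticForm Q)

lemma finrank_dvd_of_field [Nonempty ι] {r : ℕ} {K : Subalgebra F (Matrix ι ι F)}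
    (hK : IsFieldSubalgebra r K) : r ∣ Fintype.card ι := by
  refine field_bridge hK fun L _ _ _ _ _ hr _ _ _ => ?_
  haveI : FiniteDimensional L (ι → F) := Module.Finite.of_restrictScalars_finite F L _
  have := Module.finrank_mul_finrank F L (ι → F)
  rw [hr, finrank_fintype_fun_eq_card] at this
  exact ⟨_, this.symm⟩

lemma mem_span_of_two [Nonempty ι] {K : Subalgebra F (Matrix ι ι F)} (hK : IsFieldSubalgebra 2 K)
    {ω : Matrix ι ι F} (hω : ω ∈ K) (hs : ¬ IsScal ω) {k : Matrix ι ι F} (hk : k ∈ K) :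
    ∃ a b : F, k = a • (1 : Matrix ι ι F) + b • ω := by
  have hli : LinearIndependent F ![(1 : Matrix ι ι F), ω] := by
    rw [LinearIndependent.pair_iff]
    intro a b h
    have hb : b = 0 := by
      by_contra hb
      refine hs ⟨-(b⁻¹ * a), ?_⟩
      rw [neg_smul, mul_smul, eq_neg_of_add_eq_zero_left h, smul_neg, neg_neg, smul_smul,
        inv_mul_cancel₀ hb, one_smul]
    rw [hb, zero_smul, add_zero] at h
    exact ⟨(smul_eq_zero.1 h).resolve_right one_ne_zero, hb⟩
  have h1 := finrank_span_eq_card hli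
  rw [Matrix.range_cons_cons_empty, Fintype.card_fin] at h1
  have h2 : Submodule.span F {1, ω} = Subalgebra.toSubmodule K :=
    Submodule.eq_of_le_of_finrank_eq (span_pair_le K.one_mem hω) (h1.trans hK.finrank_eq.symm)
  exact mem_span_pair'.1 (h2 ▸ hk)

lemma exists_quad_rel [Nonempty ι] {K : Subalgebra F (Matrix ι ι F)} (hK : IsFieldSubalgebra 2 K)
    {ω : Matrix ι ι F} (hω : ω ∈ K) (hs : ¬ IsScal ω) :
    ∃ t N : F, (∀ v, Matrix.toLin' ω (Matrix.toLin' ω v) = t • Matrix.toLin' ω v - N • v) ∧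
      ∀ a b : F, a * a + a * b * t + b * b * N = 0 → b = 0 := by
  obtain ⟨a, b, h⟩ := mem_span_of_two hK hω hs (K.mul_mem hω hω)
  refine ⟨b, -a, fun v => ?_, fun x y hxy => ?_⟩
  · simp only [Matrix.toLin'_apply, Matrix.mulVec_mulVec, h, Matrix.add_mulVec, Matrix.smul_mulVec,
      Matrix.one_mulVec]
    module
  · by_contra hy
    have hne : ∀ c d : F, d ≠ 0 → c • (1 : Matrix ι ι F) + d • ω ≠ 0 := fun c d hd h0 => by
      refine hs ⟨-(d⁻¹ * c), ?_⟩
      rw [neg_smul, mul_smul, eq_neg_of_add_eq_zero_left h0, smul_neg, neg_neg, smul_smul,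
        inv_mul_cancel₀ hd, one_smul]
    obtain ⟨z, -, hz⟩ := hK.inv _ (K.add_mem (K.smul_mem K.one_mem x) (K.smul_mem hω y))
      (hne x y hy)
    apply hne (x + y * b) (-y) (neg_ne_zero.2 hy)
    have : ((x + y * b) • (1 : Matrix ι ι F) + (-y) • ω) * (x • (1 : Matrix ι ι F) + y • ω) =
        (x * x + x * y * b + y * y * -a) • (1 : Matrix ι ι F) := by
      simp only [add_mul, mul_add, smul_mul_smul_comm, one_mul, mul_one, h]
      module
    have h3 := congrArg (· * z) this
    simp only [mul_assoc, hz, mul_one] at h3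
    rw [h3, ← mul_assoc x y b, ← mul_assoc y y, hxy, zero_smul, zero_mul]

include hQ

lemma B_adj (x : Matrix ι ι F) (u v : ι → F) :
    QuadraticMap.polar Q u (x *ᵥ v) =
      QuadraticMap.polar Q (adj (RingHom.id F) (QuadraticMap.polar Q) x *ᵥ u) v :=
  ((hfQ hQ).adj_spec' x u v).symm

lemma exists_fixed (ho : Odd (Fintype.card ι)) (h2 : (2 : F) ≠ 0) {g : GL ι F}
    (hg : g ∈ omegaGL Q) : ∃ v ≠ 0, (g : Matrix ι ι F) *ᵥ v = v := by
  have hf := hfQ hQ
  have h1 : adj (RingHom.id F) (QuadraticMap.polar Q) ((g : Matrix ι ι F) - 1) =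
      ((g⁻¹ : GL ι F) : Matrix ι ι F) - 1 := by
    rw [hf.adj_sub, hf.adj_one, hf.adj_val (isom_of_le hQ omega_le) hg]
  have h3 : ∀ x : Matrix ι ι F, (adj (RingHom.id F) (QuadraticMap.polar Q) x).det = x.det := by
    intro x
    have := hf.toSesq.det_ne_zero
    simp only [adj, RingHom.coe_id, Matrix.map_id, Matrix.det_mul, Matrix.det_transpose,
      Matrix.det_nonsing_inv, Ring.inverse_eq_inv']
    field_simp
  have h4 : (g : Matrix ι ι F) * (((g⁻¹ : GL ι F) : Matrix ι ι F) - 1) =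
      -((g : Matrix ι ι F) - 1) := by
    rw [mul_sub, Units.mul_inv, mul_one, neg_sub]
  have h5 := congrArg Matrix.det h4
  rw [Matrix.det_mul, det_of_mem_omega hQ hg, one_mul, ← h1, h3, Matrix.det_neg, ho.neg_one_pow]
    at h5
  have h6 : ((g : Matrix ι ι F) - 1).det = 0 := by
    apply mul_left_cancel₀ h2
    linear_combination h5
  obtain ⟨v, hv, he⟩ := Matrix.exists_mulVec_eq_zero_iff.2 h6
  exact ⟨v, hv, by rwa [Matrix.sub_mulVec, Matrix.one_mulVec, sub_eq_zero] at he⟩

lemma not_field_full (hn : 2 ≤ Fintype.card ι) (ho : Odd (Fintype.card ι))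
    {H : Subgroup (GL ι F)} (hH : H ≤ omegaGL Q) (hirr : Irr H) {K : Subalgebra F (Matrix ι ι F)}
    (hK : IsFieldSubalgebra (Fintype.card ι) K) (hN : H ≤ subalgebraNormalizer K) : False := by
  haveI : Nonempty ι := H7.nonempty_of_two_le hn
  have h2 : (2 : F) ≠ 0 := two_ne_zero_of_odd_finrank (nd_toQF hQ).ndOn_top (by simpa using ho)
  have hab : ∀ g ∈ H, ∀ h ∈ H, g * h = h * g := by
    intro g hg h hh
    refine field_bridge hK fun L _ _ _ _ _ hr _ _ hS => ?_
    obtain ⟨w, hw0, hw⟩ := exists_fixed hQ ho h2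
      (hH (H.mul_mem (H.inv_mem (H.mul_mem hh hg)) (H.mul_mem hg hh)))
    rw [← phi_apply, map_mul, map_inv, mul_app, ← (phi (h * g)).injective.eq_iff, apply_inv_apply,
      map_mul, map_mul, mul_app, mul_app] at hw
    choose σ hσ using (hS g).1 (hN hg)
    choose τ hτ using (hS h).1 (hN hh)
    obtain ⟨γ, hγ⟩ := IsCyclic.exists_monoid_generator (α := Lˣ)
    have hpow : ∀ a : L, a ≠ 0 → ∃ m : ℕ, a = (γ : L) ^ m := fun a ha => by
      obtain ⟨m, hm⟩ := hγ (Units.mk0 a ha)
      exact ⟨m, by simpa using congrArg Units.val hm.symm⟩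
    have key : ∀ (x : (ι → F) ≃ₗ[F] (ι → F)) (ρ : L → L), (∀ a v, x (a • v) = ρ a • x v) →
        ∃ i : ℕ, ∀ (m : ℕ) v, x ((γ : L) ^ m • v) = ((γ : L) ^ i) ^ m • x v := by
      intro x ρ hρ
      have : ρ γ ≠ 0 := fun h0 => by
        have := hρ γ w
        rw [h0, zero_smul, map_eq_zero_iff _ x.injective, smul_eq_zero] at this
        exact this.elim γ.ne_zero hw0
      obtain ⟨i, hi⟩ := hpow _ this
      refine ⟨i, fun m => ?_⟩
      induction m with
      | zero => simp
      | succ m ih => intro v; rw [pow_succ, mul_smul, ih, hρ, hi, pow_succ, mul_smul]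
    obtain ⟨i, hi⟩ := key _ σ hσ
    obtain ⟨j, hj⟩ := key _ τ hτ
    have htop : KL F L w = ⊤ := Submodule.eq_top_of_finrank_eq (by
      rw [finrank_KL hw0, hr, finrank_fintype_fun_eq_card])
    apply phi.injective
    ext1 v
    obtain ⟨a, rfl⟩ := mem_KL.1 (htop ▸ Submodule.mem_top : v ∈ KL F L w)
    rw [map_mul, map_mul, mul_app, mul_app]
    by_cases ha : a = 0
    · simp [ha]
    obtain ⟨m, rfl⟩ := hpow a ha
    rw [hi, hj, ← pow_mul, ← pow_mul, hi, hj, hw, ← pow_mul, ← pow_mul]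
    congr 2
    ring
  refine H7.not_irr_of_scal hn (fun g hg => ⟨1, ?_⟩) hirr
  obtain ⟨w, hw0, hw⟩ := exists_fixed hQ ho h2 (hH hg)
  rcases hirr (LinearMap.ker (Matrix.toLin' ((g : Matrix ι ι F) - 1))) (fun h hh v hv => by
    rw [LinearMap.mem_ker, Matrix.toLin'_apply, Matrix.sub_mulVec, Matrix.one_mulVec,
      sub_eq_zero] at hv ⊢
    rw [Matrix.mulVec_mulVec, ← Units.val_mul, hab g hg h hh, Units.val_mul,
      ← Matrix.mulVec_mulVec, hv]) with h | h
  · exfalso
    apply hw0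
    rw [← Submodule.mem_bot F, ← h, LinearMap.mem_ker, Matrix.toLin'_apply, Matrix.sub_mulVec,
      Matrix.one_mulVec, hw, sub_self]
  · rw [LinearMap.ker_eq_top, map_eq_zero_iff _ Matrix.toLin'.injective, sub_eq_zero] at h
    rw [h, one_smul]

lemma polar_alt (h2 : (2 : F) = 0) (v : ι → F) : QuadraticMap.polar Q v v = 0 := by
  rw [H7.polar_self hQ, h2, zero_mul]

lemma unitary_sim (hn : 2 ≤ Fintype.card ι) {H : Subgroup (GL ι F)} (hH : H ≤ isometryGroup F Q)
    (hirr : Irr H) {K : Subalgebra F (Matrix ι ι F)} (hK : IsFieldSubalgebra 2 K) (hN : NormA H K)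
    (hadj : ∀ x ∈ K, adj (RingHom.id F) (QuadraticMap.polar Q) x ∈ K)
    (hns : ¬ IsSelfAdjointFor (QuadraticMap.polar Q) K) :
    (∀ k ∈ K, ∃ c : F, ∀ v, Q (k *ᵥ v) = c * Q v) ∧ (IsPlusTypeOn Q ⊤ ↔ 4 ∣ Fintype.card ι) := by
  haveI : Nonempty ι := H7.nonempty_of_two_le hn
  have hf := hfQ hQ
  rw [hf.isSelfAdjointFor_iff] at hns
  push Not at hns
  obtain ⟨ω, hω, hωa⟩ := hns
  have hsc : ∀ c : F, adj (RingHom.id F) (QuadraticMap.polar Q) (c • 1) = c • 1 := fun c => by
    rw [hf.adj_smul, hf.adj_one]; rfl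
  have hωs : ¬ IsScal ω := by
    rintro ⟨c, rfl⟩
    exact hωa (hsc c)
  have hS : ∀ x ∈ K, adj (RingHom.id F) (QuadraticMap.polar Q) x = x → IsScal x := by
    intro x hx h
    by_contra hxs
    obtain ⟨a, b, rfl⟩ := mem_span_of_two hK hx hxs hω
    apply hωa
    rw [hf.adj_add, hsc, hf.adj_smul, h]; rfl
  obtain ⟨t, ht⟩ := hS _ (K.add_mem hω (hadj ω hω)) (by rw [hf.adj_add, hf.adj_adj, add_comm])
  have hωadj : ∀ x y, QuadraticMap.polar Q x (ω *ᵥ y) =
      t * QuadraticMap.polar Q x y + (-1) * QuadraticMap.polar Q (ω *ᵥ x) y := by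
    intro x y
    rw [B_adj hQ, eq_sub_of_add_eq' ht, Matrix.sub_mulVec, hf.sub_left, Matrix.smul_mulVec,
      Matrix.one_mulVec, hf.smul_left]
    ring
  have hc : ∀ k ∈ K, ∃ c : F, adj (RingHom.id F) (QuadraticMap.polar Q) k * k = c • 1 :=
    fun k hk => hS _ (K.mul_mem (hadj k hk) hk) (by rw [hf.adj_mul, hf.adj_adj])
  have hψ : ∀ v, QuadraticMap.polar Q v (ω *ᵥ v) = t * Q v := by
    by_cases h2 : (2 : F) = 0
    · intro v
      rw [← sub_eq_zero]
      refine hirr.eq_zero_of_semilinear hn h2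
        (φ := fun v => QuadraticMap.polar Q v (ω *ᵥ v) - t * Q v) (fun u v => ?_) (fun c v => ?_)
        (fun g hg v hv => ?_) v
      · simp only [Matrix.mulVec_add, hf.add_left, hf.add_right, Q_add' hQ]
        have := hωadj u v
        rw [hf.herm v (ω *ᵥ u)] at this
        simp only [RingHom.id_apply] at this
        linear_combination this
      · simp only [Matrix.mulVec_smul, hf.smul_left, hf.smul_right, Q_smul' hQ, RingHom.id_apply]
        ring
      · have h1 := hN g⁻¹ (H.inv_mem hg) ω hω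
        have h3 : cj g⁻¹ ω + adj (RingHom.id F) (QuadraticMap.polar Q) (cj g⁻¹ ω) = t • 1 := by
          rw [hf.adj_cj (isom_of_le hQ hH) (H.inv_mem hg), ← map_add, ht, map_smul, map_one]
        obtain ⟨a, ha⟩ := hS _ (K.sub_mem h1 hω) (by
          rw [hf.adj_sub, eq_sub_of_add_eq' ht, eq_sub_of_add_eq' h3]
          have : ∀ x : Matrix ι ι F, x + x = 0 := fun x => by rw [← two_smul F x, h2, zero_smul]
          rw [← sub_eq_zero, ← sub_self (0 : Matrix ι ι F)]
          nth_rewrite 1 [← this ω]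
          rw [← this (cj g⁻¹ ω)]
          abel)
        have h4 : ω *ᵥ ((g : Matrix ι ι F) *ᵥ v) = (g : Matrix ι ι F) *ᵥ (cj g⁻¹ ω *ᵥ v) := by
          rw [← H7.cj_mulVec, H7.cj_cj_inv]
        rw [h4, isom_of_le hQ hH g hg, Q_val hQ (hH hg), eq_add_of_sub_eq ha, Matrix.add_mulVec,
          hf.add_right, Matrix.smul_mulVec, Matrix.one_mulVec, hf.smul_right, polar_alt hQ h2,
          mul_zero, zero_add, hv]
    · intro v
      have := hωadj v v
      rw [hf.herm v (ω *ᵥ v), H7.polar_self hQ] at this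
      simp only [RingHom.id_apply] at this
      apply mul_left_cancel₀ h2
      linear_combination this
  have hsim : ∀ k ∈ K, ∃ c : F, ∀ v, Q (k *ᵥ v) = c * Q v := by
    intro k hk
    obtain ⟨c, hc⟩ := hc k hk
    have h1 : ∀ u v, QuadraticMap.polar Q (k *ᵥ u) (k *ᵥ v) = c * QuadraticMap.polar Q u v := by
      intro u v
      rw [B_adj hQ, Matrix.mulVec_mulVec, hc, Matrix.smul_mulVec, Matrix.one_mulVec, hf.smul_left]
    refine ⟨c, fun v => ?_⟩
    by_cases h2 : (2 : F) = 0
    · have ht0 : t ≠ 0 := by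
        rintro rfl
        apply hωa
        rw [zero_smul] at ht
        rw [eq_neg_of_add_eq_zero_right ht, neg_eq_iff_add_eq_zero, ← two_smul F ω, h2, zero_smul]
      apply mul_left_cancel₀ ht0
      rw [← hψ, Matrix.mulVec_mulVec, hK.comm ω hω k hk, ← Matrix.mulVec_mulVec, h1, hψ]
      ring
    · apply mul_left_cancel₀ h2
      rw [← H7.polar_self hQ, h1, H7.polar_self hQ]
      ring
  refine ⟨hsim, ?_⟩
  obtain ⟨t', N, h1, h2⟩ := exists_quad_rel hK hω hωs
  rw [plus_iff hQ, ← finrank_fintype_fun_eq_card F]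
  refine plus_iff_four_dvd (nd_toQF hQ) (Matrix.toLin' ω) h1 h2 (α := t) (β := -1)
    (fun x y => hωadj x y) fun x hx => ⟨?_, ?_⟩
  · obtain ⟨c, hc⟩ := hsim ω hω
    change Q x = 0 at hx
    rw [toQF_apply, Matrix.toLin'_apply, hc, hx, mul_zero]
  · change Q x = 0 at hx
    rw [B_toQF, Matrix.toLin'_apply, hψ, hx, mul_zero]

lemma four_dvd_of_sa (hn : 2 ≤ Fintype.card ι) (h2 : (2 : F) = 0) {H : Subgroup (GL ι F)}
    (hH : H ≤ isometryGroup F Q) (hirr : Irr H) {K : Subalgebra F (Matrix ι ι F)}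
    (hK : IsFieldSubalgebra 2 K) (hN : NormA H K)
    (hsa : IsSelfAdjointFor (QuadraticMap.polar Q) K) : 4 ∣ Fintype.card ι := by
  haveI : Nonempty ι := H7.nonempty_of_two_le hn
  obtain ⟨ω, hω, hωs⟩ := exists_not_scal_of_field le_rfl hK
  obtain ⟨t', N, h1, h3⟩ := exists_quad_rel hK hω hωs
  rw [← finrank_fintype_fun_eq_card F]
  refine four_dvd_of_alt (nd_toQF hQ) h2 (Matrix.toLin' ω) h1 h3
    (fun x y => (hsa ω hω x y).symm) fun x => ?_
  rw [B_comm]
  exact H7.alt_of_selfAdjoint (H7.isSymplecticForm_polar hQ h2) (isom_of_le hQ hH) hirr hK hsa hN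
    ω hω x

lemma exists_bigger {H : Subgroup (GL ι F)} (hH : H ≤ isometryGroup F Q) (hirr : Irr H) {r : ℕ}
    (hr : 1 ≤ r) (hn : 2 * r = Fintype.card ι) {K : Subalgebra F (Matrix ι ι F)}
    (hK : IsFieldSubalgebra r K) (hN : NormA H K)
    (hsa : IsSelfAdjointFor (QuadraticMap.polar Q) K) :
    ∃ Z : Subalgebra F (Matrix ι ι F), NormA H Z ∧ (∀ x ∈ Z, ∀ y ∈ Z, x * y = y * x) ∧
      (∀ x ∈ Z, adj (RingHom.id F) (QuadraticMap.polar Q) x ∈ Z) ∧ K < Z := by
  haveI : Nonempty ι := H7.nonempty_of_two_le (by omega)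
  have hf := hfQ hQ
  let T : Set (Matrix ι ι F) :=
    {x | (∀ k ∈ K, k * x = x * k) ∧ ∀ v, QuadraticMap.polar Q (x *ᵥ v) v = Q v}
  have hT : (∃ x ∈ T, x ∉ K) ∧ ∀ x ∈ T, ∀ y ∈ T, x * y = y * x := by
    refine field_bridge hK fun L _ _ _ _ _ hr' h1 h2 _ => ?_
    obtain ⟨⟨j, hj, hjn⟩, hc⟩ := exists_half (L := L) (nd_toQF hQ) (fun a x y => by
        obtain ⟨k, hk, ha⟩ := h1 a
        rw [ha, ha]; exact hsa k hk x y) (by rw [hr', finrank_fintype_fun_eq_card, hn])
      (fun h2 a x => by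
        obtain ⟨k, hk, ha⟩ := h1 a
        rw [ha]
        exact H7.alt_of_selfAdjoint (H7.isSymplecticForm_polar hQ h2) (isom_of_le hQ hH) hirr hK
          hsa hN k hk x)
    constructor
    · have hjm : ∀ v, LinearMap.toMatrix' (j.restrictScalars F) *ᵥ v = j v := fun v => by
        rw [LinearMap.toMatrix'_mulVec]; rfl
      refine ⟨LinearMap.toMatrix' (j.restrictScalars F), ⟨fun k hk => ?_, fun v => ?_⟩,
        fun hk => ?_⟩
      · obtain ⟨a, ha⟩ := h2 k hk
        refine H7.mat_eq_of_mulVec fun v => ?_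
        rw [← Matrix.mulVec_mulVec, ← Matrix.mulVec_mulVec, hjm, hjm, ← ha, ← ha, map_smul]
      · rw [hjm]; exact hj v
      · obtain ⟨a, ha⟩ := h2 _ hk
        obtain ⟨v, hv⟩ := hjn a
        exact hv (by rw [ha, hjm])
    · have hl : ∀ x ∈ T, ∃ j : (ι → F) →ₗ[L] (ι → F), ∀ v, j v = x *ᵥ v := fun x hx =>
        ⟨{ toFun := fun v => x *ᵥ v
           map_add' := fun u v => Matrix.mulVec_add _ _ _
           map_smul' := fun a v => by
            obtain ⟨k, hk, ha⟩ := h1 a
            rw [RingHom.id_apply, ha, ha, Matrix.mulVec_mulVec, Matrix.mulVec_mulVec,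
              hx.1 k hk] }, fun v => rfl⟩
      intro x hx y hy
      obtain ⟨j, hj⟩ := hl x hx
      obtain ⟨j', hj'⟩ := hl y hy
      refine H7.mat_eq_of_mulVec fun v => ?_
      have := hc j j' (fun v => by rw [hj]; exact hx.2 v) (fun v => by rw [hj']; exact hy.2 v) v
      rwa [hj, hj', hj, hj', Matrix.mulVec_mulVec, Matrix.mulVec_mulVec] at this
  have hsub : ∀ x ∈ (K : Set (Matrix ι ι F)) ∪ T, x ∈ Algebra.adjoin F ((K : Set _) ∪ T) :=
    fun x hx => Algebra.subset_adjoin hx
  obtain ⟨Z, h1, h2, h3, h4⟩ : ∃ Z : Subalgebra F (Matrix ι ι F), NormA H Z ∧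
      (∀ x ∈ Z, ∀ y ∈ Z, x * y = y * x) ∧
      (∀ x ∈ Z, adj (RingHom.id F) (QuadraticMap.polar Q) x ∈ Z) ∧
      ∀ x ∈ (K : Set (Matrix ι ι F)) ∪ T, x ∈ Z := by
    refine adjoin_data hQ _ ?_ ?_ ?_
    · rintro x (hx | hx) y (hy | hy)
      · exact hK.comm x hx y hy
      · exact hy.1 x hx
      · exact (hx.1 y hy).symm
      · exact hT.2 x hx y hy
    · rintro x (hx | hx)
      · rw [hf.isSelfAdjointFor_iff.1 hsa x hx]
        exact hsub x (Or.inl hx)
      · have : adj (RingHom.id F) (QuadraticMap.polar Q) x = 1 - x := by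
          refine hf.adj_unique fun u v => ?_
          have := hx.2 (u + v)
          rw [Q_add' hQ, Matrix.mulVec_add, hf.add_left, hf.add_right, hf.add_right, hx.2, hx.2,
            hf.herm u (x *ᵥ v)] at this
          rw [Matrix.sub_mulVec, Matrix.one_mulVec, hf.sub_right]
          simp only [RingHom.id_apply] at this
          linear_combination this
        rw [this]
        exact sub_mem (one_mem _) (hsub x (Or.inr hx))
    · rintro g hg x (hx | hx)
      · exact hsub _ (Or.inl (hN g hg x hx))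
      · refine hsub _ (Or.inr ⟨fun k hk => ?_, fun v => ?_⟩)
        · rw [← H7.cj_cj_inv g k, ← map_mul, ← map_mul, hx.1 _ (hN _ (H.inv_mem hg) k hk)]
        · rw [← H7.val_mulVec_inv g v, H7.cj_mulVec, isom_of_le hQ hH g hg, hx.2,
            Q_val hQ (hH hg)]
  obtain ⟨x, hx, hxK⟩ := hT.1
  exact ⟨Z, h1, h2, h3, lt_of_le_of_ne (fun k hk => h4 k (Or.inl hk))
    fun h => hxK (h ▸ h4 x (Or.inr hx))⟩

omit hQ in
/-- orthogonal decompositions -/
def CD1 (Q : (ι → F) → F) (H : Subgroup (GL ι F)) : Prop :=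
  ∃ (t k : ℕ) (D : Fin t → Submodule F (ι → F)), IsOrthogonalMDecomposition Q k D ∧
    H ≤ decompositionStabilizer D

omit hQ in
/-- totally singular pairs -/
def CD2 (Q : (ι → F) → F) (H : Subgroup (GL ι F)) : Prop :=
  ∃ (k : ℕ) (D : Fin 2 → Submodule F (ι → F)), 2 * k = Fintype.card ι ∧ IsMDecomposition k D ∧
    (∀ i, IsTotallySingularQuad Q (D i)) ∧ H ≤ decompositionStabilizer D

omit hQ in
/-- self-adjoint fields -/
def CF1 (Q : (ι → F) → F) (H : Subgroup (GL ι F)) : Prop :=
  ∃ (r : ℕ) (K : Subalgebra F (Matrix ι ι F)), r.Prime ∧ IsFieldSubalgebra r K ∧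
    IsSelfAdjointFor (QuadraticMap.polar Q) K ∧ H ≤ subalgebraNormalizer K ∧
    r ∣ Fintype.card ι ∧ (Odd (Fintype.card ι) → r ≠ Fintype.card ι) ∧
    (2 * r = Fintype.card ι → r = 2) ∧ (r = 2 → ¬ Odd (Fintype.card F) → 4 ∣ Fintype.card ι)

omit hQ in
/-- unitary fields -/
def CF2 (Q : (ι → F) → F) (H : Subgroup (GL ι F)) : Prop :=
  ∃ K : Subalgebra F (Matrix ι ι F), IsFieldSubalgebra 2 K ∧
    IsAdjointClosedFor (QuadraticMap.polar Q) K ∧ ¬ IsSelfAdjointFor (QuadraticMap.polar Q) K ∧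
    (∀ k ∈ K, ∃ c : F, ∀ v, Q (k *ᵥ v) = c * Q v) ∧ H ≤ subalgebraNormalizer K ∧
    2 ∣ Fintype.card ι ∧ (IsPlusTypeOn Q ⊤ ↔ 4 ∣ Fintype.card ι)

theorem field_cases (hn : 3 ≤ Fintype.card ι) {H : Subgroup (GL ι F)} (hH : H ≤ omegaGL Q)
    (hirr : Irr H) (hp : NonPrim Q H) : CD1 Q H ∨ CD2 Q H ∨ CF1 Q H ∨ CF2 Q H := by
  haveI : Nonempty ι := H7.nonempty_of_two_le (by omega)
  have hf := hfQ hQ
  have hH' : H ≤ isometryGroup F Q := hH.trans omega_le
  obtain ⟨Z, hZ, hc, hadj, hns⟩ := hp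
  rcases comm_cases hQ hn hH' hirr hZ hc hadj with h | h | hinv
  · exact Or.inl h
  · exact Or.inr (Or.inl h)
  have deg2 : ∀ K : Subalgebra F (Matrix ι ι F), IsFieldSubalgebra 2 K → NormA H K →
      (∀ x ∈ K, adj (RingHom.id F) (QuadraticMap.polar Q) x ∈ K) → CF1 Q H ∨ CF2 Q H := by
    intro K hK hN ha
    have hd := finrank_dvd_of_field hK
    by_cases hsa : IsSelfAdjointFor (QuadraticMap.polar Q) K
    · exact Or.inl ⟨2, K, Nat.prime_two, hK, hsa, hN.le_normalizer, hd, fun _ => by omega,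
        fun _ => rfl, fun _ h2 => four_dvd_of_sa hQ (by omega) (H7.two_eq_zero_of_not_odd h2) hH'
          hirr hK hN hsa⟩
    · obtain ⟨h1, h2⟩ := unitary_sim hQ (by omega) hH' hirr hK hN ha hsa
      exact Or.inr ⟨K, hK, hf.isAdjointClosedFor ha, hsa, h1, hN.le_normalizer, hd, h2⟩
  rcases hf.field_bilinear (isom_of_le hQ hH') hZ hc hinv hadj hns with
    ⟨r, K, hr, hK, hsa, hN⟩ | ⟨hK, -, -⟩
  swap
  · exact Or.inr (Or.inr (deg2 Z hK hZ hadj))
  by_cases hr2 : r = 2
  · subst hr2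
    exact Or.inr (Or.inr (deg2 K hK hN fun x hx => by rwa [hf.isSelfAdjointFor_iff.1 hsa x hx]))
  by_cases h2r : 2 * r = Fintype.card ι
  · obtain ⟨Z', h1, h2, h3, h4⟩ := exists_bigger hQ hH' hirr hr.pos h2r hK hN hsa
    rcases comm_cases hQ hn hH' hirr h1 h2 h3 with h | h | hinv'
    · exact Or.inl h
    · exact Or.inr (Or.inl h)
    have h5 := finrank_dvd_of_field (⟨h2, hinv', rfl⟩ : IsFieldSubalgebra (finrank F Z') Z')
    have h6 : r < finrank F Z' := by
      rw [← hK.finrank_eq]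
      exact Submodule.finrank_lt_finrank_of_lt (s := Subalgebra.toSubmodule K)
        (t := Subalgebra.toSubmodule Z') h4
    have h7 : 2 ∣ finrank F Z' := by
      obtain ⟨c, hc⟩ := h5
      have : c = 1 := by
        rcases c with _ | _ | c
        · omega
        · rfl
        · nlinarith
      subst this
      omega
    exact Or.inr (Or.inr (deg2 _ (H7.isFieldSubalgebra_powFixAlg h2 hinv' two_pos h7)
      (h1.powFixAlg h2 2) (hf.adj_mem_powFixAlg h2 h3 2)))
  · refine Or.inr (Or.inr (Or.inl ⟨r, K, hr, hK, hsa, hN.le_normalizer, finrank_dvd_of_field hK,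
      fun ho he => ?_, fun h => absurd h h2r, fun h => absurd h hr2⟩))
    exact not_field_full hQ (by omega) ho hH hirr (he ▸ hK) hN.le_normalizer

end Cfsg.Agent.H8
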