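import Cfsg.Agent.H8.OAsch2

/-! Orthogonal Aschbacher theorem, part 3: subfields. -/

set_option autoImplicit false
set_option linter.unusedSectionVars false
set_option linter.style.haveILetI false

namespace Cfsg.Agent.H8

open Module Cfsg.Agent.Orth Cfsg.Geo
open Cfsg.Agent.H7 (Irr AbsIrr IsScal NormA NormG cj Isom HForm adj spanAlg ctr gform tw frameEquiv
  frameVec frameGram frameGL pt slot ptGL permGL)
open scoped Matrix Kronecker commutatorElement

section abstr
variable {F V : Type*} [Field F] [AddCommGroup V] [Module F V] {Q : QuadraticForm F V}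

lemma B_smul_form (c : F) (x y : V) : B (c • Q) x y = c * B Q x y := by
  simp only [B_eq_polar, QuadraticMap.polar, smul_apply, smul_eq_mul]
  ring

lemma ndOn_smul {c : F} (hc : c ≠ 0) {W : Submodule F V} (h : NdOn Q W) : NdOn (c • Q) W :=
  fun v hv h' => h v hv fun x hx => by
    have := h' x hx
    rw [B_smul_form] at this
    exact (mul_eq_zero.1 this).resolve_left hc

lemma plus_smul {c : F} (hc : c ≠ 0) {W : Submodule F V} : Plus (c • Q) W ↔ Plus Q W := by
  refine exists_congr fun U => and_congr_right fun _ => and_congr_left fun _ => ?_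
  refine forall₂_congr fun v _ => ?_
  simp [hc]

lemma perp_smul_form {c : F} (hc : c ≠ 0) (W : Submodule F V) : perp (c • Q) W = perp Q W := by
  ext x
  simp [mem_perp, B_smul_form, hc]

lemma exists_root_of_sq [Fintype F] {F₁ : Subfield F} (h : Fintype.card F = Nat.card F₁ ^ 2)
    {a b : F} (ha : a ∈ F₁) (hb : b ∈ F₁) : ∃ t : F, t * t = a + b * t := by
  by_cases h1 : ∃ r : F₁, r ^ 2 = ⟨a, ha⟩ + ⟨b, hb⟩ * r
  · obtain ⟨r, hr⟩ := h1
    exact ⟨r, by simpa [sq] using congrArg Subtype.val hr⟩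
  push Not at h1
  haveI : Fact (∀ r : F₁, r ^ 2 ≠ ⟨a, ha⟩ + ⟨b, hb⟩ * r) := ⟨h1⟩
  have h2 : finrank F₁ F = 2 := by
    have h3 := Module.natCard_eq_pow_finrank (K := F₁) (V := F)
    rw [Nat.card_eq_fintype_card, h] at h3
    exact (Nat.pow_right_injective (Finite.one_lt_card (α := F₁)) h3).symm
  obtain ⟨φ⟩ := FiniteField.nonempty_algHom_of_finrank_dvd (F := F₁)
    (K := QuadraticAlgebra F₁ ⟨a, ha⟩ ⟨b, hb⟩) (L := F)
    (by rw [QuadraticAlgebra.finrank_eq_two, h2])
  refine ⟨φ QuadraticAlgebra.omega, ?_⟩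
  rw [← map_mul, QuadraticAlgebra.omega_mul_omega_eq_algebraMap, map_add, map_mul,
    AlgHom.commutes, AlgHom.commutes]
  rfl

variable [FiniteDimensional F V] [Finite F]

lemma plus_of_rat {F₁ : Subfield F} (hroot : ∀ a ∈ F₁, ∀ b ∈ F₁, ∃ t : F, t * t = a + b * t)
    (R : Set V) (hadd : ∀ x ∈ R, ∀ y ∈ R, x + y ∈ R) (hsm : ∀ c ∈ F₁, ∀ x ∈ R, c • x ∈ R)
    (hQ : ∀ x ∈ R, Q x ∈ F₁) (j : ℕ) : ∀ W : Submodule F V, NdOn Q W → finrank F W = 2 * j →
      W ≤ Submodule.span F ((W : Set V) ∩ R) → Plus Q W := by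
  have hB : ∀ x ∈ R, ∀ y ∈ R, B Q x y ∈ F₁ := fun x hx y hy => by
    have : B Q x y = Q (x + y) - Q x - Q y := by rw [Q_add]; ring
    rw [this]
    exact sub_mem (sub_mem (hQ _ (hadd x hx y hy)) (hQ x hx)) (hQ y hy)
  have h2F : (2 : F) ∈ F₁ := by simpa using natCast_mem F₁ 2
  induction j with
  | zero =>
    intro W _ hd _
    rw [Submodule.finrank_eq_zero.1 hd]
    exact plus_bot
  | succ j ih =>
    intro W hW hd hsp
    have hout : ∀ X : Submodule F V, ¬ W ≤ X → ∃ x ∈ W, x ∈ R ∧ x ∉ X := by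
      intro X hX
      by_contra h
      push Not at h
      exact hX (hsp.trans (Submodule.span_le.2 fun x hx => h x hx.1 hx.2))
    have hlt : ∀ X : Submodule F V, finrank F X ≤ 1 → ¬ W ≤ X := fun X hX h => by
      have := Submodule.finrank_mono h
      omega
    obtain ⟨e, he, f, hf, heR, hfR, hD⟩ : ∃ e ∈ W, ∃ f ∈ W, e ∈ R ∧ f ∈ R ∧
        4 * Q e * Q f - B Q e f ^ 2 ≠ 0 := by
      by_cases h : ∃ e ∈ W, e ∈ R ∧ e ≠ 0 ∧ 2 * Q e = 0
      · obtain ⟨e, he, heR, he0, h2⟩ := h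
        obtain ⟨f, hf, hfR, hfe⟩ := hout (perp Q (F ∙ e)) (fun h => by
          obtain ⟨x, hx, hxe⟩ := hW.exists_B_ne he he0
          exact hxe (mem_perp_span_singleton.1 (h hx)))
        rw [mem_perp_span_singleton] at hfe
        refine ⟨e, he, f, hf, heR, hfR, fun h => hfe ?_⟩
        have : B Q e f ^ 2 = 0 := by linear_combination 2 * Q f * h2 - h
        exact pow_eq_zero_iff two_ne_zero |>.1 this
      · push Not at h
        obtain ⟨e, he, heR, he0⟩ := hout ⊥ (hlt _ (by simp))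
        rw [Submodule.mem_bot] at he0
        obtain ⟨f, hf, hfR, hfe⟩ := hout (F ∙ e) (hlt _ (finrank_span_singleton_le e))
        refine ⟨e, he, f, hf, heR, hfR, fun hD => ?_⟩
        have h1 := h e he heR he0
        refine h ((-B Q e f) • e + (2 * Q e) • f) (W.add_mem (W.smul_mem _ he) (W.smul_mem _ hf))
          (hadd _ (hsm _ (neg_mem (hB e heR f hfR)) e heR) _
            (hsm _ (mul_mem h2F (hQ e heR)) f hfR)) (fun h0 => hfe ?_) ?_
        · rw [← Submodule.smul_mem_iff _ h1, eq_neg_of_add_eq_zero_right h0]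
          exact Submodule.neg_mem _ (Submodule.smul_mem _ _ (Submodule.mem_span_singleton_self e))
        · rw [Q_pair]
          linear_combination 2 * Q e * hD
    obtain ⟨h1, h2, h3⟩ := split_pair hW he hf hD
    set D := 4 * Q e * Q f - B Q e f ^ 2 with hDdef
    have hDF : D ∈ F₁ := by
      refine sub_mem (mul_mem (mul_mem ?_ (hQ e heR)) (hQ f hfR)) (pow_mem (hB e heR f hfR) 2)
      simpa using natCast_mem F₁ 4
    let π : V →ₗ[F] V := LinearMap.id -
      ((D⁻¹ * (2 * Q f)) • B Q e - (D⁻¹ * B Q e f) • B Q f).smulRight e -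
      ((D⁻¹ * (2 * Q e)) • B Q f - (D⁻¹ * B Q e f) • B Q e).smulRight f
    have hπ : ∀ x, π x = x + (-(D⁻¹ * (2 * Q f) * B Q e x - D⁻¹ * B Q e f * B Q f x)) • e +
        (-(D⁻¹ * (2 * Q e) * B Q f x - D⁻¹ * B Q e f * B Q e x)) • f := fun x => by
      simp only [π, LinearMap.sub_apply, LinearMap.id_apply, LinearMap.smulRight_apply,
        LinearMap.smul_apply, smul_eq_mul, neg_smul]
      abel
    rw [← h3, Plus.sup_iff (ndOn_pair hD) h1 inf_le_right]
    · refine ih _ h1 (by omega) fun x hx => ?_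
      have hx2 := mem_perp_pair.1 hx.2
      have h4 : π x = x := by rw [hπ, hx2.1, hx2.2]; simp
      rw [← h4]
      refine (?_ : (Submodule.span F ((W : Set V) ∩ R)).map π ≤ _)
        (Submodule.mem_map_of_mem (hsp hx.1))
      rw [Submodule.map_span]
      refine Submodule.span_mono ?_
      rintro _ ⟨y, ⟨hy, hyR⟩, rfl⟩
      have hi := inv_mem hDF
      refine ⟨⟨?_, mem_perp_pair.2 ⟨?_, ?_⟩⟩, ?_⟩
      · rw [hπ]
        exact W.add_mem (W.add_mem hy (W.smul_mem _ he)) (W.smul_mem _ hf)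
      · rw [hπ, add_assoc, map_add, B_left_pair]
        field_simp
        rw [hDdef]; ring
      · rw [hπ, add_assoc, map_add, B_right_pair]
        field_simp
        rw [hDdef]; ring
      · rw [hπ]
        refine hadd _ (hadd _ hyR _ (hsm _ (neg_mem (sub_mem ?_ ?_)) _ heR)) _
          (hsm _ (neg_mem (sub_mem ?_ ?_)) _ hfR)
        · exact mul_mem (mul_mem hi (mul_mem h2F (hQ f hfR))) (hB e heR y hyR)
        · exact mul_mem (mul_mem hi (hB e heR f hfR)) (hB f hfR y hyR)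
        · exact mul_mem (mul_mem hi (mul_mem h2F (hQ e heR))) (hB f hfR y hyR)
        · exact mul_mem (mul_mem hi (hB e heR f hfR)) (hB e heR y hyR)
    · by_cases hq : Q e = 0
      · refine plus_of_sing (finrank_pair hD) (left_mem_pair e f) (fun h0 => hD ?_) hq
        rw [hDdef, h0]; simp
      · obtain ⟨t, ht⟩ := hroot (-(Q f / Q e)) (neg_mem (div_mem (hQ f hfR) (hQ e heR)))
          (-(B Q e f / Q e)) (neg_mem (div_mem (hB e heR f hfR) (hQ e heR)))
        refine plus_of_sing (finrank_pair hD) (mem_span_pair'.2 ⟨t, 1, rfl⟩) (fun h0 => ?_) ?_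
        · exact one_ne_zero (pair_coeff_eq_zero hD (a := t) (b := 1) (by rw [h0, map_zero])
            (by rw [h0, map_zero])).2
        · rw [Q_pair, ht]
          field_simp
          ring

end abstr

variable {ι : Type} [Fintype ι] [DecidableEq ι] {F : Type*} [Field F] [Fintype F]
  {Q : (ι → F) → F} (hQ : IsNondegenerateQuadraticForm Q)

/-- subfield case -/
def CSub (Q : (ι → F) → F) (H : Subgroup (GL ι F)) : Prop :=
  ∃ (F₀ : Subfield F) (r : ℕ) (P : GL ι F) (ζ : F), r.Prime ∧ Fintype.card F = Nat.card F₀ ^ r ∧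
    ζ ≠ 0 ∧ IsQuadFormRationalStructure (fun v => ζ * Q v) F₀ P ∧ H ≤ subfieldSubgroup F₀ P

lemma sum_single_eq (u : ι → F) : u = ∑ i, u i • (Pi.single i 1 : ι → F) := by
  ext j
  simp [Finset.sum_apply, Pi.single_apply]

include hQ

lemma plus_of_rational_two (he : Even (Fintype.card ι)) {F₀ : Subfield F} {P : GL ι F} {ζ : F}
    (h : Fintype.card F = Nat.card F₀ ^ 2) (hζ : ζ ≠ 0)
    (hr : IsQuadFormRationalStructure (fun v => ζ * Q v) F₀ P) : IsPlusTypeOn Q ⊤ := by
  obtain ⟨j, hj⟩ := he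
  rw [plus_iff hQ, ← plus_smul hζ]
  refine plus_of_rat (F₁ := F₀) (fun a ha b hb => exists_root_of_sq h ha hb)
    {x | ∀ i, (((P⁻¹ : GL ι F) : Matrix ι ι F) *ᵥ x) i ∈ F₀} (fun x hx y hy i => ?_)
    (fun c hc x hx i => ?_) (fun x hx => ?_) j ⊤ (ndOn_smul hζ (nd_toQF hQ).ndOn_top)
    (by rw [finrank_top, finrank_fintype_fun_eq_card]; omega) fun x _ => ?_
  · rw [Matrix.mulVec_add]; exact add_mem (hx i) (hy i)
  · rw [Matrix.mulVec_smul]; exact mul_mem hc (hx i)
  · have := hr _ hx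
    rwa [H7.val_mulVec_inv] at this
  · rw [← H7.val_mulVec_inv P x, sum_single_eq (_ *ᵥ x), Matrix.mulVec_sum]
    refine Submodule.sum_mem _ fun i _ => ?_
    rw [Matrix.mulVec_smul]
    refine Submodule.smul_mem _ _ (Submodule.subset_span ⟨trivial, fun l => ?_⟩)
    rw [H7.inv_mulVec_val]
    exact H7.single_mem_subfield F₀ i (one_mem _) l

omit hQ in
lemma semilin_sum {φ : (ι → F) → F} (S : Set (ι → F)) (h0 : φ 0 = 0) (hS0 : (0 : ι → F) ∈ S)
    (hSa : ∀ u ∈ S, ∀ v ∈ S, u + v ∈ S) (hadd : ∀ u ∈ S, ∀ v ∈ S, φ (u + v) = φ u + φ v)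
    {α : Type*} (s : Finset α) (x : α → ι → F) (hx : ∀ a, x a ∈ S) :
    φ (∑ a ∈ s, x a) = ∑ a ∈ s, φ (x a) := by
  classical
  have : ∑ a ∈ s, x a ∈ S ∧ φ (∑ a ∈ s, x a) = ∑ a ∈ s, φ (x a) := by
    induction s using Finset.induction_on with
    | empty => simp [h0, hS0]
    | insert a s ha ih =>
      rw [Finset.sum_insert ha, Finset.sum_insert ha, hadd _ (hx a) _ ih.1, ih.2]
      exact ⟨hSa _ (hx a) _ ih.1, rfl⟩
  exact this.2

lemma quad_rational (hn : 2 ≤ Fintype.card ι) {L : Subgroup (GL ι F)} (hL : Irr L)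
    (hLI : L ≤ isometryGroup F Q) {F₁ : Subfield F} {P : GL ι F} {ζ : F}
    (hr : IsFormRationalStructure (QuadraticMap.polar Q) F₁ ζ P)
    (hP : ∀ g ∈ L, ∀ i j, cj P⁻¹ (g : Matrix ι ι F) i j ∈ F₁) :
    IsQuadFormRationalStructure (fun v => ζ * Q v) F₁ P := by
  intro u hu
  by_cases h2 : (2 : F) = 0
  swap
  · have := hr u u hu hu
    rw [H7.polar_self hQ] at this
    have h2F : (2 : F) ∈ F₁ := by simpa using natCast_mem F₁ 2
    have h3 := mul_mem (inv_mem h2F) this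
    convert h3 using 1
    field_simp
  obtain ⟨τ, -, hτ⟩ := H7.exists_fixHom F₁
  let δ : (ι → F) → F := fun u => τ (ζ * Q ((P : Matrix ι ι F) *ᵥ u)) - ζ * Q ((P : Matrix ι ι F) *ᵥ u)
  let S : Set (ι → F) := {u | ∀ i, u i ∈ F₁}
  have hδ : ∀ u ∈ S, δ u = ∑ i, u i ^ 2 * δ (Pi.single i 1) := by
    intro u hu
    conv_lhs => rw [sum_single_eq u]
    rw [semilin_sum (φ := δ) S (by simp [δ, Q_zero hQ]) (fun i => zero_mem _)
      (fun u hu v hv i => add_mem (hu i) (hv i)) (fun u hu v hv => ?_) _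
      (fun i => u i • (Pi.single i 1 : ι → F)) (fun a i => mul_mem (hu a) (H7.single_mem_subfield F₁ a (one_mem _) i))]
    · refine Finset.sum_congr rfl fun i _ => ?_
      simp only [δ, Matrix.mulVec_smul, Q_smul' hQ, map_mul, (hτ _).2 (hu i)]
      ring
    · simp only [δ, Matrix.mulVec_add, Q_add' hQ, mul_add, map_add, (hτ _).2 (hr u v hu hv)]
      ring
  let ψ : (ι → F) → F := fun u => ∑ i, u i ^ 2 * δ (Pi.single i 1)
  have hψa : ∀ u v, ψ (u + v) = ψ u + ψ v := fun u v => by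
    simp only [ψ, Pi.add_apply, ← Finset.sum_add_distrib]
    refine Finset.sum_congr rfl fun i _ => ?_
    linear_combination (u i * v i * δ (Pi.single i 1)) * h2
  have hψs : ∀ (c : F) u, ψ (c • u) = c ^ 2 * ψ u := fun c u => by
    simp only [ψ, Pi.smul_apply, smul_eq_mul, Finset.mul_sum]
    refine Finset.sum_congr rfl fun i _ => by ring
  have hψg : ∀ g ∈ L, ∀ u, ψ (cj P⁻¹ (g : Matrix ι ι F) *ᵥ u) = ψ u := by
    intro g hg u
    conv_lhs => rw [sum_single_eq u, Matrix.mulVec_sum]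
    rw [semilin_sum Set.univ (by simp [ψ]) trivial (fun _ _ _ _ => trivial)
      (fun u _ v _ => hψa u v) _ _ (fun _ => trivial)]
    refine Finset.sum_congr rfl fun i _ => ?_
    rw [Matrix.mulVec_smul, hψs]
    congr 1
    refine (hδ _ fun l => by simpa using hP g hg l i).symm.trans ?_
    have : (P : Matrix ι ι F) *ᵥ (cj P⁻¹ (g : Matrix ι ι F) *ᵥ Pi.single i 1) =
        (g : Matrix ι ι F) *ᵥ ((P : Matrix ι ι F) *ᵥ Pi.single i 1) := by
      rw [← H7.cj_mulVec, H7.cj_cj_inv]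
    simp only [δ, this, Q_val hQ (hLI hg)]
  have := hL.eq_zero_of_semilinear hn h2
    (φ := fun v => ψ (((P⁻¹ : GL ι F) : Matrix ι ι F) *ᵥ v))
    (fun u v => by rw [Matrix.mulVec_add, hψa]) (fun c v => by rw [Matrix.mulVec_smul, hψs])
    (fun g hg v hv => by rw [← H7.cj_mulVec, hψg g hg, hv]) ((P : Matrix ι ι F) *ᵥ u)
  rw [H7.inv_mulVec_val] at this
  exact (hτ _).1 (sub_eq_zero.1 ((hδ u hu).trans this))

lemma csub_of_realisable (hn : 2 ≤ Fintype.card ι) {H L : Subgroup (GL ι F)} (hL : AbsIrr L)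
    (hN : NormG H L) (hLI : L ≤ isometryGroup F Q) {F₀ : Subfield F} (h0 : F₀ ≠ ⊤)
    (hr : RealisableOver F₀ (matrixSet L)) : CSub Q H := by
  haveI : Nonempty ι := H7.nonempty_of_two_le hn
  obtain ⟨F₁, r, P, ζ, h1, -, h2, h3, h4, h5, h6⟩ := hL.subfield_form hN h0 hr (hfQ hQ).toSesq
    (fun g hg => ⟨1, one_mem _, fun u v => by rw [isom_of_le hQ hLI g hg, one_mul]⟩)
  exact ⟨F₁, r, P, ζ, h1, h2, h3, quad_rational hQ hn hL.1 hLI h4 h5, h6⟩

theorem quasi_cases (hn : 2 ≤ Fintype.card ι) {H : Subgroup (GL ι F)} (hH : H ≤ isometryGroup F Q)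
    (h : H7.QuasiCase H) : CSub Q H ∨ InOrthogonalResidualClass H := by
  haveI : Nonempty ι := H7.nonempty_of_two_le hn
  obtain ⟨L, h1, h2, h3, ⟨F₀, h0, hr⟩ | h4⟩ := h.exists_core
  · exact Or.inl (csub_of_realisable hQ hn h3 h2 (h1.trans hH) h0 hr)
  · refine Or.inr ⟨L, h4, ?_⟩
    rintro ⟨σ, f, hf, hfix⟩
    exact h4.no_subfield _ (H7.fixField_ne_top (H7.IsUnitaryForm.exists_ne hf))
      (h3.realisableOver_of_two (H7.hform_of_unitary hf).toSesq (hfQ hQ).toSesq
        (H7.isom_of_fixesForm hfix) (isom_of_le hQ (h1.trans hH)))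

omit hQ in
lemma det_mem_subfield {F₀ : Subfield F} {X : Matrix ι ι F} (h : ∀ i j, X i j ∈ F₀) :
    X.det ∈ F₀ := by
  rw [Matrix.det_apply']
  exact sum_mem fun σ _ => mul_mem (intCast_mem _ _) (prod_mem fun i _ => h _ _)

omit hQ in
lemma polar_mem_of_rational {Q : (ι → F) → F} {F₀ : Subfield F} {P : GL ι F}
    (h : IsQuadFormRationalStructure Q F₀ P) {u v : ι → F} (hu : ∀ i, u i ∈ F₀)
    (hv : ∀ i, v i ∈ F₀) :
    QuadraticMap.polar Q ((P : Matrix ι ι F) *ᵥ u) ((P : Matrix ι ι F) *ᵥ v) ∈ F₀ := by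
  unfold QuadraticMap.polar
  rw [← Matrix.mulVec_add]
  exact sub_mem (sub_mem (h _ fun i => add_mem (hu i) (hv i)) (h u hu)) (h v hv)

lemma CSub.odd (ho : Odd (Fintype.card ι))
    (hstd : ∀ F₀ : Subfield F, IsQuadFormRationalStructure Q F₀ 1) {H : Subgroup (GL ι F)}
    (h : CSub Q H) : ∃ (F₀ : Subfield F) (r : ℕ) (P : GL ι F), r.Prime ∧
      Fintype.card F = Nat.card F₀ ^ r ∧ IsQuadFormRationalStructure Q F₀ P ∧
      H ≤ subfieldSubgroup F₀ P := by
  haveI : Nonempty ι := Fintype.card_pos_iff.1 ho.pos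
  obtain ⟨F₀, r, P, ζ, h1, h2, h3, h4, h5⟩ := h
  obtain ⟨m, hm⟩ := ho
  have hf := hfQ hQ
  set G := gramMatrix (QuadraticMap.polar Q) with hG
  have hG0 : G.det ≠ 0 := hf.toSesq.det_ne_zero
  have hG1 : G.det ∈ F₀ := det_mem_subfield fun i j => by
    have := polar_mem_of_rational (hstd F₀)
      (H7.single_mem_subfield F₀ i (one_mem _)) (H7.single_mem_subfield F₀ j (one_mem _))
    rwa [Units.val_one, Matrix.one_mulVec, Matrix.one_mulVec] at this
  have hG2 : (ζ • tw (RingHom.id F) G (P : Matrix ι ι F)).det ∈ F₀ := det_mem_subfield fun i j => by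
    have := polar_mem_of_rational h4 (H7.single_mem_subfield F₀ i (one_mem _))
      (H7.single_mem_subfield F₀ j (one_mem _))
    convert this using 1
    rw [Matrix.smul_apply, ← H7.gform_single (RingHom.id F) (tw _ G _), ← H7.gform_tw,
      ← hf.toSesq.eq_gform]
    simp only [QuadraticMap.polar, smul_eq_mul]
    ring
  simp only [tw, Matrix.det_smul, Matrix.det_mul, Matrix.det_transpose, RingHom.coe_id,
    Matrix.map_id, hm] at hG2
  have hP := H7.val_det_ne_zero P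
  set d := ζ ^ m * (P : Matrix ι ι F).det with hd
  have hd0 : d ≠ 0 := mul_ne_zero (pow_ne_zero _ h3) hP
  have hs : ζ * d ^ 2 ∈ F₀ := by
    have := mul_mem hG2 (inv_mem hG1)
    convert this using 1
    rw [hd]
    field_simp
    ring
  refine ⟨F₀, r, H7.scalGL ι (Units.mk0 (ζ * d) (mul_ne_zero h3 hd0)) * P, h1, h2, fun u hu => ?_,
    fun g hg => ?_⟩
  · have := mul_mem hs (h4 u hu)
    convert this using 1
    rw [Units.val_mul, H7.scalGL_val, ← Matrix.mulVec_mulVec, Matrix.smul_mulVec,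
      Matrix.one_mulVec, Q_smul' hQ, Units.val_mk0]
    ring
  · have := h5 hg
    rw [H7.mem_subfieldSubgroup_iff] at this ⊢
    rwa [H7.scalGL_comm, _root_.mul_inv_rev, ← H7.scalGL_inv, H7.cj_scalGL_mul]

omit hQ in
lemma rational_quadFormOdd (m : ℕ) (F₀ : Subfield F) :
    IsQuadFormRationalStructure (quadFormOdd m F) F₀ 1 := by
  intro u hu
  rw [Units.val_one, Matrix.one_mulVec]
  exact add_mem (pow_mem (hu _) 2) (sum_mem fun i _ => mul_mem (hu _) (hu _))

lemma Q_sum_orth {α : Type*} (s : Finset α) (x : α → ι → F)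
    (h : ∀ a b, a ≠ b → QuadraticMap.polar Q (x a) (x b) = 0) :
    Q (∑ a ∈ s, x a) = ∑ a ∈ s, Q (x a) := by
  classical
  induction s using Finset.induction_on with
  | empty => simp [Q_zero hQ]
  | insert a s ha ih =>
    rw [Finset.sum_insert ha, Finset.sum_insert ha, Q_add' hQ, ih, (hfQ hQ).toSesq.sum_right,
      Finset.sum_eq_zero fun b hb => h a b (fun hab => ha (hab ▸ hb)), add_zero]

lemma csub_of_frame {t : ℕ} {D : Fin t → Submodule F (ι → F)}
    (hD : IsOrthogonalMDecomposition Q 1 D) (hq : ¬ (Fintype.card F).Prime)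
    {H : Subgroup (GL ι F)} (hH : H ≤ isometryGroup F Q) (hs : H ≤ decompositionStabilizer D) :
    CSub Q H := by
  have ht := hD.decomp.decomp.two_le
  have hm := H7.IsMDecomposition.mul_eq hD.decomp.decomp
  haveI : Nonempty ι := H7.nonempty_of_two_le (by omega)
  have hO := odec_of hQ hD.decomp
  let i0 : Fin t := ⟨0, by omega⟩
  obtain ⟨v0, hv0, hD0⟩ := exists_eq_span_singleton (hO.nd i0) (hO.rk i0)
  have hv : ∀ i, ∃ v, Q v = Q v0 ∧ D i = F ∙ v := by
    intro i
    obtain ⟨f, hf1, hf2⟩ := iso_of_isometric hQ (hD.isometric i0 i)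
    refine ⟨f v0, hf2 v0 (hD0 ▸ Submodule.mem_span_singleton_self v0), ?_⟩
    rw [← hf1, hD0, Submodule.map_span, Set.image_singleton]
  choose v hv1 hv2 using hv
  have hvm : ∀ i, v i ∈ D i := fun i => hv2 i ▸ Submodule.mem_span_singleton_self _
  rw [toQF_apply] at hv0
  have hvne : ∀ i, v i ≠ 0 := fun i h => hv0 (by rw [← hv1 i, h, Q_zero hQ])
  have hli : LinearIndependent F v :=
    hD.decomp.decomp.indep.linearIndependent _ hvm hvne
  obtain ⟨e, P, hP⟩ := H7.exists_frame v hli (by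
    rw [← hD.decomp.decomp.iSup_eq_top]
    refine iSup_le fun i => ?_
    rw [hv2 i]
    exact Submodule.span_mono (by simp))
  have hP' : ∀ i, (P : Matrix ι ι F) *ᵥ Pi.single i 1 = v (e i) := fun i => by
    rw [← hP, H7.frameVec_apply]
    congr 1
    ext l
    simp [Pi.single_apply]
  obtain ⟨p, hp⟩ := CharP.exists F
  haveI : Fact p.Prime := ⟨CharP.char_is_prime F p⟩
  obtain ⟨F₁, r, h1, -, h2⟩ := H7.exists_prime_index_subfield (⊥ : Subfield F) (fun h => hq (by
    have := Subfield.card_bot F p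
    rw [h, Nat.card_congr (Subfield.topEquiv (K := F)).toEquiv, Nat.card_eq_fintype_card] at this
    rw [this]; exact Fact.out))
  refine ⟨F₁, r, P, (Q v0)⁻¹, h1, h2, inv_ne_zero hv0, fun u hu => ?_, fun g hg => ?_⟩
  · change (Q v0)⁻¹ * Q _ ∈ F₁
    rw [sum_single_eq u, Matrix.mulVec_sum, Q_sum_orth hQ, Finset.mul_sum]
    · refine sum_mem fun i _ => ?_
      rw [Matrix.mulVec_smul, hP', Q_smul' hQ, hv1, mul_left_comm, inv_mul_cancel₀ hv0, mul_one]
      exact mul_mem (hu i) (hu i)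
    · intro a b hab
      rw [Matrix.mulVec_smul, Matrix.mulVec_smul, hP', hP']
      exact hD.decomp.orthogonal _ _ (e.injective.ne hab) _ (Submodule.smul_mem _ _ (hvm _)) _
        (Submodule.smul_mem _ _ (hvm _))
  · rw [H7.mem_subfieldSubgroup_iff]
    refine ⟨1, one_ne_zero, fun i j => ?_⟩
    obtain ⟨σ, hσ⟩ := hs hg
    have h3 : (g : Matrix ι ι F) *ᵥ v (e j) ∈ D (σ (e j)) := hσ _ ▸ ⟨_, hvm _, by simp⟩
    rw [hv2, Submodule.mem_span_singleton] at h3
    obtain ⟨a, ha⟩ := h3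
    have h4 : a * a = 1 := by
      have := Q_val hQ (hH hg) (v (e j))
      rw [← ha, Q_smul' hQ, hv1, hv1] at this
      exact mul_right_cancel₀ hv0 (this.trans (one_mul _).symm)
    have h5 : a ∈ F₁ := by
      rcases mul_self_eq_one_iff.1 h4 with rfl | rfl
      · exact one_mem _
      · exact neg_mem (one_mem _)
    have h6 := H7.cj_mulVec P⁻¹ (g : Matrix ι ι F) (v (e j))
    rw [← ha, ← hP', H7.inv_mulVec_val, ← e.apply_symm_apply (σ (e j)), ← hP', Matrix.mulVec_smul,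
      H7.inv_mulVec_val] at h6
    have h7 := congrFun h6 i
    simp only [Matrix.mulVec_single_one, Matrix.col_apply] at h7
    rw [one_mul, h7]
    exact mul_mem h5 (H7.single_mem_subfield F₁ _ (one_mem _) i)

end Cfsg.Agent.H8
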