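import Cfsg.Agent.H8.OAsch3

/-! Orthogonal Aschbacher theorem, part 4: tensor factors. -/

set_option autoImplicit false
set_option linter.unusedSectionVars false
set_option linter.style.haveILetI false

namespace Cfsg.Agent.H8

open Module Cfsg.Agent.Orth Cfsg.Geo
open Cfsg.Agent.H7 (Irr AbsIrr IsScal NormA NormG cj Isom HForm adj spanAlg ctr gform tw frameEquiv
  frameVec frameGram frameGL pt slot ptGL permGL J2)
open scoped Matrix Kronecker commutatorElement

section small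
variable {F : Type*} [Field F] {α β : Type} [Fintype α] [DecidableEq α] [Fintype β] [DecidableEq β]

lemma cj_eq_of_mul {g : GL α F} {x y : Matrix α α F} (h : (g : Matrix α α F) * x = y * g) :
    cj g x = y :=
  H7.mul_right_cancel_det (H7.val_det_ne_zero g) (by rw [H7.cj_mul_val, h])

/-- the form as a bilinear function -/
abbrev gf (A : Matrix α α F) : (α → F) → (α → F) → F := gform (RingHom.id F) A

lemma gf_def (A : Matrix α α F) (u v : α → F) : gf A u v = u ⬝ᵥ (A *ᵥ v) := rfl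

lemma gf_add_left (A : Matrix α α F) (u u' v : α → F) : gf A (u + u') v = gf A u v + gf A u' v := by
  simp only [gf_def, add_dotProduct]

lemma gf_add_right (A : Matrix α α F) (u v v' : α → F) :
    gf A u (v + v') = gf A u v + gf A u v' := by
  simp only [gf_def, Matrix.mulVec_add, dotProduct_add]

lemma gf_smul_left (A : Matrix α α F) (c : F) (u v : α → F) : gf A (c • u) v = c * gf A u v := by
  simp only [gf_def, smul_dotProduct, smul_eq_mul]

lemma gf_smul_right (A : Matrix α α F) (c : F) (u v : α → F) : gf A u (c • v) = c * gf A u v := by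
  simp only [gf_def, Matrix.mulVec_smul, dotProduct_smul, smul_eq_mul]

lemma gf_transpose (A : Matrix α α F) (u v : α → F) : gf Aᵀ u v = gf A v u := by
  rw [gf_def, gf_def, Matrix.dotProduct_mulVec, Matrix.vecMul_transpose, dotProduct_comm]

lemma gf_symm {A : Matrix α α F} (h : Aᵀ = A) (u v : α → F) : gf A u v = gf A v u := by
  rw [← gf_transpose, h]

lemma gf_sim {A x : Matrix α α F} {μ : F} (h : tw (RingHom.id F) A x = μ • A) (u v : α → F) :
    gf A (x *ᵥ u) (x *ᵥ v) = μ * gf A u v := by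
  rw [gf, H7.gform_tw, h, H7.gform_smul]

/-- the similarity group of `A` normalises a commutative adjoint-closed non-scalar set -/
def Small (A : Matrix α α F) : Prop :=
  ∃ S : Set (Matrix α α F), (∀ X ∈ S, ∀ Y ∈ S, X * Y = Y * X) ∧ (∀ X ∈ S, ∃ Y ∈ S, Xᵀ * A = A * Y) ∧
    (∃ X ∈ S, ¬ IsScal X) ∧
    ∀ (x : GL α F) (μ : F), tw (RingHom.id F) A x = μ • A → ∀ X ∈ S, cj x X ∈ S

lemma small_two {B : Matrix (Fin 2) (Fin 2) F} (hB : B.det ≠ 0) (hs : Bᵀ = B)
    (h : (2 : F) ≠ 0 ∨ ∃ i, B i i ≠ 0) : Small B := by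
  refine ⟨{X | ∃ c : F, X = c • (B⁻¹ * J2 F)}, ?_, ?_, ⟨_, ⟨1, rfl⟩, ?_⟩, ?_⟩
  · rintro _ ⟨c, rfl⟩ _ ⟨d, rfl⟩
    rw [smul_mul_smul_comm, smul_mul_smul_comm, mul_comm c d]
  · rintro _ ⟨c, rfl⟩
    refine ⟨_, ⟨-c, rfl⟩, ?_⟩
    rw [Matrix.transpose_smul, Matrix.transpose_mul, H7.J2_transpose, Matrix.transpose_nonsing_inv,
      hs, Matrix.smul_mul, Matrix.mul_smul, Matrix.nonsing_inv_mul_cancel_right _ _ hB.isUnit,
      Matrix.mul_nonsing_inv_cancel_left _ _ hB.isUnit, smul_neg, neg_smul]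
  · rintro ⟨c, hc⟩
    rw [one_smul] at hc
    have h3 : J2 F = c • B := by
      rw [← Matrix.mul_nonsing_inv_cancel_left B (J2 F) hB.isUnit, hc, Matrix.mul_smul, mul_one]
    have h4 := congrFun (congrFun h3 0) 1
    have h5 := congrFun (congrFun h3 1) 0
    have h6 := congrFun (congrFun hs 0) 1
    simp only [J2, Matrix.of_apply, Matrix.cons_val', Matrix.cons_val_zero, Matrix.cons_val_one,
      Matrix.cons_val_fin_one, Matrix.smul_apply, smul_eq_mul, Matrix.transpose_apply] at h4 h5 h6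
    rcases h with h | ⟨i, hi⟩
    · apply h
      rw [h6] at h5
      linear_combination h4 - h5
    · have h7 := congrFun (congrFun h3 i) i
      rw [H7.J2_diag, Matrix.smul_apply, smul_eq_mul, eq_comm, mul_eq_zero] at h7
      rcases h7 with h7 | h7
      · rw [h7] at h4; simp at h4
      · exact hi h7
  · rintro y ν hy _ ⟨c, rfl⟩
    have hd := H7.val_det_ne_zero y
    have h1 : (y : Matrix (Fin 2) (Fin 2) F) * (B⁻¹ * J2 F) =
        ((ν / (y : Matrix (Fin 2) (Fin 2) F).det) • (B⁻¹ * J2 F)) * y := by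
      have h3 := H7.tw_J2 (y : Matrix (Fin 2) (Fin 2) F)
      simp only [tw, RingHom.coe_id, Matrix.map_id] at hy h3
      apply H7.mul_left_cancel_det (z := (y : Matrix (Fin 2) (Fin 2) F)ᵀ * B)
        (by rw [Matrix.det_mul, Matrix.det_transpose]; exact mul_ne_zero hd hB)
      rw [← mul_assoc, hy, Matrix.smul_mul, Matrix.mul_nonsing_inv_cancel_left _ _ hB.isUnit,
        Matrix.smul_mul, Matrix.mul_smul, mul_assoc, mul_assoc,
        Matrix.mul_nonsing_inv_cancel_left _ _ hB.isUnit, ← mul_assoc, h3, smul_smul,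
        div_mul_cancel₀ _ hd]
    exact ⟨c * (ν / (y : Matrix (Fin 2) (Fin 2) F).det), by
      rw [map_smul, cj_eq_of_mul h1, smul_smul]⟩

lemma small_sp2 [Fintype F] (hq : Fintype.card F = 2) {A : Matrix (Fin 2) (Fin 2) F}
    (hA : A.det ≠ 0) (hd : ∀ i, A i i = 0) : Small A := by
  have hq' : Nat.card F = 2 := by rw [Nat.card_eq_fintype_card, hq]
  have h2 : (2 : F) = 0 := by
    have := cast_card_eq_zero (F := F)
    rw [hq'] at this
    exact_mod_cast this
  have hA' : A = !![0, 1; 1, 0] := by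
    rw [Matrix.det_fin_two, hd, zero_mul, zero_sub, neg_ne_zero, mul_ne_zero_iff] at hA
    ext i j
    fin_cases i <;> fin_cases j <;> simp [hd, eq_one_of_card_two hq' hA.1,
      eq_one_of_card_two hq' hA.2]
  have hS : ∀ X : Matrix (Fin 2) (Fin 2) F, X.trace = 1 → X.det = 1 →
      X = !![X 0 0, 1; 1, 1 - X 0 0] := by
    intro X h1 h3
    rw [Matrix.trace_fin_two] at h1
    rw [Matrix.det_fin_two] at h3
    have h4 : X 0 0 * X 1 1 = 0 := by
      by_contra h
      rw [eq_one_of_card_two hq' (left_ne_zero_of_mul h),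
        eq_one_of_card_two hq' (right_ne_zero_of_mul h)] at h1
      simp at h1
    have h5 : X 0 1 * X 1 0 ≠ 0 := fun h => by rw [h4, h] at h3; simp at h3
    ext i j
    fin_cases i <;> fin_cases j <;> simp [eq_one_of_card_two hq' (left_ne_zero_of_mul h5),
      eq_one_of_card_two hq' (right_ne_zero_of_mul h5), ← h1]
  refine ⟨{X | X.trace = 1 ∧ X.det = 1}, ?_, ?_, ⟨!![0, 1; 1, 1], ⟨by simp, ?_⟩, ?_⟩, ?_⟩
  · rintro X ⟨h1, h3⟩ Y ⟨h4, h5⟩
    rw [hS X h1 h3, hS Y h4 h5]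
    ext i j
    fin_cases i <;> fin_cases j <;> simp
    · ring
    · linear_combination (X 0 0 - Y 0 0) * h2
    · linear_combination (Y 0 0 - X 0 0) * h2
    · ring
  · rintro X ⟨h1, h3⟩
    refine ⟨!![X 1 1, X 0 1; X 1 0, X 0 0], ⟨?_, ?_⟩, ?_⟩
    · rw [Matrix.trace_fin_two] at h1
      simp [← h1, add_comm]
    · rw [Matrix.det_fin_two] at h3
      simp [← h3, mul_comm]
    · rw [hA']
      ext i j
      fin_cases i <;> fin_cases j <;> simp [Matrix.mul_apply]
  · simp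
    linear_combination -h2
  · rintro ⟨c, hc⟩
    have := congrFun (congrFun hc 0) 1
    simp at this
  · rintro x μ - X ⟨h1, h3⟩
    exact ⟨by rw [H7.cj_apply, Matrix.trace_units_conj, h1],
      by rw [H7.cj_apply, Matrix.det_units_conj, h3]⟩

/-- the quadratic form `v ↦ A(v, v)` -/
noncomputable def qf {A : Matrix α α F} (hA : A.det ≠ 0) (hs : Aᵀ = A) (h2 : (2 : F) ≠ 0) :
    QuadraticForm F (α → F) := toQF (H7.isQuad_diag (H7.isSymmetricForm_gform hA hs) h2)

section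
variable {A : Matrix α α F} (hA : A.det ≠ 0) (hs : Aᵀ = A) (h2 : (2 : F) ≠ 0)

lemma qf_apply (v : α → F) : qf hA hs h2 v = gf A v v := rfl

lemma B_qf (u v : α → F) : B (qf hA hs h2) u v = 2 * gf A u v :=
  H7.polar_diag (H7.isSymmetricForm_gform hA hs) u v

lemma nd_qf : Nd (qf hA hs h2) := nd_toQF _

end

lemma small_three [Fintype F] (hq : Fintype.card F = 3) {A : Matrix (Fin 3) (Fin 3) F}
    (hA : A.det ≠ 0) (hs : Aᵀ = A) : Small A := by
  have hq' : Nat.card F = 3 := by rw [Nat.card_eq_fintype_card, hq]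
  have h2 : (2 : F) ≠ 0 := H7.two_ne_zero_of_odd (by rw [hq]; decide)
  obtain ⟨v, hv⟩ := frame_dim_three hq' (nd_qf hA hs h2).ndOn_top (by simp)
  have hex : ∀ u : Fin 3 → F, ∃ X : Matrix (Fin 3) (Fin 3) F, ∀ w, X *ᵥ w = gf A u w • u := by
    intro u
    refine ⟨Matrix.vecMulVec u (u ᵥ* A), fun w => ?_⟩
    rw [Matrix.vecMulVec_mulVec, gf_def, Matrix.dotProduct_mulVec]
    simp
  refine ⟨{X | ∃ u, FrameVec (qf hA hs h2) ⊤ u ∧ gf A u u = gf A v v ∧
    ∀ w, X *ᵥ w = gf A u w • u}, ?_, ?_, ?_, ?_⟩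
  · rintro X ⟨u, hu, hq1, hX⟩ Y ⟨u', hu', hq2, hY⟩
    refine H7.mat_eq_of_mulVec fun w => ?_
    rw [← Matrix.mulVec_mulVec, ← Matrix.mulVec_mulVec, hX, hX, hY, hY, gf_smul_right,
      gf_smul_right]
    rcases hu.2.2 u' trivial (hq2.trans hq1.symm) with h | h
    · obtain ⟨c, rfl⟩ := Submodule.mem_span_singleton.1 h
      simp only [gf_smul_left, gf_smul_right, smul_smul]
      congr 1
      ring
    · rw [B_qf, mul_eq_zero, or_iff_right h2] at h
      rw [h, gf_symm hs u' u, h]; simp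
  · rintro X ⟨u, hu, hq1, hX⟩
    refine ⟨X, ⟨u, hu, hq1, hX⟩, H7.gform_ext (σ := RingHom.id F) fun a b => ?_⟩
    have h1 := H7.gform_mulVec_right (RingHom.id F) A X a b
    rw [RingHom.coe_id, Matrix.map_id] at h1
    rw [← H7.gform_mulVec_left, ← h1, hX, hX]
    change gf A _ _ = gf A _ _
    rw [gf_smul_left, gf_smul_right, gf_symm hs a u, mul_comm]
  · obtain ⟨X, hX⟩ := hex v
    refine ⟨X, ⟨v, hv, rfl, hX⟩, ?_⟩
    rintro ⟨c, rfl⟩
    simp only [Matrix.smul_mulVec, Matrix.one_mulVec] at hX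
    have hc : c ≠ 0 := by
      rintro rfl
      have := hX v
      rw [zero_smul, eq_comm, smul_eq_zero] at this
      exact this.elim hv.2.1 (ne_zero_of_Q_ne hv.2.1)
    have h3 : (⊤ : Submodule F (Fin 3 → F)) ≤ F ∙ v := fun w _ => by
      rw [← Submodule.smul_mem_iff _ hc, hX]
      exact Submodule.smul_mem _ _ (Submodule.mem_span_singleton_self v)
    have := (Submodule.finrank_mono h3).trans (finrank_span_singleton_le v)
    simp at this
  · rintro x μ hx X ⟨u, hu, hq1, hX⟩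
    have hμ : μ = 1 := by
      have h1 := congrArg Matrix.det hx
      simp only [tw, RingHom.coe_id, Matrix.map_id, Matrix.det_mul, Matrix.det_transpose,
        Matrix.det_smul, Fintype.card_fin] at h1
      have h3 := mul_self_of_card_le_three hq'.le (H7.val_det_ne_zero x)
      have h4 : μ ^ 3 = 1 := mul_right_cancel₀ hA (by linear_combination -h1 + A.det * h3)
      have h5 : μ ≠ 0 := by rintro rfl; simp at h4
      have h6 := mul_self_of_card_le_three hq'.le h5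
      linear_combination h4 - μ * h6
    have h1 := gf_sim hx
    simp only [hμ, one_mul] at h1
    refine ⟨(x : Matrix (Fin 3) (Fin 3) F) *ᵥ u, ⟨trivial, ?_, fun y _ hy => ?_⟩, ?_, fun w => ?_⟩
    · rw [qf_apply, h1]; exact hu.2.1
    · rw [← H7.val_mulVec_inv x y] at hy ⊢
      rw [qf_apply, qf_apply, h1, h1] at hy
      rcases hu.2.2 _ trivial hy with h | h
      · obtain ⟨c, hc⟩ := Submodule.mem_span_singleton.1 h
        exact Or.inl (Submodule.mem_span_singleton.2 ⟨c, by rw [← hc, Matrix.mulVec_smul]⟩)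
      · right
        rwa [B_qf, h1, ← B_qf hA hs h2]
    · rw [h1, hq1]
    · rw [← H7.val_mulVec_inv x w, H7.cj_mulVec, hX, h1, Matrix.mulVec_smul]

/-- pure tensors -/
def pT (x : α → F) (y : β → F) : α × β → F := fun p => x p.1 * y p.2

lemma kron_mulVec_pT (X : Matrix α α F) (Y : Matrix β β F) (x : α → F) (y : β → F) :
    (X ⊗ₖ Y) *ᵥ pT x y = pT (X *ᵥ x) (Y *ᵥ y) := by
  ext ⟨i, j⟩
  simp only [pT, Matrix.mulVec, dotProduct, Fintype.sum_prod_type, Matrix.kronecker_apply,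
    Finset.sum_mul_sum]
  refine Finset.sum_congr rfl fun _ _ => Finset.sum_congr rfl fun _ _ => by ring

lemma gf_kron_pT (A : Matrix α α F) (B : Matrix β β F) (x x' : α → F) (y y' : β → F) :
    gf (A ⊗ₖ B) (pT x y) (pT x' y') = gf A x x' * gf B y y' := by
  rw [gf_def, kron_mulVec_pT, gf_def, gf_def]
  simp only [pT, dotProduct, Fintype.sum_prod_type, Finset.sum_mul_sum]
  refine Finset.sum_congr rfl fun _ _ => Finset.sum_congr rfl fun _ _ => by ring

lemma pT_single (i : α) (j : β) :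
    pT (Pi.single i (1 : F)) (Pi.single j 1) = Pi.single (i, j) 1 := by
  ext ⟨k, l⟩
  simp only [pT, Pi.single_apply, Prod.mk.injEq]
  by_cases h1 : k = i <;> by_cases h2 : l = j <;> simp [h1, h2]

/-- `x ↦ x ⊗ y` -/
def pTL (y : β → F) : (α → F) →ₗ[F] (α × β → F) where
  toFun x := pT x y
  map_add' x x' := by ext p; simp [pT, add_mul]
  map_smul' c x := by ext p; simp [pT, mul_assoc]

/-- `y ↦ x ⊗ y` -/
def pTR (x : α → F) : (β → F) →ₗ[F] (α × β → F) where
  toFun y := pT x y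
  map_add' y y' := by ext p; simp [pT, mul_add]
  map_smul' c y := by ext p; simp [pT, mul_left_comm]

lemma gf_kron_cols (A : Matrix α α F) (B : Matrix β β F) (w w' : α × β → F) :
    gf (A ⊗ₖ B) w w' = ∑ j, ∑ l, B j l * gf A (fun i => w (i, j)) (fun i => w' (i, l)) := by
  rw [gf_def, dotProduct, Fintype.sum_prod_type_right]
  refine Finset.sum_congr rfl fun j _ => ?_
  have := H7.kron_mulVec_col A B w' j
  change (fun i => w (i, j)) ⬝ᵥ (fun i => ((A ⊗ₖ B) *ᵥ w') (i, j)) = _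
  rw [this, dotProduct_sum]
  refine Finset.sum_congr rfl fun l _ => ?_
  rw [dotProduct_smul, smul_eq_mul, gf_def]

lemma isScal_kron_one [Nonempty β] {θ : Matrix α α F} (h : IsScal (θ ⊗ₖ (1 : Matrix β β F))) :
    IsScal θ := by
  obtain ⟨c, hc⟩ := h
  obtain ⟨a⟩ := ‹Nonempty β›
  refine ⟨c, ?_⟩
  ext i j
  have := congrFun (congrFun hc (i, a)) (j, a)
  simpa [Matrix.one_apply] using this

end small

variable {ι : Type} [Fintype ι] [DecidableEq ι] {F : Type*} [Field F] [Fintype F]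
  {Q : (ι → F) → F} (hQ : IsNondegenerateQuadraticForm Q)

/-- tensor data -/
structure TD (Q : (ι → F) → F) (H : Subgroup (GL ι F)) {a b : ℕ} (e : ι ≃ Fin a × Fin b)
    (P : GL ι F) (A : Matrix (Fin a) (Fin a) F) (B : Matrix (Fin b) (Fin b) F) (ε : F) : Prop where
  hA : A.det ≠ 0
  hB : B.det ≠ 0
  eps : ε = 1 ∨ ε = -1
  sA : Aᵀ = ε • A
  sB : Bᵀ = ε • B
  gram : frameGram (QuadraticMap.polar Q) e P = A ⊗ₖ B
  kron : ∀ g ∈ H, ∃ (x : GL (Fin a) F) (y : GL (Fin b) F) (μ : F), (g : Matrix ι ι F) =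
    frameEquiv e P ((x : Matrix (Fin a) (Fin a) F) ⊗ₖ (y : Matrix (Fin b) (Fin b) F)) ∧
      μ ≠ 0 ∧ tw (RingHom.id F) A x = μ • A ∧ tw (RingHom.id F) B y = μ⁻¹ • B

variable {H : Subgroup (GL ι F)} {a b : ℕ} {e : ι ≃ Fin a × Fin b} {P : GL ι F}
  {A : Matrix (Fin a) (Fin a) F} {B : Matrix (Fin b) (Fin b) F} {ε : F}

lemma TD.swap (h : TD Q H e P A B ε) : TD Q H (e.trans (Equiv.prodComm _ _)) P B A ε where
  hA := h.hB
  hB := h.hA
  eps := h.eps
  sA := h.sB
  sB := h.sA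
  gram := H7.frameGram_swap h.gram
  kron g hg := by
    obtain ⟨x, y, μ, h1, h2, h3, h4⟩ := h.kron g hg
    exact ⟨y, x, μ⁻¹, by rw [H7.frameEquiv_swap, h1], inv_ne_zero h2, h4, by rw [inv_inv, h3]⟩

lemma TD.card (_h : TD Q H e P A B ε) : a * b = Fintype.card ι := by
  rw [Fintype.card_congr e]; simp

lemma TD.le (h : TD Q H e P A B ε) : H ≤ tensorProductSubgroup a b e P :=
  (H7.le_tensor_of_kron fun g hg => by
    obtain ⟨x, y, μ, h1, -⟩ := h.kron g hg
    exact ⟨x, y, h1⟩).1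

include hQ

lemma TD.struct (h : TD Q H e P A B ε) :
    IsTensorFormStructure id (QuadraticMap.polar Q) (gf A) (gf B) e P :=
  (H7.isTensorFormStructure_of_gram (hfQ hQ).toSesq h.gram).1

lemma TD.polar (h : TD Q H e P A B ε) (x y : Fin a × Fin b → F) :
    QuadraticMap.polar Q (frameVec e P x) (frameVec e P y) = gf (A ⊗ₖ B) x y := by
  rw [(hfQ hQ).toSesq.frameGram_spec, h.gram]

lemma td_of_tensorCase (hH : H ≤ isometryGroup F Q) (h : H7.TensorCase H) :
    ∃ (a b : ℕ) (e : ι ≃ Fin a × Fin b) (P : GL ι F) (A : Matrix (Fin a) (Fin a) F)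
      (B : Matrix (Fin b) (Fin b) F) (ε : F), 2 ≤ a ∧ a ≤ b ∧ TD Q H e P A B ε := by
  obtain ⟨a, b, e, P, A, B, ε, ha, hb, hA, hB, h1, h2, -, h3, -, h4⟩ :=
    (hfQ hQ).tensorCase (isom_of_le hQ hH) h
  have h5 : TD Q H e P A B ε :=
    ⟨hA, hB, h2.eps, by simpa using h1.transpose_eq, h2.transpose_eq, h3, h4⟩
  rcases le_total a b with hab | hab
  · exact ⟨a, b, e, P, A, B, ε, ha, hab, h5⟩
  · exact ⟨b, a, _, P, B, A, ε, hb, hab, h5.swap⟩

lemma td_of_algHom [Nonempty ι] (hH : H ≤ isometryGroup F Q) {a : ℕ} (ha : 0 < a)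
    (φ : Matrix (Fin a) (Fin a) F →ₐ[F] Matrix ι ι F) (hN : NormA H φ.range)
    (hadj : ∀ x ∈ φ.range, adj (RingHom.id F) (QuadraticMap.polar Q) x ∈ φ.range) :
    ∃ (b : ℕ) (e : ι ≃ Fin a × Fin b) (P : GL ι F) (A : Matrix (Fin a) (Fin a) F)
      (B : Matrix (Fin b) (Fin b) F) (ε : F), TD Q H e P A B ε := by
  haveI : Nonempty (Fin a) := ⟨⟨0, ha⟩⟩
  obtain ⟨b, e, P, hφ⟩ := H7.exists_frame_of_algHom φ
  haveI : Nonempty (Fin b) := ⟨(e (Classical.arbitrary ι)).2⟩
  have hf := hfQ hQ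
  obtain ⟨A, B, ε, hA, hB, h1, h2, -, hG⟩ := hf.exists_kron e P fun X => by
    obtain ⟨Y, hY⟩ := hadj (φ X) ⟨X, rfl⟩
    exact ⟨Y, by rw [← hφ, ← hφ]; exact hY.symm⟩
  refine ⟨b, e, P, A, B, ε, hA, hB, h2.eps, by simpa using h1.transpose_eq, h2.transpose_eq, hG,
    fun g hg => ?_⟩
  obtain ⟨x, y, hxy⟩ := H7.kron_of_normA e P (g := g) fun X => by
    obtain ⟨Y, hY⟩ := hN g hg (φ X) ⟨X, rfl⟩
    exact ⟨Y, by rw [← hφ, ← hφ]; exact hY.symm⟩
  have h4 := hf.frameGram_sim e P (c := 1)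
    (X := (x : Matrix (Fin a) (Fin a) F) ⊗ₖ (y : Matrix (Fin b) (Fin b) F))
    (fun u v => by rw [← hxy, isom_of_le hQ hH g hg, one_mul])
  rw [one_smul, hG] at h4
  obtain ⟨μ, hμ, h5⟩ := H7.tw_of_kron hA hB h4
  exact ⟨x, y, μ, hxy, hμ, h5⟩

omit hQ in
lemma cj_kron_one {g : GL ι F} {x : GL (Fin a) F} {y : GL (Fin b) F} (h : (g : Matrix ι ι F) =
    frameEquiv e P ((x : Matrix (Fin a) (Fin a) F) ⊗ₖ (y : Matrix (Fin b) (Fin b) F)))
    (X : Matrix (Fin a) (Fin a) F) :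
    cj g (frameEquiv e P (X ⊗ₖ (1 : Matrix (Fin b) (Fin b) F))) =
      frameEquiv e P (cj x X ⊗ₖ (1 : Matrix (Fin b) (Fin b) F)) := by
  apply cj_eq_of_mul
  rw [h, ← map_mul, ← map_mul, ← Matrix.mul_kronecker_mul, ← Matrix.mul_kronecker_mul,
    H7.cj_mul_val, mul_one, one_mul]

lemma TD.adj_kron_one (h : TD Q H e P A B ε) {X Y : Matrix (Fin a) (Fin a) F}
    (hXY : Xᵀ * A = A * Y) : adj (RingHom.id F) (QuadraticMap.polar Q)
      (frameEquiv e P (X ⊗ₖ (1 : Matrix (Fin b) (Fin b) F))) =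
      frameEquiv e P (Y ⊗ₖ (1 : Matrix (Fin b) (Fin b) F)) := by
  apply (hfQ hQ).adj_frameEquiv
  rw [h.gram, H7.kron_transpose, Matrix.transpose_one, RingHom.coe_id, Matrix.map_id,
    ← Matrix.mul_kronecker_mul, ← Matrix.mul_kronecker_mul, hXY, one_mul, mul_one]

lemma TD.nonPrim (h : TD Q H e P A B ε) (hb : 0 < b) (hs : Small A) : NonPrim Q H := by
  haveI : Nonempty (Fin b) := ⟨⟨0, hb⟩⟩
  obtain ⟨S, h1, h2, ⟨X, hX, h3⟩, h4⟩ := hs
  refine nonPrim_of_set hQ
    ((fun X => frameEquiv e P (X ⊗ₖ (1 : Matrix (Fin b) (Fin b) F))) '' S) ?_ ?_ ?_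
    ⟨_, ⟨X, hX, rfl⟩, fun h => h3 (isScal_kron_one ((H7.isScal_frameEquiv_iff e P).1 h))⟩
  · rintro _ ⟨X, hX, rfl⟩ _ ⟨Y, hY, rfl⟩
    simp only
    rw [← map_mul, ← map_mul, ← Matrix.mul_kronecker_mul, ← Matrix.mul_kronecker_mul, h1 X hX Y hY]
  · rintro _ ⟨X, hX, rfl⟩
    obtain ⟨Y, hY, he⟩ := h2 X hX
    rw [h.adj_kron_one hQ he]
    exact Algebra.subset_adjoin ⟨Y, hY, rfl⟩
  · rintro g hg _ ⟨X, hX, rfl⟩
    obtain ⟨x, y, μ, h5, -, h6, -⟩ := h.kron g hg
    rw [cj_kron_one h5]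
    exact Algebra.subset_adjoin ⟨_, h4 x μ h6 X hX, rfl⟩

lemma TD.alt (h : TD Q H e P A B ε) (h2 : (2 : F) = 0) (hirr : Irr H) (ha : 2 ≤ a) (hb : 0 < b)
    (u : Fin a → F) : gf A u u = 0 := by
  haveI : Nonempty (Fin b) := ⟨⟨0, hb⟩⟩
  refine hirr.alt_of_kron h2 (by simpa using ha) e P ?_ (fun g hg => ?_) u
  · rcases h.eps with h1 | h1
    · rw [h.sA, h1, one_smul]
    · rw [h.sA, h1, show (-1 : F) = 1 by linear_combination -h2, one_smul]
  · obtain ⟨x, y, μ, h5, -, h6, -⟩ := h.kron g hg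
    exact ⟨x, y, μ, h5, h6⟩

/-- quadratic form on a sum of pairwise orthogonal basis multiples -/
lemma Q_frame_sum {κ : Type} [Fintype κ] [DecidableEq κ] (e : ι ≃ κ) (P : GL ι F) (w : κ → F)
    (h : ∀ k l, k ≠ l → w k * w l * frameGram (QuadraticMap.polar Q) e P k l = 0) :
    Q (frameVec e P w) = ∑ k, w k ^ 2 * Q (frameVec e P (Pi.single k 1)) := by
  conv_lhs => rw [sum_single_eq w, map_sum]
  rw [Q_sum_orth hQ]
  · refine Finset.sum_congr rfl fun k _ => ?_
    rw [map_smul, hQ.smul]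
  · intro k l hkl
    rw [map_smul, map_smul, (hfQ hQ).smul_left, (hfQ hQ).smul_right, RingHom.id_apply, ← mul_assoc]
    exact h k l hkl

/-- in characteristic two: the basis vectors of a frame are singular -/
lemma frame_sing (hn : 2 ≤ Fintype.card ι) (h2 : (2 : F) = 0) {κ : Type} [Fintype κ]
    [DecidableEq κ] (e : ι ≃ κ) (P : GL ι F) {L : Subgroup (GL ι F)} (hL : Irr L)
    (hLI : L ≤ isometryGroup F Q) (S : Set (GL ι F)) (hS : L ≤ Subgroup.closure S) (hSL : S ⊆ L)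
    (h : ∀ g ∈ S, ∀ k, ∃ w, (g : Matrix ι ι F) *ᵥ frameVec e P (Pi.single k 1) = frameVec e P w ∧
      Q (frameVec e P w) = ∑ k, w k ^ 2 * Q (frameVec e P (Pi.single k 1))) (k : κ) :
    Q (frameVec e P (Pi.single k 1)) = 0 := by
  let φ : (ι → F) → F := fun v =>
    ∑ k, (frameVec e P).symm v k ^ 2 * Q (frameVec e P (Pi.single k 1))
  have hφ : ∀ w, φ (frameVec e P w) = ∑ k, w k ^ 2 * Q (frameVec e P (Pi.single k 1)) :=
    fun w => by simp only [φ, LinearEquiv.symm_apply_apply]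
  have hφ1 : ∀ k, φ (frameVec e P (Pi.single k 1)) = Q (frameVec e P (Pi.single k 1)) := by
    intro k
    rw [hφ, Finset.sum_eq_single k (fun l _ hl => by simp [hl]) (by simp)]
    simp
  have ha : ∀ u v, φ (u + v) = φ u + φ v := fun u v => by
    simp only [φ, map_add, Pi.add_apply, ← Finset.sum_add_distrib]
    refine Finset.sum_congr rfl fun i _ => ?_
    linear_combination ((frameVec e P).symm u i * (frameVec e P).symm v i *
      Q (frameVec e P (Pi.single i 1))) * h2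
  have hs : ∀ (c : F) u, φ (c • u) = c ^ 2 * φ u := fun c u => by
    simp only [φ, map_smul, Pi.smul_apply, smul_eq_mul, Finset.mul_sum]
    refine Finset.sum_congr rfl fun i _ => by ring
  have hg : ∀ g ∈ S, ∀ v, φ ((g : Matrix ι ι F) *ᵥ v) = φ v := by
    intro g hg v
    obtain ⟨w, rfl⟩ := (frameVec e P).surjective v
    conv_lhs => rw [sum_single_eq w, map_sum, Matrix.mulVec_sum]
    rw [semilin_sum (φ := φ) Set.univ (by simpa using hs 0 0) trivial (fun _ _ _ _ => trivial)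
      (fun u _ v _ => ha u v) _ _ (fun _ => trivial), hφ]
    refine Finset.sum_congr rfl fun k _ => ?_
    obtain ⟨w', h1, h3⟩ := h g hg k
    rw [map_smul, Matrix.mulVec_smul, hs, h1, hφ, ← h3, ← h1, Q_val hQ (hLI (hSL hg))]
  have hg' : ∀ g ∈ Subgroup.closure S, ∀ v, φ ((g : Matrix ι ι F) *ᵥ v) = φ v := by
    intro g hg'
    induction hg' using Subgroup.closure_induction with
    | mem x hx => exact hg x hx
    | one => simp
    | mul x y _ _ h1 h2 => intro v; rw [Units.val_mul, ← Matrix.mulVec_mulVec, h1, h2]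
    | inv x _ h1 => intro v; rw [← h1, H7.val_mulVec_inv]
  rw [← hφ1]
  exact hL.eq_zero_of_semilinear hn h2 ha hs (fun g hg v hv => by rw [hg' g (hS hg), hv]) _

lemma TD.Q_pure (h : TD Q H e P A B ε) (hH : H ≤ isometryGroup F Q) (hirr : Irr H)
    (hn : 2 ≤ Fintype.card ι) (hA : ∀ u, gf A u u = 0) (hB : ∀ u, gf B u u = 0) (x : Fin a → F)
    (y : Fin b → F) : Q (frameVec e P (pT x y)) = 0 := by
  by_cases h2 : (2 : F) = 0
  swap
  · apply mul_left_cancel₀ h2
    rw [← H7.polar_self hQ, h.polar hQ, gf_kron_pT, hA, zero_mul, mul_zero]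
  have key : ∀ x y, Q (frameVec e P (pT x y)) =
      ∑ k, pT x y k ^ 2 * Q (frameVec e P (Pi.single k 1)) := by
    intro x y
    have h1 : ∀ j, Q (frameVec e P (pT x (Pi.single j 1))) =
        ∑ i, x i ^ 2 * Q (frameVec e P (Pi.single (i, j) 1)) := by
      intro j
      conv_lhs => rw [sum_single_eq x]
      change Q (frameVec e P (pTL _ _)) = _
      rw [map_sum, map_sum, Q_sum_orth hQ]
      · refine Finset.sum_congr rfl fun i _ => ?_
        rw [map_smul, map_smul, hQ.smul, ← pT_single]; rfl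
      · intro i i' _
        rw [h.polar hQ]
        exact (gf_kron_pT _ _ _ _ _ _).trans (by rw [hB, mul_zero])
    conv_lhs => rw [sum_single_eq y]
    change Q (frameVec e P (pTR _ _)) = _
    rw [map_sum, map_sum, Q_sum_orth hQ, Fintype.sum_prod_type_right]
    · refine Finset.sum_congr rfl fun j _ => ?_
      rw [map_smul, map_smul, hQ.smul]
      change _ * Q (frameVec e P (pT _ _)) = _
      rw [h1, Finset.mul_sum]
      refine Finset.sum_congr rfl fun i _ => ?_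
      simp only [pT]; ring
    · intro j j' _
      rw [h.polar hQ]
      exact (gf_kron_pT _ _ _ _ _ _).trans (by rw [hA, zero_mul])
  rw [key]
  refine Finset.sum_eq_zero fun k _ => ?_
  rw [frame_sing hQ hn h2 e P hirr hH H (Subgroup.closure_eq H).ge le_rfl ?_ k, mul_zero]
  rintro g hg ⟨i, j⟩
  obtain ⟨x, y, μ, h5, -⟩ := h.kron g hg
  exact ⟨_, by rw [h5, H7.frameEquiv_mulVec, ← pT_single, kron_mulVec_pT], key _ _⟩

end Cfsg.Agent.H8
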