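import Cfsg.Agent.H8.OAsch4

/-! Orthogonal Aschbacher theorem, part 5: tensor cases. -/

set_option autoImplicit false
set_option linter.unusedSectionVars false
set_option linter.style.haveILetI false

namespace Cfsg.Agent.H8

open Module Cfsg.Agent.Orth Cfsg.Geo
open Cfsg.Agent.H7 (Irr AbsIrr IsScal NormA NormG cj Isom HForm adj spanAlg ctr gform tw frameEquiv
  frameVec frameGram frameGL pt slot ptGL permGL J2)
open scoped Matrix Kronecker commutatorElement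

section abstr
variable {F V : Type*} [Field F] [AddCommGroup V] [Module F V] {Q : QuadraticForm F V}
  [FiniteDimensional F V] [Finite F]

lemma exists_orth_family (h2 : (2 : F) ≠ 0) (k : ℕ) : ∀ W : Submodule F V, NdOn Q W →
    finrank F W = k → ∃ v : Fin k → V, (∀ i, v i ∈ W ∧ Q (v i) ≠ 0) ∧
      ∀ i j, i ≠ j → B Q (v i) (v j) = 0 := by
  induction k with
  | zero => exact fun W _ _ => ⟨Fin.elim0, fun i => i.elim0, fun i => i.elim0⟩
  | succ k ih =>
    intro W hW hd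
    obtain ⟨a, ha, hq⟩ := hW.exists_nonsing le_rfl (by omega)
    obtain ⟨h1, h3, -⟩ := split_line h2 hW ha hq
    obtain ⟨v, hv, hv'⟩ := ih _ h1 (by omega)
    refine ⟨Fin.cons a v, fun i => ?_, fun i j hij => ?_⟩
    · refine Fin.cases ⟨ha, hq⟩ (fun i => ⟨(hv i).1.1, (hv i).2⟩) i
    · revert hij
      refine Fin.cases ?_ (fun i => ?_) i <;> refine Fin.cases ?_ (fun j => ?_) j
      · simp
      · exact fun _ => mem_perp_span_singleton.1 (hv j).1.2
      · exact fun _ => (B_comm Q _ _).trans (mem_perp_span_singleton.1 (hv i).1.2)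
      · exact fun h => hv' i j fun h' => h (by rw [h'])

lemma exists_plus_compl {W : Submodule F V} (hW : NdOn Q W) (ho : Odd (finrank F W)) :
    ∃ v ∈ W, Q v ≠ 0 ∧ Plus Q (W ⊓ perp Q (F ∙ v)) := by
  have h2 := two_ne_zero_of_odd_finrank hW ho
  obtain ⟨U, -, h1, h3, h4⟩ := exists_max_ts (Q := Q) (W := W) (U₀ := ⊥) bot_le (by simp [TS])
  have h5 := finrank_le_of_max hW h1 h3 h4
  have h6 := hW.ts_finrank_le h1 h3.le_perp
  have h7 := hW.finrank_inf_perp h1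
  obtain ⟨m, hm⟩ := ho
  obtain ⟨v, hv, hvU⟩ := exists_mem_notMem_of_finrank_lt (H := W ⊓ perp Q U) (X := U) (by omega)
  have hq : Q v ≠ 0 := fun h => hvU (h4 v hv.1 hv.2 h)
  obtain ⟨-, h8, -⟩ := split_line h2 hW hv.1 hq
  refine ⟨v, hv.1, hq, U, le_inf h1 fun u hu => ?_, h3, by omega⟩
  rw [mem_perp_span_singleton, B_comm]
  exact hv.2 u hu

lemma exists_similar_odd {V' : Type*} [AddCommGroup V'] [Module F V'] [FiniteDimensional F V']
    {Q' : QuadraticForm F V'} (hQ : Nd Q) (hQ' : Nd Q') (ho : Odd (finrank F V))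
    (hd : finrank F V' = finrank F V) : ∃ c : F, c ≠ 0 ∧ Iso (c • Q) ⊤ Q' ⊤ := by
  have h2 := two_ne_zero_of_odd_finrank hQ.ndOn_top (by simpa using ho)
  obtain ⟨v, -, hv, hp⟩ := exists_plus_compl hQ.ndOn_top (by simpa using ho)
  obtain ⟨v', -, hv', hp'⟩ := exists_plus_compl hQ'.ndOn_top (by simpa [hd] using ho)
  have hc : Q' v' / Q v ≠ 0 := div_ne_zero hv' hv
  obtain ⟨h1, h3, h4⟩ := split_line h2 hQ.ndOn_top Submodule.mem_top hv
  obtain ⟨h1', h3', h4'⟩ := split_line h2 hQ'.ndOn_top Submodule.mem_top hv'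
  refine ⟨_, hc, ?_⟩
  rw [← h4, ← h4']
  obtain ⟨m, hm⟩ := ho
  rw [finrank_top] at h3 h3'
  refine Iso.sup (ndOn_smul hc (NdOn.span_singleton h2 hv)) ?_ inf_le_right
    (iso_line h2 (by simp [hv, hv']) (by simp [hv])) (iso_of_type m _ _ (ndOn_smul hc h1) h1'
      (by omega) (by omega) (by rw [plus_smul hc]; exact iff_of_true hp hp'))
  rw [perp_smul_form hc]
  exact inf_le_right

lemma exists_three_planes (hQ : Nd Q) (hd : finrank F V = 4) (hp : Plus Q ⊤) :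
    ∃ U T₁ T₂ : Submodule F V, Half Q U ∧ Half Q T₁ ∧ Half Q T₂ ∧ Disjoint T₁ T₂ ∧
      finrank F (U ⊓ T₁ : Submodule F V) = 1 ∧ finrank F (U ⊓ T₂ : Submodule F V) = 1 := by
  obtain ⟨e₁, -, he0, he₁⟩ := hp.exists_sing (fun h => by
    have := finrank_top F V
    rw [h, finrank_bot] at this; omega)
  obtain ⟨f₁, -, hf₁, h1⟩ := exists_hyp hQ.ndOn_top Submodule.mem_top he0 he₁
  obtain ⟨h2, h3, h4⟩ := split_pair hQ.ndOn_top Submodule.mem_top Submodule.mem_top
    (hyp_D he₁ h1)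
  rw [finrank_top] at h3
  rw [← h4, Plus.sup_iff (ndOn_pair (hyp_D he₁ h1)) h2 inf_le_right (plus_hyp he₁ h1)] at hp
  obtain ⟨e₂, f₂, he₂, hf₂, h5, h6⟩ := hp.exists_basis h2 (by omega)
  obtain ⟨a1, a2⟩ := mem_perp_pair.1 (h6.symm.le (left_mem_pair e₂ f₂)).2
  obtain ⟨a3, a4⟩ := mem_perp_pair.1 (h6.symm.le (right_mem_pair e₂ f₂)).2
  have half : ∀ x y x' y' : V, Q x = 0 → Q y = 0 → B Q x y = 0 → B Q x x' = 1 → B Q y x' = 0 →
      B Q x y' = 0 → B Q y y' = 1 → Half Q (Submodule.span F {x, y}) := by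
    intro x y x' y' h1 h2 h3 h4 h5 h6 h7
    refine ⟨fun v hv => ?_, ?_⟩
    · obtain ⟨a, b, rfl⟩ := mem_span_pair'.1 hv
      rw [Q_pair, h1, h2, h3]; simp
    · have hli : LinearIndependent F ![x, y] := by
        rw [LinearIndependent.pair_iff]
        intro a b h
        have e1 := congrArg (fun v => B Q v x') h
        have e2 := congrArg (fun v => B Q v y') h
        simp [h4, h5, h6, h7] at e1 e2
        exact ⟨e1, e2⟩
      have := finrank_span_eq_card hli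
      rw [Matrix.range_cons_cons_empty, Fintype.card_fin] at this
      omega
  have one : ∀ X Y : Submodule F V, Half Q X → Half Q Y → ∀ x y z : V, x ≠ 0 → x ∈ X → x ∈ Y →
      y ∈ X → z ∈ Y → B Q y z ≠ 0 → finrank F (X ⊓ Y : Submodule F V) = 1 := by
    intro X Y hX hY x y z h0 h1 h2 h3 h4 h5
    have e1 : 0 < finrank F (X ⊓ Y : Submodule F V) :=
      finrank_pos_iff_exists_ne_zero.2 ⟨⟨x, h1, h2⟩, fun h => h0 (congrArg Subtype.val h)⟩
    have e2 : finrank F (X ⊓ Y : Submodule F V) < finrank F X :=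
      Submodule.finrank_lt_finrank_of_lt (lt_of_le_of_ne inf_le_left fun h =>
        h5 (hY.1.B_eq_zero (h.symm.le h3).2 h4))
    have := hX.2
    omega
  have c := B_comm Q
  have hU := half e₁ e₂ f₁ f₂ he₁ he₂ a1 h1 (by rw [c, a2]) a3 h5
  have hT₁ := half e₁ f₂ f₁ e₂ he₁ hf₂ a3 h1 (by rw [c, a4]) a1 (by rw [c, h5])
  have hT₂ := half f₁ e₂ e₁ f₂ hf₁ he₂ a2 (by rw [c, h1]) (by rw [c, a1]) a4 h5
  refine ⟨_, _, _, hU, hT₁, hT₂, ?_, one _ _ hU hT₁ e₁ e₂ f₂ he0 (left_mem_pair _ _)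
    (left_mem_pair _ _) (right_mem_pair _ _) (right_mem_pair _ _) (by rw [h5]; exact one_ne_zero),
    one _ _ hU hT₂ e₂ e₁ f₁ (fun h => by rw [h] at h5; simp at h5) (right_mem_pair _ _)
    (right_mem_pair _ _) (left_mem_pair _ _) (left_mem_pair _ _) (by rw [h1]; exact one_ne_zero)⟩
  rw [Submodule.disjoint_def]
  intro x hx hx'
  have e1 := hT₂.1.B_eq_zero hx' (left_mem_pair _ _)
  have e2 := hT₂.1.B_eq_zero hx' (right_mem_pair _ _)
  obtain ⟨a, b, rfl⟩ := mem_span_pair'.1 hx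
  simp [h1, a1, c f₂, a4, h5] at e1 e2
  simp [e1, e2]

end abstr

variable {ι : Type} [Fintype ι] [DecidableEq ι] {F : Type*} [Field F] [Fintype F]
  {Q : (ι → F) → F} (hQ : IsNondegenerateQuadraticForm Q)

lemma le_finrank_of_algHom {a : ℕ} (φ : Matrix (Fin a) (Fin a) F →ₐ[F] Matrix ι ι F)
    {W : Submodule F (ι → F)} (h0 : W ≠ ⊥) (hW : ∀ X, ∀ w ∈ W, φ X *ᵥ w ∈ W) :
    a ≤ finrank F W := by
  obtain ⟨u, hu, hu0⟩ := W.ne_bot_iff.1 h0
  obtain ⟨j, hj⟩ : ∃ j, φ (Matrix.single j j 1) *ᵥ u ≠ 0 := by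
    by_contra h
    push Not at h
    apply hu0
    rw [← Matrix.one_mulVec u, ← map_one φ, ← Matrix.sum_single_one, map_sum, Matrix.sum_mulVec]
    exact Finset.sum_eq_zero fun j _ => h j
  have hli : LinearIndependent F fun i => (⟨φ (Matrix.single i j 1) *ᵥ u, hW _ u hu⟩ : W) := by
    rw [Fintype.linearIndependent_iff]
    intro c hc k
    have h1 := congrArg (fun w : W => φ (Matrix.single j k 1) *ᵥ (w : ι → F)) hc
    simp only [Submodule.coe_sum, Submodule.coe_smul, Matrix.mulVec_sum, Matrix.mulVec_smul,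
      Matrix.mulVec_mulVec, ← map_mul, H7.single_mul_single_ite, Submodule.coe_zero,
      Matrix.mulVec_zero] at h1
    rw [Finset.sum_eq_single k (fun l _ hl => by simp [hl.symm]) (by simp), if_pos rfl] at h1
    exact (smul_eq_zero.1 h1).resolve_right hj
  simpa using hli.fintype_card_le_finrank

section hat
variable {α β : Type} [Fintype α] [DecidableEq α] [Fintype β] [DecidableEq β]

/-- `U ⊗ F^β` -/
def hat (e : ι ≃ α × β) (P : GL ι F) (U : Submodule F (α → F)) : Submodule F (ι → F) where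
  carrier := {v | ∀ j, (fun i => (frameVec e P).symm v (i, j)) ∈ U}
  add_mem' {a b} ha hb j := by
    rw [map_add]; exact U.add_mem (ha j) (hb j)
  zero_mem' j := by rw [map_zero]; exact U.zero_mem
  smul_mem' c a ha j := by rw [map_smul]; exact U.smul_mem c (ha j)

variable {e : ι ≃ α × β} {P : GL ι F} {U U' : Submodule F (α → F)}

lemma mem_hat {w : α × β → F} : frameVec e P w ∈ hat e P U ↔ ∀ j, (fun i => w (i, j)) ∈ U := by
  change (∀ j, _ ∈ U) ↔ _
  rw [LinearEquiv.symm_apply_apply]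

lemma hat_inf : hat e P (U ⊓ U') = hat e P U ⊓ hat e P U' := by
  ext v
  exact forall_and

lemma finrank_hat : finrank F (hat e P U) = Fintype.card β * finrank F U := by
  let Ψ : (β → U) →ₗ[F] (α × β → F) :=
    { toFun := fun u p => (u p.2 : α → F) p.1
      map_add' := fun _ _ => rfl
      map_smul' := fun _ _ => rfl }
  let Φ : (β → U) →ₗ[F] (ι → F) := (frameVec e P).toLinearMap.comp Ψ
  have h1 : LinearMap.range Φ = hat e P U := by
    ext v
    obtain ⟨w, rfl⟩ := (frameVec e P).surjective v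
    rw [mem_hat]
    constructor
    · rintro ⟨u, hu⟩ j
      rw [← (frameVec e P).injective hu]
      exact (u j).2
    · exact fun h => ⟨fun j => ⟨_, h j⟩, rfl⟩
  rw [← h1, LinearMap.finrank_range_of_inj, finrank_pi_fintype]
  · simp
  · intro u u' h
    have := (frameVec e P).injective h
    ext j i
    exact congrFun this (i, j)

lemma hat_mulVec {X : Matrix α α F} (Y : Matrix β β F) (h : ∀ u ∈ U, X *ᵥ u ∈ U') {v : ι → F}
    (hv : v ∈ hat e P U) : frameEquiv e P (X ⊗ₖ Y) *ᵥ v ∈ hat e P U' := by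
  obtain ⟨w, rfl⟩ := (frameVec e P).surjective v
  rw [H7.frameEquiv_mulVec, mem_hat]
  intro j
  rw [H7.kron_mulVec_col]
  exact U'.sum_mem fun l _ => U'.smul_mem _ (h _ (mem_hat.1 hv l))

lemma pT_mem_hat {x : α → F} (hx : x ∈ U) (y : β → F) : frameVec e P (pT x y) ∈ hat e P U := by
  rw [mem_hat]
  intro j
  have : (fun i => pT x y (i, j)) = y j • x := by ext i; simp [pT, mul_comm]
  rw [this]
  exact U.smul_mem _ hx

end hat

/-- symmetric tensor products -/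
def CT1 (Q : (ι → F) → F) (H : Subgroup (GL ι F)) : Prop :=
  Odd (Fintype.card F) ∧ ∃ (a b : ℕ) (e : ι ≃ Fin a × Fin b) (P : GL ι F)
    (f₁ : (Fin a → F) → (Fin a → F) → F) (f₂ : (Fin b → F) → (Fin b → F) → F), 3 ≤ a ∧ a < b ∧
    a * b = Fintype.card ι ∧ (Fintype.card F = 3 → a ≠ 3) ∧ IsSymmetricForm f₁ ∧
    IsSymmetricForm f₂ ∧ IsTensorFormStructure id (QuadraticMap.polar Q) f₁ f₂ e P ∧
    H ≤ tensorProductSubgroup a b e P ∧
    (a = 3 → b = 4 → ¬ IsPlusTypeOn (fun v => f₂ v v) ⊤ ∧ ¬ IsPlusTypeOn Q ⊤)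

/-- alternating tensor products -/
def CT2 (Q : (ι → F) → F) (H : Subgroup (GL ι F)) : Prop :=
  3 ≤ Fintype.card F ∧ IsPlusTypeOn Q ⊤ ∧ ∃ (b : ℕ) (e : ι ≃ Fin 2 × Fin b) (P : GL ι F)
    (f₁ : (Fin 2 → F) → (Fin 2 → F) → F) (f₂ : (Fin b → F) → (Fin b → F) → F),
    2 * b = Fintype.card ι ∧ Even b ∧ IsSymplecticForm f₁ ∧ IsSymplecticForm f₂ ∧
    IsTensorFormStructure id (QuadraticMap.polar Q) f₁ f₂ e P ∧
    (∀ (x₁ : Fin 2 → F) (x₂ : Fin b → F),
      Q ((P : Matrix ι ι F) *ᵥ ((fun a : Fin 2 × Fin b => x₁ a.1 * x₂ a.2) ∘ e)) = 0) ∧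
    H ≤ tensorProductSubgroup 2 b e P

/-- tensor powers -/
def CP (Q : (ι → F) → F) (H : Subgroup (GL ι F)) : Prop :=
  ∃ (k t : ℕ) (e : ι ≃ (Fin t → Fin k)) (P : GL ι F) (f₁ : (Fin k → F) → (Fin k → F) → F),
    3 ≤ k ∧ 2 ≤ t ∧ k ^ t = Fintype.card ι ∧ ¬ (Fintype.card F = 3 ∧ k = 3) ∧ IsSymmetricForm f₁ ∧
    IsTensorPowerFormStructure id (QuadraticMap.polar Q) f₁ e P ∧
    H ≤ tensorWreathSubgroup k t e P

lemma symplectic_of_alt {α : Type} [Fintype α] [DecidableEq α] {A : Matrix α α F} (hA : A.det ≠ 0)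
    (h : ∀ u, gf A u u = 0) : IsSymplecticForm (gf A) := by
  refine H7.isSymplecticForm_gform hA (H7.gform_ext (σ := RingHom.id F) fun u v => ?_) fun i => by
    rw [← H7.gform_single (RingHom.id F) A]; exact h _
  have := h (u + v)
  rw [gf_add_left, gf_add_right, gf_add_right, h, h] at this
  rw [← neg_one_smul F A, H7.gform_smul]
  change gf Aᵀ u v = -1 * gf A u v
  rw [gf_transpose]
  linear_combination this

lemma alt_of_skew {α : Type} [Fintype α] [DecidableEq α] {A : Matrix α α F} (h2 : (2 : F) ≠ 0)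
    (h : Aᵀ = (-1 : F) • A) (u : α → F) : gf A u u = 0 := by
  have := gf_transpose A u u
  rw [h, gf, H7.gform_smul] at this
  apply mul_left_cancel₀ h2
  linear_combination -this

variable {H : Subgroup (GL ι F)} {a b : ℕ} {e : ι ≃ Fin a × Fin b} {P : GL ι F}
  {A : Matrix (Fin a) (Fin a) F} {B : Matrix (Fin b) (Fin b) F} {ε : F}

include hQ

lemma TD.alt_or_sym (h : TD Q H e P A B ε) (hirr : Irr H) (ha : 2 ≤ a) (hb : 2 ≤ b) :
    ((∀ u, gf A u u = 0) ∧ ∀ u, gf B u u = 0) ∨ ((2 : F) ≠ 0 ∧ Aᵀ = A ∧ Bᵀ = B) := by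
  by_cases h2 : (2 : F) = 0
  · exact Or.inl ⟨h.alt hQ h2 hirr ha (by omega), h.swap.alt hQ h2 hirr hb (by omega)⟩
  rcases h.eps with rfl | rfl
  · exact Or.inr ⟨h2, by simpa using h.sA, by simpa using h.sB⟩
  · exact Or.inl ⟨alt_of_skew h2 h.sA, alt_of_skew h2 h.sB⟩

lemma TD.two {e : ι ≃ Fin 2 × Fin b} {A : Matrix (Fin 2) (Fin 2) F} (h : TD Q H e P A B ε)
    (hH : H ≤ isometryGroup F Q) (hirr : Irr H) (hp : ¬ NonPrim Q H) (hb : 2 ≤ b) : CT2 Q H := by
  have hc := h.card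
  rcases h.alt_or_sym hQ hirr le_rfl hb with ⟨h1, h2⟩ | ⟨h2, h3, -⟩
  swap
  · exact absurd (h.nonPrim hQ (by omega) (small_two h.hA h3 (Or.inl h2))) hp
  have hpure := h.Q_pure hQ hH hirr (by omega) h1 h2
  have hs := symplectic_of_alt h.hB h2
  refine ⟨?_, ?_, b, e, P, gf A, gf B, hc, by simpa using H7.even_card_of_symplectic hs,
    symplectic_of_alt h.hA h1, hs, h.struct hQ, hpure, h.le⟩
  · by_contra h3
    have : 1 < Fintype.card F := Fintype.one_lt_card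
    exact hp (h.nonPrim hQ (by omega) (small_sp2 (by omega) h.hA fun i => by
      rw [← H7.gform_single (RingHom.id F) A]; exact h1 _))
  · refine ⟨LinearMap.range ((frameVec e P).toLinearMap.comp (pTR (Pi.single 0 1))), le_top, ?_, ?_⟩
    · rintro _ ⟨y, rfl⟩
      exact hpure _ _
    · rw [LinearMap.finrank_range_of_inj, finrank_top]
      · simp [hc]
      · intro y y' hy
        have := (frameVec e P).injective hy
        ext j
        simpa [pTR, pT] using congrFun this (0, j)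

lemma TD.half_hat (h : TD Q H e P A B ε) (h2 : (2 : F) ≠ 0) (hs : Aᵀ = A)
    {U : Submodule F (Fin a → F)} (hU : Half (qf h.hA hs h2) U) : Half (toQF hQ) (hat e P U) := by
  refine ⟨fun v hv => ?_, ?_⟩
  · obtain ⟨w, rfl⟩ := (frameVec e P).surjective v
    apply mul_left_cancel₀ h2
    rw [toQF_apply, ← H7.polar_self hQ, h.polar hQ, gf_kron_cols, mul_zero]
    refine Finset.sum_eq_zero fun j _ => Finset.sum_eq_zero fun l _ => ?_
    have := hU.1.B_eq_zero (mem_hat.1 hv j) (mem_hat.1 hv l)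
    rw [B_qf, mul_eq_zero, or_iff_right h2] at this
    rw [this, mul_zero]
  · have := hU.2
    rw [finrank_hat, finrank_fintype_fun_eq_card, ← h.card]
    simp only [finrank_fintype_fun_eq_card, Fintype.card_fin] at this ⊢
    rw [mul_left_comm, this, mul_comm]

lemma TD.slice_iso (h : TD Q H e P A B ε) (h2 : (2 : F) ≠ 0) (hs : Aᵀ = A) (z : Fin b → F) :
    Iso ((gf B z z / 2) • qf h.hA hs h2) ⊤ (toQF hQ)
      (LinearMap.range ((frameVec e P).toLinearMap.comp (pTL z))) := by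
  refine ⟨_, Submodule.map_top _, fun w _ => ?_⟩
  apply mul_left_cancel₀ h2
  rw [toQF_apply, ← H7.polar_self hQ]
  refine (h.polar hQ _ _).trans ((gf_kron_pT _ _ _ _ _ _).trans ?_)
  rw [smul_apply, qf_apply, smul_eq_mul]
  field_simp

lemma TD.exists_slices (h : TD Q H e P A B ε) (h2 : (2 : F) ≠ 0) (hs : Aᵀ = A)
    {z : Fin b → Fin b → F} (hz : ∀ i, gf B (z i) (z i) ≠ 0)
    (hz' : ∀ i j, i ≠ j → gf B (z i) (z j) = 0) :
    ODec (toQF hQ) a fun i => LinearMap.range ((frameVec e P).toLinearMap.comp (pTL (z i))) := by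
  have hc : ∀ i, gf B (z i) (z i) / 2 ≠ 0 := fun i => div_ne_zero (hz i) h2
  refine ⟨fun i => (h.slice_iso hQ h2 hs (z i)).ndOn (ndOn_smul (hc i) (nd_qf _ _ _).ndOn_top),
    fun i j hij => ?_, fun i => ?_⟩
  · rintro _ ⟨x, rfl⟩ _ ⟨y, rfl⟩
    change Orth.B _ _ _ = 0
    rw [B_toQF]
    refine (h.polar hQ _ _).trans ((gf_kron_pT _ _ _ _ _ _).trans ?_)
    rw [hz' i j hij, mul_zero]
  · rw [(h.slice_iso hQ h2 hs (z i)).finrank_eq (ndOn_smul (hc i) (nd_qf _ _ _).ndOn_top)]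
    simp

lemma TD.plus_iff (h : TD Q H e P A B ε) (h2 : (2 : F) ≠ 0) (hs : Aᵀ = A) (hs' : Bᵀ = B)
    (ha : Even a) (hb : Odd b) : Plus (toQF hQ) ⊤ ↔ Plus (qf h.hA hs h2) ⊤ := by
  obtain ⟨z, hz, hz'⟩ := exists_orth_family h2 b ⊤ (nd_qf h.hB hs' h2).ndOn_top (by simp)
  have hD := h.exists_slices hQ h2 hs (z := z) (fun i => (hz i).2) (fun i j hij => by
    have := hz' i j hij
    rwa [B_qf, mul_eq_zero, or_iff_right h2] at this)
  have hc : ∀ i, gf B (z i) (z i) / 2 ≠ 0 := fun i => div_ne_zero (hz i).2 h2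
  have h1 := plus_finsup_even hD.nd hD.orth hD.rk ha (τ := Plus (qf h.hA hs h2) ⊤) (fun i => by
    rw [← (h.slice_iso hQ h2 hs (z i)).plus_iff (ndOn_smul (hc i) (nd_qf _ _ _).ndOn_top),
      plus_smul (hc i)]) Finset.univ
  have h3 := finrank_finsup hD.nd hD.orth hD.rk Finset.univ
  rw [Submodule.eq_top_of_finrank_eq (h3.trans (by simp [← h.card, mul_comm]))] at h1
  simpa [Nat.not_even_iff_odd.2 hb] using h1

lemma TD.four_three {e : ι ≃ Fin 4 × Fin 3} {A : Matrix (Fin 4) (Fin 4) F}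
    {B : Matrix (Fin 3) (Fin 3) F} (h : TD Q H e P A B ε) (hH : H ≤ omegaGL Q) (hirr : Irr H)
    (hp : ¬ NonPrim Q H) (h2 : (2 : F) ≠ 0) (hs : Aᵀ = A) (hpl : Plus (qf h.hA hs h2) ⊤) :
    CT2 Q H := by
  have hc := h.card
  haveI : Nonempty ι := H7.nonempty_of_two_le (by omega)
  have hf := hfQ hQ
  have hH' := hH.trans omega_le
  obtain ⟨U, T₁, T₂, hU, hT₁, hT₂, hdis, h3, h4⟩ :=
    exists_three_planes (nd_qf h.hA hs h2) (by simp) hpl
  have hd : ∀ {X : Submodule F (Fin 4 → F)}, Half (qf h.hA hs h2) X → finrank F X = 2 :=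
    fun hX => by have := hX.2; simp at this; omega
  have hcompl : IsCompl T₁ T₂ := ⟨hdis, codisjoint_iff.2 (Submodule.eq_top_of_finrank_eq (by
    rw [finrank_sup_of_disjoint hdis, hd hT₁, hd hT₂]; simp))⟩
  obtain ⟨π, hπ₁, hπ₂⟩ := H7.exists_proj_mat hcompl
  have hmap : ∀ {g : GL ι F} {x : GL (Fin 4) F} {y : GL (Fin 3) F}, (g : Matrix ι ι F) =
      frameEquiv e P ((x : Matrix (Fin 4) (Fin 4) F) ⊗ₖ (y : Matrix (Fin 3) (Fin 3) F)) →
      (hat e P U).map (Matrix.toLin' (g : Matrix ι ι F)) =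
        hat e P (U.map (Matrix.toLin' (x : Matrix (Fin 4) (Fin 4) F))) := by
    intro g x y hg
    refine Submodule.eq_of_le_of_finrank_eq ?_ (by
      rw [H7.finrank_map_val, finrank_hat, finrank_hat, H7.finrank_map_val])
    rintro _ ⟨v, hv, rfl⟩
    rw [Matrix.toLin'_apply, hg]
    exact hat_mulVec _ (fun u hu => Submodule.mem_map.2 ⟨u, hu, by simp⟩) hv
  have hπ : ∀ g ∈ H, ∀ v ∈ hat e P U, cj g (frameEquiv e P (π ⊗ₖ (1 : Matrix (Fin 3) (Fin 3) F)))
      *ᵥ v ∈ hat e P U := by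
    intro g hg v hv
    obtain ⟨x, y, μ, h5, -⟩ := h.kron g⁻¹ (H.inv_mem hg)
    have h6 := hmap h5
    set U' := U.map (Matrix.toLin' (x : Matrix (Fin 4) (Fin 4) F))
    have hU' : finrank F U' = 2 := by rw [H7.finrank_map_val, hd hU]
    have par : ∀ T, Half (qf h.hA hs h2) T → finrank F (U ⊓ T : Submodule F _) = 1 →
        finrank F (U' ⊓ T : Submodule F _) = 1 := by
      intro T hT h7
      have := EO_parity (nd_toQF hQ) (by simp; omega) (h.half_hat hQ h2 hs hT)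
        ((mem_omegaGL hQ (by omega)).1 (hH (H.inv_mem hg))) (h.half_hat hQ h2 hs hU)
      rw [phi_toLinearMap, h6, ← hat_inf, ← hat_inf, finrank_hat, finrank_hat, h7] at this
      have h8 : finrank F (U' ⊓ T : Submodule F _) ≤ finrank F U' :=
        Submodule.finrank_mono inf_le_left
      obtain ⟨m, hm⟩ := this
      simp at hm
      omega
    have h7 : U' ⊓ T₁ ⊔ U' ⊓ T₂ = U' := Submodule.eq_of_le_of_finrank_eq
      (sup_le inf_le_left inf_le_left) (by
        rw [finrank_sup_of_disjoint (hdis.mono inf_le_right inf_le_right), par _ hT₁ h3,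
          par _ hT₂ h4, hU'])
    have h8 : ∀ u ∈ U', π *ᵥ u ∈ U' := by
      intro u hu
      obtain ⟨s, hs, t, ht, rfl⟩ := Submodule.mem_sup.1 (h7.symm.le hu)
      rw [Matrix.mulVec_add, hπ₁ s hs.2, hπ₂ t ht.2, add_zero]
      exact hs.1
    have h9 := hat_mulVec (1 : Matrix (Fin 3) (Fin 3) F) h8
      (h6.le ⟨v, hv, rfl⟩ : _ ∈ hat e P U')
    obtain ⟨v', hv', he⟩ := h6.symm.le h9
    rw [Matrix.toLin'_apply, Matrix.toLin'_apply] at he
    rw [← H7.val_mulVec_inv g v, H7.cj_mulVec, ← he, H7.val_mulVec_inv]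
    exact hv'
  let S : Subalgebra F (Matrix ι ι F) :=
    { carrier := {z | (∃ X, z = frameEquiv e P (X ⊗ₖ (1 : Matrix (Fin 3) (Fin 3) F))) ∧
        ∀ g ∈ H, ∀ v ∈ hat e P U, cj g z *ᵥ v ∈ hat e P U}
      mul_mem' := by
        rintro _ _ ⟨⟨X, rfl⟩, hX⟩ ⟨⟨Y, rfl⟩, hY⟩
        refine ⟨⟨X * Y, by rw [← map_mul, ← Matrix.mul_kronecker_mul, mul_one]⟩, fun g hg v hv => ?_⟩
        rw [map_mul, ← Matrix.mulVec_mulVec]
        exact hX g hg _ (hY g hg v hv)
      add_mem' := by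
        rintro _ _ ⟨⟨X, rfl⟩, hX⟩ ⟨⟨Y, rfl⟩, hY⟩
        refine ⟨⟨X + Y, by rw [← map_add, Matrix.add_kronecker]⟩, fun g hg v hv => ?_⟩
        rw [map_add, Matrix.add_mulVec]
        exact Submodule.add_mem _ (hX g hg v hv) (hY g hg v hv)
      algebraMap_mem' := fun c => by
        rw [Algebra.algebraMap_eq_smul_one]
        refine ⟨⟨c • 1, by rw [Matrix.smul_kronecker, Matrix.one_kronecker_one, map_smul,
          map_one]⟩, fun g hg v hv => ?_⟩
        rw [map_smul, map_one, Matrix.smul_mulVec, Matrix.one_mulVec]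
        exact Submodule.smul_mem _ c hv }
  have hSN : NormA H S := by
    rintro g hg _ ⟨⟨X, rfl⟩, hX⟩
    obtain ⟨x, y, μ, h5, -⟩ := h.kron g hg
    refine ⟨⟨_, cj_kron_one h5 X⟩, fun g' hg' v hv => ?_⟩
    rw [← H7.cj_mul]
    exact hX _ (H.mul_mem hg' hg) v hv
  have hSa : ∀ x ∈ S, adj (RingHom.id F) (QuadraticMap.polar Q) x ∈ S := by
    rintro _ ⟨⟨X, rfl⟩, hX⟩
    refine ⟨⟨A⁻¹ * (Xᵀ * A), h.adj_kron_one hQ
      (Matrix.mul_nonsing_inv_cancel_left _ _ h.hA.isUnit).symm⟩, fun g hg v hv => ?_⟩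
    rw [← (h.half_hat hQ h2 hs hU).perp_eq (nd_toQF hQ)] at hv ⊢
    intro u hu
    change Orth.B _ _ _ = 0
    rw [← hf.adj_cj (isom_of_le hQ hH') hg, B_toQF, ← hf.adj_spec]
    exact hv _ (hX g hg u hu)
  obtain ⟨a, φ, ha, hφ⟩ := hirr.exists_algHom hSN (ctr_scal_of_prim hQ hp hSN hSa)
  obtain ⟨u₁, hu₁, hu₁0⟩ := T₁.ne_bot_iff.1 (fun h0 => by
    have := hd hT₁; rw [h0, finrank_bot] at this; omega)
  obtain ⟨u₂, hu₂, hu₂0⟩ := T₂.ne_bot_iff.1 (fun h0 => by
    have := hd hT₂; rw [h0, finrank_bot] at this; omega)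
  have ha1 : a ≠ 1 := by
    rintro rfl
    obtain ⟨X, hX⟩ : frameEquiv e P (π ⊗ₖ (1 : Matrix (Fin 3) (Fin 3) F)) ∈ φ.range :=
      hφ ▸ ⟨⟨π, rfl⟩, hπ⟩
    obtain ⟨c, rfl⟩ := H7.isScal_fin_one X
    obtain ⟨d, rfl⟩ := isScal_kron_one ((H7.isScal_frameEquiv_iff e P).1
      ⟨c, by rw [← hX]; simp⟩)
    have e1 := hπ₁ u₁ hu₁
    have e2 := hπ₂ u₂ hu₂
    rw [Matrix.smul_mulVec, Matrix.one_mulVec] at e1 e2
    rw [(smul_eq_zero.1 e2).resolve_right hu₂0, zero_smul] at e1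
    exact hu₁0 e1.symm
  have ha2 : a ≤ 2 := by
    let sl := (frameVec e P).toLinearMap.comp (pTL (α := Fin 4) (Pi.single (0 : Fin 3) (1 : F)))
    have hsl : ∀ x, sl x = frameVec e P (pT x (Pi.single 0 1)) := fun x => rfl
    have hcol : ∀ x : Fin 4 → F, (fun i => pT x (Pi.single (0 : Fin 3) (1 : F)) (i, 0)) = x :=
      fun x => by ext i; simp [pT]
    refine (le_finrank_of_algHom φ (W := U.map sl) (fun h0 => ?_) ?_).trans
      ((Submodule.finrank_map_le _ _).trans (hd hU).le)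
    · obtain ⟨u, hu, hu0⟩ := U.ne_bot_iff.1 (fun h0 => by
        have := hd hU; rw [h0, finrank_bot] at this; omega)
      have : sl u = 0 := by rw [← Submodule.mem_bot F, ← h0]; exact ⟨u, hu, rfl⟩
      rw [hsl, map_eq_zero_iff _ (frameVec e P).injective] at this
      exact hu0 (by rw [← hcol u, this]; rfl)
    · rintro X _ ⟨u, hu, rfl⟩
      obtain ⟨⟨Y, hY⟩, hY'⟩ : φ X ∈ S := hφ ▸ ⟨X, rfl⟩
      have h5 := hY' 1 H.one_mem _ (pT_mem_hat hu (Pi.single 0 1))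
      rw [H7.cj_one, hY, H7.frameEquiv_mulVec, kron_mulVec_pT, Matrix.one_mulVec] at h5
      refine ⟨Y *ᵥ u, by have := mem_hat.1 h5 0; rwa [hcol] at this, ?_⟩
      rw [hsl, hsl, hY, H7.frameEquiv_mulVec, kron_mulVec_pT, Matrix.one_mulVec]
  obtain rfl : a = 2 := by omega
  obtain ⟨b', e', P', A', B', ε', h'⟩ := td_of_algHom hQ hH' ha φ (hφ ▸ hSN) (hφ ▸ hSa)
  have := h'.card
  exact h'.two hQ hH' hirr hp (by omega)

omit hQ in
lemma exists_reframe {κ : Type} [Fintype κ] [DecidableEq κ] (e : ι ≃ κ) (P : GL ι F) (R : GL κ F) :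
    ∃ P' : GL ι F, (∀ x, frameVec e P' x = frameVec e P ((R : Matrix κ κ F) *ᵥ x)) ∧
      ∀ X, frameEquiv e P' X = frameEquiv e P (cj R X) := by
  refine ⟨frameGL e P R * P, fun x => ?_, fun X => ?_⟩
  · rw [H7.frameVec_apply, Units.val_mul, ← Matrix.mulVec_mulVec, ← H7.frameVec_apply,
      H7.frameGL_val, H7.frameEquiv_mulVec]
  · rw [H7.frameEquiv_apply, H7.cj_mul, ← H7.frameEquiv_apply]
    apply cj_eq_of_mul
    rw [H7.frameGL_val, ← map_mul, ← map_mul, H7.cj_mul_val]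

lemma TD.square {e : ι ≃ Fin a × Fin a} {B : Matrix (Fin a) (Fin a) F} (h : TD Q H e P A B ε)
    (h2 : (2 : F) ≠ 0) (hs : Aᵀ = A) (hs' : Bᵀ = B) (ho : Odd a) (ha : 3 ≤ a)
    (hq : ¬ (Fintype.card F = 3 ∧ a = 3)) : CP Q H := by
  obtain ⟨c, hc, hi⟩ := exists_similar_odd (nd_qf h.hA hs h2) (nd_qf h.hB hs' h2)
    (by simpa using ho) rfl
  obtain ⟨T, -, hT⟩ := hi
  have hnd := ndOn_smul hc (nd_qf h.hA hs h2).ndOn_top
  have hinj : Function.Injective T := (injective_iff_map_eq_zero T).2 fun w hw =>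
    inj_of_iso hnd hT w trivial hw
  have hdet : (LinearMap.toMatrix' T).det ≠ 0 := by
    rw [LinearMap.det_toMatrix']
    exact ((LinearMap.isUnit_iff_ker_eq_bot T).2 (LinearMap.ker_eq_bot.2 hinj)).map
      LinearMap.det |>.ne_zero
  let R := Matrix.GeneralLinearGroup.mkOfDetNeZero _ hdet
  have hR : tw (RingHom.id F) B (R : Matrix (Fin a) (Fin a) F) = c • A := by
    refine H7.gform_ext (σ := RingHom.id F) fun u v => ?_
    have := B_map_of_iso hT (x := u) (y := v) trivial trivial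
    rw [B_smul_form, B_qf, B_qf] at this
    rw [← H7.gform_tw, H7.gform_smul]
    change gf B (LinearMap.toMatrix' T *ᵥ u) (LinearMap.toMatrix' T *ᵥ v) = c * gf A u v
    rw [LinearMap.toMatrix'_mulVec, LinearMap.toMatrix'_mulVec]
    apply mul_left_cancel₀ h2
    linear_combination this
  let R' : GL (Fin a × Fin a) F := Matrix.GeneralLinearGroup.mkOfDetNeZero
    ((1 : Matrix (Fin a) (Fin a) F) ⊗ₖ (R : Matrix (Fin a) (Fin a) F))
    (H7.det_kron_ne_zero (by simp) (H7.val_det_ne_zero R))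
  have hR' : (R' : Matrix (Fin a × Fin a) (Fin a × Fin a) F) =
    (1 : Matrix (Fin a) (Fin a) F) ⊗ₖ (R : Matrix (Fin a) (Fin a) F) := rfl
  obtain ⟨P', h3, h4⟩ := exists_reframe e P R'
  refine ⟨a, 2, e.trans (finTwoArrowEquiv (Fin a)).symm, P', gf A, ha, le_rfl,
    by rw [sq, h.card], hq, H7.isSymmetricForm_gform h.hA hs,
    H7.isTensorPowerFormStructure_of_gram (hfQ hQ).toSesq hc ?_, fun g hg => ?_⟩
  · ext s t
    have hsingle : ∀ s : Fin 2 → Fin a, (Pi.single s (1 : F) : (Fin 2 → Fin a) → F) ∘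
        (finTwoArrowEquiv (Fin a)).symm = Pi.single (s 0, s 1) 1 := fun s => by
      ext ⟨i, j⟩
      simp only [Function.comp_apply, Pi.single_apply, Prod.mk.injEq]
      congr 1
      rw [Equiv.symm_apply_eq]
      simp [finTwoArrowEquiv]
    simp only [frameGram, gramMatrix]
    rw [H7.frameVec_trans, H7.frameVec_trans, h3, h3, h.polar hQ, hsingle, hsingle, gf,
      H7.gform_tw, hR', H7.tw_kron, H7.tw_one, hR, H7.gform_single]
    simp [H7.pt_apply, Fin.prod_univ_two]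
    ring
  · obtain ⟨x, y, μ, h5, -⟩ := h.kron g hg
    refine H7.mem_tensorWreath_of_kron e P' (a := x) (b := R⁻¹ * y * R) ?_
    rw [h4, h5]
    congr 1
    refine (cj_eq_of_mul ?_).symm
    rw [hR', ← Matrix.mul_kronecker_mul, ← Matrix.mul_kronecker_mul, one_mul, mul_one,
      ← Units.val_mul, ← Units.val_mul, ← mul_assoc, ← mul_assoc, mul_inv_cancel, one_mul]

theorem tensor_cases (hn : Odd (Fintype.card ι) ∨ Fintype.card ι ≤ 12) (hH : H ≤ omegaGL Q)
    (hirr : Irr H) (hp : ¬ NonPrim Q H) (h : H7.TensorCase H) : CT1 Q H ∨ CT2 Q H ∨ CP Q H := by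
  have hH' := hH.trans omega_le
  obtain ⟨a, b, e, P, A, B, ε, ha, hab, h⟩ := td_of_tensorCase hQ hH' h
  have hc := h.card
  by_cases ha2 : a = 2
  · subst ha2
    exact Or.inr (Or.inl (h.two hQ hH' hirr hp hab))
  rcases h.alt_or_sym hQ hirr ha (ha.trans hab) with ⟨h1, h2⟩ | ⟨h2, hs, hs'⟩
  · exfalso
    have e1 : Even a := by simpa using H7.even_card_of_symplectic (symplectic_of_alt h.hA h1)
    rcases hn with hn | hn
    · exact Nat.not_even_iff_odd.2 hn (hc ▸ e1.mul_right b)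
    · obtain ⟨m, hm⟩ := e1
      have : 4 ≤ a := by omega
      nlinarith
  have hq : ¬ (Fintype.card F = 3 ∧ a = 3) := by
    rintro ⟨hq, rfl⟩
    exact hp (h.nonPrim hQ (by omega) (small_three hq h.hA hs))
  rcases hab.eq_or_lt with rfl | hab
  · refine Or.inr (Or.inr (h.square hQ h2 hs hs' ?_ (by omega) hq))
    rcases hn with hn | hn
    · exact (Nat.odd_mul.1 (hc ▸ hn)).1
    · have : a = 3 := by
        by_contra h3
        have : 4 ≤ a := by omega
        nlinarith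
      rw [this]; decide
  by_cases h34 : a = 3 ∧ b = 4 ∧ Plus (qf h.hB hs' h2) ⊤
  · obtain ⟨rfl, rfl, h3⟩ := h34
    exact Or.inr (Or.inl (h.swap.four_three hQ hH hirr hp h2 hs' h3))
  refine Or.inl ⟨?_, a, b, e, P, gf A, gf B, by omega, hab, hc, fun h3 h4 => hq ⟨h3, h4⟩,
    H7.isSymmetricForm_gform h.hA hs, H7.isSymmetricForm_gform h.hB hs', h.struct hQ, h.le,
    fun h3 h4 => ?_⟩
  · by_contra h3
    exact h2 (H7.two_eq_zero_of_not_odd h3)
  · have h5 : ¬ Plus (qf h.hB hs' h2) ⊤ := fun h5 => h34 ⟨h3, h4, h5⟩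
    refine ⟨h5, ?_⟩
    rwa [plus_iff hQ, h.swap.plus_iff hQ h2 hs' hs (by rw [h4]; decide) (by rw [h3]; decide)]

end Cfsg.Agent.H8
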