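import Cfsg.Agent.H8.OAsch5

/-! Orthogonal Aschbacher theorem, part 6: tensor powers, extraspecial groups, main theorem. -/

set_option autoImplicit false
set_option linter.unusedSectionVars false
set_option linter.style.haveILetI false

namespace Cfsg.Agent.H8

open Module Cfsg.Agent.Orth Cfsg.Geo
open Cfsg.Agent.H7 (Irr AbsIrr IsScal NormA NormG cj Isom HForm adj spanAlg ctr gform tw frameEquiv
  frameVec frameGram frameGL pt slot ptGL permGL J2 permMat)
open scoped Matrix Kronecker commutatorElement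

section pt
variable {F : Type*} [Field F] {T α : Type} [Fintype T] [DecidableEq T] [Fintype α] [DecidableEq α]

lemma eq_smul_of_pt_eq {a b : T → Matrix α α F} (hb : ∀ i, b i ≠ 0) (h : pt a = pt b) (i : T) :
    ∃ μ : F, a i = μ • b i := by
  choose u v huv using fun j => H7.exists_entry_ne_zero (hb j)
  have key : ∀ (c : T → Matrix α α F) s t, pt c (Function.update u i s) (Function.update v i t) =
      c i s t * ∏ j ∈ Finset.univ.erase i, c j (u j) (v j) := by
    intro c s t
    rw [H7.pt_apply, ← Finset.mul_prod_erase _ _ (Finset.mem_univ i), Function.update_self,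
      Function.update_self]
    congr 1
    refine Finset.prod_congr rfl fun j hj => ?_
    rw [Function.update_of_ne (Finset.ne_of_mem_erase hj),
      Function.update_of_ne (Finset.ne_of_mem_erase hj)]
  have h1 : ∀ s t, a i s t * ∏ j ∈ Finset.univ.erase i, a j (u j) (v j) =
      b i s t * ∏ j ∈ Finset.univ.erase i, b j (u j) (v j) := fun s t => by
    rw [← key, ← key, h]
  have h2 : ∏ j ∈ Finset.univ.erase i, b j (u j) (v j) ≠ 0 :=
    Finset.prod_ne_zero_iff.2 fun j _ => huv j
  have h3 : ∏ j ∈ Finset.univ.erase i, a j (u j) (v j) ≠ 0 :=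
    right_ne_zero_of_mul (h1 _ _ ▸ mul_ne_zero (huv i) h2)
  refine ⟨(∏ j ∈ Finset.univ.erase i, b j (u j) (v j)) /
    ∏ j ∈ Finset.univ.erase i, a j (u j) (v j), ?_⟩
  ext s t
  rw [Matrix.smul_apply, smul_eq_mul, div_mul_eq_mul_div, eq_div_iff h3, h1, mul_comm]

lemma tw_pt_permMat (A : Matrix α α F) (s : Equiv.Perm T) :
    tw (RingHom.id F) (pt fun _ : T => A) (permMat s) = pt fun _ : T => A := by
  have h1 : (permMat s : Matrix (T → α) (T → α) F)ᵀ = permMat s.symm := by
    ext x y
    simp only [permMat, Matrix.transpose_apply, Matrix.of_apply]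
    congr 1
    apply propext
    constructor <;> rintro rfl <;> ext i <;> simp
  ext x y
  rw [tw, h1, RingHom.coe_id, Matrix.map_id, H7.mul_permMat, H7.permMat_mul, H7.pt_apply,
    H7.pt_apply]
  exact Equiv.prod_comp s.symm fun i => A (x i) (y i)

end pt

section abstr
variable {F V : Type*} [Field F] [AddCommGroup V] [Module F V] {Q : QuadraticForm F V}
  [FiniteDimensional F V] [Finite F]

lemma plus_of_sq_neg (hQ : Nd Q) (h2 : (2 : F) ≠ 0) (h4 : 4 ∣ finrank F V) {ω : V →ₗ[F] V}
    (hω : ∀ v, ω (ω v) = -v) (hq : ∀ v, Q (ω v) = Q v) : Plus Q ⊤ := by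
  have hB : ∀ x y, B Q (ω x) (ω y) = B Q x y := fun x y => by
    have := hq (x + y)
    rw [map_add, Q_add, Q_add, hq, hq] at this
    linear_combination this
  have hB' : ∀ x y, B Q x (ω y) = -B Q (ω x) y := fun x y => by
    rw [← hB x, hω, map_neg]
  by_cases hs : ∃ i : F, i * i = -1
  · obtain ⟨i, hi⟩ := hs
    have hi0 : i ≠ 0 := by rintro rfl; simp at hi
    have hts : ∀ j : F, j * j = -1 → TS Q (LinearMap.ker (ω - j • LinearMap.id)) := by
      intro j hj v hv
      rw [LinearMap.mem_ker, LinearMap.sub_apply, sub_eq_zero] at hv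
      have := hq v
      rw [hv, LinearMap.smul_apply, LinearMap.id_apply, Q_smul, hj] at this
      apply mul_left_cancel₀ h2
      linear_combination -this
    have h1 := hts i hi
    have h3 := hts (-i) (by rw [neg_mul_neg, hi])
    have h5 : LinearMap.ker (ω - i • LinearMap.id) ⊔ LinearMap.ker (ω - (-i) • LinearMap.id) = ⊤ := by
      rw [eq_top_iff]
      intro v _
      refine Submodule.mem_sup.2 ⟨(2 * i)⁻¹ • (ω v + i • v), ?_, (-(2 * i)⁻¹) • (ω v - i • v), ?_,
        ?_⟩
      · refine Submodule.smul_mem _ _ ?_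
        simp only [LinearMap.mem_ker, LinearMap.sub_apply, LinearMap.smul_apply, LinearMap.id_apply,
          map_add, map_smul, hω, smul_sub, smul_smul, hi]
        module
      · refine Submodule.smul_mem _ _ ?_
        simp only [LinearMap.mem_ker, LinearMap.sub_apply, LinearMap.smul_apply, LinearMap.id_apply,
          map_sub, map_smul, hω, smul_sub, smul_smul, mul_neg, hi]
        module
      · match_scalars <;> field_simp <;> ring
    have h6 := finrank_sup_le (LinearMap.ker (ω - i • LinearMap.id))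
      (LinearMap.ker (ω - (-i) • LinearMap.id))
    rw [h5] at h6
    have h7 := hQ.ndOn_top.ts_finrank_le le_top h1.le_perp
    have h8 := hQ.ndOn_top.ts_finrank_le le_top h3.le_perp
    exact ⟨_, le_top, h1, by omega⟩
  · refine (plus_iff_four_dvd hQ ω (t := 0) (N := 1) (fun v => by rw [hω]; simp)
      (fun a b h => ?_) (α := 0) (β := -1) (fun x y => by rw [hB']; ring) fun x hx =>
      ⟨by rw [hq, hx], ?_⟩).2 h4
    · by_contra hb
      refine hs ⟨a / b, ?_⟩
      field_simp
      linear_combination h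
    · have := hB' x x
      rw [B_comm Q (ω x)] at this
      apply mul_left_cancel₀ h2
      linear_combination this

end abstr

variable {ι : Type} [Fintype ι] [DecidableEq ι] {F : Type*} [Field F] [Fintype F]
  {Q : (ι → F) → F} (hQ : IsNondegenerateQuadraticForm Q) {H : Subgroup (GL ι F)}

include hQ

lemma nonPrim_of_power {t m : ℕ} (ht : 0 < t) (hm : 0 < m) {e : ι ≃ (Fin t → Fin m)} {P : GL ι F}
    {A : Matrix (Fin m) (Fin m) F} {c : F} (hc : c ≠ 0) (hA : A.det ≠ 0)
    (hH : H ≤ isometryGroup F Q)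
    (hG : frameGram (QuadraticMap.polar Q) e P = c • pt fun _ : Fin t => A)
    (hg : ∀ g ∈ H, ∃ (s : Equiv.Perm (Fin t)) (a : Fin t → GL (Fin m) F),
      g = frameGL e P (permGL s * ptGL a)) (hs : Small A) : NonPrim Q H := by
  haveI : Nonempty (Fin m) := ⟨⟨0, hm⟩⟩
  have hf := hfQ hQ
  obtain ⟨S, h1, h2, ⟨X, hX, h3⟩, h4⟩ := hs
  refine nonPrim_of_set hQ {z | ∃ i, ∃ X ∈ S, z = frameEquiv e P (slot i X)} ?_ ?_ ?_
    ⟨_, ⟨⟨0, ht⟩, X, hX, rfl⟩, fun h => h3 ?_⟩
  · rintro _ ⟨i, X, hX, rfl⟩ _ ⟨j, Y, hY, rfl⟩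
    rw [← map_mul, ← map_mul]
    by_cases hij : i = j
    · rw [hij, ← map_mul, ← map_mul, h1 X hX Y hY]
    · rw [H7.slot_comm hij]
  · rintro _ ⟨i, X, hX, rfl⟩
    obtain ⟨Y, hY, he⟩ := h2 X hX
    rw [hf.adj_frameEquiv e P (Y := slot i Y) (by
      rw [hG, H7.slot_transpose, RingHom.coe_id, Matrix.map_id, Matrix.mul_smul, Matrix.smul_mul,
        (H7.pt_update _ _ _).1, (H7.pt_update _ _ _).2, he])]
    exact Algebra.subset_adjoin ⟨i, Y, hY, rfl⟩
  · rintro g hgH _ ⟨i, X, hX, rfl⟩
    obtain ⟨s, a, rfl⟩ := hg g hgH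
    have h5 := hf.frameGram_sim e P (c := 1) (X := ((permGL s * ptGL a : GL (Fin t → Fin m) F) :
      Matrix (Fin t → Fin m) (Fin t → Fin m) F)) (fun u v => by
        rw [← H7.frameGL_val, isom_of_le hQ hH _ hgH, one_mul])
    rw [hG, one_smul, H7.tw_smul, Units.val_mul, H7.tw_mul] at h5
    change c • tw _ (tw _ _ (permMat s)) _ = _ at h5
    rw [tw_pt_permMat, H7.ptGL_val, H7.tw_pt] at h5
    obtain ⟨μ, hμ⟩ := eq_smul_of_pt_eq (fun _ => H7.ne_zero_of_det hA)
      (smul_right_injective _ hc h5) i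
    rw [cj_eq_of_mul (y := frameEquiv e P (slot (s i) (cj (a i) X))) (by
      rw [H7.frameGL_val, ← map_mul, ← map_mul, Units.val_mul, H7.ptGL_val, mul_assoc,
        H7.pt_mul_slot _ i (H7.cj_mul_val (a i) X).symm, ← mul_assoc, ← mul_assoc]
      congr 2
      exact H7.permMat_mul_slot s i _)]
    exact Algebra.subset_adjoin ⟨s i, _, h4 _ μ hμ X hX, rfl⟩
  · obtain ⟨d, hd⟩ := (H7.isScal_frameEquiv_iff e P).1 h
    exact ⟨d, H7.slot_injective _ (by rw [hd, map_smul, map_one])⟩

theorem power_cases (hn : 7 ≤ Fintype.card ι) (hn' : Odd (Fintype.card ι) ∨ Fintype.card ι ≤ 12)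
    (hH : H ≤ isometryGroup F Q) (hp : ¬ NonPrim Q H) (h : H7.PowerCase H) :
    CP Q H ∨ (Fintype.card ι = 8 ∧ IsPlusTypeOn Q ⊤) := by
  have hf := hfQ hQ
  obtain ⟨t, m, e, P, A, c, δ, ht, hm, hc, hA, h1, -, h2, hG, h3, h4, L, hLH, -, hL, N, -, hLN, -,
    hN⟩ := hf.powerCase (isom_of_le hQ hH) h
  have hcard : m ^ t = Fintype.card ι := by rw [Fintype.card_congr e]; simp
  have hsm := fun hs => hp (nonPrim_of_power hQ (by omega) (by omega) hc hA hH hG h4 hs)
  have hsym : Odd t ∨ Odd m → Aᵀ = A := by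
    intro ho
    by_cases h5 : (2 : F) = 0
    · exact h1.transpose_eq_of_two h5
    rcases h1.eps with rfl | rfl
    · simpa using h1.transpose_eq
    rcases ho with ho | ho
    · rw [ho.neg_one_pow] at h2
      exact absurd (mul_right_cancel₀ hc (show (2:F) * c = 0 * c by
        simp only [RingHom.id_apply] at h2; linear_combination h2)) h5
    · exfalso
      have := H7.even_card_of_symplectic (symplectic_of_alt hA (alt_of_skew h5 h1.transpose_eq))
      rw [Fintype.card_fin] at this
      exact Nat.not_even_iff_odd.2 ho this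
  by_cases hm2 : m = 2
  · subst hm2
    have ht3 : t = 3 := by
      rcases hn' with hn' | hn'
      · rw [← hcard, Nat.odd_pow_iff (by omega)] at hn'
        exact absurd hn' (by decide)
      · rw [← hcard] at hn hn'
        by_contra h5
        rcases Nat.lt_or_gt_of_ne h5 with h5 | h5
        · obtain rfl : t = 2 := by omega
          omega
        · have := Nat.pow_le_pow_right two_pos h5
          omega
    subst ht3
    have hs := hsym (Or.inl (by decide))
    have h5 : (2 : F) = 0 ∧ ∀ i, A i i = 0 := by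
      by_contra h5
      refine hsm (small_two hA hs ?_)
      by_contra h6
      push Not at h6
      exact h5 h6
    have hgram : ∀ k l : Fin 3 → Fin 2, ∀ j, k j = l j →
        frameGram (QuadraticMap.polar Q) e P k l = 0 := by
      intro k l j hj
      rw [hG, Matrix.smul_apply, H7.pt_apply, Finset.prod_eq_zero (Finset.mem_univ j)
        (by rw [hj, h5.2]), smul_zero]
    have hsing := frame_sing hQ (by omega) h5.1 e P hL.1 (hLH.trans hH) (⋃ i, (N i : Set (GL ι F)))
      (by rw [hLN, Subgroup.iSup_eq_closure]) (by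
        rw [hLN]; exact Set.iUnion_subset fun i => le_iSup N i) (by
      intro g hg k
      obtain ⟨i, hi⟩ := Set.mem_iUnion.1 hg
      obtain ⟨X, hX, -⟩ := hN i g hi
      refine ⟨_, by rw [hX, H7.frameEquiv_mulVec], Q_frame_sum hQ e P _ fun k' l' _ => ?_⟩
      obtain ⟨j, hj⟩ := exists_ne i
      simp only [Matrix.mulVec_single_one, Matrix.col_apply, H7.slot_apply]
      split_ifs with e1 e2
      · rw [hgram k' l' j ((e1 j hj).trans (e2 j hj).symm), mul_zero]
      all_goals simp)
    refine Or.inr ⟨by omega, Submodule.span F (Set.range fun k : {k : Fin 3 → Fin 2 // k 0 = 0} =>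
      frameVec e P (Pi.single k.1 1)), le_top, ?_, ?_⟩
    · refine ts_span (Q := toQF hQ) ?_ ?_
      · rintro _ ⟨k, rfl⟩
        exact hsing _
      · rintro _ ⟨k, rfl⟩ _ ⟨l, rfl⟩
        exact hgram k l 0 (k.2.trans l.2.symm)
    · rw [finrank_span_eq_card, finrank_top, finrank_fintype_fun_eq_card, ← hcard]
      · decide
      · exact ((Pi.linearIndependent_single_one _ F).comp _ Subtype.val_injective).map'
          (frameVec e P).toLinearMap (LinearEquiv.ker _)
  · have ho : Odd m := by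
      rcases hn' with hn' | hn'
      · rwa [← hcard, Nat.odd_pow_iff (by omega)] at hn'
      · have h5 := Nat.pow_le_pow_right (n := m) (by omega) ht
        have : m = 3 := by
          by_contra h6
          have : 4 ≤ m := by omega
          nlinarith
        rw [this]; decide
    have hs := hsym (Or.inr ho)
    refine Or.inl ⟨m, t, e, P, gf A, by omega, ht, hcard, ?_, H7.isSymmetricForm_gform hA hs,
      H7.isTensorPowerFormStructure_of_gram hf.toSesq hc hG, h3⟩
    rintro ⟨hq, rfl⟩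
    exact hsm (small_three hq hA hs)

theorem extra_cases (hn : 7 ≤ Fintype.card ι) (hn' : Odd (Fintype.card ι) ∨ Fintype.card ι ≤ 12)
    (hH : H ≤ isometryGroup F Q) (h : H7.ExtraCase H) :
    Fintype.card ι = 8 ∧ IsPlusTypeOn Q ⊤ := by
  haveI : Nonempty ι := H7.nonempty_of_two_le (by omega)
  have hf := hfQ hQ
  obtain ⟨L, hL, hD, h2, -⟩ := h.bilinear (by omega) hf.toSesq (isom_of_le hQ hH)
  obtain ⟨m, hm, hcard⟩ := hD.exists_card_eq_pow (by omega)
  have h8 : Fintype.card ι = 8 := by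
    rcases hn' with hn' | hn'
    · rw [hcard, Nat.odd_pow_iff (by omega)] at hn'
      exact absurd hn' (by decide)
    · rw [hcard] at hn hn' ⊢
      rcases lt_trichotomy m 3 with h5 | rfl | h5
      · have := Nat.pow_le_pow_right two_pos (Nat.le_of_lt_succ h5)
        omega
      · rfl
      · have := Nat.pow_le_pow_right two_pos h5
        omega
  refine ⟨h8, ?_⟩
  obtain ⟨x, hx, y, hy, c, hc1, hc2, hxy⟩ :=
    H7.exists_root_of_comm (by omega) hD.abs hD.comm hD.pow_scal
  have hc : (c : F) = -1 := by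
    have := congrArg Units.val hc2
    rw [Units.val_pow_eq_pow_val, Units.val_one, sq, mul_self_eq_one_iff] at this
    exact this.resolve_left fun h => hc1 (Units.ext h)
  have hsq : ∀ z ∈ L, (z : Matrix ι ι F) * z = 1 ∨ (z : Matrix ι ι F) * z = -1 := by
    intro z hz
    obtain ⟨d, hd⟩ := H7.exists_scalGL (hD.pow_scal z hz)
    have h3 := (isom_of_le hQ hH).scal_sq hf.toSesq (hL (hd ▸ L.pow_mem hz 2))
    rw [← Units.val_mul, ← sq, hd, H7.scalGL_val]
    rcases mul_self_eq_one_iff.1 h3 with h | h <;> simp [h]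
  obtain ⟨z, hz, hzz⟩ : ∃ z ∈ L, (z : Matrix ι ι F) * z = -1 := by
    rcases hsq x hx with h3 | h3
    swap
    · exact ⟨x, hx, h3⟩
    rcases hsq y hy with h4 | h4
    swap
    · exact ⟨y, hy, h4⟩
    refine ⟨x * y, L.mul_mem hx hy, ?_⟩
    nth_rewrite 1 [hxy]
    simp only [Units.val_mul, H7.scalGL_val, hc, Matrix.smul_mul, one_mul]
    rw [mul_assoc, ← mul_assoc (x : Matrix ι ι F), h3, one_mul, h4]
    simp
  rw [plus_iff hQ]
  refine plus_of_sq_neg (nd_toQF hQ) h2 (by simp [h8]) (ω := Matrix.toLin' (z : Matrix ι ι F))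
    (fun v => ?_) fun v => Q_val hQ (hH (hL hz)) v
  rw [Matrix.toLin'_apply, Matrix.toLin'_apply, Matrix.mulVec_mulVec, hzz, Matrix.neg_mulVec,
    Matrix.one_mulVec]

/-- **Aschbacher's theorem for orthogonal groups** (odd dimension or dimension at most 12). -/
theorem asch_orth (hn : 7 ≤ Fintype.card ι) (hn' : Odd (Fintype.card ι) ∨ Fintype.card ι ≤ 12)
    (hH : H ≤ omegaGL Q) :
    (∃ W : Submodule F (ι → F), W ≠ ⊥ ∧ IsTotallySingularQuad Q W ∧ H ≤ subspaceStabilizer W) ∨
    (∃ W : Submodule F (ι → F), W ≠ ⊥ ∧ IsNondegenerateOn (QuadraticMap.polar Q) W ∧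
      2 * finrank F W ≤ Fintype.card ι ∧ H ≤ subspaceStabilizer W) ∨
    (¬ Odd (Fintype.card F) ∧ ∃ v : ι → F, Q v ≠ 0 ∧
      H ≤ subspaceStabilizer (Submodule.span F {v})) ∨
    (∃ (t k : ℕ) (D : Fin t → Submodule F (ι → F)), IsOrthogonalMDecomposition Q k D ∧
      H ≤ decompositionStabilizer D ∧ (k = 1 → (Fintype.card F).Prime)) ∨
    CD2 Q H ∨ CF1 Q H ∨ CF2 Q H ∨ CT1 Q H ∨ CT2 Q H ∨ CP Q H ∨ CSub Q H ∨
    (Fintype.card ι = 8 ∧ IsPlusTypeOn Q ⊤) ∨ InOrthogonalResidualClass H := by
  have hH' := hH.trans omega_le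
  by_cases hirr : Irr H
  swap
  · rcases reducible_cases hQ hH' hirr with h | h | h
    · exact Or.inl h
    · exact Or.inr (Or.inl h)
    · exact Or.inr (Or.inr (Or.inl h))
  refine Or.inr (Or.inr (Or.inr ?_))
  by_cases hp : NonPrim Q H
  · rcases field_cases hQ (by omega) hH hirr hp with ⟨t, k, D, hD, hs⟩ | h | h | h
    · by_cases hk : k = 1 → (Fintype.card F).Prime
      · exact Or.inl ⟨t, k, D, hD, hs, hk⟩
      · push Not at hk
        obtain ⟨rfl, hk⟩ := hk
        have := csub_of_frame hQ hD hk hH' hs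
        tauto
    all_goals tauto
  rcases H7.core (by omega) hirr (fun L hL hN => ctr_scal_of_prim hQ hp hN.normA fun x hx =>
    (hfQ hQ).adj_mem_spanAlg (isom_of_le hQ (hL.trans hH')) hx) with h | h | h | h
  · have := tensor_cases hQ hn' hH hirr hp h
    tauto
  · have := extra_cases hQ hn hn' hH' h
    tauto
  · have := power_cases hQ hn hn' hH' hp h
    tauto
  · have := quasi_cases hQ (by omega) hH' h
    tauto

/-! ### properness of tensor stabilisers -/

lemma not_le_of_pure (hd : 5 ≤ Fintype.card ι) {κ : Type} [Fintype κ] [DecidableEq κ] (e : ι ≃ κ)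
    (P : GL ι F) (k₀ : κ) (pure : Set (κ → F)) {S : Subgroup (GL ι F)}
    (hS : ∀ g ∈ S, ∃ w ∈ pure,
      (g : Matrix ι ι F) *ᵥ frameVec e P (Pi.single k₀ 1) = frameVec e P w)
    (T : Finset κ) (hT : 4 ≤ T.card) (hk : k₀ ∉ T)
    (hp : ∀ s : κ → F, (∀ k ∉ T, s k = 0) → Pi.single k₀ 1 + s ∈ pure → s = 0) :
    ¬ omegaGL Q ≤ S := by
  intro h
  let Ψ : (T → F) →ₗ[F] (κ → F) :=
    { toFun := fun u k => if h : k ∈ T then u ⟨k, h⟩ else 0
      map_add' := fun u v => by ext k; by_cases h : k ∈ T <;> simp [h]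
      map_smul' := fun c u => by ext k; by_cases h : k ∈ T <;> simp [h] }
  have hΨ : ∀ u, ∀ k ∉ T, Ψ u k = 0 := fun u k hk => dif_neg hk
  obtain ⟨s, ⟨u, rfl⟩, hs0, hg⟩ := exists_omega_out hQ hd
    (W := LinearMap.range ((frameVec e P).toLinearMap.comp Ψ))
    (v := frameVec e P (Pi.single k₀ 1)) (by
      rw [LinearMap.finrank_range_of_inj]
      · simpa using hT
      · intro u v huv
        ext k
        simpa [Ψ] using congrFun ((frameVec e P).injective huv) k) (by
      rintro ⟨u, hu⟩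
      have := congrFun ((frameVec e P).injective hu) k₀
      rw [hΨ u k₀ hk] at this
      simp at this)
  obtain ⟨g, hg, he⟩ := hg 1
  obtain ⟨w, hw, he'⟩ := hS g (h hg)
  rw [he, one_smul] at he'
  have : Pi.single k₀ 1 + Ψ u = w := (frameVec e P).injective (by rw [map_add]; exact he')
  apply hs0
  change frameVec e P (Ψ u) = 0
  rw [hp _ (hΨ u) (this ▸ hw), map_zero]

lemma not_le_tensor (hd : 5 ≤ Fintype.card ι) {a b : ℕ} (hab : 4 ≤ (a - 1) * (b - 1))
    (e : ι ≃ Fin a × Fin b) (P : GL ι F) : ¬ omegaGL Q ≤ tensorProductSubgroup a b e P := by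
  have ha : 0 < a := by rcases a with _ | a <;> simp at hab ⊢
  have hb : 0 < b := by rcases b with _ | b <;> simp at hab ⊢
  let i : Fin a := ⟨0, ha⟩
  let j : Fin b := ⟨0, hb⟩
  refine not_le_of_pure hQ hd e P (i, j) {w | ∃ x y, w = pT x y} (fun g hg => ?_)
    (Finset.univ.erase i ×ˢ Finset.univ.erase j) (by simpa [Finset.card_erase_of_mem] using hab)
    (by simp) ?_
  · obtain ⟨x, y, h⟩ := (H7.mem_tensorProductSubgroup_iff e P g).1 hg
    exact ⟨_, ⟨_, _, rfl⟩, by rw [h, H7.frameEquiv_mulVec, ← pT_single, kron_mulVec_pT]⟩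
  · rintro s hs ⟨x, y, h⟩
    have h1 := congrFun h (i, j)
    rw [Pi.add_apply, hs _ (by simp)] at h1
    have h2 : y j ≠ 0 := fun h0 => by simp [pT, h0] at h1
    ext ⟨k, l⟩
    by_cases hk : k = i
    · exact hs _ (by simp [hk])
    have h3 := congrFun h (k, j)
    rw [Pi.add_apply, hs _ (by simp)] at h3
    simp [pT, hk, h2] at h3
    simpa [pT, hk, h3] using congrFun h (k, l)

lemma not_le_wreath (hd : 5 ≤ Fintype.card ι) {m t : ℕ} (hm : 3 ≤ m) (ht : 2 ≤ t)
    (e : ι ≃ (Fin t → Fin m)) (P : GL ι F) : ¬ omegaGL Q ≤ tensorWreathSubgroup m t e P := by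
  let o : Fin m := ⟨0, by omega⟩
  let pure : Set ((Fin t → Fin m) → F) := {w | ∃ x : Fin t → Fin m → F, w = fun k => ∏ i, x i (k i)}
  have hstab : tensorWreathStandard m t F ≤ (setStab F pure).comap phi.toMonoidHom := by
    rw [tensorWreathStandard, Subgroup.closure_le]
    rintro g (⟨gs, hg⟩ | ⟨σ, hg⟩)
    · refine mem_setStab ?_
      rintro _ ⟨x, rfl⟩
      refine ⟨fun i => (gs i : Matrix (Fin m) (Fin m) F) *ᵥ x i, ?_⟩
      ext k
      simp only [MulEquiv.toMonoidHom_eq_coe, MonoidHom.coe_coe, phi_apply, Matrix.mulVec,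
        dotProduct, hg, ← Finset.prod_mul_distrib]
      rw [Finset.prod_univ_sum]
      simp
    · refine mem_setStab ?_
      rintro _ ⟨x, rfl⟩
      refine ⟨fun i => x (σ.symm i), ?_⟩
      ext k
      simp only [MulEquiv.toMonoidHom_eq_coe, MonoidHom.coe_coe, phi_apply, Matrix.mulVec,
        dotProduct, hg, ite_mul, one_mul, zero_mul, Finset.sum_ite_eq', Finset.mem_univ, if_true]
      rw [← Equiv.prod_comp σ.symm]
      simp
  refine not_le_of_pure hQ hd e P (fun _ => o) pure (fun g hg => ?_)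
    (Fintype.piFinset fun _ => Finset.univ.erase o) ?_ (by simpa using ⟨⟨0, by omega⟩⟩) ?_
  · have h1 := hstab ((H7.mem_tensorWreathSubgroup_iff e P g).1 hg)
    refine ⟨_, (h1 (Pi.single (fun _ => o) 1)).1 ⟨fun _ => Pi.single o 1, ?_⟩, ?_⟩
    · ext k
      by_cases hk : k = fun _ => o
      · simp [hk]
      · obtain ⟨i, hi⟩ := Function.ne_iff.1 hk
        rw [Pi.single_eq_of_ne hk, Finset.prod_eq_zero (Finset.mem_univ i) (by simp [hi])]
    · rw [← H7.frameEquiv_frameGL_symm e P g, H7.frameEquiv_mulVec]; rfl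
  · simp only [Fintype.card_piFinset, Finset.card_erase_of_mem (Finset.mem_univ _),
      Finset.card_univ, Fintype.card_fin, Finset.prod_const]
    calc 4 = 2 ^ 2 := rfl
      _ ≤ (m - 1) ^ 2 := Nat.pow_le_pow_left (by omega) 2
      _ ≤ _ := Nat.pow_le_pow_right (by omega) ht
  · rintro s hs ⟨x, h⟩
    let i : Fin t := ⟨0, by omega⟩
    let j : Fin t := ⟨1, by omega⟩
    have hij : j ≠ i := by simp [i, j]
    have h1 := congrFun h fun _ => o
    rw [Pi.add_apply, hs _ (by simpa using ⟨i⟩)] at h1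
    simp only [Pi.single_eq_same, add_zero] at h1
    have h2 := Finset.prod_ne_zero_iff.1 (h1 ▸ one_ne_zero : ∏ l, x l o ≠ 0)
    ext k
    by_cases hk : k i = o
    · exact hs _ (by simpa using ⟨i, hk⟩)
    have hne : ∀ k' : Fin t → Fin m, k' i = k i → k' ≠ fun _ => o := fun k' h1 h2 =>
      hk (h1 ▸ congrFun h2 i)
    have h3 := congrFun h (Function.update (fun _ => o) i (k i))
    rw [Pi.add_apply, hs _ (by simpa using ⟨j, by simp [hij]⟩),
      Pi.single_eq_of_ne (hne _ (by simp)), add_zero, eq_comm, Finset.prod_eq_zero_iff] at h3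
    obtain ⟨l, -, hl⟩ := h3
    have h4 : x i (k i) = 0 := by
      by_cases hli : l = i
      · simpa [hli] using hl
      · rw [Function.update_of_ne hli] at hl
        exact absurd hl (h2 l (Finset.mem_univ l))
    have h5 := congrFun h k
    rwa [Pi.add_apply, Pi.single_eq_of_ne (hne k rfl), zero_add,
      Finset.prod_eq_zero (Finset.mem_univ i) h4] at h5

end Cfsg.Agent.H8
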