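import Cfsg.Agent.H8.OAsch6

/-! Orthogonal Aschbacher theorem, part 7: tools for maximal subgroups. -/

set_option autoImplicit false
set_option linter.unusedSectionVars false
set_option linter.style.haveILetI false

namespace Cfsg.Agent.H8

open Module Cfsg.Agent.Orth Cfsg.Geo
open scoped Matrix

lemma card_ne_six (F : Type*) [Field F] [Fintype F] : Fintype.card F ≠ 6 := by
  intro h
  obtain ⟨p, hp, n, hp', hn⟩ := FiniteField.card' F
  rw [h] at hn
  have h2 : 2 ∣ p ^ (n : ℕ) := hn ▸ by norm_num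
  have h3 : 3 ∣ p ^ (n : ℕ) := hn ▸ by norm_num
  have h4 := (Nat.prime_dvd_prime_iff_eq Nat.prime_two hp').1 (Nat.prime_two.dvd_of_dvd_pow h2)
  have h5 := (Nat.prime_dvd_prime_iff_eq Nat.prime_three hp').1 (Nat.prime_three.dvd_of_dvd_pow h3)
  omega

lemma odd_card_of_two_ne {F : Type*} [Field F] [Fintype F] (h : (2 : F) ≠ 0) :
    Odd (Fintype.card F) := by
  by_contra h'
  exact h (H7.two_eq_zero_of_not_odd h')

lemma isSquare_neg_one_iff' {F : Type*} [Field F] [Fintype F] (h : Odd (Fintype.card F)) :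
    IsSquare (-1 : F) ↔ Fintype.card F % 4 = 1 := by
  rw [FiniteField.isSquare_neg_one_iff]
  rw [Nat.odd_iff] at h
  omega

lemma odd_of_prime_ne {r : ℕ} (hr : r.Prime) (h : r ≠ 2) : Odd r := hr.odd_of_ne_two h

variable {ι : Type} [Fintype ι] [DecidableEq ι] {F : Type*} [Field F] [Fintype F]
  {Q : (ι → F) → F} (hQ : IsNondegenerateQuadraticForm Q) {H : Subgroup (GL ι F)}

include hQ

lemma odd_card_of_odd_finrank {W : Submodule F (ι → F)}
    (hW : IsNondegenerateOn (QuadraticMap.polar Q) W) (h : Odd (finrank F W)) :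
    Odd (Fintype.card F) :=
  odd_card_of_two_ne (two_ne_zero_of_odd_finrank ((ndOn_toQF hQ).1 hW) h)

lemma le_stab_perp (hH : H ≤ omegaGL Q) {W : Submodule F (ι → F)} (hs : H ≤ subspaceStabilizer W) :
    H ≤ subspaceStabilizer (perp (toQF hQ) W) := fun _ hg =>
  mem_subspaceStabilizer'.2 (perp_stable ((mem_isometryGroup hQ).1 (omega_le (hH hg)))
    (mem_subspaceStabilizer'.1 (hs hg)))

lemma finrank_perp' (W : Submodule F (ι → F)) :
    finrank F (perp (toQF hQ) W) + finrank F W = Fintype.card ι := by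
  simpa using (nd_toQF hQ).finrank_perp W

lemma ts_max (hn : 5 ≤ Fintype.card ι) (hH : IsMaximalIn (omegaGL Q) H) {W : Submodule F (ι → F)}
    (h0 : W ≠ ⊥) (hW : IsTotallySingularQuad Q W) (hs : H ≤ subspaceStabilizer W) :
    H = subspaceStabilizer W ⊓ omegaGL Q ∧
      (IsPlusTypeOn Q ⊤ → 2 * (finrank F W + 1) ≠ Fintype.card ι) :=
  ⟨eq_of_max hH hs (not_le_sub hQ hn h0 (ts_ne_top hQ (by omega) hW)),
    fun hp h => not_between hH hs (nm_submax hQ hn hp hW h)⟩

lemma nd_max (hn : 5 ≤ Fintype.card ι) (hH : IsMaximalIn (omegaGL Q) H) {W : Submodule F (ι → F)}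
    (h0 : W ≠ ⊥) (hW : IsNondegenerateOn (QuadraticMap.polar Q) W)
    (hd : finrank F W < Fintype.card ι) (hs : H ≤ subspaceStabilizer W) :
    H = subspaceStabilizer W ⊓ omegaGL Q ∧ W ≠ ⊤ ∧ 0 < finrank F W ∧
      (finrank F W = 2 → IsPlusTypeOn Q W → 4 ≤ Fintype.card F) := by
  have h1 : W ≠ ⊤ := fun h => by
    rw [h, finrank_top] at hd
    simp at hd
  refine ⟨eq_of_max hH hs (not_le_sub hQ hn h0 h1), h1,
    Nat.pos_of_ne_zero fun h => h0 (Submodule.finrank_eq_zero.1 h), fun h2 hp => ?_⟩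
  by_contra h3
  exact not_between hH hs (nm_plus_plane hQ hn (by omega) h2 hW hp)

lemma nd_max_odd (hn : 5 ≤ Fintype.card ι) (ho : Odd (Fintype.card ι))
    (hH : IsMaximalIn (omegaGL Q) H) {W : Submodule F (ι → F)}
    (h0 : W ≠ ⊥) (hW : IsNondegenerateOn (QuadraticMap.polar Q) W)
    (hd : 2 * finrank F W ≤ Fintype.card ι) (hs : H ≤ subspaceStabilizer W) :
    ∃ W : Submodule F (ι → F), W ≠ ⊥ ∧ Even (finrank F W) ∧
      IsNondegenerateOn (QuadraticMap.polar Q) W ∧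
      ¬ (Fintype.card F = 3 ∧ finrank F W = 2 ∧ IsPlusTypeOn Q W) ∧
      H = subspaceStabilizer W ⊓ omegaGL Q := by
  have key : ∀ W : Submodule F (ι → F), W ≠ ⊥ → IsNondegenerateOn (QuadraticMap.polar Q) W →
      Even (finrank F W) → H ≤ subspaceStabilizer W → ∃ W : Submodule F (ι → F), W ≠ ⊥ ∧
      Even (finrank F W) ∧ IsNondegenerateOn (QuadraticMap.polar Q) W ∧
      ¬ (Fintype.card F = 3 ∧ finrank F W = 2 ∧ IsPlusTypeOn Q W) ∧
      H = subspaceStabilizer W ⊓ omegaGL Q := by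
    intro W h0 hW he hs
    have h1 : finrank F W ≤ Fintype.card ι := by simpa using Submodule.finrank_le W
    have h2 : finrank F W ≠ Fintype.card ι := fun h => Nat.not_even_iff_odd.2 ho (h ▸ he)
    obtain ⟨h3, -, -, h4⟩ := nd_max hQ hn hH h0 hW (by omega) hs
    exact ⟨W, h0, he, hW, fun h => by have := h4 h.2.1 h.2.2; omega, h3⟩
  rcases Nat.even_or_odd (finrank F W) with he | he
  · exact key W h0 hW he hs
  have h1 := finrank_perp' hQ W
  refine key (perp (toQF hQ) W) (fun h => ?_)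
    ((ndOn_toQF hQ).2 (NdOn.perp (nd_toQF hQ) ((ndOn_toQF hQ).1 hW))) ?_
    (le_stab_perp hQ hH.1.le hs)
  · rw [h, finrank_bot] at h1
    omega
  · rw [Nat.odd_iff] at ho he
    rw [Nat.even_iff]
    omega

lemma line_max (hn : 5 ≤ Fintype.card ι) (hH : IsMaximalIn (omegaGL Q) H) {v : ι → F}
    (hv : Q v ≠ 0) (hs : H ≤ subspaceStabilizer (Submodule.span F {v})) :
    H = subspaceStabilizer (Submodule.span F {v}) ⊓ omegaGL Q := by
  have hv0 : v ≠ 0 := ne_zero_of_Q_ne (Q := toQF hQ) hv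
  refine eq_of_max hH hs (not_le_sub hQ hn (by simpa using hv0) fun h => ?_)
  have h1 := finrank_span_singleton (K := F) hv0
  rw [h, finrank_top] at h1
  simp at h1
  omega

/-- a non-degenerate half-dimensional subspace gives a decomposition -/
lemma half_dec (hH : H ≤ omegaGL Q) {W : Submodule F (ι → F)} (h0 : W ≠ ⊥)
    (hW : IsNondegenerateOn (QuadraticMap.polar Q) W) (hd : 2 * finrank F W = Fintype.card ι)
    (hs : H ≤ subspaceStabilizer W) :
    IsNondegenerateMDecomposition (QuadraticMap.polar Q) (finrank F W) ![W, perp (toQF hQ) W] ∧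
      H ≤ decompositionStabilizer ![W, perp (toQF hQ) W] := by
  have hW' := (ndOn_toQF hQ).1 hW
  have h1 := finrank_perp' hQ W
  refine ⟨⟨H7.isMDecomposition_pair h0 hW'.isCompl.inf_eq_bot hW'.isCompl.sup_eq_top (by omega),
    fun i => ?_, fun i j hij => ?_⟩, fun g hg => ?_⟩
  · fin_cases i
    · exact hW
    · exact (ndOn_toQF hQ).2 (NdOn.perp (nd_toQF hQ) hW')
  · fin_cases i <;> fin_cases j
    · exact absurd rfl hij
    · exact fun u hu v hv => hv u hu
    · intro u hu v hv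
      rw [← B_toQF hQ, B_comm]
      exact hu v hv
    · exact absurd rfl hij
  · refine mem_decompositionStabilizer.2 ⟨1, fun i => ?_⟩
    have key : ∀ U : Submodule F (ι → F), g ∈ subspaceStabilizer U →
        U.map (phi g : (ι → F) →ₗ[F] (ι → F)) = U := by
      intro U hU
      apply Submodule.eq_of_le_of_finrank_eq
      · rintro _ ⟨w, hw, rfl⟩; exact mem_subspaceStabilizer'.1 hU w hw
      · exact LinearEquiv.finrank_map_eq _ _
    fin_cases i
    · exact key _ (hs hg)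
    · exact key _ (le_stab_perp hQ hH hs hg)

omit hQ in
lemma univ_sup_eq_top {t k : ℕ} {D : Fin t → Submodule F (ι → F)} (hD : IsMDecomposition k D) :
    Finset.univ.sup D = ⊤ := by
  rw [Finset.sup_univ_eq_iSup, hD.iSup_eq_top]

lemma plus_block_iff {t k : ℕ} {D : Fin t → Submodule F (ι → F)}
    (hD : IsOrthogonalMDecomposition Q k D) (i j : Fin t) :
    IsPlusTypeOn Q (D i) ↔ IsPlusTypeOn Q (D j) := by
  have hD' := odec_of hQ hD.decomp
  exact ⟨fun h => (iso_of_isometric hQ (hD.isometric i j)).plus (hD'.nd i) h,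
    fun h => (iso_of_isometric hQ (hD.isometric j i)).plus (hD'.nd j) h⟩

lemma plus_top_even {t k : ℕ} {D : Fin t → Submodule F (ι → F)}
    (hD : IsOrthogonalMDecomposition Q k D) (he : Even k) (i : Fin t) :
    IsPlusTypeOn Q ⊤ ↔ (IsPlusTypeOn Q (D i) ∨ Even t) := by
  have hD' := odec_of hQ hD.decomp
  have := plus_finsup_even hD'.nd hD'.orth hD'.rk he (τ := IsPlusTypeOn Q (D i))
    (fun j => plus_block_iff hQ hD j i) Finset.univ
  rwa [univ_sup_eq_top hD.decomp.decomp, Finset.card_univ, Fintype.card_fin] at this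

lemma plus_top_odd {t k : ℕ} {D : Fin t → Submodule F (ι → F)}
    (hD : IsOrthogonalMDecomposition Q k D) (ho : Odd k) {j : ℕ} (hj : t = 2 * j) :
    IsPlusTypeOn Q ⊤ ↔ (IsSquare (-1 : F) ∨ Even j) := by
  have hD' := odec_of hQ hD.decomp
  have := plus_finsup_odd hD'.nd hD'.orth hD'.rk ho
    (fun i j => iso_of_isometric hQ (hD.isometric i j)) j Finset.univ (by simpa using hj)
  rwa [univ_sup_eq_top hD.decomp.decomp] at this

lemma dec_max (hn : 7 ≤ Fintype.card ι) (hH : IsMaximalIn (omegaGL Q) H) {t k : ℕ}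
    {D : Fin t → Submodule F (ι → F)} (hD : IsOrthogonalMDecomposition Q k D)
    (hs : H ≤ decompositionStabilizer D) :
    H = decompositionStabilizer D ⊓ omegaGL Q ∧ t * k = Fintype.card ι ∧ 2 ≤ t ∧ 0 < k ∧
      (Odd k → Odd (Fintype.card F)) ∧ (8 ≤ Fintype.card ι →
        (k = 2 → Fintype.card F ≠ 3 ∧ ((∀ i, IsPlusTypeOn Q (D i)) → 7 ≤ Fintype.card F)) ∧
        (k = 3 → Fintype.card F ≠ 3) ∧
        (k = 4 → (∀ i, IsPlusTypeOn Q (D i)) → 3 ≤ Fintype.card F)) := by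
  have hd := hD.decomp.decomp
  have h1 := H7.IsMDecomposition.mul_eq hd
  have h2 := hd.two_le
  have hq := Fintype.one_lt_card (α := F)
  have h6 := card_ne_six F
  refine ⟨eq_of_max hH hs (not_le_dec hQ hn hd), h1, h2, hd.pos, fun ho => ?_, fun h8 => ?_⟩
  · exact odd_card_of_odd_finrank hQ (hD.decomp.nondegenerate ⟨0, by omega⟩)
      (by rwa [hd.finrank_eq])
  have ht : k = 2 → 3 ≤ t := fun h => by subst h; omega
  refine ⟨fun hk => ⟨fun h3 => ?_, fun hp => ?_⟩, fun hk h3 => ?_, fun hk hp => ?_⟩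
  · exact not_between hH hs (nm_small hQ h8 hD ht (Or.inl ⟨hk, Or.inl h3⟩))
  · by_contra h7
    by_cases h3 : Fintype.card F = 3
    · exact not_between hH hs (nm_small hQ h8 hD ht (Or.inl ⟨hk, Or.inl h3⟩))
    · exact not_between hH hs (nm_small hQ h8 hD ht (Or.inl ⟨hk, Or.inr ⟨hp, by omega⟩⟩))
  · exact not_between hH hs (nm_small hQ h8 hD ht (Or.inr (Or.inl ⟨hk, h3⟩)))
  · by_contra h3
    exact not_between hH hs (nm_small hQ h8 hD ht (Or.inr (Or.inr ⟨hk, by omega, hp⟩)))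

/-- two orthogonal halves of odd dimension -/
lemma isometric_iff_odd {k : ℕ} {D : Fin 2 → Submodule F (ι → F)}
    (hD : IsNondegenerateMDecomposition (QuadraticMap.polar Q) k D) (ho : Odd k) (hk : 2 ≤ k) :
    AreIsometricFor Q (D 0) (D 1) ↔ (IsPlusTypeOn Q ⊤ ↔ IsSquare (-1 : F)) := by
  have hD' := odec_of hQ hD
  have htop : D 0 ⊔ D 1 = ⊤ := by
    rw [← univ_sup_eq_top hD.decomp]
    simp [Finset.univ_fin2]
  have h01 := hD'.orth 0 1 (by decide)
  refine ⟨fun h => ?_, fun h => isometric_of_iso hQ (hD'.nd 0) ?_⟩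
  · have := plus_iff_of_iso_odd (hD'.nd 0) h01 (by rwa [hD'.rk]) (iso_of_isometric hQ h)
    rwa [htop] at this
  · refine iso_of_plus_iff_odd (hD'.nd 0) (hD'.nd 1) h01 (by rwa [hD'.rk]) (by rw [hD'.rk, hD'.rk])
      (by rwa [hD'.rk]) ?_
    rwa [htop]

/-- two orthogonal halves of even dimension in plus type -/
lemma isometric_of_plus_even {k : ℕ} {D : Fin 2 → Submodule F (ι → F)}
    (hD : IsNondegenerateMDecomposition (QuadraticMap.polar Q) k D) (he : Even k)
    (hp : IsPlusTypeOn Q ⊤) : AreIsometricFor Q (D 0) (D 1) := by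
  have hD' := odec_of hQ hD
  have htop : D 0 ⊔ D 1 = ⊤ := by
    rw [← univ_sup_eq_top hD.decomp]
    simp [Finset.univ_fin2]
  have h01 := hD'.orth 0 1 (by decide)
  obtain ⟨j, hj⟩ := he
  refine isometric_of_iso hQ (hD'.nd 0) (iso_of_type j _ _ (hD'.nd 0) (hD'.nd 1)
    (by rw [hD'.rk]; omega) (by rw [hD'.rk]; omega) ?_)
  rw [← plus_sup_iff (hD'.nd 0) (hD'.nd 1) h01 (by rw [hD'.rk]; exact ⟨j, hj⟩)
    (by rw [hD'.rk]; exact ⟨j, hj⟩), htop]
  exact hp

omit hQ in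
lemma orth_of_isometric {k : ℕ} {D : Fin 2 → Submodule F (ι → F)}
    (hD : IsNondegenerateMDecomposition (QuadraticMap.polar Q) k D)
    (h : AreIsometricFor Q (D 0) (D 1)) : IsOrthogonalMDecomposition Q k D := by
  refine ⟨hD, fun i j => ?_⟩
  have hr : ∀ W : Submodule F (ι → F), AreIsometricFor Q W W := fun W =>
    ⟨LinearEquiv.refl F W, fun _ => rfl⟩
  fin_cases i <;> fin_cases j
  · exact hr _
  · exact h
  · obtain ⟨e, he⟩ := h
    refine ⟨e.symm, fun w => ?_⟩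
    have := he (e.symm w)
    rw [e.apply_symm_apply] at this
    exact this.symm
  · exact hr _

lemma CD2.plus (h : CD2 Q H) : IsPlusTypeOn Q ⊤ := by
  obtain ⟨k, D, hk, hD, hts, -⟩ := h
  exact ⟨D 0, le_top, hts 0, by rw [hD.finrank_eq, finrank_top]; simpa using hk⟩

lemma csub_max (hn : 5 ≤ Fintype.card ι) (hH : IsMaximalIn (omegaGL Q) H) (h : CSub Q H) :
    ∃ (F₀ : Subfield F) (r : ℕ) (P : GL ι F) (ζ : F), r.Prime ∧
      Fintype.card F = Nat.card F₀ ^ r ∧ ζ ≠ 0 ∧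
      IsQuadFormRationalStructure (fun v => ζ * Q v) F₀ P ∧
      H = subfieldSubgroup F₀ P ⊓ omegaGL Q := by
  obtain ⟨F₀, r, P, ζ, hr, hc, hζ, hrat, hs⟩ := h
  exact ⟨F₀, r, P, ζ, hr, hc, hζ, hrat,
    eq_of_max hH hs (not_le_subfield hQ hn (subfield_ne_top hr hc) P)⟩

lemma csub_max_minus (hn : 5 ≤ Fintype.card ι) (he : Even (Fintype.card ι))
    (hm : ¬ IsPlusTypeOn Q ⊤) (hH : IsMaximalIn (omegaGL Q) H) (h : CSub Q H) :
    ∃ (F₀ : Subfield F) (r : ℕ) (P : GL ι F) (ζ : F), r.Prime ∧ Odd r ∧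
      Fintype.card F = Nat.card F₀ ^ r ∧ ζ ≠ 0 ∧
      IsQuadFormRationalStructure (fun v => ζ * Q v) F₀ P ∧
      H = subfieldSubgroup F₀ P ⊓ omegaGL Q := by
  obtain ⟨F₀, r, P, ζ, hr, hc, hζ, hrat, hs⟩ := csub_max hQ hn hH h
  refine ⟨F₀, r, P, ζ, hr, hr.odd_of_ne_two ?_, hc, hζ, hrat, hs⟩
  rintro rfl
  exact hm (plus_of_rational_two hQ he hc hζ hrat)

lemma csub_max_odd (hn : 5 ≤ Fintype.card ι) (ho : Odd (Fintype.card ι))
    (hstd : ∀ F₀ : Subfield F, IsQuadFormRationalStructure Q F₀ 1)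
    (hH : IsMaximalIn (omegaGL Q) H) (h : CSub Q H) :
    ∃ (F₀ : Subfield F) (r : ℕ) (P : GL ι F), r.Prime ∧
      Fintype.card F = Nat.card F₀ ^ r ∧ IsQuadFormRationalStructure Q F₀ P ∧
      H = subfieldSubgroup F₀ P ⊓ omegaGL Q := by
  obtain ⟨F₀, r, P, hr, hc, hrat, hs⟩ := CSub.odd hQ ho hstd h
  exact ⟨F₀, r, P, hr, hc, hrat, eq_of_max hH hs (not_le_subfield hQ hn (subfield_ne_top hr hc) P)⟩

end Cfsg.Agent.H8
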