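import Cfsg.Agent.H4.RankOne

/-! O'Nan's characterisation of `PSU₃(q)`, `q` odd: the set-up and the basic counting lemmas. -/

set_option autoImplicit false
set_option linter.unusedSectionVars false
set_option linter.unusedVariables false

namespace Cfsg.Agent.H8.ON

open Subgroup

section count

theorem card_fib {A B : Type*} [Finite A] [Finite B] (P : A → Prop) (Q : B → Prop) (f : A → B)
    (hf : ∀ a, P a → Q (f a)) (k : ℕ) (h : ∀ b, Q b → Nat.card {a // P a ∧ f a = b} = k) :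
    Nat.card {a // P a} = Nat.card {b // Q b} * k := by
  classical
  haveI := Fintype.ofFinite {b // Q b}
  have e : {a // P a} ≃ Σ b : {b // Q b}, {a // P a ∧ f a = b.1} :=
    { toFun := fun a => ⟨⟨f a.1, hf a.1 a.2⟩, ⟨a.1, a.2, rfl⟩⟩
      invFun := fun x => ⟨x.2.1, x.2.2.1⟩
      left_inv := fun a => rfl
      right_inv := by
        rintro ⟨⟨b, hb⟩, ⟨a, ha, e⟩⟩
        dsimp only at e
        subst e
        rfl }
  rw [Nat.card_congr e, Nat.card_sigma, Finset.sum_congr rfl fun b _ => h b.1 b.2]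
  simp [Nat.card_eq_fintype_card]

theorem card_fib_le {A B : Type*} [Finite A] [Finite B] (P : A → Prop) (Q : B → Prop) (f : A → B)
    (hf : ∀ a, P a → Q (f a)) (k : ℕ) (h : ∀ b, Q b → Nat.card {a // P a ∧ f a = b} ≤ k) :
    Nat.card {a // P a} ≤ Nat.card {b // Q b} * k := by
  classical
  haveI := Fintype.ofFinite {b // Q b}
  have e : {a // P a} ≃ Σ b : {b // Q b}, {a // P a ∧ f a = b.1} :=
    { toFun := fun a => ⟨⟨f a.1, hf a.1 a.2⟩, ⟨a.1, a.2, rfl⟩⟩
      invFun := fun x => ⟨x.2.1, x.2.2.1⟩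
      left_inv := fun a => rfl
      right_inv := by
        rintro ⟨⟨b, hb⟩, ⟨a, ha, e⟩⟩
        dsimp only at e
        subst e
        rfl }
  rw [Nat.card_congr e, Nat.card_sigma]
  refine (Finset.sum_le_sum fun b _ => h b.1 b.2).trans ?_
  simp [Nat.card_eq_fintype_card]

theorem card_lcoset {G : Type*} [Group G] (K : Subgroup G) (g₀ : G) (P : G → Prop)
    (h : ∀ g, P g ↔ g₀⁻¹ * g ∈ K) : Nat.card {g // P g} = Nat.card K :=
  Nat.card_congr
    { toFun := fun g => ⟨g₀⁻¹ * g.1, (h _).1 g.2⟩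
      invFun := fun k => ⟨g₀ * k.1, (h _).2 (by simpa using k.2)⟩
      left_inv := fun g => by simp
      right_inv := fun k => by simp }

theorem card_rcoset {G : Type*} [Group G] (K : Subgroup G) (g₀ : G) (P : G → Prop)
    (h : ∀ g, P g ↔ g * g₀⁻¹ ∈ K) : Nat.card {g // P g} = Nat.card K :=
  Nat.card_congr
    { toFun := fun g => ⟨g.1 * g₀⁻¹, (h _).1 g.2⟩
      invFun := fun k => ⟨k.1 * g₀, (h _).2 (by simpa using k.2)⟩
      left_inv := fun g => by simp
      right_inv := fun k => by simp }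

theorem card_ne_add_one {A : Type*} [Finite A] (P : A → Prop) {a : A} (ha : P a) :
    Nat.card {x // P x} = Nat.card {x // P x ∧ x ≠ a} + 1 := by
  classical
  rw [← Finite.card_option]
  refine Nat.card_congr
    { toFun := fun x => if h : x.1 = a then none else some ⟨x.1, x.2, h⟩
      invFun := fun o => o.elim ⟨a, ha⟩ fun x => ⟨x.1, x.2.1⟩
      left_inv := fun x => ?_
      right_inv := fun o => ?_ }
  · by_cases h : x.1 = a
    · simp only [h, dite_true, Option.elim]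
      exact Subtype.ext h.symm
    · simp [h]
  · cases o with
    | none => simp
    | some x => simp [x.2.2]

theorem card_le_of_inj {A B : Type*} [Finite B] (P : A → Prop) (Q : B → Prop) (f : A → B)
    (hf : ∀ a, P a → Q (f a)) (hi : ∀ a a', P a → P a' → f a = f a' → a = a') :
    Nat.card {a // P a} ≤ Nat.card {b // Q b} :=
  Nat.card_le_card_of_injective (fun a : {a // P a} => (⟨f a.1, hf a.1 a.2⟩ : {b // Q b}))
    fun a a' h => Subtype.ext (hi _ _ a.2 a'.2 (congrArg Subtype.val h))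

theorem card_eq_of_bij {A B : Type*} (P : A → Prop) (Q : B → Prop) (f : A → B)
    (hf : ∀ a, P a → Q (f a)) (hi : ∀ a a', P a → P a' → f a = f a' → a = a')
    (hs : ∀ b, Q b → ∃ a, P a ∧ f a = b) :
    Nat.card {a // P a} = Nat.card {b // Q b} :=
  Nat.card_eq_of_bijective (fun a : {a // P a} => (⟨f a.1, hf a.1 a.2⟩ : {b // Q b}))
    ⟨fun a a' h => Subtype.ext (hi _ _ a.2 a'.2 (congrArg Subtype.val h)), fun b => by
      obtain ⟨a, ha, e⟩ := hs b.1 b.2
      exact ⟨⟨a, ha⟩, Subtype.ext e⟩⟩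

theorem surj_of_card_le {A B : Type*} [Finite B] (P : A → Prop) (Q : B → Prop) (f : A → B)
    (hf : ∀ a, P a → Q (f a)) (hi : ∀ a a', P a → P a' → f a = f a' → a = a')
    (hc : Nat.card {b // Q b} ≤ Nat.card {a // P a}) : ∀ b, Q b → ∃ a, P a ∧ f a = b := by
  intro b hb
  have hinj : Function.Injective (fun a : {a // P a} => (⟨f a.1, hf a.1 a.2⟩ : {b // Q b})) :=
    fun a a' h => Subtype.ext (hi _ _ a.2 a'.2 (congrArg Subtype.val h))
  have := hinj.bijective_of_nat_card_le hc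
  obtain ⟨a, ha⟩ := this.2 ⟨b, hb⟩
  exact ⟨a.1, a.2, congrArg Subtype.val ha⟩

end count

section arith

theorem two_mul_le_of_dvd {p a e : ℕ} (hp : 2 ≤ p) (ha : 1 ≤ a) (he : 1 ≤ e)
    (h : p ^ a + 1 ∣ p ^ e - 1) : 2 * a ≤ e := by
  by_contra hc
  have h1 : 1 < p ^ e := Nat.one_lt_pow (by omega) hp
  rcases le_or_gt e a with hea | hea
  · have := Nat.le_of_dvd (by omega) h
    have := Nat.pow_le_pow_right (by omega : 0 < p) hea
    omega
  · obtain ⟨f, rfl⟩ : ∃ f, e = a + f := ⟨e - a, by omega⟩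
    have h2 : p ^ a + 1 ∣ p ^ f + 1 := by
      have h3 : p ^ f * (p ^ a + 1) = (p ^ (a + f) - 1) + (p ^ f + 1) := by
        rw [pow_add] at h1 ⊢
        have : p ^ f * (p ^ a + 1) = p ^ a * p ^ f + p ^ f := by ring
        omega
      exact (Nat.dvd_add_right h).1 (h3 ▸ Dvd.intro_left _ rfl)
    have := Nat.le_of_dvd (by omega) h2
    have := Nat.pow_lt_pow_right (by omega : 1 < p) (by omega : f < a)
    omega

theorem arithB {p n c : ℕ} (hp : 2 ≤ p) (hn : 1 ≤ n) (h1 : n ≤ c) (h2 : c < 3 * n)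
    (h : p ^ c + 1 ∣ p ^ (3 * n) + 1) : c = n := by
  obtain ⟨e, he⟩ : ∃ e, 3 * n = c + e := ⟨3 * n - c, by omega⟩
  have h3 : p ^ c + 1 ∣ p ^ c * (p ^ e - 1) := by
    have h4 : 1 ≤ p ^ e := Nat.one_le_pow _ _ (by omega)
    have : p ^ (3 * n) + 1 = p ^ c * (p ^ e - 1) + (p ^ c + 1) := by
      rw [he, pow_add, Nat.mul_sub]
      have : p ^ c * 1 ≤ p ^ c * p ^ e := Nat.mul_le_mul_left _ h4
      omega
    rw [this] at h
    exact (Nat.dvd_add_left dvd_rfl).1 h
  have h4 : Nat.Coprime (p ^ c + 1) (p ^ c) := by simp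
  have := two_mul_le_of_dvd hp (by omega) (by omega) (h4.dvd_of_dvd_mul_left h3)
  omega

theorem arithA {p n a k : ℕ} (hp : 3 ≤ p) (hn : 1 ≤ n) (hk : 1 ≤ k)
    (h : k * (p ^ a + 1) * p ^ a + p ^ a = p ^ (3 * n)) (hd : k ∣ p ^ (2 * n) - 1) :
    a = n ∧ k + 1 = p ^ n := by
  have hpa : 0 < p ^ a := by positivity
  have hlt : a < 3 * n := by
    by_contra hc
    have := Nat.pow_le_pow_right (by omega : 0 < p) (by omega : 3 * n ≤ a)
    have : 1 * (p ^ a + 1) * p ^ a ≤ k * (p ^ a + 1) * p ^ a := by gcongr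
    nlinarith
  obtain ⟨e, he⟩ : ∃ e, 3 * n = a + e := ⟨3 * n - a, by omega⟩
  have h1 : k * (p ^ a + 1) + 1 = p ^ e := by
    rw [he, pow_add] at h
    apply Nat.eq_of_mul_eq_mul_left hpa
    rw [← h]; ring
  have h2 : k ∣ p ^ Nat.gcd e (2 * n) - 1 := by
    rw [← Nat.pow_sub_one_gcd_pow_sub_one]
    exact Nat.dvd_gcd ⟨p ^ a + 1, by omega⟩ hd
  set g := Nat.gcd e (2 * n) with hg
  have hg0 : 0 < g := Nat.gcd_pos_of_pos_right _ (by omega)
  have hpg : 1 < p ^ g := Nat.one_lt_pow (by omega) (by omega)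
  have h3 : k ≤ p ^ g - 1 := Nat.le_of_dvd (by omega) h2
  have h4 : e ≤ a + g := by
    by_contra hc
    have h5 := Nat.pow_le_pow_right (by omega : 0 < p) (by omega : a + g + 1 ≤ e)
    rw [pow_succ, pow_add] at h5
    have h6 : k * (p ^ a + 1) ≤ p ^ g * (p ^ a + 1) := Nat.mul_le_mul_right _ (by omega)
    have h7 : p ^ a * p ^ g * 3 ≤ p ^ a * p ^ g * p := Nat.mul_le_mul_left _ hp
    nlinarith
  have hge : g ∣ e := Nat.gcd_dvd_left _ _
  have hgn : g ∣ 2 * n := Nat.gcd_dvd_right _ _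
  have han : a = n := by
    rcases Nat.eq_zero_or_pos a with ha | ha
    · exfalso
      have := Nat.le_of_dvd (by omega) hgn
      omega
    · have h5 := two_mul_le_of_dvd (p := p) (a := a) (e := e) (by omega) ha (by omega)
        ⟨k, by rw [← h1]; simp [mul_comm]⟩
      obtain ⟨c, hc⟩ := hge
      have h6 := Nat.le_of_dvd (by omega) hgn
      rcases Nat.lt_or_ge c 2 with h7 | h7
      · have : c = 1 := by
          rcases c with _ | _ | c
          · omega
          · rfl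
          · omega
        subst this
        omega
      · have : g * 2 ≤ g * c := Nat.mul_le_mul_left _ h7
        omega
  refine ⟨han, ?_⟩
  subst han
  have h5 : e = a + a := by omega
  rw [h5, pow_add] at h1
  have h6 : (k + 1) * (p ^ a + 1) = p ^ a * (p ^ a + 1) := by nlinarith
  exact Nat.eq_of_mul_eq_mul_right (by omega) h6

end arith

/-- the set-up -/
structure St (G Ω : Type*) [Group G] [MulAction G Ω] (p n : ℕ) where
  /-- the point at infinity -/
  i : Ω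
  /-- the origin -/
  o : Ω
  /-- the regular normal subgroup -/
  U : Subgroup G
  /-- the two-point stabiliser -/
  H : Subgroup G
  ne : o ≠ i
  faith : ∀ g : G, (∀ x : Ω, g • x = x) → g = 1
  memH : ∀ g : G, g ∈ H ↔ g • i = i ∧ g • o = o
  Ui : ∀ u ∈ U, u • i = i
  Un : ∀ g : G, g • i = i → ∀ u ∈ U, g * u * g⁻¹ ∈ U
  tr : ∀ x, x ≠ i → ∃ u ∈ U, u • o = x
  fr : ∀ u ∈ U, u • o = o → u = 1
  sw : ∃ s : G, s • i = o
  cyc : IsCyclic H
  hp : p.Prime
  hp2 : p ≠ 2
  hn : 1 ≤ n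
  cardU : Nat.card U = p ^ (3 * n)
  cardH : Nat.gcd 3 (p ^ n + 1) * Nat.card H = p ^ (2 * n) - 1

namespace St

variable {G Ω : Type*} [Group G] [MulAction G Ω] {p n : ℕ} (S : St G Ω p n)

/-- swapping elements -/
def Sw (s : G) : Prop := s • S.i = S.o ∧ s • S.o = S.i

/-- centraliser in `U` -/
def CU (x : G) : Subgroup G := S.U ⊓ centralizer {x}

theorem mem_CU {x u : G} : u ∈ S.CU x ↔ u ∈ S.U ∧ x * u = u * x := by
  simp [CU, mem_centralizer_iff]

include S in
theorem p3 : 3 ≤ p := by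
  have := S.hp.two_le
  have := S.hp2
  omega

include S in
theorem p_odd : Odd p := S.hp.odd_of_ne_two S.hp2

include S in
theorem q3 : 3 ≤ p ^ n := by
  have := S.p3
  exact this.trans (Nat.le_self_pow (by have := S.hn; omega) p)

/-- the order of the reflection groups -/
def r (S : St G Ω p n) : ℕ := (p ^ n + 1) / Nat.gcd 3 (p ^ n + 1)

theorem dr : Nat.gcd 3 (p ^ n + 1) * S.r = p ^ n + 1 :=
  Nat.mul_div_cancel' (Nat.gcd_dvd_right _ _)

theorem d13 : Nat.gcd 3 (p ^ n + 1) = 1 ∨ Nat.gcd 3 (p ^ n + 1) = 3 :=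
  (Nat.dvd_prime Nat.prime_three).1 (Nat.gcd_dvd_left _ _)

theorem cardH' : Nat.card S.H = (p ^ n - 1) * S.r := by
  have h1 := S.cardH
  have h2 := S.dr
  have h3 := S.q3
  apply Nat.eq_of_mul_eq_mul_left (Nat.gcd_pos_of_pos_left (p ^ n + 1) (by norm_num : 0 < 3))
  rw [h1, mul_left_comm, h2, mul_comm 2 n, pow_mul]
  obtain ⟨k, hk⟩ : ∃ k, p ^ n = k + 1 := ⟨p ^ n - 1, by omega⟩
  rw [hk]
  have : (k + 1) ^ 2 = (k + 1 - 1) * (k + 1 + 1) + 1 := by simp; ring
  omega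

theorem r_even : Even S.r := by
  have h1 := S.dr
  have h2 : Even (p ^ n + 1) := (S.p_odd.pow).add_one
  rw [← h1] at h2
  rcases d13 (p := p) (n := n) with h | h <;> rw [h] at h2
  · simpa using h2
  · rcases Nat.even_mul.1 h2 with h3 | h3
    · exact absurd h3 (by decide)
    · exact h3

theorem r_pos : 0 < S.r := by
  have h1 := S.dr
  rcases Nat.eq_zero_or_pos S.r with h | h
  · rw [h] at h1; omega
  · exact h

variable {S}

theorem ne_i {g : G} (hg : g • S.i = S.i) {x : Ω} (hx : x ≠ S.i) : g • x ≠ S.i := fun h =>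
  hx (by rw [← hg] at h; exact smul_left_cancel g h)

theorem inv_fix {g : G} {x : Ω} (hg : g • x = x) : g⁻¹ • x = x := by
  rw [inv_smul_eq_iff, hg]

theorem uo_ne {u : G} (hu : u ∈ S.U) : u • S.o ≠ S.i := ne_i (S.Ui u hu) S.ne

theorem U_inj {u v : G} (hu : u ∈ S.U) (hv : v ∈ S.U) (h : u • S.o = v • S.o) : u = v := by
  have := S.fr (v⁻¹ * u) (S.U.mul_mem (S.U.inv_mem hv) hu) (by rw [mul_smul, h, inv_smul_smul])
  rw [inv_mul_eq_one] at this
  exact this.symm

theorem Hi {y : G} (hy : y ∈ S.H) : y • S.i = S.i := ((S.memH y).1 hy).1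
theorem Ho {y : G} (hy : y ∈ S.H) : y • S.o = S.o := ((S.memH y).1 hy).2

theorem HU {y u : G} (hy : y ∈ S.H) (hu : u ∈ S.U) : y * u * y⁻¹ ∈ S.U := S.Un y (Hi hy) u hu

theorem smul_pt {y u : G} (hy : y ∈ S.H) : y • u • S.o = (y * u * y⁻¹) • S.o := by
  rw [mul_smul, mul_smul, inv_fix (Ho hy)]

theorem fix_iff {y u : G} (hy : y ∈ S.H) (hu : u ∈ S.U) :
    y • u • S.o = u • S.o ↔ y * u = u * y := by
  rw [smul_pt hy]
  constructor
  · intro h
    have := U_inj (HU hy hu) hu h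
    exact mul_inv_eq_iff_eq_mul.1 this
  · intro h
    rw [h]; simp

theorem decomp {g : G} (hg : g • S.i = S.i) : ∃ u ∈ S.U, ∃ y ∈ S.H, g = u * y := by
  obtain ⟨u, hu, e⟩ := S.tr _ (ne_i hg S.ne)
  refine ⟨u, hu, u⁻¹ * g, (S.memH _).2 ⟨?_, ?_⟩, by group⟩
  · rw [mul_smul, hg, inv_fix (S.Ui u hu)]
  · rw [mul_smul, ← e, inv_smul_smul]

theorem exists_sw : ∃ s, S.Sw s := by
  obtain ⟨s, hs⟩ := S.sw
  have : s⁻¹ • S.i ≠ S.i := by
    intro h
    rw [inv_smul_eq_iff, hs] at h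
    exact S.ne h.symm
  obtain ⟨u, hu, e⟩ := S.tr _ this
  exact ⟨s * u, by rw [mul_smul, S.Ui u hu, hs], by rw [mul_smul, e, smul_inv_smul]⟩

theorem two_trans {x y : Ω} (h : x ≠ y) : ∃ g : G, g • S.i = x ∧ g • S.o = y := by
  have h1 : ∃ g : G, g • S.i = x := by
    by_cases hx : x = S.i
    · exact ⟨1, by simp [hx]⟩
    · obtain ⟨u, hu, e⟩ := S.tr x hx
      obtain ⟨s, hs⟩ := S.sw
      exact ⟨u * s, by rw [mul_smul, hs, e]⟩
  obtain ⟨g, hg⟩ := h1
  have : g⁻¹ • y ≠ S.i := by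
    intro e
    rw [inv_smul_eq_iff, hg] at e
    exact h e.symm
  obtain ⟨u, hu, e⟩ := S.tr _ this
  exact ⟨g * u, by rw [mul_smul, S.Ui u hu, hg], by rw [mul_smul, e, smul_inv_smul]⟩

theorem Sw.inv {s : G} (hs : S.Sw s) : S.Sw s⁻¹ :=
  ⟨by rw [inv_smul_eq_iff, hs.2], by rw [inv_smul_eq_iff, hs.1]⟩

theorem Sw.mul_mem {s s' : G} (hs : S.Sw s) (hs' : S.Sw s') : s * s' ∈ S.H :=
  (S.memH _).2 ⟨by rw [mul_smul, hs'.1, hs.2], by rw [mul_smul, hs'.2, hs.1]⟩

theorem Sw.Hmul {s y : G} (hs : S.Sw s) (hy : y ∈ S.H) : S.Sw (y * s) :=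
  ⟨by rw [mul_smul, hs.1, Ho hy], by rw [mul_smul, hs.2, Hi hy]⟩

theorem Sw.mulH {s y : G} (hs : S.Sw s) (hy : y ∈ S.H) : S.Sw (s * y) :=
  ⟨by rw [mul_smul, Hi hy, hs.1], by rw [mul_smul, Ho hy, hs.2]⟩

theorem Sw.conj_mem {s y : G} (hs : S.Sw s) (hy : y ∈ S.H) : s * y * s⁻¹ ∈ S.H :=
  (hs.mulH hy).mul_mem hs.inv

theorem Hcomm {x y : G} (hx : x ∈ S.H) (hy : y ∈ S.H) : x * y = y * x := by
  obtain ⟨g, hg⟩ := S.cyc.exists_generator
  obtain ⟨a, ha⟩ := hg ⟨x, hx⟩
  obtain ⟨b, hb⟩ := hg ⟨y, hy⟩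
  have ha' : (g : G) ^ a = x := congrArg Subtype.val ha
  have hb' : (g : G) ^ b = y := congrArg Subtype.val hb
  rw [← ha', ← hb', ← zpow_add, ← zpow_add, add_comm]

theorem Sw.conj_pow {s x : G} (hs : S.Sw s) (hx : x ∈ S.H) : ∃ k : ℤ, s * x * s⁻¹ = x ^ k := by
  obtain ⟨g, hg⟩ := S.cyc.exists_generator
  obtain ⟨a, ha⟩ := hg ⟨x, hx⟩
  obtain ⟨b, hb⟩ := hg ⟨_, hs.conj_mem g.2⟩
  have ha' : (g : G) ^ a = x := congrArg Subtype.val ha
  have hb' : (g : G) ^ b = s * g * s⁻¹ := congrArg Subtype.val hb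
  refine ⟨b, ?_⟩
  rw [← ha', ← conj_zpow, ← hb', ← zpow_mul, ← zpow_mul, mul_comm]

theorem odd_U : Odd (Nat.card S.U) := by rw [S.cardU]; exact S.p_odd.pow

theorem odd_ord {u : G} (hu : u ∈ S.U) : Odd (orderOf u) := H4.odd_orderOf_of_mem odd_U hu

/-- an element of `H` with a third fixed point commutes with the swapping elements -/
theorem comm_sw {x u s : G} (hx : x ∈ S.H) (hu : u ∈ S.U) (hu1 : u ≠ 1) (h : x * u = u * x)
    (hs : S.Sw s) : x * s = s * x := by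
  obtain ⟨k, hk⟩ := hs.inv.conj_pow hx
  have hv : Commute x (s * u * s⁻¹) := by
    have h1 : Commute (s⁻¹ * x * s⁻¹⁻¹) u := by rw [hk]; exact (Commute.zpow_left h k)
    have h2 := h1.eq
    show x * (s * u * s⁻¹) = s * u * s⁻¹ * x
    calc x * (s * u * s⁻¹) = s * (s⁻¹ * x * s⁻¹⁻¹ * u) * s⁻¹ := by group
      _ = _ := by rw [h2]; group
  have key : ∀ v : G, Commute x v → v • S.i ≠ S.i → ∃ g ∈ S.U, g • S.o = v • S.i ∧ Commute x g := by
    intro v hv hvi
    obtain ⟨g, hg, e⟩ := S.tr _ hvi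
    refine ⟨g, hg, e, (fix_iff hx hg).1 ?_⟩
    rw [e, ← mul_smul, hv.eq, mul_smul, Hi hx]
  have hvi : (s * u * s⁻¹) • S.i ≠ S.i := by
    rw [mul_smul, mul_smul, hs.inv.1]
    intro e
    rw [← hs.2] at e
    exact hu1 (S.fr u hu (smul_left_cancel s e))
  obtain ⟨g, hg, e1, c1⟩ := key _ hv hvi
  obtain ⟨f, hf, e2, c2⟩ := key _ hv.inv_right (fun e => hvi (by
    rw [inv_smul_eq_iff] at e; exact e.symm))
  have hn : S.Sw (g⁻¹ * (s * u * s⁻¹) * f) := by
    constructor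
    · rw [mul_smul, S.Ui f hf, mul_smul, ← e1, inv_smul_smul]
    · rw [mul_smul, e2, mul_smul, smul_inv_smul, inv_fix (S.Ui g hg)]
  have c3 : Commute x (g⁻¹ * (s * u * s⁻¹) * f) := (c1.inv_right.mul_right hv).mul_right c2
  have c4 : Commute x (s * (g⁻¹ * (s * u * s⁻¹) * f)) := Hcomm hx (hs.mul_mem hn)
  have := (c4.mul_right c3.inv_right).eq
  simpa [mul_assoc] using this

variable [Finite G]

include S in
theorem finite_pts : Finite Ω := by
  refine Finite.of_surjective (fun g : G => g • S.i) fun x => ?_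
  by_cases hx : x = S.i
  · exact ⟨1, by simp [hx]⟩
  · obtain ⟨g, hg, -⟩ := two_trans (S := S) hx
    exact ⟨g, hg⟩

theorem card_fix {x : G} (hx : x ∈ S.H) :
    Nat.card {γ : Ω // x • γ = γ} = Nat.card (S.CU x) + 1 := by
  haveI := finite_pts (S := S)
  rw [card_ne_add_one (fun γ : Ω => x • γ = γ) (Hi hx)]
  congr 1
  symm
  refine card_eq_of_bij (fun u => u ∈ S.CU x) _ (fun u => u • S.o) ?_ ?_ ?_
  · intro u hu
    rw [S.mem_CU] at hu
    exact ⟨(fix_iff hx hu.1).2 hu.2, uo_ne hu.1⟩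
  · intro u v hu hv e
    exact U_inj hu.1 hv.1 e
  · rintro γ ⟨h1, h2⟩
    obtain ⟨u, hu, rfl⟩ := S.tr γ h2
    exact ⟨u, S.mem_CU.2 ⟨hu, (fix_iff hx hu).1 h1⟩, rfl⟩

theorem cent_trans {x s : G} (hx : x ∈ S.H) (hs : S.Sw s) (hc : x * s = s * x) {γ : Ω}
    (h : x • γ = γ) : ∃ g : G, x * g = g * x ∧ g • S.i = γ := by
  by_cases hγ : γ = S.i
  · exact ⟨1, by simp, by simp [hγ]⟩
  · obtain ⟨u, hu, rfl⟩ := S.tr γ hγ
    have c1 : Commute x u := (fix_iff hx hu).1 h
    exact ⟨u * s, (c1.mul_right hc).eq, by rw [mul_smul, hs.1]⟩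

theorem card_cent {x s : G} (hx : x ∈ S.H) (hs : S.Sw s) (hc : x * s = s * x) :
    Nat.card (centralizer {x} : Subgroup G) =
      (Nat.card (S.CU x) + 1) * (Nat.card (S.CU x) * Nat.card S.H) := by
  haveI := finite_pts (S := S)
  rw [← card_fix hx]
  refine card_fib (fun g => g ∈ (centralizer {x} : Subgroup G)) (fun γ : Ω => x • γ = γ)
    (fun g => g • S.i) ?_ _ ?_
  · intro g hg
    rw [mem_centralizer_singleton_iff] at hg
    show x • g • S.i = g • S.i
    rw [← mul_smul, ← hg, mul_smul, Hi hx]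
  · intro γ hγ
    obtain ⟨g₀, c0, e0⟩ := cent_trans hx hs hc hγ
    rw [← Nat.card_prod]
    symm
    refine Nat.card_eq_of_bijective (fun a : S.CU x × S.H => (⟨g₀ * (a.1 * a.2), ?_, ?_⟩ :
      {g : G // g ∈ (centralizer {x} : Subgroup G) ∧ g • S.i = γ})) ⟨?_, ?_⟩
    · rw [mem_centralizer_singleton_iff]
      have c1 : Commute x a.1 := (S.mem_CU.1 a.1.2).2
      have c2 : Commute x a.2 := Hcomm hx a.2.2
      exact (Commute.mul_right c0 (c1.mul_right c2)).eq.symm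
    · rw [mul_smul, mul_smul, Hi a.2.2, S.Ui _ a.1.2.1, e0]
    · rintro ⟨⟨u, hu⟩, ⟨y, hy⟩⟩ ⟨⟨u', hu'⟩, ⟨y', hy'⟩⟩ e
      have e1 : u * y = u' * y' := mul_left_cancel (congrArg Subtype.val e)
      have e2 : u = u' := by
        apply U_inj hu.1 hu'.1
        rw [← Ho hy, ← mul_smul, e1, mul_smul, Ho hy', Ho hy]
      subst e2
      have e3 : y = y' := mul_left_cancel e1
      subst e3
      rfl
    · rintro ⟨g, hg, e⟩
      rw [mem_centralizer_singleton_iff] at hg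
      obtain ⟨u, hu, y, hy, e1⟩ := decomp (S := S) (g := g₀⁻¹ * g)
        (by rw [mul_smul, e, ← e0, inv_smul_smul])
      have c1 : Commute x (g₀⁻¹ * g) := Commute.mul_right (Commute.inv_right c0) hg.symm
      have c2 : Commute x u := by
        have : u = g₀⁻¹ * g * y⁻¹ := by rw [e1]; group
        rw [this]
        exact c1.mul_right (Commute.inv_right (Hcomm hx hy))
      exact ⟨(⟨u, S.mem_CU.2 ⟨hu, c2⟩⟩, ⟨y, hy⟩), Subtype.ext (by
        show g₀ * (u * y) = g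
        rw [← e1]; group)⟩

theorem CU_one : S.CU 1 = S.U := by
  ext u; simp [mem_CU]

theorem card_G : Nat.card G = (p ^ (3 * n) + 1) * (p ^ (3 * n) * Nat.card S.H) := by
  obtain ⟨s, hs⟩ := exists_sw (S := S)
  have := card_cent S.H.one_mem hs (by simp)
  rw [CU_one, S.cardU] at this
  rw [← this]
  have : (centralizer {(1 : G)} : Subgroup G) = ⊤ := by
    ext g; simp [mem_centralizer_iff]
  rw [this, card_top]

include S in
theorem card_pts : Nat.card Ω = p ^ (3 * n) + 1 := by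
  have := card_fix (S := S) S.H.one_mem
  rw [CU_one, S.cardU] at this
  rw [← this]
  exact Nat.card_congr (Equiv.subtypeUnivEquiv (by simp)).symm

theorem card_sub_U {A : Subgroup G} (hA : A ≤ S.U) : ∃ c ≤ 3 * n, Nat.card A = p ^ c := by
  have := card_dvd_of_le hA
  rw [S.cardU] at this
  exact (Nat.dvd_prime_pow S.hp).1 this

/-- the block sizes divide the number of points -/
theorem CU_dvd {x u : G} (hx : x ∈ S.H) (hu : u ∈ S.CU x) (hu1 : u ≠ 1) :
    Nat.card (S.CU x) + 1 ∣ p ^ (3 * n) + 1 := by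
  obtain ⟨s, hs⟩ := exists_sw (S := S)
  have h1 := card_cent hx hs (comm_sw hx hu.1 hu1 (S.mem_CU.1 hu).2 hs)
  have h2 := card_subgroup_dvd_card (centralizer {x} : Subgroup G)
  rw [h1, card_G (S := S), ← mul_assoc, ← mul_assoc] at h2
  have h3 := Nat.dvd_of_mul_dvd_mul_right Nat.card_pos h2
  obtain ⟨c, hc, e⟩ := card_sub_U (S := S) (A := S.CU x) inf_le_left
  have hc0 : c ≠ 0 := by
    rintro rfl
    rw [pow_zero, card_eq_one] at e
    rw [e] at hu
    exact hu1 hu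
  rw [e] at h3 ⊢
  have h4 : Nat.Coprime (p ^ c + 1) (p ^ (3 * n)) := by
    apply Nat.Coprime.pow_right
    rw [Nat.coprime_comm, Nat.Prime.coprime_iff_not_dvd S.hp]
    intro h
    exact S.hp.one_lt.ne' (Nat.dvd_one.1 ((Nat.dvd_add_right (dvd_pow_self p hc0)).1 h))
  exact h4.dvd_of_dvd_mul_right ((Dvd.intro _ rfl).trans h3)

theorem CU_ne {x : G} (hx : x ∈ S.H) (hx1 : x ≠ 1) : S.CU x ≠ S.U := by
  intro h
  apply hx1
  apply S.faith
  intro γ
  by_cases hγ : γ = S.i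
  · rw [hγ, Hi hx]
  · obtain ⟨u, hu, rfl⟩ := S.tr γ hγ
    have : u ∈ S.CU x := h.symm ▸ hu
    exact (fix_iff hx hu).2 (S.mem_CU.1 this).2

theorem invol_unique {x y : G} (hx : x ∈ S.H) (hy : y ∈ S.H) (hx2 : x * x = 1) (hy2 : y * y = 1)
    (hx1 : x ≠ 1) (hy1 : y ≠ 1) : x = y := by
  classical
  by_contra hne
  haveI := S.cyc
  haveI := Fintype.ofFinite S.H
  have h1 := IsCyclic.card_pow_eq_one_le (α := S.H) (n := 2) (by norm_num)
  have h2 : ({1, ⟨x, hx⟩, ⟨y, hy⟩} : Finset S.H) ⊆ Finset.univ.filter fun a : S.H => a ^ 2 = 1 := by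
    intro a ha
    simp only [Finset.mem_insert, Finset.mem_singleton] at ha
    rcases ha with rfl | rfl | rfl
    · simp
    · simp [sq, Subtype.ext_iff, hx2]
    · simp [sq, Subtype.ext_iff, hy2]
  have h3 := Finset.card_le_card h2
  rw [Finset.card_eq_three.2 ⟨_, _, _, by simpa [Subtype.ext_iff] using hx1.symm,
    by simpa [Subtype.ext_iff] using hy1.symm, by simpa [Subtype.ext_iff] using hne, rfl⟩] at h3
  omega

theorem exists_invol {A : Subgroup G} (h : Even (Nat.card A)) : ∃ z ∈ A, z ≠ 1 ∧ z * z = 1 := by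
  haveI : Fact (Nat.Prime 2) := ⟨Nat.prime_two⟩
  obtain ⟨z, hz⟩ := exists_prime_orderOf_dvd_card' (G := A) 2 h.two_dvd
  refine ⟨z, z.2, ?_, ?_⟩
  · intro e
    have : z = 1 := Subtype.ext e
    rw [this, orderOf_one] at hz
    omega
  · have := pow_orderOf_eq_one z
    rw [hz, sq] at this
    exact congrArg Subtype.val this

variable (S) in
theorem exists_z : ∃ z ∈ S.H, z ≠ 1 ∧ z * z = 1 :=
  exists_invol (by rw [S.cardH']; exact S.r_even.mul_left _)

variable (S) in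
/-- the involution of `H` -/
noncomputable def z : G := S.exists_z.choose

theorem zH : S.z ∈ S.H := S.exists_z.choose_spec.1
theorem z_ne : S.z ≠ 1 := S.exists_z.choose_spec.2.1
theorem zz : S.z * S.z = 1 := S.exists_z.choose_spec.2.2
theorem z_inv : S.z⁻¹ = S.z := inv_eq_of_mul_eq_one_right zz

theorem eq_z {x : G} (hx : x ∈ S.H) (hx2 : x * x = 1) (hx1 : x ≠ 1) : x = S.z :=
  invol_unique hx zH hx2 zz hx1 z_ne

theorem Sw.comm_z {s : G} (hs : S.Sw s) : S.z * s = s * S.z := by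
  have := eq_z (hs.conj_mem zH) (by
    calc s * S.z * s⁻¹ * (s * S.z * s⁻¹) = s * (S.z * S.z) * s⁻¹ := by group
      _ = 1 := by rw [zz]; group) (by
    intro h
    apply z_ne (S := S)
    calc S.z = s⁻¹ * (s * S.z * s⁻¹) * s := by group
      _ = 1 := by rw [h]; group)
  calc S.z * s = (s * S.z * s⁻¹) * s := by rw [this]
    _ = _ := by group

theorem invol_conj {s g : G} (hs2 : s * s = 1) (hs1 : s ≠ 1) (h1 : s • g • S.i = g • S.i)
    (h2 : s • g • S.o = g • S.o) : s = g * S.z * g⁻¹ := by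
  have := eq_z (S := S) (x := g⁻¹ * s * g) ((S.memH _).2
    ⟨by rw [mul_smul, mul_smul, h1, inv_smul_smul], by rw [mul_smul, mul_smul, h2, inv_smul_smul]⟩)
    (by
      calc g⁻¹ * s * g * (g⁻¹ * s * g) = g⁻¹ * (s * s) * g := by group
        _ = 1 := by rw [hs2]; group) (by
    intro h
    apply hs1
    calc s = g * (g⁻¹ * s * g) * g⁻¹ := by group
      _ = 1 := by rw [h]; group)
  rw [← this]; group

include S in
theorem invol_two {s s' : G} {x y : Ω} (hxy : x ≠ y) (hs2 : s * s = 1) (hs1 : s ≠ 1)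
    (hs2' : s' * s' = 1) (hs1' : s' ≠ 1) (h1 : s • x = x) (h2 : s • y = y) (h1' : s' • x = x)
    (h2' : s' • y = y) : s = s' := by
  obtain ⟨g, rfl, rfl⟩ := two_trans (S := S) hxy
  rw [invol_conj hs2 hs1 h1 h2, invol_conj hs2' hs1' h1' h2']

/-- an involution commuting with `z` and fixing a point fixed by `z` is `z` -/
theorem eq_z_of_fix {s : G} {γ : Ω} (hs2 : s * s = 1) (hs1 : s ≠ 1) (hc : S.z * s = s * S.z)
    (hz : S.z • γ = γ) (h : s • γ = γ) : s = S.z := by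
  obtain ⟨t, ht⟩ := exists_sw (S := S)
  obtain ⟨g, c, rfl⟩ := cent_trans zH ht ht.comm_z hz
  obtain ⟨u, hu, y, hy, e⟩ := decomp (S := S) (g := g⁻¹ * s * g)
    (by rw [mul_smul, mul_smul, h, inv_smul_smul])
  have c1 : Commute S.z (g⁻¹ * s * g) :=
    Commute.mul_right (Commute.mul_right (Commute.inv_right c) hc) c
  have e2 : (u * y) * (u * y) = 1 := by
    rw [← e]
    calc g⁻¹ * s * g * (g⁻¹ * s * g) = g⁻¹ * (s * s) * g := by group
      _ = 1 := by rw [hs2]; group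
  have e3 : y * y = 1 := by
    have h1 : y * y ∈ S.U := by
      have : y * y = (u * (y * u * y⁻¹))⁻¹ := by
        rw [eq_inv_iff_mul_eq_one, ← e2]
        have : y * y * (u * (y * u * y⁻¹)) = y * y * (u * y * (u * y)) * (y * y)⁻¹ := by group
        rw [this, e2]; group
      rw [this]
      exact S.U.inv_mem (S.U.mul_mem hu (HU hy hu))
    exact S.fr _ h1 (Ho (S.H.mul_mem hy hy))
  have hs : s = g * (u * y) * g⁻¹ := by rw [← e]; group
  by_cases hy1 : y = 1
  · exfalso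
    rw [hy1, mul_one] at e2
    rw [H4.eq_one_of_odd_of_sq (odd_ord hu) e2, hy1] at hs
    exact hs1 (by rw [hs]; group)
  · have hyz := eq_z hy e3 hy1
    subst hyz
    rw [e] at c1
    have c2 : S.z * u = u * S.z := by
      have := c1.eq
      rw [← mul_assoc] at this
      exact mul_right_cancel this
    have : u * u = 1 := by
      calc u * u = u * (u * S.z) * S.z := by rw [mul_assoc, mul_assoc, zz]; group
        _ = u * (S.z * u) * S.z := by rw [c2]
        _ = u * S.z * (u * S.z) := by group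
        _ = 1 := e2
    rw [H4.eq_one_of_odd_of_sq (odd_ord hu) this, one_mul, ← c] at hs
    rw [hs]; group

end St

end Cfsg.Agent.H8.ON
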