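import Cfsg.Agent.H8.ON1

/-! O'Nan's characterisation of `PSU₃(q)`: counting involutions. -/

set_option autoImplicit false
set_option linter.unusedSectionVars false
set_option linter.unusedVariables false

namespace Cfsg.Agent.H8.ON

open Subgroup

theorem card_dvd_of_free {G Ω : Type*} [Group G] [MulAction G Ω] [Finite Ω] (Y : Subgroup G)
    (P : Ω → Prop) (h1 : ∀ y ∈ Y, ∀ x, P x → P (y • x))
    (h2 : ∀ y ∈ Y, ∀ x, P x → y • x = x → y = 1) : Nat.card Y ∣ Nat.card {x // P x} := by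
  let M : SubMulAction Y Ω := ⟨{x | P x}, fun y x hx => h1 y y.2 x hx⟩
  have e := MulAction.selfEquivOrbitsQuotientProd (G := Y) (X := M) (fun b => by
    rw [eq_bot_iff]
    intro y hy
    have : (y : G) • (b : Ω) = b := congrArg Subtype.val hy
    exact Subtype.ext (h2 y y.2 b b.2 this))
  have : Nat.card {x // P x} = Nat.card M := rfl
  rw [this, Nat.card_congr e, Nat.card_prod]
  exact Dvd.intro_left _ rfl

theorem exists_cent_mod {P : Type*} [Group P] [Finite P] {p : ℕ} (hp : p.Prime) (hP : IsPGroup p P)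
    (N : Subgroup P) [N.Normal] (hN : N ≠ ⊤) : ∃ x ∉ N, ∀ y, x * y * x⁻¹ * y⁻¹ ∈ N := by
  haveI : Fact p.Prime := ⟨hp⟩
  haveI : Nontrivial (P ⧸ N) := QuotientGroup.nontrivial_iff.2 hN
  haveI := (hP.to_quotient N).center_nontrivial
  obtain ⟨⟨c, hc⟩, hc1⟩ := exists_ne (1 : center (P ⧸ N))
  obtain ⟨x, rfl⟩ := QuotientGroup.mk_surjective c
  refine ⟨x, fun hx => hc1 (Subtype.ext ((QuotientGroup.eq_one_iff x).2 hx)), fun y => ?_⟩
  rw [← QuotientGroup.eq_one_iff]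
  have := mem_center_iff.1 hc (y : P ⧸ N)
  simp only [QuotientGroup.mk_mul, QuotientGroup.mk_inv]
  rw [← this]; group

namespace St

variable {G Ω : Type*} [Group G] [MulAction G Ω] {p n : ℕ} [Finite G] {S : St G Ω p n}

variable (S) in
/-- the centraliser of `z` in `U` -/
noncomputable def Z : Subgroup G := S.CU S.z

theorem mem_Z {u : G} : u ∈ S.Z ↔ u ∈ S.U ∧ S.z * u = u * S.z := S.mem_CU

theorem Z_le : S.Z ≤ S.U := inf_le_left

theorem HZ {y u : G} (hy : y ∈ S.H) (hu : u ∈ S.Z) : y * u * y⁻¹ ∈ S.Z := by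
  refine mem_Z.2 ⟨HU hy hu.1, ?_⟩
  have c1 : Commute S.z y := Hcomm zH hy
  exact ((c1.mul_right (mem_Z.1 hu).2).mul_right c1.inv_right).eq

variable (S) in
/-- conjugates of `z` -/
def J (s : G) : Prop := ∃ g : G, s = g * S.z * g⁻¹

theorem J.sq {s : G} (h : S.J s) : s * s = 1 := by
  obtain ⟨g, rfl⟩ := h
  calc g * S.z * g⁻¹ * (g * S.z * g⁻¹) = g * (S.z * S.z) * g⁻¹ := by group
    _ = 1 := by rw [zz]; group

theorem J.ne {s : G} (h : S.J s) : s ≠ 1 := by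
  obtain ⟨g, rfl⟩ := h
  intro h
  apply z_ne (S := S)
  calc S.z = g⁻¹ * (g * S.z * g⁻¹) * g := by group
    _ = 1 := by rw [h]; group

theorem J.conj {s : G} (h : S.J s) (g : G) : S.J (g * s * g⁻¹) := by
  obtain ⟨k, rfl⟩ := h
  exact ⟨g * k, by group⟩

theorem J_of_two {s : G} {x y : Ω} (hxy : x ≠ y) (hs2 : s * s = 1) (hs1 : s ≠ 1) (h1 : s • x = x)
    (h2 : s • y = y) : S.J s := by
  obtain ⟨g, rfl, rfl⟩ := two_trans (S := S) hxy
  exact ⟨g, invol_conj hs2 hs1 h1 h2⟩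

variable (S) in
theorem exists_t : ∃ t, S.Sw t ∧ S.J t := by
  have : ∃ x : Ω, S.z • x ≠ x := by
    by_contra! h
    exact z_ne (S.faith _ h)
  obtain ⟨x, hx⟩ := this
  obtain ⟨g, h1, h2⟩ := two_trans (S := S) hx.symm
  refine ⟨g⁻¹ * S.z * g⁻¹⁻¹, ⟨?_, ?_⟩, g⁻¹, rfl⟩
  · rw [inv_inv, mul_smul, mul_smul, h1, ← h2, inv_smul_smul]
  · rw [inv_inv, mul_smul, mul_smul, h2, ← mul_smul S.z, zz, one_smul, ← h1, inv_smul_smul]

variable (S) in
/-- a swapping conjugate of `z` -/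
noncomputable def t : G := S.exists_t.choose

theorem tSw : S.Sw S.t := S.exists_t.choose_spec.1
theorem tJ : S.J S.t := S.exists_t.choose_spec.2
theorem tt : S.t * S.t = 1 := tJ.sq
theorem t_inv : S.t⁻¹ = S.t := inv_eq_of_mul_eq_one_right tt
theorem zt : S.z * S.t = S.t * S.z := tSw.comm_z
theorem tH {y : G} (hy : y ∈ S.H) : S.t * y * S.t ∈ S.H := by
  have := tSw.conj_mem hy
  rwa [t_inv] at this
theorem tt' (x : G) : S.t * (S.t * x) = x := by rw [← mul_assoc, tt, one_mul]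
theorem tts (x : Ω) : S.t • S.t • x = x := by rw [← mul_smul, tt, one_smul]

theorem inv_of_J {k : G} (h : S.J (k * S.t)) : S.t * k * S.t = k⁻¹ := by
  rw [eq_inv_iff_mul_eq_one]
  have := h.sq
  calc S.t * k * S.t * k = k⁻¹ * (k * S.t * (k * S.t)) * S.t⁻¹ * S.t * k := by group
    _ = 1 := by rw [this]; group

theorem J_mul {k y : G} (hk : k ∈ S.H) (h : S.J (k * S.t)) (hy : y ∈ S.H) :
    S.J (k * (y * (S.t * y⁻¹ * S.t)) * S.t) := by
  have := h.conj y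
  have e : y * (k * S.t) * y⁻¹ = k * (y * (S.t * y⁻¹ * S.t)) * S.t := by
    rw [← mul_assoc y k, Hcomm hy hk]
    simp only [mul_assoc, tt, mul_one]
  rwa [e] at this

variable (S) in
/-- elements of `H` inverted by `t` -/
noncomputable def K' : Subgroup G where
  carrier := {k | k ∈ S.H ∧ S.t * k * S.t = k⁻¹}
  mul_mem' := by
    rintro a b ⟨ha, ha'⟩ ⟨hb, hb'⟩
    refine ⟨S.H.mul_mem ha hb, ?_⟩
    rw [Hcomm ha hb, mul_inv_rev, ← ha', ← hb', Hcomm hb ha]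
    simp only [mul_assoc, tt']
  one_mem' := ⟨S.H.one_mem, by simp [tt]⟩
  inv_mem' := by
    rintro a ⟨ha, ha'⟩
    refine ⟨S.H.inv_mem ha, ?_⟩
    rw [← ha']
    simp only [mul_inv_rev, t_inv, ← ha', mul_assoc, tt', tt, mul_one]

theorem J_mul_sq {k y : G} (hk : k ∈ S.H) (h : S.J (k * S.t)) (hy : y ∈ S.K') :
    S.J (k * (y * y) * S.t) := by
  have := J_mul hk h hy.1
  rwa [(S.K'.inv_mem hy).2, inv_inv] at this

variable (S) in
/-- the elements `k` of `H` with `k t` conjugate to `z` -/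
noncomputable def K : Subgroup G where
  carrier := {k | k ∈ S.H ∧ S.J (k * S.t)}
  mul_mem' := by
    rintro a b ⟨ha, ha'⟩ ⟨hb, hb'⟩
    refine ⟨S.H.mul_mem ha hb, ?_⟩
    haveI := S.cyc
    have hc : IsCyclic S.K' := isCyclic_of_le (H' := S.H) fun x hx => hx.1
    obtain ⟨g, hg⟩ := hc.exists_generator
    obtain ⟨i, hi⟩ := hg ⟨a, ha, inv_of_J ha'⟩
    obtain ⟨j, hj⟩ := hg ⟨b, hb, inv_of_J hb'⟩
    have hi' : (g : G) ^ i = a := congrArg Subtype.val hi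
    have hj' : (g : G) ^ j = b := congrArg Subtype.val hj
    rcases Int.even_or_odd' j with ⟨l, hl | hl⟩
    · have := J_mul_sq ha ha' (S.K'.zpow_mem g.2 l)
      rwa [← zpow_add, ← two_mul, ← hl, hj'] at this
    · rcases Int.even_or_odd' i with ⟨m, hm | hm⟩
      · have := J_mul_sq hb hb' (S.K'.zpow_mem g.2 m)
        rwa [← zpow_add, ← two_mul, ← hm, hi', Hcomm hb ha] at this
      · have := J_mul_sq S.H.one_mem (by simpa using tJ) (S.K'.zpow_mem g.2 (l + m + 1))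
        rwa [← zpow_add, one_mul, show l + m + 1 + (l + m + 1) = i + j by omega, zpow_add, hi',
          hj'] at this
  one_mem' := ⟨S.H.one_mem, by simpa using tJ⟩
  inv_mem' := by
    rintro a ⟨ha, ha'⟩
    refine ⟨S.H.inv_mem ha, ?_⟩
    have := J_mul_sq ha ha' (S.K'.inv_mem ⟨ha, inv_of_J ha'⟩)
    rwa [mul_inv_cancel_left] at this

theorem K_le : S.K ≤ S.H := fun _ h => h.1
theorem K_inv {k : G} (hk : k ∈ S.K) : S.t * k * S.t = k⁻¹ := inv_of_J hk.2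
theorem mem_K_of {s : G} (hs : S.Sw s) (h : S.J s) : s * S.t ∈ S.K :=
  ⟨hs.mul_mem tSw, by rwa [mul_assoc, tt, mul_one]⟩

theorem count_K : Nat.card S.K * (Nat.card S.Z + 1) * Nat.card S.Z + Nat.card S.Z = p ^ (3 * n) := by
  haveI := finite_pts (S := S)
  have h1 := card_fib (fun g : G => S.Sw (g * S.z * g⁻¹)) (fun k => k ∈ S.K)
    (fun g => g * S.z * g⁻¹ * S.t) (fun g hg => mem_K_of hg ⟨g, rfl⟩)
    (Nat.card (centralizer {S.z} : Subgroup G)) (by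
      rintro k ⟨hk, g₀, e⟩
      refine card_lcoset _ g₀ _ fun g => ?_
      rw [mem_centralizer_singleton_iff]
      constructor
      · rintro ⟨-, h⟩
        have h2 : g * S.z * g⁻¹ = g₀ * S.z * g₀⁻¹ := by rw [← e, ← h, mul_assoc _ S.t, tt, mul_one]
        calc g₀⁻¹ * g * S.z = g₀⁻¹ * (g * S.z * g⁻¹) * g := by group
          _ = _ := by rw [h2]; group
      · intro h
        have h2 : g * S.z * g⁻¹ = g₀ * S.z * g₀⁻¹ := by
          calc g * S.z * g⁻¹ = g₀ * (g₀⁻¹ * g * S.z) * g⁻¹ := by group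
            _ = _ := by rw [h]; group
        rw [h2, ← e, mul_assoc, tt, mul_one]
        exact ⟨tSw.Hmul hk, rfl⟩)
  have h2 := card_fib (fun g : G => S.Sw (g * S.z * g⁻¹)) (fun x : Ω => S.z • x ≠ x)
    (fun g => g⁻¹ • S.i) (by
      intro g hg e
      have := hg.1
      rw [mul_smul, mul_smul, e, smul_inv_smul] at this
      exact S.ne this.symm) (Nat.card S.H) (by
      intro x hx
      obtain ⟨g₀, e1, e2⟩ := two_trans (S := S) hx.symm
      refine card_rcoset _ g₀⁻¹ _ fun g => ?_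
      rw [inv_inv, S.memH, mul_smul, mul_smul, e1, e2]
      constructor
      · rintro ⟨h, rfl⟩
        refine ⟨smul_inv_smul _ _, ?_⟩
        have := h.1
        rwa [mul_smul, mul_smul] at this
      · rintro ⟨h1, h2⟩
        have h3 : g⁻¹ • S.i = x := by rw [inv_smul_eq_iff, h1]
        refine ⟨⟨by rw [mul_smul, mul_smul, h3, h2], ?_⟩, h3⟩
        rw [mul_smul, mul_smul, ← h2, inv_smul_smul, ← mul_smul S.z, zz, one_smul, h1])
  have h3 : Nat.card {x : Ω // S.z • x ≠ x} + (Nat.card S.Z + 1) = p ^ (3 * n) + 1 := by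
    classical
    rw [← card_pts (S := S), Z, ← card_fix zH, add_comm, ← Nat.card_sum]
    exact Nat.card_congr (Equiv.sumCompl fun x : Ω => S.z • x = x)
  rw [h1, card_cent zH tSw zt] at h2
  have h4 : Nat.card S.K * ((Nat.card S.Z + 1) * Nat.card S.Z) = Nat.card {x : Ω // S.z • x ≠ x} := by
    apply Nat.eq_of_mul_eq_mul_right (Nat.card_pos (α := S.H))
    rw [← h2, Z]; ring_nf
  rw [mul_assoc, h4]
  omega

theorem cardZK : Nat.card S.Z = p ^ n ∧ Nat.card S.K + 1 = p ^ n := by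
  obtain ⟨a, -, ha⟩ := card_sub_U (S := S) Z_le
  have h1 := count_K (S := S)
  rw [ha] at h1
  have h2 : Nat.card S.K ∣ p ^ (2 * n) - 1 := by
    rw [← S.cardH]
    exact (card_dvd_of_le K_le).mul_left _
  obtain ⟨h3, h4⟩ := arithA S.p3 S.hn Nat.card_pos h1 h2
  exact ⟨by rw [ha, h3], h4⟩

theorem cardZ : Nat.card S.Z = p ^ n := cardZK.1
theorem cardK : Nat.card S.K + 1 = p ^ n := cardZK.2

theorem K_fpf {k u : G} (hk : k ∈ S.K) (hu : u ∈ S.U) (hu1 : u ≠ 1) (h : k * u = u * k) :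
    k = 1 ∨ k = S.z := by
  by_cases h1 : k = 1
  · exact Or.inl h1
  · refine Or.inr (eq_z hk.1 ?_ h1)
    have h2 := comm_sw hk.1 hu hu1 h tSw
    have h3 := K_inv hk
    rw [← h2, mul_assoc, tt, mul_one] at h3
    nth_rewrite 1 [h3]
    simp

theorem card_le_two {A : Type*} [Finite A] (P : A → Prop) (a b : A) (h : ∀ x, P x → x = a ∨ x = b) :
    Nat.card {x // P x} ≤ 2 := by
  classical
  have := Nat.card_le_card_of_injective (fun x : {x // P x} => decide (x.1 = a)) (by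
    intro x y e
    apply Subtype.ext
    simp only [decide_eq_decide] at e
    rcases h _ x.2 with h1 | h1 <;> rcases h _ y.2 with h2 | h2 <;> grind)
  simpa using this

theorem Z_irr {A : Subgroup G} (hA : A ≤ S.Z) (hK : ∀ k ∈ S.K, ∀ u ∈ A, k * u * k⁻¹ ∈ A) :
    A = ⊥ ∨ A = S.Z := by
  by_cases h0 : A = ⊥
  · exact Or.inl h0
  right
  obtain ⟨⟨u, hu⟩, hu1⟩ := ne_bot_iff_exists_ne_one.1 h0
  have hu1' : u ≠ 1 := fun e => hu1 (Subtype.ext e)
  have h1 := card_fib_le (fun k => k ∈ S.K) (fun v => v ∈ A ∧ v ≠ 1) (fun k => k * u * k⁻¹)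
    (fun k hk => ⟨hK k hk u hu, by simpa using hu1'⟩) 2 (by
      intro v hv
      by_cases hex : ∃ k₀, k₀ ∈ S.K ∧ k₀ * u * k₀⁻¹ = v
      · obtain ⟨k₀, hk₀, e⟩ := hex
        refine card_le_two _ k₀ (k₀ * S.z) ?_
        rintro k ⟨hk, e'⟩
        have := K_fpf (S.K.mul_mem (S.K.inv_mem hk₀) hk) (hA hu).1 hu1' (by
          calc k₀⁻¹ * k * u = k₀⁻¹ * (k * u * k⁻¹) * k := by group
            _ = _ := by rw [e', ← e]; group)
        rcases this with h | h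
        · left; rw [inv_mul_eq_one] at h; exact h.symm
        · right; rw [← h]; group
      · haveI : IsEmpty {a // a ∈ S.K ∧ a * u * a⁻¹ = v} := ⟨fun a => hex ⟨a.1, a.2⟩⟩
        simp)
  have h2 := card_ne_add_one (fun v => v ∈ A) A.one_mem
  have h3 := card_dvd_of_le hA
  rw [cardZ] at h3
  obtain ⟨c, hc, e⟩ := (Nat.dvd_prime_pow S.hp).1 h3
  refine eq_of_le_of_card_ge hA ?_
  rw [cardZ, e]
  by_contra hlt
  have h4 : c + 1 ≤ n := by
    by_contra h5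
    exact hlt (Nat.pow_le_pow_right S.hp.pos (by omega))
  have h5 := Nat.pow_le_pow_right S.hp.pos h4
  have h6 := cardK (S := S)
  have h7 := S.p3
  have h8 : p ^ c * 3 ≤ p ^ c * p := Nat.mul_le_mul_left _ h7
  rw [pow_succ] at h5
  have h9 : Nat.card A = Nat.card {v // v ∈ A ∧ v ≠ 1} + 1 := h2
  have h10 : Nat.card S.K ≤ Nat.card {v // v ∈ A ∧ v ≠ 1} * 2 := h1
  omega

variable (S) in
/-- elements inverted by `z` -/
def In (u : G) : Prop := S.z * u * S.z⁻¹ = u⁻¹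

theorem In.conj {u y : G} (h : S.In u) (hy : y ∈ S.H) : S.In (y * u * y⁻¹) := by
  unfold In at *
  have c := Hcomm (zH (S := S)) hy
  calc S.z * (y * u * y⁻¹) * S.z⁻¹ = (S.z * y) * u * (S.z * y)⁻¹ := by group
    _ = y * (S.z * u * S.z⁻¹) * y⁻¹ := by rw [c]; group
    _ = _ := by rw [h]; group

theorem In.eq_one {u : G} (h : S.In u) (hu : u ∈ S.Z) : u = 1 := by
  refine H4.eq_one_of_odd_of_sq (odd_ord hu.1) ?_
  unfold In at h
  rw [(mem_Z.1 hu).2, mul_inv_cancel_right] at h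
  nth_rewrite 1 [h]
  simp

theorem card_fact {A : Subgroup G} (hA : A ≤ S.U) (hz : ∀ u ∈ A, S.z * u * S.z⁻¹ ∈ A) :
    Nat.card A = Nat.card (A ⊓ S.Z : Subgroup G) * Nat.card {u // u ∈ A ∧ S.In u} := by
  rw [← Nat.card_prod]
  symm
  have hodd : Odd (Nat.card A) := (odd_U (S := S)).of_dvd_nat (card_dvd_of_le hA)
  refine Nat.card_eq_of_bijective (fun a : (A ⊓ S.Z : Subgroup G) × {u // u ∈ A ∧ S.In u} =>
    (⟨a.1 * a.2, A.mul_mem a.1.2.1 a.2.2.1⟩ : A)) ⟨?_, ?_⟩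
  · rintro ⟨⟨c, hc⟩, ⟨j, hj⟩⟩ ⟨⟨c', hc'⟩, ⟨j', hj'⟩⟩ e
    have := H4.fix_mul_inverted_unique (mem_Z.1 hc.2).2.symm (mem_Z.1 hc'.2).2.symm hj.2 hj'.2
      (odd_ord (hA hj.1)) (odd_ord (hA hj'.1)) (congrArg Subtype.val e)
    obtain ⟨rfl, rfl⟩ := this
    rfl
  · rintro ⟨x, hx⟩
    obtain ⟨y, j, hy, c, hj, hj', rfl⟩ := H4.exists_fix_mul_inverted zz hodd hz hx
    exact ⟨(⟨y, hy, mem_Z.2 ⟨hA hy, c.symm⟩⟩, ⟨j, hj, hj'⟩), rfl⟩

theorem exists_In {A : Subgroup G} (hA : A ≤ S.U) (hz : ∀ u ∈ A, S.z * u * S.z⁻¹ ∈ A) {x : G}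
    (hx : x ∈ A) : ∃ c ∈ S.Z, ∃ j ∈ A, S.In j ∧ x = c * j := by
  have hodd : Odd (Nat.card A) := (odd_U (S := S)).of_dvd_nat (card_dvd_of_le hA)
  obtain ⟨y, j, hy, c, hj, hj', rfl⟩ := H4.exists_fix_mul_inverted zz hodd hz hx
  exact ⟨y, mem_Z.2 ⟨hA hy, c.symm⟩, j, hj, hj', rfl⟩

theorem card_In_ge {A L : Subgroup G} (hL : L ≤ S.H) (hA : ∀ y ∈ L, ∀ u ∈ A, y * u * y⁻¹ ∈ A)
    {j : G} (hj : j ∈ A) (hj' : S.In j) (hj1 : j ≠ 1) (hf : ∀ y ∈ L, y * j = j * y → y = 1) :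
    Nat.card L + 1 ≤ Nat.card {u // u ∈ A ∧ S.In u} := by
  rw [card_ne_add_one (fun u => u ∈ A ∧ S.In u) (a := 1) ⟨A.one_mem, by simp [In]⟩]
  refine Nat.add_le_add_right (card_le_of_inj (fun y => y ∈ L) _ (fun y => y * j * y⁻¹)
    (fun y hy => ⟨⟨hA y hy j hj, hj'.conj (hL hy)⟩, by simpa using hj1⟩) ?_) 1
  intro a b ha hb e
  have := hf _ (L.mul_mem (L.inv_mem ha) hb) (by
    calc a⁻¹ * b * j = a⁻¹ * (b * j * b⁻¹) * b := by group
      _ = _ := by rw [← e]; group)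
  rwa [inv_mul_eq_one] at this

theorem HCU {x y u : G} (hx : x ∈ S.H) (hy : y ∈ S.H) (hu : u ∈ S.CU x) :
    y * u * y⁻¹ ∈ S.CU x := by
  refine S.mem_CU.2 ⟨HU hy hu.1, ?_⟩
  have c1 : Commute x y := Hcomm hx hy
  exact ((c1.mul_right (S.mem_CU.1 hu).2).mul_right c1.inv_right).eq

theorem card_orb {u : G} (Q : G → Prop) (hQ : ∀ y ∈ S.H, Q (y * u * y⁻¹)) :
    Nat.card S.H = Nat.card {v // Q v ∧ ∃ y ∈ S.H, y * u * y⁻¹ = v} *
      Nat.card (S.H ⊓ centralizer {u} : Subgroup G) := by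
  refine card_fib (fun y => y ∈ S.H) _ (fun y => y * u * y⁻¹) (fun y hy => ⟨hQ y hy, y, hy, rfl⟩) _ ?_
  rintro v ⟨-, y₀, hy₀, rfl⟩
  refine card_lcoset _ y₀ _ fun y => ?_
  rw [mem_inf, mem_centralizer_singleton_iff]
  constructor
  · rintro ⟨hy, e⟩
    refine ⟨S.H.mul_mem (S.H.inv_mem hy₀) hy, ?_⟩
    calc y₀⁻¹ * y * u = y₀⁻¹ * (y * u * y⁻¹) * y := by group
      _ = _ := by rw [e]; group
  · rintro ⟨hy, e⟩
    refine ⟨by simpa using S.H.mul_mem hy₀ hy, ?_⟩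
    calc y * u * y⁻¹ = y₀ * (y₀⁻¹ * y * u) * y⁻¹ := by group
      _ = _ := by rw [e]; group

/-- `H` acts semiregularly outside the block of `z` -/
theorem H_free {x u : G} (hx : x ∈ S.H) (hx1 : x ≠ 1) (hu : u ∈ S.U) (h : x * u = u * x) :
    u ∈ S.Z := by
  by_contra hn
  have hA : S.CU x ≤ S.U := inf_le_left
  have hz : ∀ u ∈ S.CU x, S.z * u * S.z⁻¹ ∈ S.CU x := fun u hu => HCU hx zH hu
  obtain ⟨c, hc, j, hj, hj', e⟩ := exists_In hA hz (S.mem_CU.2 ⟨hu, h⟩)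
  have hj1 : j ≠ 1 := by
    rintro rfl
    rw [e, mul_one] at hn
    exact hn hc
  have hjZ : S.z * j ≠ j * S.z := fun e => hj1 (hj'.eq_one (mem_Z.2 ⟨hj.1, e⟩))
  have hKf : ∀ y ∈ S.K, y * j = j * y → y = 1 := by
    intro y hy e
    rcases K_fpf hy hj.1 hj1 e with h1 | h1
    · exact h1
    · exact absurd (h1 ▸ e) hjZ
  have h1 := card_In_ge K_le (fun y hy u hu => HCU hx hy.1 hu) hj hj' hj1 hKf
  rw [cardK] at h1
  have h2 := card_fact hA hz
  obtain ⟨a, ha, ea⟩ := card_sub_U (S := S) hA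
  have h3 := CU_dvd hx hj hj1
  have ha' : a < 3 * n := by
    rcases ha.lt_or_eq with h4 | h4
    · exact h4
    · exact absurd (eq_of_le_of_card_ge hA (by rw [ea, h4, S.cardU])) (CU_ne hx hx1)
  have h4 : p ^ n ≤ p ^ a := by
    rw [← ea, h2]
    exact h1.trans (Nat.le_mul_of_pos_left _ Nat.card_pos)
  rw [ea] at h3
  have h5 := arithB S.hp.two_le S.hn ((Nat.pow_le_pow_iff_right S.hp.one_lt).1 h4) ha' h3
  subst h5
  have h6 := card_orb (S := S) (u := j) (fun v => v ∈ S.CU x ∧ v ≠ 1)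
    (fun y hy => ⟨HCU hx hy hj, by simpa using hj1⟩)
  have h7 : Nat.card {v // (v ∈ S.CU x ∧ v ≠ 1) ∧ ∃ y ∈ S.H, y * j * y⁻¹ = v} + 1 = p ^ a := by
    apply le_antisymm
    · rw [← ea]
      have := card_ne_add_one (fun v => v ∈ S.CU x) (S.CU x).one_mem
      have h8 := card_le_of_inj (fun v => (v ∈ S.CU x ∧ v ≠ 1) ∧ ∃ y ∈ S.H, y * j * y⁻¹ = v)
        (fun v => v ∈ S.CU x ∧ v ≠ 1) id (fun v hv => hv.1) (fun _ _ _ _ e => e)
      exact (Nat.add_le_add_right h8 1).trans this.ge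
    · rw [← cardK (S := S)]
      refine Nat.add_le_add_right (card_le_of_inj (fun y => y ∈ S.K) _ (fun y => y * j * y⁻¹)
        (fun y hy => ⟨⟨HCU hx hy.1 hj, by simpa using hj1⟩, y, hy.1, rfl⟩) ?_) 1
      intro a b ha hb e
      have := hKf _ (S.K.mul_mem (S.K.inv_mem ha) hb) (by
        calc a⁻¹ * b * j = a⁻¹ * (b * j * b⁻¹) * b := by group
          _ = _ := by rw [← e]; group)
      rwa [inv_mul_eq_one] at this
  rw [S.cardH', ← h7, Nat.add_sub_cancel] at h6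
  have h8 : 0 < Nat.card {v // (v ∈ S.CU x ∧ v ≠ 1) ∧ ∃ y ∈ S.H, y * j * y⁻¹ = v} := by
    have := S.q3; omega
  have h9 := Nat.eq_of_mul_eq_mul_left h8 h6
  obtain ⟨w, hw, hw1, hw2⟩ := exists_invol (A := S.H ⊓ centralizer {j}) (h9 ▸ S.r_even)
  rw [eq_z hw.1 hw2 hw1] at hw
  exact hjZ (mem_centralizer_singleton_iff.1 hw.2)

theorem H_free' {x : G} {γ : Ω} (hx : x ∈ S.H) (hγ : S.z • γ ≠ γ) (h : x • γ = γ) : x = 1 := by
  by_contra hx1
  have : γ ≠ S.i := by rintro rfl; exact hγ (Hi zH)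
  obtain ⟨u, hu, rfl⟩ := S.tr γ this
  exact hγ ((fix_iff zH hu).2 (mem_Z.1 (H_free hx hx1 hu ((fix_iff hx hu).1 h))).2)

theorem Sw.fix_ne {s : G} (hs : S.Sw s) (hs2 : s * s = 1) {γ : Ω} (h : s • γ = γ) :
    S.z • γ ≠ γ := by
  intro hz
  have h1 : s ≠ 1 := by
    rintro rfl
    exact S.ne (by simpa using hs.2)
  have := eq_z_of_fix hs2 h1 hs.comm_z hz h
  have h2 := hs.1
  rw [this, Hi zH] at h2
  exact S.ne h2.symm

theorem J.card_fix {s : G} (h : S.J s) : Nat.card {γ : Ω // s • γ = γ} = p ^ n + 1 := by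
  obtain ⟨g, rfl⟩ := h
  rw [← cardZ (S := S), Z, ← St.card_fix zH]
  symm
  refine card_eq_of_bij _ _ (fun γ => g • γ) ?_ ?_ ?_
  · intro γ h
    rw [mul_smul, mul_smul, inv_smul_smul, h]
  · intro a b _ _ e
    exact smul_left_cancel g e
  · intro γ h
    refine ⟨g⁻¹ • γ, ?_, smul_inv_smul _ _⟩
    rw [mul_smul, mul_smul] at h
    rw [eq_inv_smul_iff, h]

variable (S) in
/-- the reflection group -/
noncomputable def W : Subgroup G := S.H ⊓ centralizer {S.t}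

theorem mem_W {y : G} : y ∈ S.W ↔ y ∈ S.H ∧ y * S.t = S.t * y := by
  rw [W, mem_inf, mem_centralizer_singleton_iff]

theorem cardW_dvd : Nat.card S.W ∣ p ^ n + 1 := by
  haveI := finite_pts (S := S)
  rw [← (tJ (S := S)).card_fix]
  refine card_dvd_of_free _ _ ?_ ?_
  · intro y hy x hx
    rw [← mul_smul, ← (mem_W.1 hy).2, mul_smul, hx]
  · intro y hy x hx e
    exact H_free' hy.1 (tSw.fix_ne tt hx) e

variable (S) in
/-- the commutators with `t` -/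
noncomputable def K0 : Subgroup G where
  carrier := {k | ∃ y ∈ S.H, y * (S.t * y⁻¹ * S.t) = k}
  mul_mem' := by
    rintro _ _ ⟨a, ha, rfl⟩ ⟨b, hb, rfl⟩
    refine ⟨a * b, S.H.mul_mem ha hb, ?_⟩
    have c := Hcomm hb (tH (S.H.inv_mem ha))
    have c2 := Hcomm (S.H.inv_mem ha) (S.H.inv_mem hb)
    calc a * b * (S.t * (a * b)⁻¹ * S.t) = a * b * (S.t * (b⁻¹ * a⁻¹) * S.t) := by group
      _ = a * (b * (S.t * a⁻¹ * S.t)) * (S.t * b⁻¹ * S.t) := by
        rw [← c2]; simp only [mul_assoc, tt']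
      _ = _ := by rw [c]; group
  one_mem' := ⟨1, S.H.one_mem, by simp [tt]⟩
  inv_mem' := by
    rintro _ ⟨a, ha, rfl⟩
    refine ⟨a⁻¹, S.H.inv_mem ha, ?_⟩
    rw [Hcomm (S.H.inv_mem ha) (tH (S.H.inv_mem (S.H.inv_mem ha)))]
    simp [t_inv, mul_assoc]

theorem K0_le : S.K0 ≤ S.K := by
  rintro _ ⟨y, hy, rfl⟩
  have := J_mul S.H.one_mem (by simpa using tJ) hy
  rw [one_mul] at this
  exact ⟨S.H.mul_mem hy (tH (S.H.inv_mem hy)), this⟩

theorem card_K0W : Nat.card S.H = Nat.card S.K0 * Nat.card S.W := by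
  refine card_fib (fun y => y ∈ S.H) (fun k => k ∈ S.K0) (fun y => y * (S.t * y⁻¹ * S.t))
    (fun y hy => ⟨y, hy, rfl⟩) _ ?_
  rintro _ ⟨a, ha, rfl⟩
  refine card_lcoset _ a _ fun y => ?_
  rw [mem_W]
  constructor
  · rintro ⟨hy, e⟩
    refine ⟨S.H.mul_mem (S.H.inv_mem ha) hy, ?_⟩
    have e2 : a⁻¹ * y * (S.t * y⁻¹ * S.t) = S.t * a⁻¹ * S.t := by
      rw [mul_assoc, e]; group
    calc a⁻¹ * y * S.t = (a⁻¹ * y * (S.t * y⁻¹ * S.t)) * S.t * y := by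
          simp only [mul_assoc, tt', inv_mul_cancel, mul_one]
      _ = _ := by rw [e2]; simp only [mul_assoc, tt']
  · rintro ⟨hy, e⟩
    have hy' : y ∈ S.H := by simpa using S.H.mul_mem ha hy
    refine ⟨hy', ?_⟩
    have c := Hcomm (S.H.inv_mem ha) hy'
    calc y * (S.t * y⁻¹ * S.t) = a * (a⁻¹ * y * S.t) * y⁻¹ * S.t := by group
      _ = a * (S.t * (y * a⁻¹)) * y⁻¹ * S.t := by rw [e, c]
      _ = a * (S.t * (y * a⁻¹ * y⁻¹)) * S.t := by group
      _ = _ := by rw [← c]; group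

theorem K0_eq : S.K0 = S.K ∧ Nat.card S.W = S.r := by
  have h1 := card_fib_le (fun k => k ∈ S.K) (fun v => v ∈ S.K0) (fun k => k * k)
    (fun k hk => ⟨k, hk.1, by rw [K_inv (S.K.inv_mem hk), inv_inv]⟩) 2 (by
      intro v hv
      by_cases hex : ∃ k₀, k₀ ∈ S.K ∧ k₀ * k₀ = v
      · obtain ⟨k₀, hk₀, e⟩ := hex
        refine card_le_two _ k₀ (k₀ * S.z) ?_
        rintro k ⟨hk, e'⟩
        by_cases h : k₀⁻¹ * k = 1
        · left; rw [inv_mul_eq_one] at h; exact h.symm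
        · right
          have := eq_z (S.H.mul_mem (S.H.inv_mem hk₀.1) hk.1) (by
            have c := Hcomm (S.H.inv_mem hk₀.1) hk.1
            calc k₀⁻¹ * k * (k₀⁻¹ * k) = k₀⁻¹ * (k * k₀⁻¹) * k := by group
              _ = (k₀ * k₀)⁻¹ * (k * k) := by rw [← c]; group
              _ = 1 := by rw [e, e']; group) h
          rw [← this]; group
      · haveI : IsEmpty {a // a ∈ S.K ∧ a * a = v} := ⟨fun a => hex ⟨a.1, a.2⟩⟩
        simp)
  have h1' : Nat.card S.K ≤ Nat.card S.K0 * 2 := h1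
  obtain ⟨c, hc⟩ := card_dvd_of_le (K0_le (S := S))
  have h2 := card_K0W (S := S)
  have h3 := cardK (S := S)
  have h4 : p ^ n - 1 = Nat.card S.K := by omega
  rw [S.cardH', h4, hc, mul_assoc] at h2
  have h0 : 0 < Nat.card S.K0 := Nat.card_pos
  have h5 := Nat.eq_of_mul_eq_mul_left h0 h2
  have h6 := cardW_dvd (S := S)
  rw [← S.dr, ← h5] at h6
  have h7 := Nat.dvd_of_mul_dvd_mul_right S.r_pos h6
  have h8 : c ≤ 2 := by
    rw [hc] at h1'
    exact Nat.le_of_mul_le_mul_left h1' h0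
  have h9 : c = 1 := by
    rcases d13 (p := p) (n := n) with h | h <;> rw [h] at h7
    · exact Nat.dvd_one.1 h7
    · rcases (Nat.dvd_prime Nat.prime_three).1 h7 with h | h <;> omega
  subst h9
  exact ⟨eq_of_le_of_card_ge K0_le (by omega), by omega⟩

theorem cardW : Nat.card S.W = S.r := K0_eq.2

theorem exists_of_K {k : G} (hk : k ∈ S.K) : ∃ y ∈ S.H, y * (S.t * y⁻¹ * S.t) = k := by
  rw [← K0_eq.1] at hk
  exact hk

theorem W_aux {u : G} (hu : u ∈ S.Z) (hu1 : u ≠ 1) :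
    (S.H ⊓ centralizer {u} : Subgroup G) = S.W ∧
      ∀ v ∈ S.Z, v ≠ 1 → ∃ y ∈ S.H, y * u * y⁻¹ = v := by
  have h1 : (S.H ⊓ centralizer {u} : Subgroup G) ≤ S.W := fun y hy =>
    mem_W.2 ⟨hy.1, comm_sw hy.1 hu.1 hu1 (mem_centralizer_singleton_iff.1 hy.2) tSw⟩
  have h2 := card_orb (S := S) (u := u) (fun v => v ∈ S.Z ∧ v ≠ 1)
    (fun y hy => ⟨HZ hy hu, by simpa using hu1⟩)
  have h3 := card_le_of_inj (fun v => (v ∈ S.Z ∧ v ≠ 1) ∧ ∃ y ∈ S.H, y * u * y⁻¹ = v)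
    (fun v => v ∈ S.Z ∧ v ≠ 1) id (fun v hv => hv.1) (fun _ _ _ _ e => e)
  have h4 : Nat.card S.Z = Nat.card {v // v ∈ S.Z ∧ v ≠ 1} + 1 :=
    card_ne_add_one (fun v => v ∈ S.Z) S.Z.one_mem
  have h5 := card_le_of_le h1
  rw [cardW] at h5
  rw [cardZ] at h4
  rw [S.cardH', h4, Nat.add_sub_cancel] at h2
  have h6 := S.r_pos
  have h7 := S.q3
  set A := Nat.card {v // v ∈ S.Z ∧ v ≠ 1}
  set B := Nat.card {v // (v ∈ S.Z ∧ v ≠ 1) ∧ ∃ y ∈ S.H, y * u * y⁻¹ = v}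
  set C := Nat.card (S.H ⊓ centralizer {u} : Subgroup G)
  have h8 : S.r ≤ C := by
    by_contra h
    have : B * C < A * S.r := by
      calc B * C ≤ A * C := Nat.mul_le_mul_right _ h3
        _ < A * S.r := Nat.mul_lt_mul_of_pos_left (by omega) (by omega)
    omega
  have h9 : A ≤ B := by
    by_contra h
    have : B * C < A * S.r := by
      calc B * C ≤ B * S.r := Nat.mul_le_mul_left _ h5
        _ < A * S.r := Nat.mul_lt_mul_of_pos_right (by omega) h6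
    omega
  refine ⟨eq_of_le_of_card_ge h1 (by rw [cardW]; exact h8), fun v hv hv1 => ?_⟩
  obtain ⟨w, hw, e⟩ := surj_of_card_le (fun v => (v ∈ S.Z ∧ v ≠ 1) ∧ ∃ y ∈ S.H, y * u * y⁻¹ = v)
    (fun v => v ∈ S.Z ∧ v ≠ 1) id (fun v hv => hv.1) (fun _ _ _ _ e => e) h9 v ⟨hv, hv1⟩
  exact (show w = v from e) ▸ hw.2

theorem W_cent {w u : G} (hw : w ∈ S.W) (hu : u ∈ S.Z) : w * u = u * w := by
  by_cases hu1 : u = 1
  · simp [hu1]
  · rw [← (W_aux hu hu1).1] at hw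
    exact mem_centralizer_singleton_iff.1 hw.2

theorem mem_W_of {y u : G} (hy : y ∈ S.H) (hu : u ∈ S.Z) (hu1 : u ≠ 1) (h : y * u = u * y) :
    y ∈ S.W := mem_W.2 ⟨hy, comm_sw hy hu.1 hu1 h tSw⟩

theorem Z_trans {u v : G} (hu : u ∈ S.Z) (hu1 : u ≠ 1) (hv : v ∈ S.Z) (hv1 : v ≠ 1) :
    ∃ y ∈ S.H, y * u * y⁻¹ = v := (W_aux hu hu1).2 v hv hv1

theorem inv_sub {A : Subgroup G} (h1 : S.Z ≤ A) (h2 : A ≤ S.U)
    (h3 : ∀ y ∈ S.H, ∀ u ∈ A, y * u * y⁻¹ ∈ A) : A = S.Z ∨ A = S.U := by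
  by_cases h0 : A = S.Z
  · exact Or.inl h0
  right
  obtain ⟨x, hx, hxZ⟩ := SetLike.exists_of_lt (lt_of_le_of_ne h1 (Ne.symm h0))
  have hz : ∀ u ∈ A, S.z * u * S.z⁻¹ ∈ A := h3 _ zH
  obtain ⟨c, hc, j, hj, hj', e⟩ := exists_In h2 hz hx
  have hj1 : j ≠ 1 := by
    rintro rfl
    rw [e, mul_one] at hxZ
    exact hxZ hc
  have h4 := card_In_ge le_rfl h3 hj hj' hj1 (by
    intro y hy e
    by_contra hy1
    exact hj1 (hj'.eq_one (H_free hy hy1 (h2 hj) e)))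
  have h5 := card_fact h2 hz
  rw [inf_eq_right.2 h1, cardZ] at h5
  obtain ⟨a, ha, ea⟩ := card_sub_U (S := S) h2
  refine eq_of_le_of_card_ge h2 ?_
  rw [ea, S.cardU]
  by_contra hlt
  have h6 : a + 1 ≤ 3 * n := by
    by_contra h7
    exact hlt (Nat.pow_le_pow_right S.hp.pos (by omega))
  have h7 := Nat.pow_le_pow_right S.hp.pos h6
  have h8 : p ^ a * 3 ≤ p ^ a * p := Nat.mul_le_mul_left _ S.p3
  rw [pow_succ, show 3 * n = n + 2 * n by ring, pow_add] at h7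
  have h9 := S.cardH
  have h10 : 1 ≤ p ^ (2 * n) := Nat.one_le_pow _ _ S.hp.pos
  have h11 : p ^ (2 * n) < 3 * (Nat.card S.H + 1) := by
    rcases d13 (p := p) (n := n) with h | h <;> rw [h] at h9 <;> omega
  have h12 : p ^ n * p ^ (2 * n) < p ^ n * (3 * (Nat.card S.H + 1)) :=
    Nat.mul_lt_mul_of_pos_left h11 (by have := S.q3; omega)
  have h13 : p ^ n * (Nat.card S.H + 1) ≤ p ^ a := by
    rw [← ea, h5]
    exact Nat.mul_le_mul_left _ h4
  nlinarith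

theorem U_pgroup : IsPGroup p S.U := IsPGroup.of_card S.cardU

theorem Z_ne_U : S.Z ≠ S.U := CU_ne zH z_ne

theorem Z_ne_bot : S.Z ≠ ⊥ := by
  intro h
  have := cardZ (S := S)
  rw [h, card_bot] at this
  have := S.q3
  omega

theorem exists_cent {A : Subgroup G} (hA : A ≤ S.U) (h0 : A ≠ ⊥) :
    ∃ x ∈ A, x ≠ 1 ∧ ∀ y ∈ A, x * y = y * x := by
  have hP : IsPGroup p A := (U_pgroup (S := S)).to_le hA
  obtain ⟨x, hx, h⟩ := exists_cent_mod S.hp hP ⊥ (by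
    intro e
    apply h0
    rw [eq_bot_iff]
    intro y hy
    have : (⟨y, hy⟩ : A) ∈ (⊥ : Subgroup A) := e ▸ mem_top _
    exact congrArg Subtype.val (mem_bot.1 this))
  refine ⟨x, x.2, fun e => hx (mem_bot.2 (Subtype.ext e)), fun y hy => ?_⟩
  have := congrArg Subtype.val (mem_bot.1 (h ⟨y, hy⟩))
  simp only [coe_mul, coe_inv, coe_one] at this
  rw [mul_inv_eq_one, mul_inv_eq_iff_eq_mul] at this
  exact this

theorem cent_inv {A : Subgroup G} (hA : ∀ y ∈ S.H, ∀ u ∈ A, y * u * y⁻¹ ∈ A) {y u : G}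
    (hy : y ∈ S.H) (hu : u ∈ centralizer (A : Set G)) : y * u * y⁻¹ ∈ centralizer (A : Set G) := by
  intro v hv
  have := hu _ (hA _ (S.H.inv_mem hy) v hv)
  calc v * (y * u * y⁻¹) = y * (y⁻¹ * v * y⁻¹⁻¹ * u) * y⁻¹ := by group
    _ = _ := by rw [this]; group

theorem Z_comm {a b : G} (ha : a ∈ S.Z) (hb : b ∈ S.Z) : a * b = b * a := by
  obtain ⟨x, hx, hx1, h⟩ := exists_cent Z_le (Z_ne_bot (S := S))
  rcases Z_irr (S := S) (A := S.Z ⊓ centralizer (S.Z : Set G)) inf_le_left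
    (fun k hk u hu => ⟨HZ hk.1 hu.1, cent_inv (fun y hy u hu => HZ hy hu) hk.1 hu.2⟩) with h1 | h1
  · have : x ∈ S.Z ⊓ centralizer (S.Z : Set G) := ⟨hx, fun y hy => (h y hy).symm⟩
    rw [h1] at this
    exact absurd this hx1
  · rw [← h1] at hb
    exact hb.2 a ha

theorem Z_central {c u : G} (hc : c ∈ S.Z) (hu : u ∈ S.U) : u * c = c * u := by
  have hUi : ∀ y ∈ S.H, ∀ u ∈ S.U, y * u * y⁻¹ ∈ S.U := fun y hy u hu => HU hy hu
  rcases Z_irr (S := S) (A := S.Z ⊓ centralizer (S.U : Set G)) inf_le_left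
    (fun k hk u hu => ⟨HZ hk.1 hu.1, cent_inv hUi hk.1 hu.2⟩) with h1 | h1
  · obtain ⟨x, hx, hx1, h⟩ := exists_cent (S := S) le_rfl (fun e => Z_ne_bot (eq_bot_iff.2 (e ▸ Z_le)))
    rcases inv_sub (S := S) (A := S.U ⊓ centralizer (S.Z : Set G))
      (fun a ha => ⟨ha.1, fun b hb => Z_comm hb ha⟩) inf_le_left
      (fun k hk u hu => ⟨HU hk hu.1, cent_inv (fun y hy u hu => HZ hy hu) hk hu.2⟩) with h2 | h2
    · have h3 : x ∈ S.U ⊓ centralizer (S.Z : Set G) := ⟨hx, fun y hy => (h y hy.1).symm⟩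
      rw [h2] at h3
      have : x ∈ S.Z ⊓ centralizer (S.U : Set G) := ⟨h3, fun y hy => (h y hy).symm⟩
      rw [h1] at this
      exact absurd this hx1
    · rw [← h2] at hu
      exact (hu.2 c hc).symm
  · rw [← h1] at hc
    exact hc.2 u hu

theorem UZ {u c : G} (hu : u ∈ S.U) (hc : c ∈ S.Z) : u * c * u⁻¹ = c := by
  rw [Z_central hc hu]; group

instance Z_normal : (S.Z.subgroupOf S.U).Normal :=
  ⟨fun c hc u => by
    rw [mem_subgroupOf] at hc ⊢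
    simp only [coe_mul, coe_inv]
    rwa [UZ u.2 hc]⟩

theorem comm_mem {u v : G} (hu : u ∈ S.U) (hv : v ∈ S.U) : u * v * u⁻¹ * v⁻¹ ∈ S.Z := by
  obtain ⟨x, hx, h⟩ := exists_cent_mod S.hp (U_pgroup (S := S)) (S.Z.subgroupOf S.U) (by
    intro e
    exact Z_ne_U (le_antisymm Z_le (subgroupOf_eq_top.1 e)))
  let A : Subgroup G :=
    { carrier := {a | a ∈ S.U ∧ ∀ b ∈ S.U, a * b * a⁻¹ * b⁻¹ ∈ S.Z}
      mul_mem' := by
        rintro a a' ⟨ha, h1⟩ ⟨ha', h2⟩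
        refine ⟨S.U.mul_mem ha ha', fun b hb => ?_⟩
        have : a * a' * b * (a * a')⁻¹ * b⁻¹ =
            a * (a' * b * a'⁻¹ * b⁻¹) * a⁻¹ * (a * b * a⁻¹ * b⁻¹) := by group
        rw [this, UZ ha (h2 b hb)]
        exact S.Z.mul_mem (h2 b hb) (h1 b hb)
      one_mem' := ⟨S.U.one_mem, fun b hb => by simp⟩
      inv_mem' := by
        rintro a ⟨ha, h1⟩
        refine ⟨S.U.inv_mem ha, fun b hb => ?_⟩
        have : a⁻¹ * b * a⁻¹⁻¹ * b⁻¹ = a⁻¹ * (a * b * a⁻¹ * b⁻¹)⁻¹ * a⁻¹⁻¹ := by group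
        rw [this, UZ (S.U.inv_mem ha) (S.Z.inv_mem (h1 b hb))]
        exact S.Z.inv_mem (h1 b hb) }
  rcases inv_sub (S := S) (A := A) (fun c hc => ⟨hc.1, fun b hb => by
      rw [← Z_central hc hb]; simp⟩) (fun a ha => ha.1) (by
      rintro y hy a ⟨ha, h1⟩
      refine ⟨HU hy ha, fun b hb => ?_⟩
      have := HZ hy (h1 _ (HU (S.H.inv_mem hy) hb))
      convert this using 1
      group) with h1 | h1
  · have : (x : G) ∈ A := ⟨x.2, fun b hb => h ⟨b, hb⟩⟩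
    rw [h1] at this
    exact absurd this hx
  · have : u ∈ A := h1 ▸ hu
    exact this.2 v hv

end St

end Cfsg.Agent.H8.ON
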