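import Cfsg.Agent.H8.ON2
import Cfsg.Agent.H2.Coord

/-! O'Nan's characterisation of `PSU₃(q)`: field coordinates on `U / Z`. -/

set_option autoImplicit false
set_option linter.unusedSectionVars false
set_option linter.unusedVariables false

namespace Cfsg.Agent.H8.ON

open Subgroup

namespace St

variable {G Ω : Type*} [Group G] [MulAction G Ω] {p n : ℕ} [Finite G] {S : St G Ω p n}

variable (S) in
/-- the quotient `U / Z` -/
def Q : Type _ := S.U ⧸ S.Z.subgroupOf S.U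

noncomputable instance Q_commGroup : CommGroup S.Q :=
  { (inferInstance : Group (S.U ⧸ S.Z.subgroupOf S.U)) with
    mul_comm := by
      intro a b
      obtain ⟨u, rfl⟩ := QuotientGroup.mk_surjective (s := S.Z.subgroupOf S.U) a
      obtain ⟨v, rfl⟩ := QuotientGroup.mk_surjective (s := S.Z.subgroupOf S.U) b
      show ((u * v : S.U) : S.U ⧸ S.Z.subgroupOf S.U) = ((v * u : S.U) : S.U ⧸ S.Z.subgroupOf S.U)
      rw [QuotientGroup.eq, mem_subgroupOf]
      have := comm_mem (S.U.inv_mem v.2) (S.U.inv_mem u.2)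
      convert this using 1
      simp [mul_assoc] }

variable (S) in
/-- the projection -/
noncomputable def mkQ : S.U →* S.Q := QuotientGroup.mk' (S.Z.subgroupOf S.U)

theorem mkQ_surj : Function.Surjective S.mkQ := QuotientGroup.mk'_surjective _

theorem mkQ_eq_one {u : S.U} : S.mkQ u = 1 ↔ (u : G) ∈ S.Z :=
  (QuotientGroup.eq_one_iff (N := S.Z.subgroupOf S.U) u).trans mem_subgroupOf

/-- conjugation on `U` -/
def cU (y : S.H) : S.U →* S.U where
  toFun u := ⟨y * u * y⁻¹, HU y.2 u.2⟩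
  map_one' := Subtype.ext (by simp)
  map_mul' a b := Subtype.ext (by simp [mul_assoc])

/-- conjugation on `U / Z` -/
noncomputable def cQ (y : S.H) : S.Q →* S.Q :=
  QuotientGroup.map (S.Z.subgroupOf S.U) (S.Z.subgroupOf S.U) (cU y) fun u hu => HZ y.2 hu

theorem cQ_mk (y : S.H) (u : S.U) : cQ y (S.mkQ u) = S.mkQ (cU y u) := rfl

noncomputable instance Q_act : DistribMulAction S.H (Additive S.Q) where
  smul y v := Additive.ofMul (cQ y v.toMul)
  one_smul v := by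
    obtain ⟨u, hu⟩ := mkQ_surj v.toMul
    show Additive.ofMul (cQ 1 v.toMul) = v
    rw [← hu, cQ_mk, show cU (1 : S.H) u = u from Subtype.ext (by simp [cU]), hu]
    rfl
  mul_smul a b v := by
    obtain ⟨u, hu⟩ := mkQ_surj v.toMul
    show Additive.ofMul (cQ (a * b) v.toMul) = Additive.ofMul (cQ a (cQ b v.toMul))
    rw [← hu, cQ_mk, cQ_mk, cQ_mk,
      show cU (a * b) u = cU a (cU b u) from Subtype.ext (by simp [cU, mul_assoc])]
  smul_zero a := congrArg Additive.ofMul (map_one (cQ a))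
  smul_add a v w := congrArg Additive.ofMul (map_mul (cQ a) v.toMul w.toMul)

theorem smul_mk (y : S.H) (u : S.U) :
    y • (Additive.ofMul (S.mkQ u)) = Additive.ofMul (S.mkQ (cU y u)) := rfl

instance Q_finite : Finite S.Q := inferInstanceAs (Finite (S.U ⧸ S.Z.subgroupOf S.U))

theorem card_Q : Nat.card S.Q = (p ^ n) ^ 2 := by
  have h1 := card_eq_card_quotient_mul_card_subgroup (S.Z.subgroupOf S.U)
  rw [Nat.card_congr (subgroupOfEquivOfLe Z_le).toEquiv, cardZ, S.cardU,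
    show 3 * n = n * 2 + n by ring, pow_add, pow_mul] at h1
  exact (Nat.eq_of_mul_eq_mul_right (by have := S.q3; omega) h1).symm

theorem Q_irred : H2.Irred (⊤ : Subgroup S.H) (Additive S.Q) := by
  intro W hW
  let A : Subgroup G := (W.toSubgroup'.comap S.mkQ).map S.U.subtype
  have hA : ∀ u : S.U, (u : G) ∈ A ↔ Additive.ofMul (S.mkQ u) ∈ W := fun u =>
    ⟨by rintro ⟨v, hv, e⟩; rw [← Subtype.ext e]; exact hv, fun h => ⟨u, h, rfl⟩⟩
  rcases inv_sub (S := S) (A := A) (fun c hc => (hA ⟨c, hc.1⟩).2 (by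
      rw [mkQ_eq_one.2 hc]; exact W.zero_mem)) (by rintro _ ⟨v, -, rfl⟩; exact v.2) (by
      rintro y hy _ ⟨v, hv, rfl⟩
      exact (hA (cU ⟨y, hy⟩ v)).2 (hW ⟨y, hy⟩ (mem_top _) _ hv)) with h | h
  · left
    rw [eq_bot_iff]
    intro v hv
    obtain ⟨u, hu⟩ := mkQ_surj v.toMul
    have : (u : G) ∈ A := (hA u).2 (by rw [hu]; exact hv)
    rw [h, ← mkQ_eq_one, hu] at this
    exact this
  · right
    rw [eq_top_iff]
    intro v _
    obtain ⟨u, hu⟩ := mkQ_surj v.toMul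
    have := (hA u).1 (by rw [h]; exact u.2)
    rwa [hu] at this

end St

/-- field coordinates on `U / Z` -/
structure Cd {G Ω : Type*} [Group G] [MulAction G Ω] {p n : ℕ} [Finite G] (S : St G Ω p n)
    (E : Type) [Field E] where
  /-- the coordinate -/
  a : G → E
  /-- the multiplier -/
  κ : G → E
  a_mul : ∀ u ∈ S.U, ∀ v ∈ S.U, a (u * v) = a u + a v
  a_zero : ∀ u ∈ S.U, a u = 0 ↔ u ∈ S.Z
  a_surj : ∀ x, ∃ u ∈ S.U, a u = x
  a_conj : ∀ y ∈ S.H, ∀ u ∈ S.U, a (y * u * y⁻¹) = κ y * a u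

variable {G Ω : Type*} [Group G] [MulAction G Ω] {p n : ℕ} [Finite G] {S : St G Ω p n}

theorem exists_cd (S : St G Ω p n) (E : Type) [Field E] [Finite E] (hE : Nat.card E = (p ^ n) ^ 2) :
    Nonempty (Cd S E) := by
  classical
  haveI : Nontrivial (Additive S.Q) := by
    rw [← Finite.one_lt_card_iff_nontrivial]
    show 1 < Nat.card S.Q
    rw [St.card_Q]
    have := S.q3
    nlinarith
  obtain ⟨φ, h1, -⟩ := (H2.exists_field_coord (H := S.H) (V := Additive S.Q) ⊤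
    (fun x _ y _ => Subtype.ext (St.Hcomm x.2 y.2)) St.Q_irred).2 E (by rw [hE]; exact St.card_Q.symm)
  choose κ hκ0 hκ using fun y : S.H => h1 y fun x _ => Subtype.ext (St.Hcomm x.2 y.2)
  refine ⟨⟨fun u => if h : u ∈ S.U then φ.symm (Additive.ofMul (S.mkQ ⟨u, h⟩)) else 0,
    fun y => if h : y ∈ S.H then κ ⟨y, h⟩ else 0, ?_, ?_, ?_, ?_⟩⟩
  · intro u hu v hv
    simp only [dif_pos hu, dif_pos hv, dif_pos (S.U.mul_mem hu hv)]
    rw [← map_add, ← ofMul_mul, ← map_mul]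
    rfl
  · intro u hu
    simp only [dif_pos hu]
    rw [AddEquiv.map_eq_zero_iff, ofMul_eq_zero, St.mkQ_eq_one]
  · intro x
    obtain ⟨u, hu⟩ := St.mkQ_surj (φ x).toMul
    exact ⟨u, u.2, by simp [hu]⟩
  · intro y hy u hu
    simp only [dif_pos hu, dif_pos hy, dif_pos (St.HU hy hu)]
    rw [AddEquiv.symm_apply_eq, ← hκ, AddEquiv.apply_symm_apply, St.smul_mk]
    rfl

namespace Cd

open St

variable {E : Type} [Field E] (C : Cd S E)

theorem a_one : C.a 1 = 0 := (C.a_zero 1 S.U.one_mem).2 S.Z.one_mem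

theorem a_inv {u : G} (hu : u ∈ S.U) : C.a u⁻¹ = - C.a u := by
  have := C.a_mul u hu _ (S.U.inv_mem hu)
  rw [mul_inv_cancel, a_one] at this
  linear_combination -this

theorem a_eq {u v : G} (hu : u ∈ S.U) (hv : v ∈ S.U) : C.a u = C.a v ↔ u * v⁻¹ ∈ S.Z := by
  rw [← C.a_zero _ (S.U.mul_mem hu (S.U.inv_mem hv)), C.a_mul _ hu _ (S.U.inv_mem hv), C.a_inv hv,
    ← sub_eq_add_neg, sub_eq_zero]

theorem a_Z {c u : G} (hc : c ∈ S.Z) (hu : u ∈ S.U) : C.a (c * u) = C.a u := by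
  rw [C.a_mul _ hc.1 _ hu, (C.a_zero _ hc.1).2 hc, zero_add]

theorem exists_i (x : E) : ∃ u ∈ S.U, S.In u ∧ C.a u = x := by
  obtain ⟨u, hu, rfl⟩ := C.a_surj x
  obtain ⟨c, hc, j, hj, hj', rfl⟩ := exists_In le_rfl (fun u hu => HU zH hu) hu
  exact ⟨j, hj, hj', (C.a_Z hc hj).symm⟩

/-- the section by inverted elements -/
noncomputable def i (x : E) : G := (C.exists_i x).choose

theorem iU (x : E) : C.i x ∈ S.U := (C.exists_i x).choose_spec.1
theorem iIn (x : E) : S.In (C.i x) := (C.exists_i x).choose_spec.2.1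
theorem a_i (x : E) : C.a (C.i x) = x := (C.exists_i x).choose_spec.2.2

theorem In_unique {u v : G} (hu : u ∈ S.U) (hv : v ∈ S.U) (hu' : S.In u) (hv' : S.In v)
    (h : C.a u = C.a v) : u = v := by
  have h1 := (C.a_eq hu hv).1 h
  have := H4.fix_mul_inverted_unique (t := S.z) (y := 1) (z := u) (y' := u * v⁻¹) (z' := v)
    (by simp) (mem_Z.1 h1).2.symm hu' hv' (odd_ord hu) (odd_ord hv) (by simp)
  exact this.2

theorem eq_i {u : G} (hu : u ∈ S.U) (hu' : S.In u) : u = C.i (C.a u) :=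
  C.In_unique hu (C.iU _) hu' (C.iIn _) (C.a_i _).symm

theorem i_zero : C.i 0 = 1 := by
  rw [← C.a_one, ← C.eq_i S.U.one_mem (by simp [In])]

theorem i_neg (x : E) : C.i (-x) = (C.i x)⁻¹ := by
  have := C.eq_i (S.U.inv_mem (C.iU x)) (by
    have := C.iIn x
    unfold In at *
    rw [← this]
    calc S.z * (S.z * C.i x * S.z⁻¹) * S.z⁻¹ = (S.z * S.z) * C.i x * (S.z * S.z)⁻¹ := by group
      _ = _ := by rw [zz, this]; group)
  rw [this, C.a_inv (C.iU x), a_i]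

theorem conj_i {y : G} (hy : y ∈ S.H) (x : E) : y * C.i x * y⁻¹ = C.i (C.κ y * x) := by
  rw [C.eq_i (HU hy (C.iU x)) ((C.iIn x).conj hy), C.a_conj y hy _ (C.iU x), a_i]

theorem i_ne {x : E} (hx : x ≠ 0) : C.i x ∉ S.Z := fun h =>
  hx (by rw [← C.a_i x]; exact (C.a_zero _ (C.iU x)).2 h)

theorem i_ne_one {x : E} (hx : x ≠ 0) : C.i x ≠ 1 := fun h => C.i_ne hx (h ▸ S.Z.one_mem)

theorem κ_mul {x y : G} (hx : x ∈ S.H) (hy : y ∈ S.H) : C.κ (x * y) = C.κ x * C.κ y := by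
  have h1 := C.a_conj _ (S.H.mul_mem hx hy) _ (C.iU 1)
  have h2 := C.a_conj _ hx _ (HU hy (C.iU 1))
  rw [C.a_conj _ hy _ (C.iU 1), a_i] at h2
  rw [a_i, show x * y * C.i 1 * (x * y)⁻¹ = x * (y * C.i 1 * y⁻¹) * x⁻¹ by group, h2] at h1
  linear_combination -h1

theorem κ_one : C.κ 1 = 1 := by
  have h1 := C.a_conj _ S.H.one_mem _ (C.iU 1)
  rw [one_mul, inv_one, mul_one, a_i] at h1
  linear_combination -h1

theorem κ_ne {y : G} (hy : y ∈ S.H) : C.κ y ≠ 0 := by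
  have := C.κ_mul hy (S.H.inv_mem hy)
  rw [mul_inv_cancel, κ_one] at this
  exact left_ne_zero_of_mul_eq_one this.symm

theorem κ_inv {y : G} (hy : y ∈ S.H) : C.κ y⁻¹ = (C.κ y)⁻¹ := by
  have := C.κ_mul hy (S.H.inv_mem hy)
  rw [mul_inv_cancel, κ_one] at this
  exact eq_inv_of_mul_eq_one_right this.symm

theorem κ_pow {y : G} (hy : y ∈ S.H) (k : ℕ) : C.κ (y ^ k) = C.κ y ^ k := by
  induction k with
  | zero => simp [κ_one]
  | succ k ih => rw [pow_succ, C.κ_mul (S.H.pow_mem hy k) hy, ih, pow_succ]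

theorem κ_eq_one {y : G} (hy : y ∈ S.H) (h : C.κ y = 1) : y = 1 := by
  by_contra h1
  have := C.conj_i hy 1
  rw [h, one_mul, mul_inv_eq_iff_eq_mul] at this
  exact C.i_ne one_ne_zero (H_free hy h1 (C.iU 1) this)

theorem κ_inj {x y : G} (hx : x ∈ S.H) (hy : y ∈ S.H) (h : C.κ x = C.κ y) : x = y := by
  have := C.κ_eq_one (S.H.mul_mem hx (S.H.inv_mem hy)) (by
    rw [C.κ_mul hx (S.H.inv_mem hy), C.κ_inv hy, h, mul_inv_cancel₀ (C.κ_ne hy)])
  rwa [mul_inv_eq_one] at this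

theorem κ_z : C.κ S.z = -1 := by
  have h1 := C.a_conj _ zH _ (C.iU 1)
  rw [C.iIn 1, C.a_inv (C.iU 1), a_i] at h1
  linear_combination -h1

include C in
theorem two_ne : (2 : E) ≠ 0 := by
  intro h
  apply z_ne (S := S)
  apply C.κ_eq_one zH
  rw [κ_z]; linear_combination -h

theorem κ_image [Finite E] {L : Subgroup G} (hL : L ≤ S.H) (x : E) :
    x ^ Nat.card L = 1 ↔ ∃ y ∈ L, C.κ y = x := by
  classical
  have h1 : ∀ y ∈ L, C.κ y ^ Nat.card L = 1 := by
    intro y hy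
    rw [← C.κ_pow (hL hy), show y ^ Nat.card L = 1 from
      congrArg Subtype.val (pow_card_eq_one' (x := (⟨y, hy⟩ : L))), κ_one]
  refine ⟨surj_of_card_le (fun y => y ∈ L) (fun x : E => x ^ Nat.card L = 1) C.κ h1
    (fun a b ha hb e => C.κ_inj (hL ha) (hL hb) e) ?_ x, by rintro ⟨y, hy, rfl⟩; exact h1 y hy⟩
  have h2 : 0 < Nat.card L := Nat.card_pos
  have h3 := Polynomial.card_nthRoots (Nat.card L) (1 : E)
  refine le_trans ?_ ((Multiset.toFinset_card_le _).trans h3)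
  rw [← Nat.card_eq_finsetCard]
  exact card_le_of_inj _ (fun x => x ∈ (Polynomial.nthRoots (Nat.card L) (1 : E)).toFinset) id
    (fun a ha => by simpa [Polynomial.mem_nthRoots h2] using ha) fun _ _ _ _ e => e

/-- the factor set -/
noncomputable def c (x y : E) : G := C.i x * C.i y * (C.i (x + y))⁻¹

theorem cZ (x y : E) : C.c x y ∈ S.Z := by
  rw [c, ← C.a_eq (S.U.mul_mem (C.iU x) (C.iU y)) (C.iU _), C.a_mul _ (C.iU x) _ (C.iU y), a_i, a_i,
    a_i]

theorem i_mul (x y : E) : C.i x * C.i y = C.c x y * C.i (x + y) := by rw [c]; group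

theorem c_swap (x y : E) : C.c y x = (C.c x y)⁻¹ := by
  have h1 : (C.i x)⁻¹ * (C.i y)⁻¹ = C.c x y * (C.i (x + y))⁻¹ := by
    rw [← C.iIn x, ← C.iIn y, ← C.iIn (x + y)]
    have h2 := (mem_Z.1 (C.cZ x y)).2
    calc S.z * C.i x * S.z⁻¹ * (S.z * C.i y * S.z⁻¹) = S.z * (C.i x * C.i y) * S.z⁻¹ := by group
      _ = (S.z * C.c x y) * C.i (x + y) * S.z⁻¹ := by rw [i_mul]; group
      _ = _ := by rw [h2]; group
  have h2 : C.i y * C.i x = C.i (x + y) * (C.c x y)⁻¹ := by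
    have := congrArg (·⁻¹) h1
    simpa using this
  rw [c, h2, add_comm y x, UZ (C.iU _) (S.Z.inv_mem (C.cZ x y))]

theorem comm_i (x y : E) : C.i x * C.i y * (C.i x)⁻¹ * (C.i y)⁻¹ = C.c x y * C.c x y := by
  have h1 := C.i_mul y x
  rw [c_swap, add_comm y x] at h1
  calc C.i x * C.i y * (C.i x)⁻¹ * (C.i y)⁻¹ = C.i x * C.i y * (C.i y * C.i x)⁻¹ := by group
    _ = C.c x y * (C.i (x + y) * (C.i (x + y))⁻¹) * C.c x y := by rw [h1, i_mul]; group
    _ = _ := by group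

theorem c_add_left (x x' y : E) : C.c (x + x') y = C.c x y * C.c x' y := by
  apply H4.eq_of_sq_eq (odd_ord (C.cZ _ _).1) (odd_ord (S.Z.mul_mem (C.cZ _ _) (C.cZ _ _)).1)
  have h1 : C.i (x + x') = (C.c x x')⁻¹ * (C.i x * C.i x') := by rw [i_mul]; group
  have h2 := C.comm_i x' y
  have h3 := C.comm_i x y
  have h4 := UZ (C.iU x) (S.Z.mul_mem (C.cZ x' y) (C.cZ x' y))
  have h5 := Z_comm (C.cZ x y) (C.cZ x' y)
  have h6 : C.i x * C.i x' * C.i y * (C.i x * C.i x')⁻¹ * C.c x x' =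
      C.c x x' * (C.i x * C.i x' * C.i y * (C.i x * C.i x')⁻¹) :=
    Z_central (C.cZ _ _) (S.Un _ (S.Ui _ (S.U.mul_mem (C.iU x) (C.iU x'))) _ (C.iU y))
  rw [← comm_i, h1]
  calc (C.c x x')⁻¹ * (C.i x * C.i x') * C.i y * ((C.c x x')⁻¹ * (C.i x * C.i x'))⁻¹ * (C.i y)⁻¹
      = (C.c x x')⁻¹ * (C.i x * C.i x' * C.i y * (C.i x * C.i x')⁻¹ * C.c x x') * (C.i y)⁻¹ := by
        group
    _ = C.i x * (C.i x' * C.i y * (C.i x')⁻¹ * (C.i y)⁻¹) * (C.i x)⁻¹ *
        (C.i x * C.i y * (C.i x)⁻¹ * (C.i y)⁻¹) := by rw [h6]; group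
    _ = C.c x' y * (C.c x' y * C.c x y) * C.c x y := by rw [h2, h3, h4]; group
    _ = C.c x' y * (C.c x y * C.c x' y) * C.c x y := by rw [h5]
    _ = (C.c x' y * C.c x y) * (C.c x' y * C.c x y) := by group
    _ = _ := by rw [← h5]

theorem c_add_right (x y y' : E) : C.c x (y + y') = C.c x y * C.c x y' := by
  rw [c_swap, c_add_left, C.c_swap x y, C.c_swap x y', mul_inv_rev, inv_inv, inv_inv,
    Z_comm (C.cZ _ _) (C.cZ _ _)]

theorem c_self (x : E) : C.c x x = 1 := by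
  apply H4.eq_one_of_odd_of_sq (odd_ord (C.cZ _ _).1)
  rw [← comm_i]; group

theorem c_zero_left (y : E) : C.c 0 y = 1 := by simp [c, i_zero]

theorem c_zero_right (y : E) : C.c y 0 = 1 := by simp [c, i_zero]

theorem c_neg_left (x y : E) : C.c (-x) y = (C.c x y)⁻¹ := by
  rw [eq_inv_iff_mul_eq_one, ← c_add_left, neg_add_cancel, c_zero_left]

theorem c_neg_right (x y : E) : C.c x (-y) = (C.c x y)⁻¹ := by
  rw [eq_inv_iff_mul_eq_one, ← c_add_right, neg_add_cancel, c_zero_right]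

theorem conj_c {y : G} (hy : y ∈ S.H) (a b : E) :
    y * C.c a b * y⁻¹ = C.c (C.κ y * a) (C.κ y * b) := by
  rw [c, c, ← mul_add, ← C.conj_i hy, ← C.conj_i hy, ← C.conj_i hy]; group

theorem i_two (x : E) : C.i (2 * x) = C.i x * C.i x := by
  rw [i_mul, c_self, one_mul, two_mul]

theorem decomp_U {u : G} (hu : u ∈ S.U) : ∃ c ∈ S.Z, u = c * C.i (C.a u) :=
  ⟨u * (C.i (C.a u))⁻¹, (C.a_eq hu (C.iU _)).1 (C.a_i _).symm, by group⟩

end Cd

end Cfsg.Agent.H8.ON
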