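import Cfsg.Agent.H8.ON3
import Cfsg.Agent.H5.U.Field

/-! O'Nan's characterisation of `PSU₃(q)`: the action of `t` on the inverted elements. -/

set_option autoImplicit false
set_option linter.unusedSectionVars false
set_option linter.unusedVariables false

namespace Cfsg.Agent.H8.ON

open Subgroup

/-- a field with `q²` elements with its involution -/
class FE (E : Type) [Field E] [Fintype E] [StarRing E] (q : ℕ) : Prop where
  card : Fintype.card E = q ^ 2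
  st : ∀ x : E, star x = x ^ q
  ns : ∃ a : E, star a ≠ a
  cF0 : Nat.card (H5.U.F0 E) = q

variable {G Ω : Type*} [Group G] [MulAction G Ω] {p n : ℕ} [Finite G] {S : St G Ω p n}

namespace St

theorem tuo_ne {u : G} (hu : u ∈ S.U) (hu1 : u ≠ 1) : S.t • u • S.o ≠ S.i := by
  intro h
  rw [← tSw.2] at h
  exact hu1 (S.fr u hu (smul_left_cancel _ h))

open Classical in
variable (S) in
/-- the permutation of `U ∖ 1` induced by `t` -/
noncomputable def τ (u : G) : G :=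
  if h : u ∈ S.U ∧ u ≠ 1 then (S.tr _ (tuo_ne h.1 h.2)).choose else 1

theorem τU {u : G} (hu : u ∈ S.U) (hu1 : u ≠ 1) : S.τ u ∈ S.U := by
  rw [τ, dif_pos ⟨hu, hu1⟩]
  exact (S.tr _ (tuo_ne hu hu1)).choose_spec.1

theorem τ_o {u : G} (hu : u ∈ S.U) (hu1 : u ≠ 1) : S.τ u • S.o = S.t • u • S.o := by
  rw [τ, dif_pos ⟨hu, hu1⟩]
  exact (S.tr _ (tuo_ne hu hu1)).choose_spec.2

theorem τ_eq {u v : G} (hu : u ∈ S.U) (hu1 : u ≠ 1) (hv : v ∈ S.U) (h : v • S.o = S.t • u • S.o) :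
    S.τ u = v := U_inj (τU hu hu1) hv (by rw [τ_o hu hu1, h])

theorem τ_ne {u : G} (hu : u ∈ S.U) (hu1 : u ≠ 1) : S.τ u ≠ 1 := by
  intro h
  have := τ_o hu hu1
  rw [h, one_smul] at this
  nth_rewrite 1 [← tSw.1] at this
  exact uo_ne hu (smul_left_cancel _ this).symm

theorem ττ {u : G} (hu : u ∈ S.U) (hu1 : u ≠ 1) : S.τ (S.τ u) = u :=
  τ_eq (τU hu hu1) (τ_ne hu hu1) hu (by rw [τ_o hu hu1, tts])

theorem conj_ne {y u : G} (hu1 : u ≠ 1) : y * u * y⁻¹ ≠ 1 := by simpa using hu1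

theorem τ_conj {y u : G} (hy : y ∈ S.H) (hu : u ∈ S.U) (hu1 : u ≠ 1) :
    S.τ (y * u * y⁻¹) = (S.t * y * S.t) * S.τ u * (S.t * y * S.t)⁻¹ := by
  refine τ_eq (HU hy hu) (conj_ne hu1) (HU (tH hy) (τU hu hu1)) ?_
  rw [← smul_pt (tH hy), ← smul_pt hy, τ_o hu hu1, mul_smul, mul_smul, tts]

theorem Z_iff {u : G} (hu : u ∈ S.U) : S.z • u • S.o = u • S.o ↔ u ∈ S.Z := by
  rw [fix_iff zH hu, mem_Z]; simp [hu]

theorem τZ {u : G} (hu : u ∈ S.U) (hu1 : u ≠ 1) : S.τ u ∈ S.Z ↔ u ∈ S.Z := by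
  rw [← Z_iff hu, ← Z_iff (τU hu hu1), τ_o hu hu1, ← mul_smul, zt, mul_smul, smul_left_cancel_iff]

theorem tzt : S.t * S.z * S.t = S.z := by rw [← zt, mul_assoc, tt, mul_one]

end St

namespace Cd

open St

variable {E : Type} [Field E] [Fintype E] [StarRing E] [hF : FE E (p ^ n)] (C : Cd S E)

/-- collinear points through the origin -/
theorem col {s u v : G} (hs2 : s * s = 1) (hs1 : s ≠ 1) (h0 : s • S.o = S.o) (hu : u ∈ S.U)
    (hu1 : u ≠ 1) (hv : v ∈ S.U) (hv1 : v ≠ 1) (h1 : s • u • S.o = u • S.o)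
    (h2 : s • v • S.o = v • S.o) : C.a (S.τ u) = C.a (S.τ v) := by
  have e := invol_conj (S := S) (s := S.t * s * S.t) (g := S.τ u) (by
      simp only [mul_assoc, tt']; rw [← mul_assoc s, hs2, one_mul, tt]) (by
      intro h
      apply hs1
      calc s = S.t * (S.t * s * S.t) * S.t := by simp only [mul_assoc, tt', tt, mul_one]
        _ = 1 := by rw [h, mul_one, tt])
    (by rw [S.Ui _ (τU hu hu1), mul_smul, mul_smul, tSw.1, h0, tSw.2])
    (by rw [τ_o hu hu1, mul_smul, mul_smul, tts, h1])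
  have h3 : (S.t * s * S.t) • S.τ v • S.o = S.τ v • S.o := by
    rw [τ_o hv hv1, mul_smul, mul_smul, tts, h2]
  rw [e, mul_smul, mul_smul, smul_eq_iff_eq_inv_smul, ← mul_smul _ (S.τ v),
    Z_iff (S.U.mul_mem (S.U.inv_mem (τU hu hu1)) (τU hv hv1)),
    ← C.a_zero _ (S.U.mul_mem (S.U.inv_mem (τU hu hu1)) (τU hv hv1)),
    C.a_mul _ (S.U.inv_mem (τU hu hu1)) _ (τU hv hv1), C.a_inv (τU hu hu1)] at h3
  linear_combination -h3

/-- the coordinate of the image of an inverted element -/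
noncomputable def Φ (x : E) : E := C.a (S.τ (C.i x))

theorem τiU {x : E} (hx : x ≠ 0) : S.τ (C.i x) ∈ S.U := τU (C.iU x) (C.i_ne_one hx)

theorem Φ_ne {x : E} (hx : x ≠ 0) : C.Φ x ≠ 0 := by
  rw [Φ, Ne, C.a_zero _ (C.τiU hx), τZ (C.iU x) (C.i_ne_one hx)]
  exact C.i_ne hx

theorem Φ_surj {b : E} (hb : b ≠ 0) : ∃ x, x ≠ 0 ∧ C.Φ x = b := by
  set u := C.i b with hu
  have huU : u ∈ S.U := C.iU b
  have hJ : S.J (S.t * (u * S.z * u⁻¹) * S.t⁻¹) := J.conj ⟨u, rfl⟩ _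
  set s := S.t * (u * S.z * u⁻¹) * S.t⁻¹ with hs
  have hso : s • S.o = S.o := by
    rw [hs, t_inv, mul_smul, mul_smul, tSw.2, mul_smul, mul_smul, inv_fix (S.Ui u huU), Hi zH,
      S.Ui u huU, tSw.1]
  have hsz : s ≠ S.z := by
    intro h
    have h1 : u * S.z * u⁻¹ = S.z := by
      have h2 : S.t * s * S.t = u * S.z * u⁻¹ := by
        rw [hs, t_inv]; simp only [mul_assoc, tt', tt, mul_one]
      rw [← h2, h, tzt]
    rw [mul_inv_eq_iff_eq_mul] at h1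
    exact C.i_ne hb (mem_Z.2 ⟨huU, h1.symm⟩)
  have hsi : s • S.i ≠ S.i := fun h => hsz (eq_z ((S.memH _).2 ⟨h, hso⟩) hJ.sq hJ.ne)
  obtain ⟨v, hv, e⟩ := S.tr _ hsi
  have hJ' : S.J (v * S.z * v⁻¹) := ⟨v, rfl⟩
  set j := v * S.z * v⁻¹ with hj
  have hji : j • S.i = S.i := by
    rw [hj, mul_smul, mul_smul, inv_fix (S.Ui v hv), Hi zH, S.Ui v hv]
  have hjv : j • s • S.i = s • S.i := by
    rw [← e, hj, mul_smul, mul_smul, inv_smul_smul, Ho zH]
  have hss : ∀ x : Ω, s • s • x = x := fun x => by rw [← mul_smul, hJ.sq, one_smul]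
  have hsinv : s⁻¹ = s := inv_eq_of_mul_eq_one_right hJ.sq
  have hc : s * j * s⁻¹ = j := invol_two (S := S) hsi.symm (hJ'.conj s).sq (hJ'.conj s).ne hJ'.sq
    hJ'.ne (by rw [hsinv, mul_smul, mul_smul, hjv, hss])
    (by rw [hsinv, mul_smul, mul_smul, hss, hji]) hji hjv
  rw [mul_inv_eq_iff_eq_mul] at hc
  have hxU : j * S.z ∈ S.U := by
    have := S.U.mul_mem hv (HU zH (S.U.inv_mem hv))
    rw [z_inv] at this
    simpa [hj, mul_assoc] using this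
  have hxI : S.In (j * S.z) := by
    unfold In
    rw [mul_inv_rev, inv_eq_of_mul_eq_one_right hJ'.sq, z_inv, mul_assoc, mul_assoc, zz, mul_one]
  have hx1 : j * S.z ≠ 1 := by
    intro h
    have h1 : j = S.z := by rw [mul_eq_one_iff_eq_inv, z_inv] at h; exact h
    rw [h1] at hc
    exact hsz (eq_z_of_fix hJ.sq hJ.ne hc.symm (Ho zH) hso)
  have hx0 : C.a (j * S.z) ≠ 0 := by
    rw [Ne, C.a_zero _ hxU]
    exact fun h => hx1 (hxI.eq_one h)
  refine ⟨_, hx0, ?_⟩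
  rw [Φ, ← C.eq_i hxU hxI]
  have h1 : s • (j * S.z) • S.o = (j * S.z) • S.o := by
    rw [mul_smul j, Ho zH, ← mul_smul, hc, mul_smul, hso]
  have h2 : (u * S.z * u⁻¹) • S.τ (j * S.z) • S.o = S.τ (j * S.z) • S.o := by
    rw [τ_o hxU hx1]
    rw [hs, t_inv, mul_smul, mul_smul S.t, smul_eq_iff_eq_inv_smul, t_inv] at h1
    exact h1
  rw [mul_smul, mul_smul, smul_eq_iff_eq_inv_smul, ← mul_smul _ (S.τ _),
    Z_iff (S.U.mul_mem (S.U.inv_mem huU) (τU hxU hx1)),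
    ← C.a_zero _ (S.U.mul_mem (S.U.inv_mem huU) (τU hxU hx1)),
    C.a_mul _ (S.U.inv_mem huU) _ (τU hxU hx1), C.a_inv huU, hu, a_i] at h2
  linear_combination h2

theorem Φ_inj {x y : E} (hx : x ≠ 0) (hy : y ≠ 0) (h : C.Φ x = C.Φ y) : x = y := by
  have := (Finite.injective_iff_surjective (f := fun x : {x : E // x ≠ 0} =>
    (⟨C.Φ x.1, C.Φ_ne x.2⟩ : {x : E // x ≠ 0}))).2 (fun b => by
      obtain ⟨x, hx, e⟩ := C.Φ_surj b.2
      exact ⟨⟨x, hx⟩, Subtype.ext e⟩)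
  exact congrArg Subtype.val (@this ⟨x, hx⟩ ⟨y, hy⟩ (Subtype.ext h))

theorem K_iff (x : E) : (∃ y ∈ S.K, C.κ y = x) ↔ x ≠ 0 ∧ star x = x := by
  rw [← C.κ_image K_le, hF.st, ← cardK (S := S), pow_succ]
  constructor
  · intro h
    have hx : x ≠ 0 := by
      rintro rfl
      rw [zero_pow (Nat.card_pos.ne')] at h
      exact zero_ne_one h
    exact ⟨hx, by rw [h, one_mul]⟩
  · rintro ⟨h0, h⟩
    exact mul_right_cancel₀ h0 (by rw [h, one_mul])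

theorem exists_K {x : E} (h0 : x ≠ 0) (h : star x = x) : ∃ y ∈ S.K, C.κ y = x :=
  (C.K_iff x).2 ⟨h0, h⟩

theorem star_K {y : G} (hy : y ∈ S.K) : star (C.κ y) = C.κ y := ((C.K_iff _).1 ⟨y, hy, rfl⟩).2

theorem Φ_conj {y : G} (hy : y ∈ S.H) {x : E} (hx : x ≠ 0) :
    C.Φ (C.κ y * x) = C.κ (S.t * y * S.t) * C.Φ x := by
  rw [Φ, ← C.conj_i hy, τ_conj hy (C.iU x) (C.i_ne_one hx), C.a_conj _ (tH hy) _ (C.τiU hx), Φ]

theorem sw_aux {x : G} (hx : x ∈ S.U) (hx1 : x ≠ 1) (hI : S.In x) :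
    S.Sw ((S.τ x)⁻¹ * (S.t * x * S.t) * (S.z * S.τ x * S.z⁻¹)) := by
  constructor
  · rw [mul_smul, S.Ui _ (HU zH (τU hx hx1)), mul_smul, mul_smul, mul_smul, tSw.1, ← τ_o hx hx1,
      inv_smul_smul]
  · rw [mul_smul, ← smul_pt zH, τ_o hx hx1, ← mul_smul S.z, zt, mul_smul S.t, smul_pt zH, hI,
      mul_smul, mul_smul, mul_smul, tts, smul_inv_smul, tSw.2, inv_fix (S.Ui _ (τU hx hx1))]

theorem τ_In {x : E} (hx : x ≠ 0) : S.In (S.τ (C.i x)) ∧ ∃ k ∈ S.K, (k * S.t) • C.i x • S.o =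
    C.i x • S.o := by
  have h2 := C.two_ne
  have hu := C.iU x
  have hu1 := C.i_ne_one hx
  have hsw := sw_aux hu hu1 (C.iIn x)
  set f := S.τ (C.i x) with hf
  have hfU : f ∈ S.U := C.τiU hx
  set m := f⁻¹ * (S.t * C.i x * S.t) * (S.z * f * S.z⁻¹) with hm
  have hh : m * S.t ∈ S.H := hsw.mul_mem tSw
  set h := m * S.t with hh'
  have hmh : m = h * S.t := by rw [hh', mul_assoc, tt, mul_one]
  have ha : C.Φ x ≠ 0 := C.Φ_ne hx
  have ha2 : 2 * C.Φ x ≠ 0 := mul_ne_zero h2 ha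
  have h1 : (S.z * f * S.z⁻¹)⁻¹ * f = C.i (2 * C.Φ x) := by
    obtain ⟨c, hc, e⟩ := C.decomp_U hfU
    have e' : f = c * C.i (C.Φ x) := e
    rw [i_two, e']
    have h3 := (mem_Z.1 hc).2
    calc (S.z * (c * C.i (C.Φ x)) * S.z⁻¹)⁻¹ * (c * C.i (C.Φ x))
        = ((S.z * c) * S.z⁻¹ * (S.z * C.i (C.Φ x) * S.z⁻¹))⁻¹ * (c * C.i (C.Φ x)) := by group
      _ = _ := by rw [h3, C.iIn]; group
  have hx2 : 2 * x ≠ 0 := mul_ne_zero h2 hx
  have h3 : S.τ (C.i (2 * x)) = f * (h * S.τ (C.i (2 * C.Φ x)) * h⁻¹) := by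
    refine τ_eq (C.iU _) (C.i_ne_one hx2) (S.U.mul_mem hfU (HU hh (C.τiU ha2))) ?_
    rw [mul_smul, ← smul_pt hh, τ_o (C.iU _) (C.i_ne_one ha2), ← mul_smul h, ← hmh, ← h1, i_two,
      ← mul_smul, ← mul_smul, mul_smul (C.i x), ← tts (S := S) (C.i x • S.o), ← τ_o hu hu1, ← hf]
    simp only [← mul_smul]
    congr 1
    rw [hm]; group
  obtain ⟨y, hy, ey⟩ := C.exists_K h2 (by simp)
  have h4 : S.τ (C.i (2 * x)) = y⁻¹ * f * y⁻¹⁻¹ := by
    rw [← ey, ← C.conj_i hy.1, τ_conj hy.1 hu hu1, K_inv hy]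
  have h5 : h * S.τ (C.i (2 * C.Φ x)) * h⁻¹ = S.τ (C.i (C.κ (S.t * h * S.t) * (2 * C.Φ x))) := by
    rw [← C.conj_i (tH hh), τ_conj (tH hh) (C.iU _) (C.i_ne_one ha2)]
    simp only [mul_assoc, tt', tt, mul_one]
  have h6 : S.z * (y⁻¹ * f * y⁻¹⁻¹) * S.z⁻¹ = S.τ (C.i (-(2 * x))) := by
    rw [← h4, show -(2 * x) = C.κ S.z * (2 * x) by rw [κ_z]; ring, ← C.conj_i zH,
      τ_conj zH (C.iU _) (C.i_ne_one hx2), tzt]
  have hyi := S.H.inv_mem hy.1
  have h7 : C.κ h * C.Φ (2 * C.Φ x) = -(2⁻¹ * C.Φ x) := by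
    have := congrArg C.a (h3.symm.trans h4)
    rw [C.a_mul _ hfU _ (HU hh (C.τiU ha2)), C.a_conj _ hh _ (C.τiU ha2), C.a_conj _ hyi _ hfU,
      C.κ_inv hy.1, ey] at this
    have e : C.a f = C.Φ x := rfl
    have e2 : C.a (S.τ (C.i (2 * C.Φ x))) = C.Φ (2 * C.Φ x) := rfl
    rw [e, e2] at this
    have h22 : (2 : E) * 2⁻¹ = 1 := mul_inv_cancel₀ h2
    linear_combination this + C.Φ x * h22
  have h8 : C.κ (S.t * h * S.t) * (2 * C.Φ x) = -(2 * x) := by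
    refine C.Φ_inj (mul_ne_zero (C.κ_ne (tH hh)) ha2) (neg_ne_zero.2 hx2) ?_
    show C.a (S.τ _) = C.a (S.τ _)
    rw [← h5, ← h6, C.a_conj _ hh _ (C.τiU ha2), C.a_conj _ zH _ (HU hyi hfU),
      C.a_conj _ hyi _ hfU, C.κ_inv hy.1, ey, κ_z]
    have e : C.a f = C.Φ x := rfl
    have e2 : C.a (S.τ (C.i (2 * C.Φ x))) = C.Φ (2 * C.Φ x) := rfl
    rw [e, e2, h7]; ring
  have h9 : S.In f := by
    rw [h5, h8, ← h6, h4] at h3
    set F := y⁻¹ * f * y⁻¹⁻¹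
    have : f = F * (S.z * F * S.z⁻¹)⁻¹ := by rw [eq_mul_inv_iff_mul_eq, ← h3]
    unfold In
    rw [this]
    calc S.z * (F * (S.z * F * S.z⁻¹)⁻¹) * S.z⁻¹
        = S.z * F * (S.z * F⁻¹) * (S.z * S.z)⁻¹ := by group
      _ = S.z * F * (S.z⁻¹ * F⁻¹) := by rw [zz, z_inv]; group
      _ = _ := by group
  refine ⟨h9, ?_⟩
  have h10 : m * m = 1 := by
    have c := hsw.comm_z
    have e1 : m * S.z = f⁻¹ * S.t * (C.i x * S.z) * (f⁻¹ * S.t)⁻¹ := by
      rw [hm, mul_inv_rev, t_inv, inv_inv]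
      calc f⁻¹ * (S.t * C.i x * S.t) * (S.z * f * S.z⁻¹) * S.z
          = f⁻¹ * (S.t * C.i x) * (S.t * S.z) * f := by group
        _ = _ := by rw [← zt]; group
    have e2 : (C.i x * S.z) * (C.i x * S.z) = 1 := by
      have := C.iIn x
      unfold In at this
      rw [z_inv] at this
      calc C.i x * S.z * (C.i x * S.z) = C.i x * (S.z * C.i x * S.z) := by group
        _ = 1 := by rw [this]; group
    have e3 : m * S.z * (m * S.z) = 1 := by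
      rw [e1]
      calc _ = f⁻¹ * S.t * ((C.i x * S.z) * (C.i x * S.z)) * (f⁻¹ * S.t)⁻¹ := by group
        _ = 1 := by rw [e2]; group
    clear_value m
    calc m * m = m * (m * S.z) * S.z := by rw [mul_assoc, mul_assoc, zz, mul_one]
      _ = m * (S.z * m) * S.z := by rw [c]
      _ = 1 := by rw [← e3]; group
  have h11 : S.t * h * S.t = h⁻¹ := by
    rw [hmh] at h10
    rw [eq_inv_iff_mul_eq_one]
    calc S.t * h * S.t * h = h⁻¹ * (h * S.t * (h * S.t)) * h := by group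
      _ = 1 := by rw [h10]; group
  have hzh : S.z * h ∈ S.H := S.H.mul_mem zH hh
  have h12 : f = (S.z * h) * C.i x * (S.z * h)⁻¹ := by
    rw [C.conj_i hzh, C.eq_i hfU h9, C.κ_mul zH hh, κ_z]
    congr 1
    rw [h11, C.κ_inv hh] at h8
    have := C.κ_ne hh
    show C.Φ x = _
    field_simp at h8
    linear_combination h8
  have hs : S.Sw ((S.z * h)⁻¹ * S.t) := tSw.Hmul (S.H.inv_mem hzh)
  have hs2 : (S.z * h)⁻¹ * S.t * ((S.z * h)⁻¹ * S.t) = 1 := by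
    have c := Hcomm (zH (S := S)) hh
    calc (S.z * h)⁻¹ * S.t * ((S.z * h)⁻¹ * S.t)
        = h⁻¹ * S.z⁻¹ * (S.t * h * S.t)⁻¹ * (S.t * S.z * S.t)⁻¹ := by
          simp only [mul_inv_rev, t_inv, mul_assoc, tt']
      _ = h⁻¹ * (S.z⁻¹ * h) * S.z⁻¹ := by rw [h11, tzt]; group
      _ = 1 := by rw [z_inv, c]; simp [mul_assoc, zz]
  have hfix : ((S.z * h)⁻¹ * S.t) • C.i x • S.o = C.i x • S.o := by
    rw [mul_smul, ← τ_o hu hu1, ← hf, h12, ← smul_pt hzh, inv_smul_smul]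
  have hs1 : (S.z * h)⁻¹ * S.t ≠ 1 := by
    intro e
    have := hs.2
    rw [e, one_smul] at this
    exact S.ne this
  have hJ : S.J ((S.z * h)⁻¹ * S.t) := J_of_two (hs.fix_ne hs2 hfix) hs2 hs1
    (by rw [← mul_smul, ← hs.comm_z, mul_smul, hfix]) hfix
  exact ⟨_, ⟨S.H.inv_mem hzh, hJ⟩, hfix⟩

theorem τ_i {x : E} (hx : x ≠ 0) : S.τ (C.i x) = C.i (C.Φ x) :=
  C.eq_i (C.τiU hx) (C.τ_In hx).1

open Classical in
/-- the element `k` of `K` such that `k t` fixes the point `i x` -/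
noncomputable def kk (x : E) : G := if h : x ≠ 0 then (C.τ_In h).2.choose else 1

theorem kkK {x : E} (hx : x ≠ 0) : C.kk x ∈ S.K := by
  rw [kk, dif_pos hx]; exact (C.τ_In hx).2.choose_spec.1

theorem kk_fix {x : E} (hx : x ≠ 0) : (C.kk x * S.t) • C.i x • S.o = C.i x • S.o := by
  rw [kk, dif_pos hx]; exact (C.τ_In hx).2.choose_spec.2

theorem kk_eq {x : E} (hx : x ≠ 0) {k : G} (hk : k ∈ S.H)
    (h : (k * S.t) • C.i x • S.o = C.i x • S.o) : C.kk x = k := by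
  have h1 := C.kk_fix hx
  rw [mul_smul, smul_eq_iff_eq_inv_smul] at h h1
  have := H_free' (S.H.mul_mem hk (S.H.inv_mem (C.kkK hx).1)) (γ := C.i x • S.o)
    (fun e => C.i_ne hx ((Z_iff (C.iU x)).1 e)) (by rw [mul_smul, ← h1, h, smul_inv_smul])
  rw [mul_inv_eq_one] at this
  exact this.symm

theorem kk_conj {y : G} (hy : y ∈ S.H) {x : E} (hx : x ≠ 0) :
    C.kk (C.κ y * x) = C.kk x * (y * (S.t * y⁻¹ * S.t)) := by
  refine C.kk_eq (mul_ne_zero (C.κ_ne hy) hx)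
    (S.H.mul_mem (C.kkK hx).1 (S.H.mul_mem hy (tH (S.H.inv_mem hy)))) ?_
  rw [← C.conj_i hy, ← smul_pt hy]
  have e : C.kk x * (y * (S.t * y⁻¹ * S.t)) * S.t = y * (C.kk x * S.t) * y⁻¹ := by
    rw [← mul_assoc y (C.kk x), Hcomm hy (C.kkK hx).1]
    simp only [mul_assoc, tt, mul_one]
  rw [e, mul_smul, inv_smul_smul, mul_smul, C.kk_fix hx]

theorem Φ_eq {x : E} (hx : x ≠ 0) : C.Φ x = (C.κ (C.kk x))⁻¹ * x := by
  have h1 := C.kk_fix hx
  have hk := S.H.inv_mem (C.kkK hx).1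
  rw [mul_smul, smul_eq_iff_eq_inv_smul, smul_pt hk] at h1
  rw [Φ, τ_eq (C.iU x) (C.i_ne_one hx) (HU hk (C.iU x)) h1.symm, C.a_conj _ hk _ (C.iU x), a_i,
    C.κ_inv (C.kkK hx).1]

/-- translates of the blocks inside the inverted set -/
theorem col_kk {x y y' : E} (hx : x ≠ 0) (hy : y ≠ 0) (hy' : y' ≠ 0) (h : y ≠ x) (h' : y' ≠ x)
    (e : C.kk y = C.kk x) (e' : C.kk y' = C.kk x) :
    C.a (S.τ (C.i (-x) * C.i y)) = C.a (S.τ (C.i (-x) * C.i y')) := by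
  have hJ := ((C.kkK hx).2).conj (C.i x)⁻¹
  have h1 : ∀ y, y ≠ x → C.i (-x) * C.i y ≠ 1 := by
    intro y hy e
    have := congrArg C.a e
    rw [C.a_mul _ (C.iU _) _ (C.iU _), a_i, a_i, a_one] at this
    exact hy (by linear_combination this)
  have h2 : ∀ y, y ≠ 0 → C.kk y = C.kk x → ((C.i x)⁻¹ * (C.kk x * S.t) * (C.i x)⁻¹⁻¹) •
      (C.i (-x) * C.i y) • S.o = (C.i (-x) * C.i y) • S.o := by
    intro y hy e
    rw [i_neg, mul_smul, mul_smul, mul_smul (C.i x)⁻¹, inv_smul_smul, ← e, C.kk_fix hy]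
  refine C.col hJ.sq hJ.ne ?_ (S.U.mul_mem (C.iU _) (C.iU _)) (h1 y h)
    (S.U.mul_mem (C.iU _) (C.iU _)) (h1 y' h') (h2 y hy e) (h2 y' hy' e')
  have := h2 x hx rfl
  rwa [i_neg, inv_mul_cancel, one_smul] at this

theorem nonab : ∃ x y, C.c x y ≠ 1 := by
  classical
  by_contra! hc
  haveI := Fintype.ofFinite S.K
  have h1 : (Finset.univ : Finset S.K).card * 2 < (Finset.univ.filter fun x : E => x ≠ 0).card := by
    rw [Finset.filter_ne' Finset.univ 0, Finset.card_erase_of_mem (Finset.mem_univ _),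
      Finset.card_univ, Finset.card_univ, hF.card, ← Nat.card_eq_fintype_card]
    have h2 := cardK (S := S)
    have h3 := S.q3
    rw [← h2] at h3 ⊢
    have : (Nat.card S.K + 1) ^ 2 = Nat.card S.K * Nat.card S.K + 2 * Nat.card S.K + 1 := by ring
    have : 2 * 2 ≤ Nat.card S.K * Nat.card S.K := Nat.mul_le_mul (by omega) (by omega)
    omega
  obtain ⟨k, -, hk⟩ := Finset.exists_lt_card_fiber_of_mul_lt_card_of_maps_to
    (f := fun x : E => if h : x ≠ 0 then (⟨C.kk x, C.kkK h⟩ : S.K) else 1)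
    (fun _ _ => Finset.mem_univ _) h1
  obtain ⟨a, b, c, ha, hb, hc', hab, hac, hbc⟩ := Finset.two_lt_card_iff.1 hk
  simp only [Finset.mem_filter, Finset.mem_univ, true_and] at ha hb hc'
  rw [dif_pos ha.1] at ha
  rw [dif_pos hb.1] at hb
  rw [dif_pos hc'.1] at hc'
  have e1 : C.kk b = C.kk a := congrArg Subtype.val (hb.2.trans ha.2.symm)
  have e2 : C.kk c = C.kk a := congrArg Subtype.val (hc'.2.trans ha.2.symm)
  have := C.col_kk ha.1 hb.1 hc'.1 hab.symm hac.symm e1 e2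
  rw [i_mul, i_mul, hc, hc, one_mul, one_mul] at this
  have h3 := C.Φ_inj (x := -a + b) (y := -a + c) (fun h => hab (by linear_combination -h))
    (fun h => hac (by linear_combination -h)) this
  exact hbc (by linear_combination h3)

end Cd

end Cfsg.Agent.H8.ON
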