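import Cfsg.Agent.H8.ON4

/-! O'Nan's characterisation of `PSU₃(q)`: the commutator form. -/

set_option autoImplicit false
set_option linter.unusedSectionVars false
set_option linter.unusedVariables false

namespace Cfsg.Agent.H8.ON

open Subgroup H5.U

variable {G Ω : Type*} [Group G] [MulAction G Ω] {p n : ℕ} [Finite G] {S : St G Ω p n}

namespace Cd

open St

variable {E : Type} [Field E] [Fintype E] [StarRing E] [hF : FE E (p ^ n)] (C : Cd S E)

theorem norm_W {w : G} (hw : w ∈ S.W) : C.κ w * star (C.κ w) = 1 := by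
  have := (C.κ_image (L := S.W) inf_le_left (C.κ w)).2 ⟨w, hw, rfl⟩
  rw [cardW] at this
  rw [hF.st, ← pow_succ', ← S.dr, pow_mul', this, one_pow]

/-- the scalars adjoint for the commutator form -/
def Sb : Subfield E where
  carrier := {x | ∀ a b, C.c (x * a) b = C.c a (star x * b)}
  mul_mem' := by
    intro x y hx hy a b
    rw [mul_assoc, hx, hy, star_mul', ← mul_assoc, mul_comm (star y)]
  one_mem' := by intro a b; simp
  add_mem' := by
    intro x y hx hy a b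
    rw [add_mul, c_add_left, hx, hy, star_add, add_mul, c_add_right]
  zero_mem' := by intro a b; simp [c_zero_left, c_zero_right]
  neg_mem' := by
    intro x hx a b
    rw [neg_mul, c_neg_left, hx, star_neg, neg_mul, c_neg_right]
  inv_mem' := by
    intro x hx a b
    by_cases h0 : x = 0
    · simp [h0, c_zero_left, c_zero_right]
    · have := hx (x⁻¹ * a) (star x⁻¹ * b)
      rw [mul_inv_cancel_left₀ h0, ← mul_assoc, ← star_mul', mul_inv_cancel₀ h0, star_one,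
        one_mul] at this
      exact this.symm

theorem W_Sb {w : G} (hw : w ∈ S.W) : C.κ w ∈ C.Sb := by
  intro a b
  have h1 := C.conj_c hw.1 a (star (C.κ w) * b)
  rw [← mul_assoc, C.norm_W hw, one_mul, W_cent hw (C.cZ _ _), mul_inv_cancel_right] at h1
  exact h1.symm

theorem Sb_top_or : C.Sb = ⊤ ∨ p ^ n = 5 := by
  classical
  by_cases h : C.Sb = ⊤
  · exact Or.inl h
  right
  let f : S.W →* C.Sb :=
    { toFun := fun w => ⟨C.κ w, C.W_Sb w.2⟩
      map_one' := Subtype.ext C.κ_one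
      map_mul' := fun a b => Subtype.ext (C.κ_mul a.2.1 b.2.1) }
  have h1 := card_dvd_of_injective f.toHomUnits (by
    intro a b e
    have : C.κ a = C.κ b := congrArg (fun u : C.Sbˣ => ((u : C.Sb) : E)) e
    exact Subtype.ext (C.κ_inj a.2.1 b.2.1 this))
  rw [cardW, Nat.card_units] at h1
  have h2 := Module.card_eq_pow_finrank (K := C.Sb) (V := E)
  rw [hF.card, ← Nat.card_eq_fintype_card] at h2
  set m := Module.finrank C.Sb E
  set N := Nat.card C.Sb with hN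
  have hN1 : 1 < N := Finite.one_lt_card
  have hq := S.q3
  have hm : 2 ≤ m := by
    rcases m with _ | _ | m
    · rw [pow_zero] at h2; nlinarith
    · exfalso
      apply h
      rw [zero_add, pow_one, ← hF.card, ← Nat.card_eq_fintype_card] at h2
      have := (Subtype.val_injective (p := (· ∈ C.Sb))).bijective_of_nat_card_le h2.le
      rw [eq_top_iff]
      intro x _
      obtain ⟨y, rfl⟩ := this.2 x
      exact y.2
    · omega
  have h3 : N ≤ p ^ n := by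
    have : N ^ 2 ≤ (p ^ n) ^ 2 := by rw [h2]; exact Nat.pow_le_pow_right (by omega) hm
    exact (Nat.pow_le_pow_iff_left (by norm_num)).1 this
  have h4 : N ∣ p ^ (n * 2) := by rw [pow_mul, h2]; exact dvd_pow_self _ (by omega)
  obtain ⟨e, -, he⟩ := (Nat.dvd_prime_pow S.hp).1 h4
  have h5 := S.dr
  have h6 := Nat.le_of_dvd (by omega) h1
  rcases h3.lt_or_eq with h7 | h7
  · exfalso
    rw [he] at h7 h6
    have h8 := (Nat.pow_lt_pow_iff_right S.hp.one_lt).1 h7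
    have h9 := Nat.pow_le_pow_right S.hp.pos (show e + 1 ≤ n by omega)
    have h10 : p ^ e * 3 ≤ p ^ e * p := Nat.mul_le_mul_left _ S.p3
    rw [pow_succ] at h9
    rcases d13 (p := p) (n := n) with h | h <;> rw [h] at h5 <;> omega
  · rw [h7] at h1
    have h8 : S.r ∣ (p ^ n - 1) + 2 := ⟨Nat.gcd 3 (p ^ n + 1), by rw [mul_comm, h5]; omega⟩
    have h9 := Nat.le_of_dvd (by norm_num) ((Nat.dvd_add_right h1).1 h8)
    have h10 := S.r_even
    have h11 := S.r_pos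
    have h12 : S.r = 2 := by
      rcases h10 with ⟨k, hk⟩
      omega
    rcases d13 (p := p) (n := n) with h | h <;> rw [h] at h5 <;> omega

include S in
theorem F_five (h5 : p ^ n = 5) {x : E} (hx : star x = x) : ∃ k : ℕ, x = k := by
  have h1 : ((25 : ℕ) : E) = 0 := by
    have := FiniteField.cast_card_eq_zero E
    rwa [hF.card, h5] at this
  have h2 : (5 : E) = 0 := by
    have : (5 : E) ^ 2 = 0 := by push_cast at h1; linear_combination h1
    exact pow_eq_zero_iff (by norm_num) |>.1 this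
  rw [hF.st, h5] at hx
  have : x * (x - 1) * (x - 2) * (x - 3) * (x - 4) = 0 := by
    linear_combination hx + (-2 * x ^ 4 + 7 * x ^ 3 - 10 * x ^ 2 + 5 * x) * h2
  simp only [mul_eq_zero, sub_eq_zero] at this
  rcases this with (((h | h) | h) | h) | h
  · exact ⟨0, by simpa using h⟩
  · exact ⟨1, by simpa using h⟩
  · exact ⟨2, by simpa using h⟩
  · exact ⟨3, by simpa using h⟩
  · exact ⟨4, by simpa using h⟩

theorem c_real (hS : ∀ x, star x = x → x ∈ C.Sb) (v : E) {x : E} (hx : star x = x) :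
    C.c v (x * v) = 1 := by
  have h2 := C.two_ne
  have h1 : ∀ e, star e = e → C.c v (e * e * v) = 1 := by
    intro e he
    have := hS e he v (e * v)
    rw [c_self, he, ← mul_assoc] at this
    exact this.symm
  have e : x * v = ((x + 1) / 2 * ((x + 1) / 2)) * v + -(((x - 1) / 2 * ((x - 1) / 2)) * v) := by
    field_simp; ring
  rw [e, c_add_right, c_neg_right, h1 _ (by simp [hx]), h1 _ (by simp [hx])]
  simp

theorem c_one (a b : E) : C.c a b = C.c 1 (star a * b) := by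
  rcases C.Sb_top_or with h | h
  · have : a ∈ C.Sb := h ▸ Subfield.mem_top a
    rw [← this 1 b, mul_one]
  · have hS : ∀ x, star x = x → x ∈ C.Sb := by
      intro x hx
      obtain ⟨k, rfl⟩ := F_five (S := S) h hx
      exact natCast_mem _ k
    haveI : NStar E := ⟨hF.ns⟩
    have h2 := C.two_ne
    have hd : star (del E) ≠ del E := by
      rw [star_del]
      intro e
      exact mul_ne_zero h2 (del_ne (F := E)) (by linear_combination -e)
    have h1 : ∀ x, star x = x → C.c 1 x = 1 := fun x hx => by simpa using C.c_real hS 1 hx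
    have h3 : ∀ b, C.c (del E) b = C.c 1 (-(del E * b)) := by
      intro b
      obtain ⟨x, y, hx, hy, rfl⟩ := exists_coord hd b
      rw [c_add_right, C.c_real hS _ hy, mul_one, c_swap, mul_add, neg_add, c_add_right,
        h1 (-(del E * (y * del E))) (by simp [hy]), mul_one, c_neg_right, mul_comm (del E) x]
      have := hS x hx 1 (del E)
      rw [mul_one, hx] at this
      rw [this]
    obtain ⟨x, y, hx, hy, rfl⟩ := exists_coord hd a
    have h4 := hS x hx 1 b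
    rw [mul_one, hx] at h4
    rw [c_add_left, h4, hS y hy, h3, ← c_add_right, hy]
    congr 1
    simp [hx, hy]; ring

theorem ψ_star (x : E) : C.c 1 (star x) = (C.c 1 x)⁻¹ := by
  rw [← c_swap, C.c_one x 1, mul_one]

theorem ψ_real {x : E} (hx : star x = x) : C.c 1 x = 1 := by
  apply H4.eq_one_of_odd_of_sq (odd_ord (C.cZ _ _).1)
  nth_rewrite 1 [← hx]
  rw [ψ_star]; simp

theorem ψ_conj {y : G} (hy : y ∈ S.H) (x : E) :
    y * C.c 1 x * y⁻¹ = C.c 1 (C.κ y * star (C.κ y) * x) := by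
  rw [C.conj_c hy, C.c_one, mul_one]
  congr 1; ring

theorem c_eq_ψ (a b : E) : C.c a b = C.c 1 ((star a * b - a * star b) / 2) := by
  have h2 := C.two_ne
  have e : star a * b = (star a * b + a * star b) / 2 + (star a * b - a * star b) / 2 := by
    field_simp; ring
  rw [C.c_one a b]
  nth_rewrite 1 [e]
  rw [c_add_right, C.ψ_real (by simp [add_comm]), one_mul]

theorem exists_β : ∃ β, star β = -β ∧ C.c 1 β ≠ 1 := by
  obtain ⟨a, b, h⟩ := C.nonab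
  rw [c_eq_ψ] at h
  exact ⟨_, by simp; ring, h⟩

theorem ψ_surj {v : G} (hv : v ∈ S.Z) : ∃ β, star β = -β ∧ C.c 1 β = v := by
  by_cases h1 : v = 1
  · exact ⟨0, by simp, by rw [c_zero_right, h1]⟩
  obtain ⟨β, hβ, h⟩ := C.exists_β
  obtain ⟨y, hy, e⟩ := Z_trans (C.cZ 1 β) h hv h1
  exact ⟨_, by rw [star_mul', star_norm, hβ, mul_neg], (C.ψ_conj hy β).symm.trans e⟩

omit C in
theorem card_Em : Nat.card {β : E // star β = -β} = p ^ n := by
  haveI : NStar E := ⟨hF.ns⟩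
  rw [← hF.cF0]
  symm
  refine card_eq_of_bij (fun x => x ∈ F0 E) _ (fun x => x * del E) ?_ ?_ ?_
  · intro x hx
    rw [mem_F0] at hx
    simp [hx]
  · intro a b _ _ e
    exact mul_right_cancel₀ del_ne e
  · intro β hβ
    have := del_ne (F := E)
    exact ⟨β / del E, by rw [mem_F0]; simp [hβ, neg_div_neg_eq], by field_simp⟩

theorem ψ_inj {β γ : E} (hβ : star β = -β) (hγ : star γ = -γ) (h : C.c 1 β = C.c 1 γ) : β = γ := by
  have := Function.Surjective.bijective_of_nat_card_le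
    (f := fun β : {β : E // star β = -β} => (⟨C.c 1 β.1, C.cZ _ _⟩ : S.Z)) (fun v => by
      obtain ⟨β, hβ, e⟩ := C.ψ_surj v.2
      exact ⟨⟨β, hβ⟩, Subtype.ext e⟩) (by rw [card_Em (p := p) (n := n), cardZ])
  exact congrArg Subtype.val (@this.1 ⟨β, hβ⟩ ⟨γ, hγ⟩ (Subtype.ext h))

theorem ψ_ne {β : E} (hβ : star β = -β) (h0 : β ≠ 0) : C.c 1 β ≠ 1 := fun h =>
  h0 (C.ψ_inj hβ (by simp) (by rw [h, c_zero_right]))

theorem N_surj {x : E} (h0 : x ≠ 0) (hx : star x = x) :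
    ∃ y ∈ S.H, C.κ y * star (C.κ y) = x := by
  obtain ⟨β, hβ, h⟩ := C.exists_β
  have hβ0 : β ≠ 0 := by rintro rfl; exact h (C.c_zero_right 1)
  have h1 : star (x * β) = -(x * β) := by simp [hx, hβ]
  obtain ⟨y, hy, e⟩ := Z_trans (C.cZ 1 β) h (C.cZ 1 (x * β)) (C.ψ_ne h1 (mul_ne_zero h0 hβ0))
  rw [C.ψ_conj hy] at e
  exact ⟨y, hy, mul_right_cancel₀ hβ0 (C.ψ_inj (by rw [star_mul', star_norm, hβ, mul_neg]) h1 e)⟩

theorem W_of_norm {y : G} (hy : y ∈ S.H) (h : C.κ y * star (C.κ y) = 1) : y ∈ S.W := by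
  obtain ⟨β, hβ, h1⟩ := C.exists_β
  refine mem_W_of hy (C.cZ 1 β) h1 ?_
  have := C.ψ_conj hy β
  rwa [h, one_mul, mul_inv_eq_iff_eq_mul] at this

theorem norm_t {y : G} (hy : y ∈ S.H) :
    C.κ (S.t * y * S.t) * star (C.κ (S.t * y * S.t)) = (C.κ y * star (C.κ y))⁻¹ := by
  have h1 : y * (S.t * y * S.t) ∈ S.W := mem_W.2 ⟨S.H.mul_mem hy (tH hy), by
    rw [Hcomm hy (tH hy)]
    nth_rewrite 2 [← Hcomm hy (tH hy)]
    simp only [mul_assoc, tt', tt, mul_one]⟩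
  have h2 := C.norm_W h1
  rw [C.κ_mul hy (tH hy), star_mul'] at h2
  exact eq_inv_of_mul_eq_one_right (by linear_combination h2)

include C in
theorem exists_sqrt {x : E} (h0 : x ≠ 0) (hx : star x = x) :
    ∃ e : E, e * e = x ∧ (star e = e ∨ star e = -e) := by
  have h2 := C.two_ne
  have hc : ringChar E ≠ 2 := by
    intro h
    exact h2 (by simpa [h] using ringChar.Nat.cast_ringChar (R := E))
  obtain ⟨j, hj⟩ := S.p_odd.pow (n := n)
  have h1 : x ^ (2 * j) = 1 := by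
    rw [hF.st, hj, pow_succ] at hx
    exact mul_right_cancel₀ h0 (by rw [hx, one_mul])
  obtain ⟨e, he⟩ := (FiniteField.isSquare_iff hc h0).2 (by
    rw [hF.card, hj, show (2 * j + 1) ^ 2 / 2 = 2 * j * (j + 1) by
      rw [show (2 * j + 1) ^ 2 = 1 + 2 * (2 * j * (j + 1)) by ring, Nat.add_mul_div_left _ _ (by norm_num)]
      simp, pow_mul, h1, one_pow])
  refine ⟨e, he.symm, ?_⟩
  have : star e * star e = e * e := by rw [← star_mul', ← he, hx]
  exact mul_self_eq_mul_self_iff.1 this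

theorem exists_e : ∃ e : E, e ≠ 0 ∧ star e = e ∧
    ∀ β, star β = -β → β ≠ 0 → S.τ (C.c 1 (e * β)) = C.c 1 (e * β⁻¹) := by
  obtain ⟨β₀, hβ₀, h⟩ := C.exists_β
  have hβ0 : β₀ ≠ 0 := by rintro rfl; exact h (C.c_zero_right 1)
  have hU := (C.cZ 1 β₀).1
  obtain ⟨β₁, hβ₁, e1⟩ := C.ψ_surj ((τZ hU h).2 (C.cZ 1 β₀))
  have hβ1 : β₁ ≠ 0 := by
    rintro rfl
    exact τ_ne hU h (by rw [← e1, c_zero_right])
  have h1 : ∀ β, star β = -β → β ≠ 0 → S.τ (C.c 1 β) = C.c 1 (β₀ * β₁ * β⁻¹) := by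
    intro β hβ h0
    obtain ⟨y, hy, e⟩ := C.N_surj (div_ne_zero h0 hβ0) (by simp [hβ, hβ₀, neg_div_neg_eq])
    have h2 := τ_conj hy hU h
    rw [C.ψ_conj hy, ← e1, C.ψ_conj (tH hy), C.norm_t hy, e, div_mul_cancel₀ _ hβ0] at h2
    rw [h2]
    congr 1
    field_simp
  obtain ⟨e, he, h2⟩ := C.exists_sqrt (mul_ne_zero hβ0 hβ1) (by simp [hβ₀, hβ₁])
  have he0 : e ≠ 0 := by
    rintro rfl
    exact mul_ne_zero hβ0 hβ1 (by rw [← he, mul_zero])
  rcases h2 with h2 | h2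
  · refine ⟨e, he0, h2, fun β hβ h0 => ?_⟩
    rw [h1 _ (by simp [h2, hβ]) (mul_ne_zero he0 h0), ← he]
    congr 1
    field_simp
  · exfalso
    have h3 := h1 e h2 he0
    rw [← he, mul_inv_cancel_right₀ he0] at h3
    have h4 := τ_o (C.cZ 1 e).1 (C.ψ_ne h2 he0)
    rw [h3] at h4
    exact tSw.fix_ne tt h4.symm ((Z_iff (C.cZ 1 e).1).2 (C.cZ 1 e))

/-- the normalising constant -/
noncomputable def e : E := C.exists_e.choose

theorem e_ne : C.e ≠ 0 := C.exists_e.choose_spec.1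
theorem star_e : star C.e = C.e := C.exists_e.choose_spec.2.1

/-- the coordinate on `Z` -/
noncomputable def ζ (β : E) : G := C.c 1 (C.e * β)

/-- the constant of the commutator form -/
noncomputable def s : E := (2 * C.e)⁻¹

theorem s_ne : C.s ≠ 0 := inv_ne_zero (mul_ne_zero C.two_ne C.e_ne)
theorem star_s : star C.s = C.s := by simp [s, star_e]

theorem ζZ (β : E) : C.ζ β ∈ S.Z := C.cZ _ _
theorem ζU (β : E) : C.ζ β ∈ S.U := (C.ζZ β).1
theorem ζ_add (β γ : E) : C.ζ (β + γ) = C.ζ β * C.ζ γ := by rw [ζ, mul_add, c_add_right, ζ, ζ]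
theorem ζ_zero : C.ζ 0 = 1 := by rw [ζ, mul_zero, c_zero_right]
theorem ζ_neg (β : E) : C.ζ (-β) = (C.ζ β)⁻¹ := by rw [ζ, mul_neg, c_neg_right, ζ]

theorem ζ_inj {β γ : E} (hβ : star β = -β) (hγ : star γ = -γ) (h : C.ζ β = C.ζ γ) : β = γ :=
  mul_left_cancel₀ C.e_ne (C.ψ_inj (by simp [star_e, hβ]) (by simp [star_e, hγ]) h)

theorem ζ_ne {β : E} (hβ : star β = -β) (h0 : β ≠ 0) : C.ζ β ≠ 1 := fun h =>
  h0 (C.ζ_inj hβ (by simp) (by rw [h, ζ_zero]))

theorem ζ_surj {v : G} (hv : v ∈ S.Z) : ∃ β, star β = -β ∧ C.ζ β = v := by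
  obtain ⟨β, hβ, e⟩ := C.ψ_surj hv
  exact ⟨C.e⁻¹ * β, by simp [star_e, hβ], by rw [ζ, mul_inv_cancel_left₀ C.e_ne, e]⟩

theorem ζ_conj {y : G} (hy : y ∈ S.H) (β : E) :
    y * C.ζ β * y⁻¹ = C.ζ (C.κ y * star (C.κ y) * β) := by
  rw [ζ, C.ψ_conj hy, ζ, mul_left_comm]

theorem τ_ζ {β : E} (hβ : star β = -β) (h0 : β ≠ 0) : S.τ (C.ζ β) = C.ζ β⁻¹ :=
  C.exists_e.choose_spec.2.2 β hβ h0

theorem c_eq (a b : E) : C.c a b = C.ζ (C.s * (star a * b - a * star b)) := by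
  rw [c_eq_ψ, ζ, s]
  congr 1
  have := C.e_ne
  have := C.two_ne
  field_simp

theorem t_ζ {β : E} (hβ : star β = -β) (h0 : β ≠ 0) : S.t • C.ζ β • S.o = C.ζ β⁻¹ • S.o := by
  rw [← τ_o (C.ζU β) (C.ζ_ne hβ h0), C.τ_ζ hβ h0]

/-- the `H`-part in the canonical form of `t ζ(γ) t` -/
noncomputable def hg (γ : E) : G := (C.ζ γ⁻¹)⁻¹ * (S.t * C.ζ γ * S.t) * (C.ζ γ⁻¹)⁻¹ * S.t

theorem tζt (γ : E) : S.t * C.ζ γ * S.t = C.ζ γ⁻¹ * C.hg γ * S.t * C.ζ γ⁻¹ := by
  rw [hg]; simp only [mul_assoc, tt', mul_inv_cancel_left, inv_mul_cancel, mul_one]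

theorem hgH {γ : E} (hγ : star γ = -γ) (h0 : γ ≠ 0) : C.hg γ ∈ S.H := by
  refine Sw.mul_mem ⟨?_, ?_⟩ tSw
  · rw [mul_smul, inv_fix (S.Ui _ (C.ζU _)), mul_smul, mul_smul, mul_smul, tSw.1, C.t_ζ hγ h0,
      inv_smul_smul]
  · rw [mul_smul, ← ζ_neg, mul_smul, mul_smul, mul_smul,
      C.t_ζ (by simp [hγ]) (neg_ne_zero.2 (inv_ne_zero h0)), ← mul_smul (C.ζ γ), ← ζ_add, inv_neg,
      inv_inv, add_neg_cancel, ζ_zero, one_smul, tSw.2, S.Ui _ (C.ζU _)]

theorem norm_hg {γ : E} (hγ : star γ = -γ) (h0 : γ ≠ 0) :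
    C.κ (C.hg γ) * star (C.κ (C.hg γ)) = -(γ⁻¹ * γ⁻¹) := by
  have h1 : (S.t * C.ζ γ * S.t) • S.o = S.o := by
    rw [mul_smul, mul_smul, tSw.2, S.Ui _ (C.ζU _), tSw.1]
  rw [tζt, mul_smul, mul_smul, mul_smul, C.t_ζ (by simp [hγ]) (inv_ne_zero h0), inv_inv,
    smul_pt (C.hgH hγ h0), C.ζ_conj (C.hgH hγ h0), ← mul_smul, ← ζ_add] at h1
  have h2 := C.ζ_inj (by simp [hγ]; ring) (by simp) ((S.fr _ (C.ζU _) h1).trans C.ζ_zero.symm)
  field_simp
  field_simp at h2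
  linear_combination h2

theorem hg_conj {y : G} (hy : y ∈ S.H) {γ : E} (hγ : star γ = -γ) (h0 : γ ≠ 0) :
    C.hg ((C.κ y * star (C.κ y))⁻¹ * γ) = C.hg γ * (y * (S.t * y⁻¹ * S.t)) := by
  have h1 := C.ζ_conj (tH hy) γ
  rw [C.norm_t hy] at h1
  have h2 := C.ζ_conj hy γ⁻¹
  rw [← mul_assoc (C.hg γ), ← Hcomm hy (C.hgH hγ h0), hg, hg, ← h1, mul_inv, inv_inv, ← h2]
  simp only [mul_inv_rev, t_inv, inv_inv, mul_assoc, tt', inv_mul_cancel_left]

theorem hg_neg (γ : E) : C.hg (-γ) = S.t * (C.hg γ)⁻¹ * S.t := by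
  rw [hg, hg, inv_neg, ζ_neg, ζ_neg]
  simp only [mul_inv_rev, t_inv, inv_inv, mul_assoc, tt']

/-- the multiplier of the commutator with `t` -/
noncomputable def A (y : G) : E := C.κ (y * (S.t * y⁻¹ * S.t))

theorem A_eq {y : G} (hy : y ∈ S.H) : C.A y = C.κ y * (C.κ (S.t * y * S.t))⁻¹ := by
  rw [A, C.κ_mul hy (tH (S.H.inv_mem hy)), ← C.κ_inv (tH hy)]
  simp only [mul_inv_rev, t_inv, mul_assoc]

theorem A_mul {x y : G} (hx : x ∈ S.H) (hy : y ∈ S.H) : C.A (x * y) = C.A x * C.A y := by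
  rw [C.A_eq hx, C.A_eq hy, C.A_eq (S.H.mul_mem hx hy), C.κ_mul hx hy,
    show S.t * (x * y) * S.t = (S.t * x * S.t) * (S.t * y * S.t) by simp only [mul_assoc, tt'],
    C.κ_mul (tH hx) (tH hy), mul_inv]
  ring

theorem star_A {y : G} (hy : y ∈ S.H) : star (C.A y) = C.A y := C.star_K (K0_le ⟨y, hy, rfl⟩)

theorem A_W {y : G} (hy : y ∈ S.W) : C.A y = 1 := by
  rw [C.A_eq hy.1, ← (mem_W.1 hy).2, mul_assoc, tt, mul_one, mul_inv_cancel₀ (C.κ_ne hy.1)]

theorem A_K {y : G} (hy : y ∈ S.K) : C.A y = C.κ y * C.κ y := by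
  rw [C.A_eq hy.1, K_inv hy, C.κ_inv hy.1, inv_inv]

theorem A_neg {y : G} (hy : y ∈ S.H) (h : C.κ y * star (C.κ y) = -1) : C.A y = -1 := by
  have h1 : C.A y * C.A y = 1 := by
    nth_rewrite 2 [← C.star_A hy]
    rw [C.A_eq hy, star_mul', star_inv₀]
    have := C.norm_t hy
    rw [h] at this
    have h3 : (C.κ (S.t * y * S.t))⁻¹ * (star (C.κ (S.t * y * S.t)))⁻¹ = -1 := by
      rw [← mul_inv, this]; simp
    linear_combination (C.κ y * star (C.κ y)) * h3 - h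
  rcases mul_self_eq_one_iff.1 h1 with h2 | h2
  · exfalso
    have h3 := C.κ_eq_one (S.H.mul_mem hy (tH (S.H.inv_mem hy))) h2
    have h4 : y ∈ S.W := mem_W.2 ⟨hy, by
      calc y * S.t = y * (S.t * y⁻¹ * S.t) * S.t * y := by
            simp only [mul_assoc, tt', inv_mul_cancel, mul_one]
        _ = _ := by rw [h3, one_mul]⟩
    have := C.norm_W h4
    exact C.two_ne (by linear_combination h - this)
  · exact h2

theorem star_hg {γ : E} (hγ : star γ = -γ) (h0 : γ ≠ 0) :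
    star (C.κ (C.hg γ)) = -C.κ (C.hg γ) ∧ C.A (C.hg γ) = -(γ⁻¹ * γ⁻¹) := by
  have hH := C.hgH hγ h0
  obtain ⟨y, hy, e⟩ := C.N_surj (x := -1) (by simp) (by simp)
  have h1 := congrArg C.κ (C.hg_conj hy hγ h0)
  rw [C.κ_mul hH (S.H.mul_mem hy (tH (S.H.inv_mem hy))), ← A, C.A_neg hy e, e, inv_neg, inv_one,
    neg_one_mul, hg_neg, show S.t * (C.hg γ)⁻¹ * S.t = (S.t * C.hg γ * S.t)⁻¹ by
      simp only [mul_inv_rev, t_inv, mul_assoc], C.κ_inv (tH hH)] at h1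
  have h2 : C.A (C.hg γ) = -(C.κ (C.hg γ) * C.κ (C.hg γ)) := by rw [C.A_eq hH, h1]; ring
  have h3 := C.star_A hH
  rw [h2, star_neg, star_mul', neg_inj] at h3
  have h4 : star (C.κ (C.hg γ)) = -C.κ (C.hg γ) := by
    rcases mul_self_eq_mul_self_iff.1 h3 with h4 | h4
    · exfalso
      obtain ⟨k, hk, e⟩ := C.exists_K (C.κ_ne hH) h4
      have := C.A_K hk
      rw [C.κ_inj hk.1 hH e, h2] at this
      exact mul_ne_zero C.two_ne (mul_ne_zero (C.κ_ne hH) (C.κ_ne hH)) (by linear_combination -this)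
    · exact h4
  refine ⟨h4, ?_⟩
  rw [h2, ← C.norm_hg hγ h0, h4]; ring

theorem A_norm {y : G} (hy : y ∈ S.H) : C.A y = C.κ y * star (C.κ y) := by
  have h0 := norm_ne_zero (C.κ_ne hy)
  obtain ⟨e, he, h⟩ := C.exists_sqrt h0 (star_norm _)
  have he0 : e ≠ 0 := by rintro rfl; exact h0 (by rw [← he, mul_zero])
  rcases h with h | h
  · obtain ⟨k, hk, ek⟩ := C.exists_K he0 h
    have h1 : y * k⁻¹ ∈ S.W := C.W_of_norm (S.H.mul_mem hy (S.H.inv_mem hk.1)) (by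
      rw [C.κ_mul hy (S.H.inv_mem hk.1), C.κ_inv hk.1, ek, star_mul', star_inv₀, h]
      field_simp
      linear_combination -he)
    have := C.A_mul h1.1 hk.1
    rw [inv_mul_cancel_right, C.A_W h1, C.A_K hk, ek, one_mul] at this
    rw [this, he]
  · have hγ : star e⁻¹ = -e⁻¹ := by simp [h]
    have hH := C.hgH hγ (inv_ne_zero he0)
    have h1 := C.norm_hg hγ (inv_ne_zero he0)
    have h2 := C.A_neg (S.H.mul_mem hy (S.H.inv_mem hH)) (by
      rw [C.κ_mul hy (S.H.inv_mem hH), C.κ_inv hH, star_mul', star_inv₀, mul_mul_mul_comm, ← mul_inv,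
        h1, ← he, inv_inv]
      field_simp)
    have := C.A_mul (S.H.mul_mem hy (S.H.inv_mem hH)) hH
    rw [inv_mul_cancel_right, h2, (C.star_hg hγ (inv_ne_zero he0)).2, inv_inv] at this
    rw [this, ← he]; ring

theorem hg_hg {γ δ : E} (hγ : star γ = -γ) (h0 : γ ≠ 0) (hδ : star δ = -δ) (h0' : δ ≠ 0) :
    C.κ (C.hg γ) * C.κ (C.hg δ) = (γ * δ)⁻¹ := by
  obtain ⟨y, hy, e⟩ := C.N_surj (div_ne_zero h0 h0') (by simp [hγ, hδ, neg_div_neg_eq])
  have h1 := congrArg C.κ (C.hg_conj hy hγ h0)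
  rw [C.κ_mul (C.hgH hγ h0) (S.H.mul_mem hy (tH (S.H.inv_mem hy))), ← A, C.A_norm hy, e,
    show (γ / δ)⁻¹ * γ = δ by field_simp] at h1
  have h2 := C.norm_hg hγ h0
  rw [(C.star_hg hγ h0).1] at h2
  rw [h1]
  have h3 : C.κ (C.hg γ) * C.κ (C.hg γ) = γ⁻¹ * γ⁻¹ := by linear_combination -h2
  rw [← mul_assoc, h3]
  field_simp

/-- the real function attached to the inverted points -/
noncomputable def k (x : E) : E := C.κ (C.kk x)

theorem k_ne {x : E} (hx : x ≠ 0) : C.k x ≠ 0 := C.κ_ne (C.kkK hx).1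
theorem star_k {x : E} (hx : x ≠ 0) : star (C.k x) = C.k x := C.star_K (C.kkK hx)

theorem k_conj {y : G} (hy : y ∈ S.H) {x : E} (hx : x ≠ 0) :
    C.k (C.κ y * x) = C.κ y * star (C.κ y) * C.k x := by
  rw [k, C.kk_conj hy hx, C.κ_mul (C.kkK hx).1 (S.H.mul_mem hy (tH (S.H.inv_mem hy))), ← A,
    C.A_norm hy, mul_comm, k]

include C in
theorem sq_ne {k β : E} (hk : star k = k) (h0 : k ≠ 0) (hβ : star β = -β) :
    k * k - β * β ≠ 0 := by
  intro h
  rcases mul_self_eq_mul_self_iff.1 (sub_eq_zero.1 h) with h1 | h1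
  · rw [← h1, hk] at hβ
    exact mul_ne_zero C.two_ne h0 (by linear_combination hβ)
  · have : β = -k := by rw [h1, neg_neg]
    rw [this, star_neg, hk] at hβ
    exact mul_ne_zero C.two_ne h0 (by linear_combination -hβ)

theorem t_conj_s {k : G} (hk : k ∈ S.K) {β : E} (hβ : star β = -β) :
    ∃ k₁ ∈ S.H, C.κ k₁ = C.κ k / (C.κ k * C.κ k - β * β) ∧
      S.t * (C.ζ β * (k * S.t) * (C.ζ β)⁻¹) * S.t =
        C.ζ (-β / (C.κ k * C.κ k - β * β)) * (k₁ * S.t) *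
          (C.ζ (-β / (C.κ k * C.κ k - β * β)))⁻¹ := by
  have hk0 := C.κ_ne hk.1
  have hks := C.star_K hk
  have hki := S.H.inv_mem hk.1
  by_cases h0 : β = 0
  · refine ⟨k⁻¹, hki, ?_, ?_⟩
    · rw [C.κ_inv hk.1, h0]; field_simp; ring
    · rw [h0, neg_zero, zero_div, ζ_zero, ← K_inv hk]
      simp only [one_mul, inv_one, mul_one, mul_assoc]
  have hD := C.sq_ne hks hk0 hβ
  set κ := C.κ k with hκ
  set δ := (κ * κ - β * β) / (β * (κ * κ)) with hδ
  have hδs : star δ = -δ := by simp [hδ, hks, hβ]; ring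
  have hδ0 : δ ≠ 0 := div_ne_zero hD (mul_ne_zero h0 (mul_ne_zero hk0 hk0))
  have hb := C.hgH hβ h0
  have hd := C.hgH hδs hδ0
  refine ⟨C.hg β * C.hg δ * k⁻¹, S.H.mul_mem (S.H.mul_mem hb hd) hki, ?_, ?_⟩
  · rw [C.κ_mul (S.H.mul_mem hb hd) hki, C.κ_mul hb hd, C.hg_hg hβ h0 hδs hδ0, C.κ_inv hk.1, ← hκ,
      hδ]
    field_simp
  · have h1 : C.ζ β⁻¹ * k⁻¹ * (C.ζ β)⁻¹ = C.ζ δ * k⁻¹ := by
      have := C.ζ_conj hki (-β)
      rw [C.κ_inv hk.1, ← hκ, star_inv₀, hks] at this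
      rw [← ζ_neg, show δ = β⁻¹ + κ⁻¹ * κ⁻¹ * -β by rw [hδ]; field_simp; ring, ζ_add, ← this]
      group
    have h2 : C.ζ β⁻¹ * C.hg β * C.ζ δ⁻¹ = C.ζ (-β / (κ * κ - β * β)) * C.hg β := by
      have := C.ζ_conj hb δ⁻¹
      rw [C.norm_hg hβ h0] at this
      have hD' : κ ^ 2 - β ^ 2 ≠ 0 := by rwa [sq, sq]
      rw [show -β / (κ * κ - β * β) = β⁻¹ + -(β⁻¹ * β⁻¹) * δ⁻¹ by rw [hδ]; field_simp; ring, ζ_add,
        ← this]
      group
    have h3 : C.ζ δ⁻¹ * k = k * (C.ζ (-β / (κ * κ - β * β)))⁻¹ := by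
      have := C.ζ_conj hki δ⁻¹
      rw [C.κ_inv hk.1, ← hκ, star_inv₀, hks] at this
      rw [← ζ_neg, show -(-β / (κ * κ - β * β)) = κ⁻¹ * κ⁻¹ * δ⁻¹ by rw [hδ]; field_simp, ← this]
      group
    have h4 := K_inv hk
    have h5 : S.t * k = k⁻¹ * S.t := by rw [← h4, mul_assoc, tt, mul_one]
    have h6 : k⁻¹ * S.t = S.t * k := h5.symm
    calc S.t * (C.ζ β * (k * S.t) * (C.ζ β)⁻¹) * S.t
        = (S.t * C.ζ β * S.t) * (S.t * k * S.t) * (C.ζ β)⁻¹ * S.t := by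
          simp only [mul_assoc, tt']
      _ = C.ζ β⁻¹ * C.hg β * S.t * (C.ζ β⁻¹ * k⁻¹ * (C.ζ β)⁻¹) * S.t := by
          rw [tζt, h4]; simp only [mul_assoc]
      _ = C.ζ β⁻¹ * C.hg β * (S.t * C.ζ δ * S.t) * k := by
          rw [h1]; simp only [mul_assoc, h6, tt']
      _ = (C.ζ β⁻¹ * C.hg β * C.ζ δ⁻¹) * C.hg δ * S.t * (C.ζ δ⁻¹ * k) := by
          rw [tζt]; simp only [mul_assoc]
      _ = C.ζ (-β / (κ * κ - β * β)) * C.hg β * C.hg δ * (S.t * k) *
          (C.ζ (-β / (κ * κ - β * β)))⁻¹ := by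
          rw [h2, h3]; simp only [mul_assoc]
      _ = _ := by rw [h5]; simp only [mul_assoc]

theorem uU (a β : E) : C.ζ β * C.i a ∈ S.U := S.U.mul_mem (C.ζU β) (C.iU a)

theorem a_u (a β : E) : C.a (C.ζ β * C.i a) = a := by rw [C.a_Z (C.ζZ β) (C.iU a), a_i]

theorem u_notZ {a : E} (ha : a ≠ 0) (β : E) : C.ζ β * C.i a ∉ S.Z := by
  rw [← C.a_zero _ (C.uU a β), a_u]; exact ha

theorem u_ne {a : E} (ha : a ≠ 0) (β : E) : C.ζ β * C.i a ≠ 1 := fun h =>
  C.u_notZ ha β (h ▸ S.Z.one_mem)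

theorem exists_u {u : G} (hu : u ∈ S.U) : ∃ β, star β = -β ∧ u = C.ζ β * C.i (C.a u) := by
  obtain ⟨c, hc, e⟩ := C.decomp_U hu
  obtain ⟨β, hβ, rfl⟩ := C.ζ_surj hc
  exact ⟨β, hβ, e⟩

theorem s_fix {a : E} (ha : a ≠ 0) (β : E) :
    (C.ζ β * (C.kk a * S.t) * (C.ζ β)⁻¹) • (C.ζ β * C.i a) • S.o = (C.ζ β * C.i a) • S.o := by
  rw [mul_smul, mul_smul, mul_smul (C.ζ β), inv_smul_smul, C.kk_fix ha]

/-- the action of `t` on the points off the block of `z`, up to a norm one factor -/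
theorem τ_u {a β : E} (ha : a ≠ 0) (hβ : star β = -β) :
    ∃ a', a' ≠ 0 ∧ S.τ (C.ζ β * C.i a) = C.ζ (-β / (C.k a * C.k a - β * β)) * C.i a' ∧
      C.k a' = C.k a / (C.k a * C.k a - β * β) := by
  have hu := C.uU a β
  have hu1 := C.u_ne ha β
  obtain ⟨β', hβ', e⟩ := C.exists_u (τU hu hu1)
  set a' := C.a (S.τ (C.ζ β * C.i a))
  have ha' : a' ≠ 0 := by
    rw [Ne, C.a_zero _ (τU hu hu1), τZ hu hu1]
    exact C.u_notZ ha β
  obtain ⟨k₁, hk₁, e1, e2⟩ := C.t_conj_s (C.kkK ha) hβ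
  have hJ1 := ((C.kkK ha).2.conj (C.ζ β)).conj S.t
  rw [t_inv] at hJ1
  have hJ2 := (C.kkK ha').2.conj (C.ζ β')
  have f2 := C.s_fix ha' β'
  have f1 : (S.t * (C.ζ β * (C.kk a * S.t) * (C.ζ β)⁻¹) * S.t) • (C.ζ β' * C.i a') • S.o =
      (C.ζ β' * C.i a') • S.o := by
    rw [← e, τ_o hu hu1, mul_smul, mul_smul, tts, C.s_fix ha]
  have hz : ∀ (β : E) (k : G), k ∈ S.H → Commute S.z (C.ζ β * (k * S.t) * (C.ζ β)⁻¹) := by
    intro β k hk
    have c1 : Commute S.z (C.ζ β) := (mem_Z.1 (C.ζZ β)).2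
    exact (c1.mul_right (tSw.Hmul hk).comm_z).mul_right c1.inv_right
  have c2 := hz β' _ (C.kkK ha').1
  have c1 := hz (-β / (C.κ (C.kk a) * C.κ (C.kk a) - β * β)) _ hk₁
  have hne : S.z • (C.ζ β' * C.i a') • S.o ≠ (C.ζ β' * C.i a') • S.o := fun h =>
    C.u_notZ ha' β' ((Z_iff (C.uU _ _)).1 h)
  have e3 := invol_two (S := S) hne hJ1.sq hJ1.ne hJ2.sq hJ2.ne
    (by rw [e2] at f1 ⊢; rw [← mul_smul _ S.z, ← c1.eq, mul_smul, f1]) f1
    (by rw [← mul_smul _ S.z, ← c2.eq, mul_smul, f2]) f2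
  rw [e2] at e3
  have hpt : ∀ (β : E) (k : G), k ∈ S.H →
      (C.ζ β * (k * S.t) * (C.ζ β)⁻¹) • S.i = C.ζ β • S.o := by
    intro β k hk
    rw [mul_smul, mul_smul, inv_fix (S.Ui _ (C.ζU _)), (tSw.Hmul hk).1]
  have e4 := congrArg (· • S.i) e3
  simp only [hpt _ _ hk₁, hpt _ _ (C.kkK ha').1] at e4
  have e5 := U_inj (C.ζU _) (C.ζU _) e4
  rw [e5] at e3
  have e6 : k₁ = C.kk a' := mul_right_cancel (mul_left_cancel (mul_right_cancel e3))
  refine ⟨a', ha', by rw [e]; erw [e5], ?_⟩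
  rw [k, ← e6, e1]; rfl

theorem u_mul (a β a' β' : E) : C.ζ β * C.i a * (C.ζ β' * C.i a') =
    C.ζ (β + β' + C.s * (star a * a' - a * star a')) * C.i (a + a') := by
  rw [ζ_add, ζ_add, ← c_eq, mul_assoc _ (C.c a a'), ← i_mul]
  have := Z_central (C.ζZ β') (C.iU a)
  calc C.ζ β * C.i a * (C.ζ β' * C.i a') = C.ζ β * (C.i a * C.ζ β') * C.i a' := by group
    _ = _ := by rw [this]; group

end Cd

end Cfsg.Agent.H8.ON
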