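import Cfsg.Agent.H7.AschFF

/-! O'Nan's characterisation of `PSU₃(q)`: the finite check for `q = 5`. -/

set_option autoImplicit false
set_option linter.unusedSectionVars false
set_option linter.unusedVariables false

namespace Cfsg.Agent.H8.ON

open Cfsg.Agent.H7

/-- a primitive cube root of unity -/
def zt : F25 := ⟨2, 3⟩
/-- conjugation -/
def cj (a : F25) : F25 := ⟨a.re, -a.im⟩
/-- eighth power -/
def p8 (a : F25) : F25 := (fun c => c * c) ((fun b => b * b) (a * a))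
/-- the candidate functions -/
def kc (t0 t1 t2 : ZMod 5) (a : F25) : F25 :=
  a * cj a * (if p8 a = 1 then ⟨t0, 0⟩ else if p8 a = zt * zt then ⟨t1, 0⟩ else ⟨t2, 0⟩)
/-- the block equation -/
def E5 (s t0 t1 t2 : ZMod 5) (a0 a1 : F25) : Prop := kc t0 t1 t2 a1 = kc t0 t1 t2 a0 →
  4 * kc t0 t1 t2 a0 * kc t0 t1 t2 (-a0 + a1) = kc t0 t1 t2 (-a0 + a1) * kc t0 t1 t2 (-a0 + a1)
    - (⟨s, 0⟩ * (cj (-a0) * a1 - -a0 * cj a1)) * (⟨s, 0⟩ * (cj (-a0) * a1 - -a0 * cj a1))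
instance decE5 (s t0 t1 t2 : ZMod 5) (a0 a1 : F25) : Decidable (E5 s t0 t1 t2 a0 a1) := by
  unfold E5; infer_instance
/-- the cubes -/
def L8 : List F25 := [1, -1, 2, -2, ⟨0, 1⟩, ⟨0, -1⟩, ⟨0, 2⟩, ⟨0, -2⟩]
/-- all block equations used -/
def A5 (s t0 t1 t2 : ZMod 5) : Prop :=
  ∀ a0 ∈ [1, zt, zt * zt], ∀ κ ∈ L8, E5 s t0 t1 t2 a0 (κ * zt * a0)
instance decA5 (s t0 t1 t2 : ZMod 5) : Decidable (A5 s t0 t1 t2) := by
  unfold A5; infer_instance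

set_option synthInstance.maxSize 1000 in
theorem dec5 : ∀ s t0 t1 t2 : ZMod 5, s ≠ 0 → t0 ≠ 0 → t1 ≠ 0 → t2 ≠ 0 → A5 s t0 t1 t2 →
    (t0 = s ∧ t1 = s ∧ t2 = s) ∨ (t0 = -s ∧ t1 = -s ∧ t2 = -s) := by
  decide +kernel

theorem cj_eq : ∀ a : F25, cj a = a ^ 5 := by decide +kernel
theorem cls5 : ∀ a : F25, a ≠ 0 → (p8 a = 1 ∧ a ^ 8 = 1) ∨
    (p8 a ≠ 1 ∧ p8 a = zt * zt ∧ (a * zt * zt) ^ 8 = 1) ∨
    (p8 a ≠ 1 ∧ p8 a ≠ zt * zt ∧ (a * zt) ^ 8 = 1) := by decide +kernel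
theorem real5 : ∀ a : F25, cj a = a → a = ⟨a.re, 0⟩ := by decide +kernel
theorem ne5 : ∀ a0 ∈ [1, zt, zt * zt], ∀ κ ∈ L8,
    a0 ≠ 0 ∧ κ * zt * a0 ≠ 0 ∧ κ * zt * a0 ≠ a0 := by decide +kernel
theorem zt5 : ∀ a : F25, a * zt * zt * zt = a ∧ a * zt * (zt * zt) = a ∧
    a * zt * zt * cj (a * zt * zt) = a * cj a ∧ a * zt * cj (a * zt) = a * cj a := by
  decide +kernel
theorem neg5 : ∀ s : ZMod 5, (⟨-s, 0⟩ : F25) = -⟨s, 0⟩ := by decide +kernel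

theorem q5F (k : F25 → F25) (s : F25) (hs0 : s ≠ 0) (hs : cj s = s) (hk0 : ∀ a, a ≠ 0 → k a ≠ 0)
    (hks : ∀ a, a ≠ 0 → cj (k a) = k a)
    (hκ : ∀ κ a, κ ^ 8 = 1 → a ≠ 0 → k (κ * a) = κ * cj κ * k a)
    (h : ∀ a0 a1, a0 ≠ 0 → a1 ≠ 0 → a1 ≠ a0 → k a1 = k a0 → 4 * k a0 * k (-a0 + a1) =
      k (-a0 + a1) * k (-a0 + a1) -
        (s * (cj (-a0) * a1 - -a0 * cj a1)) * (s * (cj (-a0) * a1 - -a0 * cj a1))) :
    (∀ a, a ≠ 0 → k a = s * (a * cj a)) ∨ (∀ a, a ≠ 0 → k a = -s * (a * cj a)) := by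
  have z1 : zt ≠ 0 := by decide
  have z2 : zt * zt ≠ 0 := by decide
  have e0 := real5 _ (hks 1 one_ne_zero)
  have e1 := real5 _ (hks zt z1)
  have e2 := real5 _ (hks _ z2)
  have es := real5 _ hs
  have hkc : ∀ a, a ≠ 0 → k a = kc (k 1).re (k zt).re (k (zt * zt)).re a := by
    intro a ha
    obtain ⟨f1, f2, f3, f4⟩ := zt5 a
    rcases cls5 a ha with ⟨h1, h2⟩ | ⟨h1, h2, h3⟩ | ⟨h1, h2, h3⟩
    · rw [kc, if_pos h1, ← e0, ← hκ a 1 h2 one_ne_zero, mul_one]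
    · rw [kc, if_neg h1, if_pos h2, ← e1, ← f3, ← hκ _ _ h3 z1, f1]
    · rw [kc, if_neg h1, if_neg h2, ← e2, ← f4, ← hκ _ _ h3 z2, f2]
  have nz : ∀ a : F25, a ≠ 0 → a = ⟨a.re, 0⟩ → a.re ≠ 0 := by
    intro a ha e h0
    rw [h0] at e
    exact ha e
  have := dec5 s.re _ _ _ (nz s hs0 es) (nz _ (hk0 1 one_ne_zero) e0) (nz _ (hk0 _ z1) e1)
    (nz _ (hk0 _ z2) e2) (by
      intro a0 h0 κ hκ' e
      obtain ⟨n1, n2, n3⟩ := ne5 a0 h0 κ hκ'
      have n4 : -a0 + κ * zt * a0 ≠ 0 := fun e => n3 (by linear_combination e)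
      rw [← hkc _ n1, ← hkc _ n2] at e
      rw [← hkc _ n1, ← hkc _ n4, ← es]
      exact h _ _ n1 n2 n3 e)
  rcases this with ⟨h0, h1, h2⟩ | ⟨h0, h1, h2⟩
  · left
    intro a ha
    rw [hkc a ha, kc, h0, h1, h2, ite_self, ite_self, ← es, mul_comm]
  · right
    intro a ha
    rw [hkc a ha, kc, h0, h1, h2, ite_self, ite_self, neg5, ← es, mul_comm]

theorem q5 {E : Type} [Field E] [Fintype E] [StarRing E] (hc : Fintype.card E = 25)
    (hst : ∀ x : E, star x = x ^ 5) (k : E → E) (s : E) (hs0 : s ≠ 0) (hs : star s = s)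
    (hk0 : ∀ a, a ≠ 0 → k a ≠ 0) (hks : ∀ a, a ≠ 0 → star (k a) = k a)
    (hκ : ∀ κ a, κ ^ 8 = 1 → a ≠ 0 → k (κ * a) = κ * star κ * k a)
    (h : ∀ a0 a1, a0 ≠ 0 → a1 ≠ 0 → a1 ≠ a0 → k a1 = k a0 → 4 * k a0 * k (-a0 + a1) =
      k (-a0 + a1) * k (-a0 + a1) -
        (s * (star (-a0) * a1 - -a0 * star a1)) * (s * (star (-a0) * a1 - -a0 * star a1))) :
    (∀ a, a ≠ 0 → k a = s * (a * star a)) ∨ (∀ a, a ≠ 0 → k a = -s * (a * star a)) := by
  obtain ⟨φ⟩ := exists_equiv_F25 hc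
  have h1 : ∀ x : E, cj (φ x) = φ (star x) := fun x => by rw [cj_eq, hst, map_pow]
  have := q5F (fun a => φ (k (φ.symm a))) (φ s) (by simpa using hs0) (by rw [h1, hs])
    (fun a ha => by simpa using hk0 _ (by simpa using ha))
    (fun a ha => by rw [h1, hks _ (by simpa using ha)]) (by
      intro κ a hκ' ha
      obtain ⟨κ, rfl⟩ := φ.surjective κ
      obtain ⟨a, rfl⟩ := φ.surjective a
      rw [← map_pow, map_eq_one_iff _ φ.injective] at hκ'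
      simp only [← map_mul, RingEquiv.symm_apply_apply, h1]
      rw [hκ κ a hκ' (by simpa using ha)]) (by
      intro a0 a1 h0 h1' h2 h3
      obtain ⟨a0, rfl⟩ := φ.surjective a0
      obtain ⟨a1, rfl⟩ := φ.surjective a1
      simp only [RingEquiv.symm_apply_apply, EmbeddingLike.apply_eq_iff_eq] at h3
      have := congrArg φ (h a0 a1 (by simpa using h0) (by simpa using h1') (by simpa using h2) h3)
      simp only [← map_neg, ← map_add, RingEquiv.symm_apply_apply, h1]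
      simpa only [map_mul, map_sub, map_ofNat] using this)
  rcases this with h2 | h2
  · left
    intro a ha
    have := h2 (φ a) (by simpa using ha)
    simp only [RingEquiv.symm_apply_apply, h1, ← map_mul] at this
    exact φ.injective this
  · right
    intro a ha
    have := h2 (φ a) (by simpa using ha)
    simp only [RingEquiv.symm_apply_apply, h1, ← map_neg, ← map_mul] at this
    exact φ.injective this

end Cfsg.Agent.H8.ON
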