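import Cfsg.Agent.H8.ON5
import Cfsg.Agent.H8.ON6

/-! O'Nan's characterisation of `PSU₃(q)`: the Hermitian coordinates. -/

set_option autoImplicit false
set_option linter.unusedSectionVars false
set_option linter.unusedVariables false

namespace Cfsg.Agent.H8.ON

open Subgroup H5.U

/-- the final coordinates -/
structure Fn (G Ω E : Type*) [Group G] [MulAction G Ω] [Field E] [StarRing E] where
  /-- the form constant -/
  θ : E
  /-- the point at infinity -/
  i : Ω
  /-- the affine points -/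
  P : E → E → Ω
  /-- the translations -/
  u : E → E → G
  /-- the swapping involution -/
  t : G
  θ0 : θ ≠ 0
  θs : star θ = θ
  two : (2 : E) ≠ 0
  P_ne : ∀ a b, P a b ≠ i
  P_inj : ∀ a b a' b', b + star b = 2 * θ * (a * star a) → b' + star b' = 2 * θ * (a' * star a') →
    P a b = P a' b' → a = a' ∧ b = b'
  P_surj : ∀ x, x ≠ i → ∃ a b, b + star b = 2 * θ * (a * star a) ∧ P a b = x
  u_i : ∀ a b, u a b • i = i
  u_P : ∀ a₀ b₀ a b, u a₀ b₀ • P a b = P (a₀ + a) (b₀ + b + 2 * θ * (star a₀ * a))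
  t_i : t • i = P 0 0
  t_o : t • P 0 0 = i
  t_P : ∀ a b, b + star b = 2 * θ * (a * star a) → b ≠ 0 → t • P a b = P (a / b) b⁻¹
  gen : ∀ L : Subgroup G, (∀ a b, b + star b = 2 * θ * (a * star a) → u a b ∈ L) → t ∈ L → L = ⊤
  faith : ∀ g : G, (∀ x : Ω, g • x = x) → g = 1
  cent : center G = ⊥

variable {G Ω : Type*} [Group G] [MulAction G Ω] {p n : ℕ} [Finite G] {S : St G Ω p n}

namespace St

theorem gen [IsSimpleGroup G] (L : Subgroup G) (hU : S.U ≤ L) (ht : S.t ∈ L) : L = ⊤ := by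
  let M : Subgroup G := closure {x | x ∈ S.U ∨ S.t * x * S.t ∈ S.U}
  have hUM : S.U ≤ M := fun x hx => subset_closure (Or.inl hx)
  have h1 : ∀ g : G, (∀ x, x ∈ S.U ∨ S.t * x * S.t ∈ S.U → g * x * g⁻¹ ∈ M) →
      ∀ x ∈ M, g * x * g⁻¹ ∈ M := fun g hg x hx =>
    (closure_le (M.comap (MulAut.conj g).toMonoidHom)).2 (fun x hx => hg x hx) hx
  have hH : ∀ y ∈ S.H, ∀ x ∈ M, y * x * y⁻¹ ∈ M := fun y hy => h1 y (by
    rintro x (hx | hx)
    · exact hUM (HU hy hx)
    · refine subset_closure (Or.inr ?_)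
      have := HU (tH hy) hx
      simpa only [mul_inv_rev, t_inv, mul_assoc, tt'] using this)
  have ht' : ∀ x ∈ M, S.t * x * S.t⁻¹ ∈ M := h1 _ (by
    rintro x (hx | hx)
    · refine subset_closure (Or.inr ?_)
      simpa only [t_inv, mul_assoc, tt', tt, mul_one] using hx
    · rw [t_inv]; exact hUM hx)
  have hU' : ∀ u ∈ S.U, ∀ x ∈ M, u * x * u⁻¹ ∈ M := fun u hu x hx =>
    M.mul_mem (M.mul_mem (hUM hu) hx) (M.inv_mem (hUM hu))
  have hB : ∀ g : G, g • S.i = S.i → ∀ x ∈ M, g * x * g⁻¹ ∈ M := by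
    intro g hg x hx
    obtain ⟨u, hu, y, hy, rfl⟩ := decomp hg
    have := hU' u hu _ (hH y hy x hx)
    simpa only [mul_inv_rev, mul_assoc] using this
  have hN : M.Normal := ⟨fun x hx g => by
    by_cases hg : g • S.i = S.i
    · exact hB g hg x hx
    · obtain ⟨u, hu, e⟩ := S.tr _ hg
      have := hU' u hu _ (ht' _ (hB ((u * S.t)⁻¹ * g) (by
        rw [mul_smul, ← e, inv_smul_eq_iff, mul_smul, tSw.1]) x hx))
      simpa only [mul_inv_rev, mul_assoc, inv_inv, mul_inv_cancel_left, mul_inv_cancel,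
        mul_one] using this⟩
  rcases hN.eq_bot_or_eq_top with h | h
  · exact absurd (eq_bot_iff.2 (h ▸ Z_le.trans hUM)) (Z_ne_bot (S := S))
  · rw [eq_top_iff, ← h, closure_le]
    rintro x (hx | hx)
    · exact hU hx
    · have := L.mul_mem (L.mul_mem ht (hU hx)) ht
      simpa only [mul_assoc, tt', tt, mul_one, SetLike.mem_coe] using this

include S in
theorem cent [IsSimpleGroup G] : center G = ⊥ := by
  rcases (inferInstance : (center G).Normal).eq_bot_or_eq_top with h | h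
  · exact h
  · exfalso
    apply Z_ne_U (S := S)
    refine le_antisymm Z_le fun u hu => mem_Z.2 ⟨hu, ?_⟩
    have : u ∈ center G := h ▸ mem_top u
    exact mem_center_iff.1 this _

end St

namespace Cd

open St

variable {E : Type} [Field E] [Fintype E] [StarRing E] [hF : FE E (p ^ n)] (C : Cd S E)

theorem k_real {x c : E} (hx : x ≠ 0) (h0 : c ≠ 0) (hc : star c = c) :
    C.k (c * x) = c * c * C.k x := by
  obtain ⟨y, hy, rfl⟩ := C.exists_K h0 hc
  rw [C.k_conj hy.1 hx, hc]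

theorem k_neg {x : E} (hx : x ≠ 0) : C.k (-x) = C.k x := by
  have := C.k_real hx (c := -1) (by simp) (by simp)
  simpa using this

theorem blk {a₀ a₁ : E} (h0 : a₀ ≠ 0) (h1 : a₁ ≠ 0) (h : a₁ ≠ a₀) (e : C.k a₁ = C.k a₀) :
    C.a (S.τ (C.ζ (C.s * (star (-a₀) * a₁ - -a₀ * star a₁)) * C.i (-a₀ + a₁))) =
      C.Φ (-2 * a₀) := by
  have h2 := C.two_ne
  have hn := neg_ne_zero.2 h0
  have := C.col_kk h0 h1 hn h (fun e => mul_ne_zero h2 h0 (by linear_combination -e))
    (C.κ_inj (C.kkK h1).1 (C.kkK h0).1 e) (C.κ_inj (C.kkK hn).1 (C.kkK h0).1 (C.k_neg h0))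
  rw [i_mul, c_eq, ← i_two] at this
  rw [this, Φ]
  congr 3; ring

theorem blk_eq {a₀ a₁ : E} (h0 : a₀ ≠ 0) (h1 : a₁ ≠ 0) (h : a₁ ≠ a₀) (e : C.k a₁ = C.k a₀) :
    4 * C.k a₀ * C.k (-a₀ + a₁) = C.k (-a₀ + a₁) * C.k (-a₀ + a₁) -
      (C.s * (star (-a₀) * a₁ - -a₀ * star a₁)) * (C.s * (star (-a₀) * a₁ - -a₀ * star a₁)) := by
  have h2 := C.two_ne
  have hD : -a₀ + a₁ ≠ 0 := fun e => h (by linear_combination e)
  have hβ : star (C.s * (star (-a₀) * a₁ - -a₀ * star a₁)) =
      -(C.s * (star (-a₀) * a₁ - -a₀ * star a₁)) := by simp [star_s]; ring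
  obtain ⟨a', ha', e1, e2⟩ := C.τ_u hD hβ
  have h3 := C.blk h0 h1 h e
  rw [e1, a_u] at h3
  have h4 : -2 * a₀ ≠ 0 := mul_ne_zero (neg_ne_zero.2 h2) h0
  have h5 := C.k_ne h4
  rw [h3, C.Φ_eq h4, ← k, C.k_real h4 (inv_ne_zero h5) (by rw [star_inv₀, C.star_k h4]),
    C.k_real h0 (neg_ne_zero.2 h2) (by simp)] at e2
  have h6 := C.sq_ne (C.star_k hD) (C.k_ne hD) hβ
  have h7 := C.k_ne h0
  rw [eq_div_iff h6] at e2
  field_simp at e2
  linear_combination -e2

theorem exists_sub_one {w : G} (hw : w ∈ S.W) (h1 : C.κ w ≠ 1) : ∃ y ∈ S.H, C.κ y = C.κ w - 1 := by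
  rw [← C.κ_image le_rfl, S.cardH', pow_mul]
  have h2 := C.norm_W hw
  have h0 := sub_ne_zero.2 h1
  have h3 : (C.κ w - 1) ^ (p ^ n - 1) = -star (C.κ w) := by
    apply mul_right_cancel₀ h0
    rw [← pow_succ, Nat.sub_add_cancel (by have := S.q3; omega), ← hF.st, star_sub, star_one]
    linear_combination h2
  have h4 := (C.κ_image (L := S.W) inf_le_left (C.κ w)).2 ⟨w, hw, rfl⟩
  rw [cardW] at h4
  rw [h3, S.r_even.neg_pow, ← star_pow, h4, star_one]

theorem k_pm {w : G} (hw : w ∈ S.W) (h1 : C.κ w ≠ 1) (h2 : C.κ w ≠ -1) {a : E} (ha : a ≠ 0) :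
    C.k a = C.s * (a * star a) ∨ C.k a = -C.s * (a * star a) := by
  have hN := C.norm_W hw
  have h3 := C.blk_eq ha (mul_ne_zero (C.κ_ne hw.1) ha) (fun e => h1 (mul_right_cancel₀ ha
    (by rw [e, one_mul]))) (by rw [C.k_conj hw.1 ha, hN, one_mul])
  obtain ⟨y, hy, e⟩ := C.exists_sub_one hw h1
  rw [show -a + C.κ w * a = C.κ y * a by rw [e]; ring, C.k_conj hy ha, e] at h3
  set ω := C.κ w
  simp only [star_sub, star_one, star_neg, star_mul'] at h3
  have h4 : (ω - 1) * (star ω - 1) ≠ 0 := by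
    have := norm_ne_zero (sub_ne_zero.2 h1)
    simpa using this
  have h5 : (ω + 1) * (star ω + 1) ≠ 0 := by
    have := norm_ne_zero (x := ω + 1) (fun e => h2 (by linear_combination e))
    simpa using this
  have h6 : (ω - 1) * (star ω - 1) * ((ω + 1) * (star ω + 1) *
      (C.k a * C.k a - C.s * (a * star a) * (C.s * (a * star a)))) = 0 := by
    linear_combination h3 + (2 * (ω - 1) * (star ω - 1) * C.k a ^ 2 -
      (C.s * (a * star a)) ^ 2 * (ω * star ω + 3) + 4 * (C.s * (a * star a)) ^ 2) * hN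
  rw [mul_eq_zero, or_iff_right h4, mul_eq_zero, or_iff_right h5, sub_eq_zero,
    mul_self_eq_mul_self_iff, ← neg_mul] at h6
  exact h6

theorem k_mixed {w : G} (hw : w ∈ S.W) (h1 : C.κ w ≠ 1) (h2 : C.κ w ≠ -1) (h3 : (3 : E) ≠ 0)
    {a b : E} (ha : a ≠ 0) (hb : b ≠ 0) (e1 : C.k a = C.s * (a * star a))
    (e2 : C.k b = -C.s * (b * star b)) : False := by
  have hNa := norm_ne_zero ha
  have hNb := norm_ne_zero hb
  have hs := C.s_ne
  have htwo := C.two_ne
  obtain ⟨y, hy, e⟩ := C.N_surj (x := -(a * star a) / (b * star b))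
    (div_ne_zero (neg_ne_zero.2 hNa) hNb) (by simp [mul_comm])
  have key : ∀ c, c ≠ 0 → c * star c = -(a * star a) → C.k c = C.k a →
      (star a * c + a * star c) ^ 2 = (a * star a) ^ 2 := by
    intro c hc hN ek
    have hca : c ≠ a := by
      rintro rfl
      exact mul_ne_zero htwo hNa (by linear_combination hN)
    have h4 := C.blk_eq ha hc hca ek
    have hD : -a + c ≠ 0 := fun e => hca (by linear_combination e)
    have hND := norm_ne_zero hD
    have h5 : (-a + c) * star (-a + c) = -(star a * c + a * star c) := by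
      simp only [star_add, star_neg]; linear_combination hN
    have h6 : (2 * C.s) ^ 2 * (a * star a) ≠ 0 := mul_ne_zero (pow_ne_zero _ (mul_ne_zero htwo hs)) hNa
    simp only [star_neg] at h4
    rcases C.k_pm hw h1 h2 hD with h7 | h7
    · rw [h7, h5, e1] at h4
      have : star a * c + a * star c = a * star a := by
        apply mul_left_cancel₀ h6
        linear_combination -h4 - 4 * C.s ^ 2 * a * star a * hN
      rw [this]
    · rw [h7, h5, e1] at h4
      have : star a * c + a * star c = -(a * star a) := by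
        apply mul_left_cancel₀ h6
        linear_combination h4 + 4 * C.s ^ 2 * a * star a * hN
      rw [this]; ring
  have hsb := star_ne_zero' hb
  set c := C.κ y * b with hc
  have hc0 : c ≠ 0 := mul_ne_zero (C.κ_ne hy) hb
  have hcN : c * star c = -(a * star a) := by
    rw [hc, star_mul', mul_mul_mul_comm, e]; field_simp
  have hck : C.k c = C.k a := by
    rw [hc, C.k_conj hy hb, e, e1, e2]; field_simp
  have hN := C.norm_W hw
  have hw' := S.W.inv_mem hw
  have hN' := C.norm_W hw'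
  have k1 := key c hc0 hcN hck
  have k2 := key (C.κ w * c) (mul_ne_zero (C.κ_ne hw.1) hc0)
    (by rw [star_mul', mul_mul_mul_comm, hN, one_mul, hcN])
    (by rw [C.k_conj hw.1 hc0, hN, one_mul, hck])
  have k3 := key (C.κ w⁻¹ * c) (mul_ne_zero (C.κ_ne hw'.1) hc0)
    (by rw [star_mul', mul_mul_mul_comm, hN', one_mul, hcN])
    (by rw [C.k_conj hw'.1 hc0, hN', one_mul, hck])
  rw [C.κ_inv hw.1, ← star_eq_inv_of_norm_one hN] at k3
  set ω := C.κ w
  simp only [star_mul', star_star] at k2 k3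
  set X := star a * c with hX
  set Y := a * star c with hY
  set N := a * star a
  have hXY : X * Y = -(N * N) := by rw [hX, hY]; linear_combination (a * star a) * hcN
  have k1' : X ^ 2 + Y ^ 2 = 3 * N ^ 2 := by linear_combination k1 - 2 * hXY
  have k2' : ω ^ 2 * X ^ 2 + star ω ^ 2 * Y ^ 2 = 3 * N ^ 2 := by
    rw [hX, hY]
    linear_combination k2 - 2 * ω * star ω * hXY + 2 * N * N * hN
  have k3' : star ω ^ 2 * X ^ 2 + ω ^ 2 * Y ^ 2 = 3 * N ^ 2 := by
    rw [hX, hY]
    linear_combination k3 - 2 * ω * star ω * hXY + 2 * N * N * hN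
  have h7 : (ω - star ω) ^ 2 * (3 * N ^ 2) = 0 := by
    linear_combination k2' + k3' - (ω ^ 2 + star ω ^ 2) * k1' - 6 * N ^ 2 * hN
  rw [mul_eq_zero, or_iff_left (mul_ne_zero h3 (pow_ne_zero _ hNa)), pow_eq_zero_iff (by norm_num),
    sub_eq_zero] at h7
  rw [← h7] at hN
  rcases mul_self_eq_one_iff.1 hN with h | h
  · exact h1 h
  · exact h2 h

theorem k_cases : (∀ a, a ≠ 0 → C.k a = C.s * (a * star a)) ∨
    (∀ a, a ≠ 0 → C.k a = -C.s * (a * star a)) := by
  have hd := S.dr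
  have hq := S.q3
  by_cases hw : ∃ w ∈ S.W, C.κ w ≠ 1 ∧ C.κ w ≠ -1
  · obtain ⟨w, hw, h1, h2⟩ := hw
    rcases d13 (p := p) (n := n) with h | h
    · have hall : ∀ a, a ≠ 0 → C.k a = a * star a * C.k 1 := by
        intro a ha
        obtain ⟨y, hy, rfl⟩ := (C.κ_image le_rfl a).1 (by
          have h3 := S.cardH
          rw [h, one_mul] at h3
          rw [h3, mul_comm 2 n, pow_mul, ← hF.card]
          exact FiniteField.pow_card_sub_one_eq_one a ha)
        rw [← C.k_conj hy one_ne_zero, mul_one]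
      rcases C.k_pm hw h1 h2 one_ne_zero with h3 | h3
      · left; intro a ha; rw [hall a ha, h3]; simp [mul_comm]
      · right; intro a ha; rw [hall a ha, h3]; simp [mul_comm]
    · have h3 : (3 : E) ≠ 0 := by
        intro h3
        have h4 : ((p ^ n : ℕ) : E) = 0 := by
          have := FiniteField.cast_card_eq_zero E
          rw [hF.card, Nat.cast_pow] at this
          exact pow_eq_zero_iff (by norm_num) |>.1 this
        rw [h] at hd
        have := congrArg (Nat.cast : ℕ → E) hd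
        rw [Nat.cast_add, h4, Nat.cast_mul, Nat.cast_ofNat, h3] at this
        simp at this
      by_contra! hc
      obtain ⟨⟨a, ha, ea⟩, b, hb, eb⟩ := hc
      exact C.k_mixed hw h1 h2 h3 hb ha ((C.k_pm hw h1 h2 hb).resolve_right eb)
        ((C.k_pm hw h1 h2 ha).resolve_left ea)
  · push Not at hw
    have h1 := card_le_two (fun w => w ∈ S.W) 1 S.z (by
      intro w hw'
      by_cases h : C.κ w = 1
      · exact Or.inl (C.κ_eq_one hw'.1 h)
      · exact Or.inr (C.κ_inj hw'.1 zH (by rw [hw w hw' h, κ_z])))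
    have h2 : S.r ≤ 2 := by rw [← cardW]; exact h1
    have h3 := S.r_even
    have h4 := S.r_pos
    have h5 : S.r = 2 := by rcases h3 with ⟨k, hk⟩; omega
    have h6 : p ^ n = 5 := by rcases d13 (p := p) (n := n) with h | h <;> rw [h] at hd <;> omega
    refine q5 (by rw [hF.card, h6]; norm_num) (fun x => by rw [hF.st, h6]) C.k C.s C.s_ne C.star_s
      (fun a => C.k_ne) (fun a => C.star_k) ?_ fun a₀ a₁ => C.blk_eq
    intro κ a hκ ha
    obtain ⟨y, hy, rfl⟩ := (C.κ_image le_rfl κ).1 (by rw [S.cardH', h5, h6]; exact hκ)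
    exact C.k_conj hy ha

theorem exists_fn_of [IsSimpleGroup G] (σ : E →+* E) (θ : E) (hσ : ∀ x, star x = x → σ x = x)
    (hσ2 : ∀ x, σ (σ x) = x) (hσN : ∀ x, σ x * star (σ x) = x * star x) (hθ0 : θ ≠ 0)
    (hθ : star θ = θ) (hk : ∀ a, a ≠ 0 → C.k a = θ * (a * star a))
    (hs : ∀ a b, C.s * (star (σ a) * σ b - σ a * star (σ b)) = θ * (star a * b - a * star b)) :
    Nonempty (Fn G Ω E) := by
  have h2 := C.two_ne
  have hEm : ∀ a b : E, b + star b = 2 * θ * (a * star a) →
      star (b - θ * (a * star a)) = -(b - θ * (a * star a)) := by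
    intro a b h
    rw [star_sub, star_mul', star_norm, hθ]; linear_combination h
  have hall : ∀ u ∈ S.U, ∃ a b : E, b + star b = 2 * θ * (a * star a) ∧
      C.ζ (b - θ * (a * star a)) * C.i (σ a) = u := by
    intro u hu
    obtain ⟨β, hβ, e⟩ := C.exists_u hu
    refine ⟨σ (C.a u), β + θ * (σ (C.a u) * star (σ (C.a u))), ?_, by
      rw [add_sub_cancel_right, hσ2, ← e]⟩
    rw [star_add, star_mul', star_norm, hθ, hβ]; ring
  refine ⟨⟨θ, S.i, fun a b => (C.ζ (b - θ * (a * star a)) * C.i (σ a)) • S.o,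
    fun a b => C.ζ (b - θ * (a * star a)) * C.i (σ a), S.t, hθ0, hθ, h2,
    fun a b => uo_ne (C.uU _ _), ?_, ?_, fun a b => S.Ui _ (C.uU _ _), ?_, ?_, ?_, ?_, ?_, S.faith,
    cent (S := S)⟩⟩
  · intro a b a' b' h h' e
    have e1 := U_inj (C.uU _ _) (C.uU _ _) e
    have e2 := congrArg C.a e1
    rw [a_u, a_u] at e2
    have e3 := σ.injective e2
    subst e3
    have := C.ζ_inj (hEm _ _ h) (hEm _ _ h') (mul_right_cancel e1)
    exact ⟨rfl, by linear_combination this⟩
  · intro x hx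
    obtain ⟨u, hu, rfl⟩ := S.tr x hx
    obtain ⟨a, b, h, rfl⟩ := hall u hu
    exact ⟨a, b, h, rfl⟩
  · intro a₀ b₀ a b
    rw [← mul_smul, u_mul, hs, map_add]
    congr 3
    simp only [star_add]; ring
  · simp [ζ_zero, i_zero, tSw.1]
  · simp [ζ_zero, i_zero, tSw.2]
  · intro a b h hb
    have hβ := hEm a b h
    by_cases ha : a = 0
    · subst ha
      simp only [zero_mul, mul_zero, sub_zero, map_zero, i_zero, mul_one, zero_div] at hβ ⊢
      exact C.t_ζ hβ hb
    have hσa : σ a ≠ 0 := (map_ne_zero σ).2 ha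
    obtain ⟨a', ha', e1, -⟩ := C.τ_u hσa hβ
    have hsb := star_ne_zero' hb
    have hsa := star_ne_zero' ha
    set a₀ := -star b / (2 * θ * star a) with ha₀
    have hs0 : star a₀ = -b / (2 * θ * a) := by simp [ha₀, hθ]
    have h0 : a₀ ≠ 0 := div_ne_zero (neg_ne_zero.2 hsb) (mul_ne_zero (mul_ne_zero h2 hθ0) hsa)
    have hN : (a₀ + a) * star (a₀ + a) = a₀ * star a₀ := by
      rw [star_add, hs0, ha₀]; field_simp; linear_combination -2 * θ * a * star a * h
    have h1 : a₀ + a ≠ 0 := fun e => norm_ne_zero h0 (by rw [← hN, e, zero_mul])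
    have hσ0 := (map_ne_zero σ).2 h0
    have hσ1 := (map_ne_zero σ).2 h1
    have h3 := C.blk hσ0 hσ1 (by rw [map_add]; simpa using ha) (by
      rw [hk _ hσ0, hk _ hσ1, hσN, hσN, hN])
    have h4 : -2 * σ a₀ ≠ 0 := mul_ne_zero (neg_ne_zero.2 h2) hσ0
    rw [← map_neg, hs, ← map_add, neg_add_cancel_left,
      show θ * (star (-a₀) * (a₀ + a) - -a₀ * star (a₀ + a)) = b - θ * (a * star a) by
        rw [star_neg, star_add, hs0, ha₀]; field_simp; linear_combination -2 * θ * a * star a * h,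
      e1, a_u, C.Φ_eq h4, ← k, C.k_real hσ0 (neg_ne_zero.2 h2) (by simp), hk _ hσ0, hσN,
      show (-2 * -2 * (θ * (a₀ * star a₀)))⁻¹ * (-2 * σ a₀) = σ (a / b) by
        rw [← show (-2 * -2 * (θ * (a₀ * star a₀)))⁻¹ * (-2 * a₀) = a / b by rw [hs0]; field_simp,
          map_mul, map_mul, hσ (-2) (by simp),
          hσ ((-2 * -2 * (θ * (a₀ * star a₀)))⁻¹) (by simp [hθ, mul_comm])]] at h3
    rw [← τ_o (C.uU _ _) (C.u_ne hσa _), e1, h3, hk _ hσa, hσN]
    congr 3
    have h5 : θ * (a * star a) * (θ * (a * star a)) - (b - θ * (a * star a)) * (b - θ * (a * star a))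
        = b * star b := by linear_combination -b * h
    rw [h5, star_div₀]
    field_simp
    linear_combination -h
  · intro L hL ht
    refine gen L (fun u hu => ?_) ht
    obtain ⟨a, b, h, rfl⟩ := hall u hu
    exact hL a b h

include C in
theorem exists_fn [IsSimpleGroup G] : Nonempty (Fn G Ω E) := by
  rcases C.k_cases with h | h
  · exact C.exists_fn_of (RingHom.id E) C.s (fun _ _ => rfl) (fun _ => rfl) (fun _ => rfl) C.s_ne
      C.star_s h fun _ _ => rfl
  · exact C.exists_fn_of (starRingEnd E) (-C.s) (fun _ h => h) (fun x => star_star x)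
      (fun x => by simp [starRingEnd_apply, mul_comm]) (neg_ne_zero.2 C.s_ne) (by simp [C.star_s]) h
      fun a b => by simp [starRingEnd_apply]; ring

end Cd

end Cfsg.Agent.H8.ON
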