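import Cfsg.Agent.H8.ON7
import Cfsg.Agent.H5.U.Bridge

/-! O'Nan's characterisation of `PSU₃(q)`: identification with the unitary group. -/

set_option autoImplicit false
set_option linter.unusedSectionVars false
set_option linter.unusedVariables false
set_option linter.unusedSimpArgs false

namespace Cfsg.Agent.H8.ON

open Subgroup H5.U H5.U.HF

section vec

variable {E : Type} [Field E] [StarRing E]

/-- coordinates with respect to a hyperbolic basis -/
def vv (η ω : E) (x y z : E) : Fin 3 → E := ![x + z / 2, η * (x - z / 2), y * ω]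

theorem vv_smul (η ω c x y z : E) : c • vv η ω x y z = vv η ω (c * x) (c * y) (c * z) := by
  ext i; fin_cases i <;> simp [vv] <;> ring

theorem vv_add (η ω x y z x' y' z' : E) :
    vv η ω x y z + vv η ω x' y' z' = vv η ω (x + x') (y + y') (z + z') := by
  ext i; fin_cases i <;> simp [vv] <;> ring

theorem vv_sub (η ω x y z x' y' z' : E) :
    vv η ω x y z - vv η ω x' y' z' = vv η ω (x - x') (y - y') (z - z') := by
  ext i; fin_cases i <;> simp [vv] <;> ring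

variable {η ω θ : E}

theorem vv_inj (h2 : (2 : E) ≠ 0) (hη : η ≠ 0) (hω : ω ≠ 0) {x y z x' y' z' : E}
    (h : vv η ω x y z = vv η ω x' y' z') : x = x' ∧ y = y' ∧ z = z' := by
  have h0 := congrFun h 0
  have h1 := congrFun h 1
  have h3 := congrFun h 2
  simp only [vv, Matrix.cons_val_zero, Matrix.cons_val_one, Matrix.cons_val] at h0 h1 h3
  have h4 := mul_left_cancel₀ hη h1
  have h5 : z = z' := by
    have : z / 2 * 2 = z' / 2 * 2 := by linear_combination h0 - h4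
    rwa [div_mul_cancel₀ _ h2, div_mul_cancel₀ _ h2] at this
  subst h5
  exact ⟨by linear_combination h0, mul_right_cancel₀ hω h3, rfl⟩

theorem vv_surj (h2 : (2 : E) ≠ 0) (hη : η ≠ 0) (hω : ω ≠ 0) (v : Fin 3 → E) :
    ∃ x y z, v = vv η ω x y z := by
  refine ⟨(v 0 + v 1 / η) / 2, v 2 / ω, v 0 - v 1 / η, ?_⟩
  ext i; fin_cases i <;> simp [vv] <;> field_simp <;> ring

theorem h_vv (h2 : (2 : E) ≠ 0) (hη : η * star η = -1) (hω : ω * star ω = -(2 * θ))
    (x y z x' y' z' : E) : stdHF (Fin 3) E (vv η ω x y z) (vv η ω x' y' z') =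
      x * star z' + z * star x' - 2 * θ * (y * star y') := by
  simp only [stdHF, vv, Fin.sum_univ_three, Matrix.cons_val_zero, Matrix.cons_val_one,
    Matrix.cons_val, star_add, star_sub, star_mul', star_div₀, star_ofNat]
  have : (2 : E) * 2⁻¹ = 1 := mul_inv_cancel₀ h2
  simp only [div_eq_mul_inv]
  linear_combination (x - z * 2⁻¹) * (star x' - star z' * 2⁻¹) * hη + y * star y' * hω +
    (x * star z' + z * star x') * this

end vec

namespace Fn

variable {G Ω : Type*} {E : Type} [Group G] [MulAction G Ω] [Field E] [StarRing E] (D : Fn G Ω E)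
  (η ω : E)

/-- vectors representing a point -/
def Rep (x : Ω) (v : Fin 3 → E) : Prop :=
  (x = D.i ∧ ∃ l, l ≠ 0 ∧ v = vv η ω l 0 0) ∨
    ∃ a b, b + star b = 2 * D.θ * (a * star a) ∧ x = D.P a b ∧
      ∃ l, l ≠ 0 ∧ v = vv η ω (l * b) (l * a) l

/-- a linear map inducing a group element -/
def Act (g : (Fin 3 → E) ≃ₗ[E] (Fin 3 → E)) (γ : G) : Prop :=
  ∀ x v, D.Rep η ω x v → D.Rep η ω (γ • x) (g v)

variable {D η ω}

theorem Rep.smul {x : Ω} {v : Fin 3 → E} (h : D.Rep η ω x v) {c : E} (hc : c ≠ 0) :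
    D.Rep η ω x (c • v) := by
  rcases h with ⟨h, l, hl, rfl⟩ | ⟨a, b, h, e, l, hl, rfl⟩
  · exact Or.inl ⟨h, c * l, mul_ne_zero hc hl, by simp [vv_smul]⟩
  · exact Or.inr ⟨a, b, h, e, c * l, mul_ne_zero hc hl, by simp [vv_smul, mul_assoc]⟩

theorem exists_rep (x : Ω) : ∃ v, D.Rep η ω x v := by
  by_cases h : x = D.i
  · exact ⟨_, Or.inl ⟨h, 1, one_ne_zero, rfl⟩⟩
  · obtain ⟨a, b, h, e⟩ := D.P_surj x h
    exact ⟨_, Or.inr ⟨a, b, h, e.symm, 1, one_ne_zero, rfl⟩⟩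

theorem Rep.prop {x : Ω} {v v' : Fin 3 → E} (h : D.Rep η ω x v) (h' : D.Rep η ω x v') :
    ∃ c : E, c ≠ 0 ∧ v' = c • v := by
  rcases h with ⟨h, l, hl, rfl⟩ | ⟨a, b, h, e, l, hl, rfl⟩ <;>
  rcases h' with ⟨h', l', hl', rfl⟩ | ⟨a', b', h', e', l', hl', rfl⟩
  · exact ⟨l' / l, div_ne_zero hl' hl, by simp [vv_smul, hl]⟩
  · exact absurd (e'.symm.trans h) (D.P_ne _ _)
  · exact absurd (e.symm.trans h') (D.P_ne _ _)
  · obtain ⟨rfl, rfl⟩ := D.P_inj _ _ _ _ h h' (e.symm.trans e')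
    exact ⟨l' / l, div_ne_zero hl' hl, by simp [vv_smul, hl, ← mul_assoc]⟩

theorem Rep.eq (hη : η ≠ 0) (hω : ω ≠ 0) {x y : Ω} {v : Fin 3 → E} (h : D.Rep η ω x v)
    (h' : D.Rep η ω y v) : x = y := by
  rcases h with ⟨h, l, hl, e1⟩ | ⟨a, b, h, e, l, hl, e1⟩ <;>
  rcases h' with ⟨h', l', hl', e2⟩ | ⟨a', b', h', e', l', hl', e2⟩
  · rw [h, h']
  · exact absurd (vv_inj D.two hη hω (e1.symm.trans e2)).2.2.symm hl'
  · exact absurd (vv_inj D.two hη hω (e1.symm.trans e2)).2.2 hl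
  · obtain ⟨h1, h2, rfl⟩ := vv_inj D.two hη hω (e1.symm.trans e2)
    rw [e, e', mul_left_cancel₀ hl h1, mul_left_cancel₀ hl h2]

theorem Act.mul {g g' : (Fin 3 → E) ≃ₗ[E] (Fin 3 → E)} {γ γ' : G} (h : D.Act η ω g γ)
    (h' : D.Act η ω g' γ') : D.Act η ω (g * g') (γ * γ') := fun x v hv => by
  rw [mul_smul]; exact h _ _ (h' _ _ hv)

theorem Act.one : D.Act η ω 1 1 := fun x v hv => by simpa using hv

theorem Act.inv {g : (Fin 3 → E) ≃ₗ[E] (Fin 3 → E)} {γ : G} (h : D.Act η ω g γ) :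
    D.Act η ω g⁻¹ γ⁻¹ := fun x v hv => by
  obtain ⟨v', hv'⟩ := exists_rep (D := D) (η := η) (ω := ω) (γ⁻¹ • x)
  have h1 := h _ _ hv'
  rw [smul_inv_smul] at h1
  obtain ⟨c, hc, rfl⟩ := h1.prop hv
  have : g⁻¹ (c • g v') = c • v' := by
    rw [map_smul]
    congr 1
    exact g.symm_apply_apply v'
  rw [this]
  exact hv'.smul hc

theorem Act.unique (hη : η ≠ 0) (hω : ω ≠ 0) {g : (Fin 3 → E) ≃ₗ[E] (Fin 3 → E)} {γ γ' : G}
    (h : D.Act η ω g γ) (h' : D.Act η ω g γ') : γ = γ' := by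
  have := D.faith (γ'⁻¹ * γ) fun x => by
    obtain ⟨v, hv⟩ := exists_rep (D := D) (η := η) (ω := ω) x
    rw [mul_smul, (h _ _ hv).eq hη hω (h' _ _ hv), inv_smul_smul]
  rw [inv_mul_eq_one] at this
  exact this.symm

theorem Act.scalar (hη : η ≠ 0) (hω : ω ≠ 0) {g : (Fin 3 → E) ≃ₗ[E] (Fin 3 → E)}
    (h : D.Act η ω g 1) : ∃ c : E, ∀ v, g v = c • v := by
  have key : ∀ x v, D.Rep η ω x v → ∃ c : E, g v = c • v := fun x v hv => by
    have := h x v hv
    rw [one_smul] at this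
    obtain ⟨c, -, e⟩ := hv.prop this
    exact ⟨c, e⟩
  obtain ⟨c1, e1⟩ := key _ _ (Or.inl ⟨rfl, 1, one_ne_zero, rfl⟩)
  obtain ⟨c2, e2⟩ := key _ _ (Or.inr ⟨0, 0, by simp, rfl, 1, one_ne_zero, rfl⟩)
  obtain ⟨c3, e3⟩ := key _ _ (Or.inr ⟨1, D.θ, by simp [D.θs, two_mul], rfl, 1, one_ne_zero, rfl⟩)
  obtain ⟨c4, e4⟩ := key _ _ (Or.inr ⟨-1, D.θ, by simp [D.θs, two_mul], rfl, 1, one_ne_zero, rfl⟩)
  simp only [one_mul, mul_zero] at e1 e2 e3 e4
  have h1 : vv η ω D.θ 1 1 + vv η ω D.θ (-1) 1 =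
      (2 * D.θ) • vv η ω 1 0 0 + (2 : E) • vv η ω 0 0 1 := by
    simp only [vv_smul, vv_add]; congr 1 <;> ring
  have h2 := congrArg g h1
  rw [map_add, map_add, map_smul, map_smul, e1, e2, e3, e4] at h2
  simp only [vv_smul, vv_add] at h2
  obtain ⟨h3, h4, h5⟩ := vv_inj D.two hη hω h2
  have h6 : c4 = c3 := by linear_combination -h4
  subst h6
  have h7 : c1 = c4 := mul_left_cancel₀ (mul_ne_zero D.two D.θ0) (by linear_combination -h3)
  have h8 : c2 = c4 := mul_left_cancel₀ D.two (by linear_combination -h5)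
  subst h7 h8
  refine ⟨c2, fun v => ?_⟩
  obtain ⟨x, y, z, rfl⟩ := vv_surj D.two hη hω v
  have h9 : vv η ω x y z = (x - y * D.θ) • vv η ω 1 0 0 + y • vv η ω D.θ 1 1 +
      (z - y) • vv η ω 0 0 1 := by
    simp only [vv_smul, vv_add]; congr 1 <;> ring
  rw [h9, map_add, map_add, map_smul, map_smul, map_smul, e1, e2, e3]
  simp only [vv_smul, vv_add]; congr 1 <;> ring

theorem act_E (hη : η * star η = -1) (hω : ω * star ω = -(2 * D.θ)) {l a₀ c : E}
    (o : (stdHF (Fin 3) E).Ok (vv η ω 1 0 0) (vv η ω l a₀ 0) c) :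
    D.Act η ω ((stdHF (Fin 3) E).E (vv η ω 1 0 0) (vv η ω l a₀ 0) c) (D.u a₀ (l - star l - c)) := by
  have h1 := o.tr
  rw [h_vv D.two hη hω] at h1
  rintro x v (⟨h, m, hm, rfl⟩ | ⟨a, b, h, e, m, hm, rfl⟩)
  · refine Or.inl ⟨by rw [h, D.u_i], m, hm, ?_⟩
    rw [E_apply o, h_vv D.two hη hω, h_vv D.two hη hω]
    simp
  · refine Or.inr ⟨a₀ + a, l - star l - c + b + 2 * D.θ * (star a₀ * a), ?_, by rw [e, D.u_P], m, hm,
      ?_⟩
    · simp only [star_add, star_sub, star_mul', star_star, D.θs, star_ofNat, star_zero] at h1 ⊢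
      linear_combination h - h1
    · rw [E_apply o, h_vv D.two hη hω, h_vv D.two hη hω]
      simp only [vv_smul, vv_add, vv_sub]
      congr 1 <;> simp <;> ring

theorem R_vv (hη : η * star η = -1) (hω : ω * star ω = -(2 * D.θ)) (x y z : E) :
    ((stdHF (Fin 3) E).R (vv η ω 1 0 1) (-1) * (stdHF (Fin 3) E).R (vv η ω 0 1 0) (-1))
      (vv η ω x y z) = vv η ω (-z) (-y) (-x) := by
  have h2 := D.two
  have h3 := D.θ0
  rw [mul_app, HF.R_apply (v := vv η ω 0 1 0) (by rw [h_vv D.two hη hω]; simp [h2, h3]) (by simp),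
    h_vv D.two hη hω, h_vv D.two hη hω, vv_smul, vv_add,
    HF.R_apply (by rw [h_vv D.two hη hω]; simpa [← two_mul, one_add_one_eq_two] using h2) (by simp),
    h_vv D.two hη hω, h_vv D.two hη hω, vv_smul, vv_add]
  congr 1 <;> simp [one_add_one_eq_two] <;> field_simp <;> ring

theorem act_t (hη : η * star η = -1) (hω : ω * star ω = -(2 * D.θ)) :
    D.Act η ω ((stdHF (Fin 3) E).R (vv η ω 1 0 1) (-1) * (stdHF (Fin 3) E).R (vv η ω 0 1 0) (-1))
      D.t := by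
  rintro x v (⟨h, m, hm, rfl⟩ | ⟨a, b, h, e, m, hm, rfl⟩)
  · refine Or.inr ⟨0, 0, by simp, by rw [h, D.t_i], -m, neg_ne_zero.2 hm, ?_⟩
    rw [R_vv hη hω]; simp
  · by_cases hb : b = 0
    · subst hb
      have ha : a = 0 := by
        by_contra ha
        exact mul_ne_zero (mul_ne_zero D.two D.θ0) (norm_ne_zero ha) (by rw [← h]; simp)
      subst ha
      refine Or.inl ⟨by rw [e, D.t_o], -m, neg_ne_zero.2 hm, ?_⟩
      rw [R_vv hη hω]; simp
    · refine Or.inr ⟨a / b, b⁻¹, ?_, by rw [e, D.t_P a b h hb], -(m * b),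
        neg_ne_zero.2 (mul_ne_zero hm hb), ?_⟩
      · have := star_ne_zero' hb
        rw [star_inv₀, star_div₀]
        field_simp
        linear_combination h
      · rw [R_vv hη hω]
        congr 1 <;> field_simp

end Fn

theorem Fn.iso {G Ω : Type*} {E : Type} [Group G] [MulAction G Ω] [Field E] [Fintype E] {q : ℕ}
    (hE : Fintype.card E = q ^ 2) (D : letI := powStar hE; Fn G Ω E) :
    Nonempty (G ≃* Cfsg.PSU 3 E q) := by
  letI := powStar hE
  haveI := powStar_nstar hE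
  obtain ⟨η, hη0, hη⟩ := exists_norm' (F := E) (t := -1) (by simp) (by simp)
  obtain ⟨ω, hω0, hω⟩ := exists_norm' (F := E) (t := -(2 * D.θ)) (by simp [D.θs])
    (neg_ne_zero.2 (mul_ne_zero D.two D.θ0))
  set h := stdHF (Fin 3) E with hh
  let M : Subgroup ((Fin 3 → E) ≃ₗ[E] (Fin 3 → E)) :=
    { carrier := {g | g ∈ h.SU ∧ ∃ γ, D.Act η ω g γ}
      mul_mem' := by
        rintro a b ⟨ha, γ, h1⟩ ⟨hb, γ', h2⟩
        exact ⟨h.SU.mul_mem ha hb, _, h1.mul h2⟩
      one_mem' := ⟨h.SU.one_mem, 1, Fn.Act.one⟩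
      inv_mem' := by
        rintro a ⟨ha, γ, h1⟩
        exact ⟨h.SU.inv_mem ha, _, h1.inv⟩ }
  have ht : h.R (vv η ω 1 0 1) (-1) * h.R (vv η ω 0 1 0) (-1) ∈ h.SU := by
    have h2 := D.two
    have h3 := D.θ0
    refine mem_SU.2 ⟨h.GU.mul_mem (R_mem_GU _ _) (R_mem_GU _ _), ?_⟩
    rw [det_mul', det_R (by rw [h_vv D.two hη hω]; simpa [one_add_one_eq_two] using h2) (by simp),
      det_R (by rw [h_vv D.two hη hω]; simp [h2, h3]) (by simp)]
    simp
  have hM : h.SU ≤ M := by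
    refine SU_le_of_Q (fun g hg => hg.1) (e := vv η ω 1 0 0) (by rw [h_vv D.two hη hω]; simp) ?_
      (g := _) ⟨ht, _, Fn.act_t hη hω⟩ (by rw [Fn.R_vv hη hω, h_vv D.two hη hω]; simp)
    intro w _ c o
    obtain ⟨x, y, z, rfl⟩ := vv_surj D.two hη0 hω0 w
    have h1 := o.we
    rw [h_vv D.two hη hω] at h1
    have h2 : z = 0 := by simpa using h1
    subst h2
    exact ⟨E_mem_SU _ _ _, _, Fn.act_E hη hω o⟩
  have hlin : ∀ A : Cfsg.SU 3 E q, Matrix.SpecialLinearGroup.toLin' A.1 ∈ h.SU := fun A =>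
    mem_SU.2 ⟨fun u v => A.2 u v, by
      have : ((Matrix.SpecialLinearGroup.toLin' A.1 : (Fin 3 → E) ≃ₗ[E] (Fin 3 → E)) :
        (Fin 3 → E) →ₗ[E] (Fin 3 → E)) = Matrix.toLin' A.1.1 := rfl
      rw [this, LinearMap.det_toLin', A.1.2]⟩
  have hmat : ∀ g ∈ h.SU, ∃ A : Cfsg.SU 3 E q, Matrix.SpecialLinearGroup.toLin' A.1 = g := by
    intro g hg
    have h1 : ∀ v, Matrix.mulVec (LinearMap.toMatrix' (g : (Fin 3 → E) →ₗ[E] (Fin 3 → E))) v = g v :=
      fun v => by rw [LinearMap.toMatrix'_mulVec]; rfl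
    refine ⟨⟨⟨LinearMap.toMatrix' (g : (Fin 3 → E) →ₗ[E] (Fin 3 → E)), by
      rw [LinearMap.det_toMatrix', (mem_SU.1 hg).2]⟩, fun u v => ?_⟩, LinearEquiv.ext fun v => h1 v⟩
    exact (congrArg₂ (hermForm 3 E q) (h1 u) (h1 v)).trans ((mem_SU.1 hg).1 u v)
  choose π hπ using fun A : Cfsg.SU 3 E q => (hM (hlin A)).2
  let f : Cfsg.SU 3 E q →* G := MonoidHom.mk' π fun A B =>
    (hπ (A * B)).unique hη0 hω0 (by
      have := (hπ A).mul (hπ B)
      rwa [← map_mul] at this)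
  have hf : ∀ g γ, g ∈ h.SU → D.Act η ω g γ → γ ∈ f.range := by
    intro g γ hg ha
    obtain ⟨A, rfl⟩ := hmat g hg
    exact ⟨A, (hπ A).unique hη0 hω0 ha⟩
  have hs : Function.Surjective f := by
    rw [← MonoidHom.range_eq_top]
    refine D.gen _ (fun a b hab => ?_) (hf _ _ ht (Fn.act_t hη hω))
    have o : h.Ok (vv η ω 1 0 0) (vv η ω 0 a 0) (-b) :=
      ⟨by rw [h_vv D.two hη hω]; simp, by rw [h_vv D.two hη hω]; simp, by
        rw [h_vv D.two hη hω, star_neg]; linear_combination -hab⟩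
    have := hf _ _ (E_mem_SU _ _ _) (Fn.act_E hη hω o)
    simpa using this
  have hk : f.ker = center (Cfsg.SU 3 E q) := by
    ext A
    rw [MonoidHom.mem_ker]
    constructor
    · intro hA
      have h1 := hπ A
      rw [show π A = 1 from hA] at h1
      obtain ⟨c, hc⟩ := h1.scalar hη0 hω0
      rw [mem_center_iff]
      intro B
      apply Subtype.ext
      apply Matrix.SpecialLinearGroup.toLin'_injective
      rw [coe_mul, coe_mul, map_mul, map_mul]
      ext1 v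
      rw [mul_app, mul_app, hc, hc, map_smul]
    · intro hA
      have : f A ∈ center G := by
        rw [mem_center_iff]
        intro g
        obtain ⟨B, rfl⟩ := hs g
        rw [← map_mul, ← map_mul, mem_center_iff.1 hA B]
      rwa [D.cent, mem_bot] at this
  exact ⟨(QuotientGroup.quotientKerEquivOfSurjective f hs).symm.trans
    (QuotientGroup.quotientMulEquivOfEq hk)⟩

theorem main {G Ω : Type*} [Group G] [MulAction G Ω] [Finite G] [IsSimpleGroup G] {p n : ℕ}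
    (S : St G Ω p n) : ∃ (F : Type) (_ : Field F) (_ : Fintype F), Fintype.card F = (p ^ n) ^ 2 ∧
      Nonempty (G ≃* Cfsg.PSU 3 F (p ^ n)) := by
  haveI : Fact p.Prime := ⟨S.hp⟩
  haveI : Fintype (GaloisField p (n * 2)) := Fintype.ofFinite _
  have hE : Fintype.card (GaloisField p (n * 2)) = (p ^ n) ^ 2 := by
    rw [← Nat.card_eq_fintype_card, GaloisField.card p _ (by have := S.hn; omega), pow_mul]
  refine ⟨GaloisField p (n * 2), inferInstance, inferInstance, hE, ?_⟩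
  letI := powStar hE
  haveI : FE (GaloisField p (n * 2)) (p ^ n) :=
    ⟨hE, fun _ => rfl, (powStar_nstar hE).exists_ne, card_F0 hE⟩
  obtain ⟨C⟩ := exists_cd S (GaloisField p (n * 2)) (by rw [Nat.card_eq_fintype_card, hE])
  obtain ⟨D⟩ := C.exists_fn
  exact Fn.iso hE D

end Cfsg.Agent.H8.ON
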