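import Cfsg.Agent.H8.ON1
import Cfsg.Prelude.Def_LieExceptional

/-! Rank one (B,N)-pairs as doubly transitive actions. -/

set_option autoImplicit false
set_option linter.unusedSectionVars false
set_option linter.unusedVariables false

namespace Cfsg.Agent.H8.ON

open Subgroup

theorem bn_rank_one {G : Type*} [Group G] [Finite G] (P : Cfsg.BNPair G) (h1 : P.rank = 1) :
    ∃ s ∈ P.N, s ∉ P.B ∧ ∀ g : G, g ∈ P.B ∨ ∃ b ∈ P.B, ∃ b' ∈ P.B, g = b * s * b' := by
  obtain ⟨⟨s, hs⟩, hu⟩ := Nat.card_eq_one_iff_exists.1 h1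
  have hS : P.S = {s} := by
    ext x
    exact ⟨fun hx => congrArg Subtype.val (hu ⟨x, hx⟩), fun hx => hx ▸ hs⟩
  have hsN : s ∈ P.N := P.subset hs
  have hsB : s ∉ P.B := by
    intro h
    apply P.conj_ne s hs
    ext x
    constructor
    · rintro ⟨b, hb, rfl⟩
      exact P.B.mul_mem (P.B.mul_mem h hb) h
    · intro hx
      exact ⟨s⁻¹ * x * s⁻¹, P.B.mul_mem (P.B.mul_mem (P.B.inv_mem h) hx) (P.B.inv_mem h), by group⟩
  refine ⟨s, hsN, hsB, ?_⟩
  let Y : G → Prop := fun g => g ∈ P.B ∨ ∃ b ∈ P.B, ∃ b' ∈ P.B, g = b * s * b'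
  let M : Subgroup G :=
    { carrier := {g | ∀ x, Y x → Y (g * x)}
      mul_mem' := fun {a b} ha hb x hx => by rw [mul_assoc]; exact ha _ (hb x hx)
      one_mem' := fun x hx => by rwa [one_mul]
      inv_mem' := by
        intro a ha
        have : ∀ k : ℕ, ∀ x, Y x → Y (a ^ k * x) := by
          intro k
          induction k with
          | zero => intro x hx; simpa using hx
          | succ k ih => intro x hx; rw [pow_succ', mul_assoc]; exact ha _ (ih x hx)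
        have h2 : a⁻¹ = a ^ (orderOf a - 1) := by
          rw [inv_eq_iff_mul_eq_one, ← pow_succ', Nat.sub_add_cancel (orderOf_pos a),
            pow_orderOf_eq_one]
        rw [h2]
        exact this _ }
  have hB : P.B ≤ M := by
    rintro b hb x (hx | ⟨c, hc, c', hc', rfl⟩)
    · exact Or.inl (P.B.mul_mem hb hx)
    · exact Or.inr ⟨b * c, P.B.mul_mem hb hc, c', hc', by group⟩
  have hsM : s ∈ M := by
    rintro x (hx | ⟨c, hc, c', hc', rfl⟩)
    · exact Or.inr ⟨1, P.B.one_mem, x, hx, by group⟩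
    · rcases P.mul_mem_union s hs s hsN c hc with h | h <;>
        obtain ⟨d, hd, d', hd', e⟩ := DoubleCoset.mem_doubleCoset.1 h
      · left
        rw [show s * (c * s * c') = s * c * s * c' by group, e]
        exact P.B.mul_mem (P.B.mul_mem (P.B.mul_mem hd (P.sq_mem s hs)) hd') hc'
      · right
        exact ⟨d, hd, d' * c', P.B.mul_mem hd' hc', by
          rw [show s * (c * s * c') = s * c * s * c' by group, e]; group⟩
  have hN : P.N ≤ M := by
    rw [← P.closure_sup, hS]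
    exact sup_le ((closure_le M).2 (by simpa using hsM)) (inf_le_left.trans hB)
  intro g
  have : g ∈ M := (sup_le hB hN) (P.sup_eq_top ▸ mem_top g)
  simpa using this 1 (Or.inl P.B.one_mem)

theorem bn_decomp {G : Type*} [Group G] {B U H : Subgroup G} (hUB : U ≤ B)
    (hUn : ∀ b ∈ B, ∀ u ∈ U, b * u * b⁻¹ ∈ U) (hH : H ≤ B) (hsplit : U ⊔ H = B) {b : G}
    (hb : b ∈ B) : ∃ u ∈ U, ∃ y ∈ H, b = u * y := by
  let M : Subgroup G :=
    { carrier := {g | ∃ u ∈ U, ∃ y ∈ H, g = u * y}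
      mul_mem' := by
        rintro _ _ ⟨u, hu, y, hy, rfl⟩ ⟨u', hu', y', hy', rfl⟩
        exact ⟨u * (y * u' * y⁻¹), U.mul_mem hu (hUn y (hH hy) u' hu'), y * y', H.mul_mem hy hy',
          by group⟩
      one_mem' := ⟨1, U.one_mem, 1, H.one_mem, by simp⟩
      inv_mem' := by
        rintro _ ⟨u, hu, y, hy, rfl⟩
        exact ⟨y⁻¹ * u⁻¹ * y⁻¹⁻¹, hUn _ (hH (H.inv_mem hy)) _ (U.inv_mem hu), y⁻¹, H.inv_mem hy,
          by group⟩ }
  have : B ≤ M := by
    rw [← hsplit]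
    exact sup_le (fun u hu => ⟨u, hu, 1, H.one_mem, by simp⟩) fun y hy => ⟨1, U.one_mem, y, hy, by simp⟩
  exact this hb

theorem exists_st {G : Type*} [Group G] [Finite G] [IsSimpleGroup G]
    (P : Cfsg.BNPair G) (h1 : P.rank = 1) {p n : ℕ} (hp : p.Prime) (hp2 : p ≠ 2) (hn : 1 ≤ n)
    (U : Subgroup G) (hUB : U ≤ P.B) (hUn : ∀ b ∈ P.B, ∀ u ∈ U, b * u * b⁻¹ ∈ U)
    (hsplit : U ⊔ (P.B ⊓ P.N) = P.B)
    (hind : P.B.index = p ^ (3 * n) + 1) (hU : Nat.card U = p ^ (3 * n))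
    (hHc : IsCyclic ↥(P.B ⊓ P.N))
    (hH : Nat.gcd 3 (p ^ n + 1) * Nat.card ↥(P.B ⊓ P.N) = p ^ (2 * n) - 1) :
    Nonempty (St G (G ⧸ P.B) p n) := by
  obtain ⟨s, hsN, hsB, hg⟩ := bn_rank_one P h1
  have hi : ∀ g : G, g • ((1 : G) : G ⧸ P.B) = ((1 : G) : G ⧸ P.B) ↔ g ∈ P.B := by
    intro g
    rw [MulAction.Quotient.smul_mk, QuotientGroup.eq]
    simp
  have ho : ∀ y ∈ P.B ⊓ P.N, y • ((s : G) : G ⧸ P.B) = ((s : G) : G ⧸ P.B) := by
    intro y hy
    rw [MulAction.Quotient.smul_mk, QuotientGroup.eq]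
    have := P.conj_mem s⁻¹ (P.N.inv_mem hsN) y⁻¹ ((P.B ⊓ P.N).inv_mem hy)
    simpa [mul_assoc] using this
  have hne : ((s : G) : G ⧸ P.B) ≠ ((1 : G) : G ⧸ P.B) := by
    rw [Ne, QuotientGroup.eq]
    simpa using hsB
  have htr : ∀ x : G ⧸ P.B, x ≠ ((1 : G) : G ⧸ P.B) → ∃ u ∈ U, u • ((s : G) : G ⧸ P.B) = x := by
    intro x hx
    obtain ⟨g, rfl⟩ := QuotientGroup.mk_surjective x
    rcases hg g with h | ⟨b, hb, b', hb', rfl⟩
    · exact absurd (by rw [QuotientGroup.eq]; simpa using h) hx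
    · obtain ⟨u, hu, y, hy, rfl⟩ := bn_decomp hUB hUn inf_le_left hsplit hb
      refine ⟨u, hu, ?_⟩
      rw [← ho y hy, ← mul_smul, MulAction.Quotient.smul_mk, QuotientGroup.eq]
      simpa [mul_assoc] using hb'
  have hfr : ∀ u ∈ U, u • ((s : G) : G ⧸ P.B) = ((s : G) : G ⧸ P.B) → u = 1 := by
    have h2 := card_ne_add_one (fun _ : G ⧸ P.B => True) (a := ((1 : G) : G ⧸ P.B)) trivial
    rw [Nat.card_congr (Equiv.subtypeUnivEquiv (fun _ => trivial)), ← index_eq_card, hind,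
      ← hU] at h2
    have := Function.Surjective.bijective_of_nat_card_le
      (f := fun u : U => (⟨(u : G) • ((s : G) : G ⧸ P.B), trivial, fun h => hne (by
        rw [← (hi u).2 (hUB u.2)] at h
        exact smul_left_cancel _ h)⟩ : {x : G ⧸ P.B // True ∧ x ≠ ((1 : G) : G ⧸ P.B)}))
      (fun x => by
        obtain ⟨u, hu, e⟩ := htr x.1 x.2.2
        exact ⟨⟨u, hu⟩, Subtype.ext e⟩) (by omega)
    intro u hu e
    exact congrArg Subtype.val (@this.1 ⟨u, hu⟩ 1 (Subtype.ext (by simpa using e)))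
  refine ⟨⟨(1 : G), (s : G), U, P.B ⊓ P.N, hne, ?_, ?_, fun u hu => (hi u).2 (hUB hu),
    fun g hg => hUn g ((hi g).1 hg), htr, hfr, ⟨s, by simp⟩, hHc, hp, hp2, hn, hU, hH⟩⟩
  · intro g hg
    rcases (P.B.normalCore_normal).eq_bot_or_eq_top with h | h
    · have : g ∈ P.B.normalCore := by
        rw [normalCore_eq_ker, MonoidHom.mem_ker]
        ext x
        simp [hg x]
      rwa [h, mem_bot] at this
    · exact absurd (P.B.normalCore_le (h ▸ mem_top s)) hsB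
  · intro g
    refine ⟨fun h => ⟨(hi g).2 h.1, ho g h⟩, fun h => ?_⟩
    obtain ⟨u, hu, y, hy, rfl⟩ := bn_decomp hUB hUn inf_le_left hsplit ((hi g).1 h.1)
    have := hfr u hu (by have := h.2; rwa [mul_smul, ho y hy] at this)
    rwa [this, one_mul]

end Cfsg.Agent.H8.ON
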