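import Cfsg.Agent.H8.SpMax4

/-! Non-maximal tensor subgroups of orthogonal groups, part 1. -/

set_option autoImplicit false
set_option linter.unusedSectionVars false
set_option linter.style.haveILetI false

namespace Cfsg.Agent.H8

open Module Cfsg.Agent.Orth Cfsg.Geo
open Cfsg.Agent.H7 (Irr AbsIrr IsScal NormA NormG cj Isom HForm adj spanAlg ctr gform tw frameEquiv
  frameVec frameGram frameGL pt slot ptGL permGL J2 permMat)
open scoped Matrix Kronecker commutatorElement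

lemma between_of {G : Type*} [Group G] {T K L : Subgroup G} (h1 : ∀ g ∈ T, g ∈ L → g ∈ K)
    (h2 : ∃ g ∈ L, g ∈ K ∧ g ∉ T) (h3 : ¬ L ≤ K) : ∃ K' : Subgroup G, T ⊓ L < K' ∧ K' < L := by
  obtain ⟨g, hg, hg1, hg2⟩ := h2
  refine ⟨K ⊓ L, lt_of_le_not_ge (fun x hx => ⟨h1 x hx.1 hx.2, hx.2⟩) fun h => hg2 (h ⟨hg1, hg⟩).1,
    lt_of_le_not_ge inf_le_right fun h => h3 fun x hx => (h hx).1⟩

lemma quad_ext {F V : Type*} [Field F] [AddCommGroup V] [Module F V] {Q₁ Q₂ : QuadraticForm F V}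
    (hB : ∀ x y, B Q₁ x y = B Q₂ x y) {S : Set V} (hS : Submodule.span F S = ⊤)
    (h : ∀ v ∈ S, Q₁ v = Q₂ v) (v : V) : Q₁ v = Q₂ v := by
  have hv : v ∈ Submodule.span F S := hS ▸ trivial
  induction hv using Submodule.span_induction with
  | mem x hx => exact h x hx
  | zero => simp
  | add x y _ _ hx hy => rw [Q_add, Q_add, hx, hy, hB]
  | smul c x _ hx => rw [Q_smul, Q_smul, hx]

variable {ι : Type} [Fintype ι] [DecidableEq ι] {F : Type*} [Field F]

/-- the stabiliser under conjugation of a set of matrices -/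
def mStab (S : Set (Matrix ι ι F)) : Subgroup (GL ι F) where
  carrier := {g | ∀ x, x ∈ S ↔ cj g x ∈ S}
  mul_mem' {a b} ha hb x := by rw [H7.cj_mul]; exact (hb x).trans (ha _)
  one_mem' x := by rw [H7.cj_one]
  inv_mem' {a} ha x := by
    have := ha (cj a⁻¹ x)
    rw [← H7.cj_mul, mul_inv_cancel, H7.cj_one] at this
    exact this.symm

lemma mem_mStab [Finite F] {S : Set (Matrix ι ι F)} {g : GL ι F} (h : ∀ x ∈ S, cj g x ∈ S) :
    g ∈ mStab S := by
  intro x
  refine ⟨h x, fun hx => ?_⟩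
  obtain ⟨y, hy, hxy⟩ := ((Set.toFinite S).injOn_iff_bijOn_of_mapsTo (f := cj g) h).1
    (cj g).injective.injOn |>.surjOn hx
  rwa [← (cj g).injective hxy]

lemma rank_le_two_of_span {x : Matrix ι ι F} {u w : ι → F}
    (h : ∀ v, x *ᵥ v ∈ Submodule.span F {u, w}) : x.rank ≤ 2 :=
  (Submodule.finrank_mono (by rintro _ ⟨v, rfl⟩; exact h v)).trans (finrank_span_pair_le u w)

lemma rank_cj_sub {g : GL ι F} (h : ((g : Matrix ι ι F) - 1).rank ≤ 2) (x : Matrix ι ι F) :
    (cj g x - x).rank ≤ 4 := by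
  have : cj g x - x = ((g : Matrix ι ι F) - 1) * (x * (g⁻¹ : GL ι F)) -
      x * (g⁻¹ : GL ι F) * ((g : Matrix ι ι F) - 1) := by
    rw [H7.cj_apply, sub_mul, mul_sub, mul_assoc x, Units.inv_mul, mul_assoc]
    simp
  rw [this]
  have h1 := Matrix.rank_mul_le_left ((g : Matrix ι ι F) - 1) (x * ((g⁻¹ : GL ι F) : Matrix ι ι F))
  have h2 := Matrix.rank_mul_le_right (x * ((g⁻¹ : GL ι F) : Matrix ι ι F)) ((g : Matrix ι ι F) - 1)
  exact (H7.rank_sub_le' _ _).trans (by omega)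

lemma comm_of_cj {g : GL ι F} {x : Matrix ι ι F} (h : cj g x = x) (v : ι → F) :
    (g : Matrix ι ι F) *ᵥ (x *ᵥ v) = x *ᵥ ((g : Matrix ι ι F) *ᵥ v) := by
  rw [← H7.cj_mulVec, h]

lemma cj_of_comm {g : GL ι F} {x : Matrix ι ι F}
    (h : ∀ v, (g : Matrix ι ι F) *ᵥ (x *ᵥ v) = x *ᵥ ((g : Matrix ι ι F) *ᵥ v)) : cj g x = x :=
  cj_eq_of_mul (H7.mat_eq_of_mulVec fun v => by
    rw [← Matrix.mulVec_mulVec, ← Matrix.mulVec_mulVec, h])

lemma kron_eq_of_rank {α β : Type} [Fintype α] [DecidableEq α] [Fintype β] [DecidableEq β]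
    (hb : 5 ≤ Fintype.card β) (e : ι ≃ α × β) (P : GL ι F) {X Y : Matrix α α F}
    (h : (frameEquiv e P (Y ⊗ₖ (1 : Matrix β β F)) - frameEquiv e P (X ⊗ₖ (1 : Matrix β β F))).rank
      ≤ 4) : Y = X := by
  by_contra hne
  have h1 := H7.card_le_rank_kron_one (β := β) (sub_ne_zero.2 hne)
  have h2 : (Y - X) ⊗ₖ (1 : Matrix β β F) = Y ⊗ₖ 1 - X ⊗ₖ 1 := by
    ext p q; simp [sub_mul]
  rw [← map_sub, H7.rank_frameEquiv, ← h2] at h
  omega

variable [Fintype F] {Q : (ι → F) → F} (hQ : IsNondegenerateQuadraticForm Q)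
include hQ

lemma exists_eich (hd : 5 ≤ Fintype.card ι) {u w : ι → F} (hu : Q u = 0)
    (hw : QuadraticMap.polar Q u w = 0) : ∃ g ∈ omegaGL Q, ((g : Matrix ι ι F) - 1).rank ≤ 2 ∧
      ∀ v, (g : Matrix ι ι F) *ᵥ v = v + QuadraticMap.polar Q u v • w -
        (QuadraticMap.polar Q w v + Q w * QuadraticMap.polar Q u v) • u := by
  obtain ⟨g, hg, he⟩ := exists_omega hQ hd (eich_mem_EO u w)
  have h : ∀ v, (g : Matrix ι ι F) *ᵥ v = v + QuadraticMap.polar Q u v • w -
      (QuadraticMap.polar Q w v + Q w * QuadraticMap.polar Q u v) • u := fun v => by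
    rw [he, eich_apply (Q := toQF hQ) hu hw]; rfl
  refine ⟨g, hg, rank_le_two_of_span (u := u) (w := w) fun v => ?_, h⟩
  rw [Matrix.sub_mulVec, h, Matrix.one_mulVec, add_sub_right_comm, add_sub_right_comm, sub_sub_cancel_left]
  exact Submodule.add_mem _ (Submodule.neg_mem _ (Submodule.smul_mem _ _ (left_mem_pair _ _)))
    (Submodule.smul_mem _ _ (right_mem_pair _ _))

theorem isScal_of_comm_small (hd : 5 ≤ Fintype.card ι) {x : Matrix ι ι F}
    (h : ∀ g ∈ omegaGL Q, ((g : Matrix ι ι F) - 1).rank ≤ 2 → cj g x = x) : IsScal x := by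
  refine isScal_of_forall_eigen fun v => ?_
  by_contra hv
  have hv' : x *ᵥ v ∉ F ∙ v := fun h' => by
    obtain ⟨c, hc⟩ := Submodule.mem_span_singleton.1 h'
    exact hv ⟨c, hc.symm⟩
  have hN := nd_toQF hQ
  have h1 := finrank_span_singleton_le (F := F) v
  obtain ⟨u, -, hu1, hu2, hu3⟩ := hN.ndOn_top.exists_sing_perp_B_ne (X := F ∙ v) le_top
    (by simp; omega) trivial hv'
  have h2 := finrank_perp_ge (Q := toQF hQ) (Submodule.span F {v, u})
  have h3 := finrank_span_pair_le (F := F) v u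
  have h4 := finrank_span_singleton_le (F := F) u
  obtain ⟨w, hw, hwu⟩ := exists_mem_notMem_of_finrank_lt
    (H := perp (toQF hQ) (Submodule.span F {v, u})) (X := F ∙ u) (by simp at h2; omega)
  rw [mem_perp_pair] at hw
  obtain ⟨g, hg, hr, he⟩ := exists_eich hQ hd (u := u) (w := w) hu2 hw.2
  have h5 := comm_of_cj (h g hg hr) v
  have h6 : QuadraticMap.polar Q u v = 0 := by
    rw [← B_toQF hQ, B_comm]; exact mem_perp_span_singleton.1 hu1
  have h7 : QuadraticMap.polar Q w v = 0 := by rw [← B_toQF hQ, B_comm]; exact hw.1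
  rw [he, he, h6, h7] at h5
  simp only [zero_smul, add_zero, mul_zero, sub_zero] at h5
  rw [add_sub_assoc, add_eq_left, sub_eq_zero] at h5
  rw [B_comm, B_toQF] at hu3
  apply hwu
  rw [← Submodule.smul_mem_iff _ hu3, h5]
  exact Submodule.smul_mem _ _ (Submodule.mem_span_singleton_self u)

theorem omega_not_le_mStab (hd : 5 ≤ Fintype.card ι) {S : Set (Matrix ι ι F)} {x : Matrix ι ι F}
    (hx : x ∈ S) (hxs : ¬ IsScal x) (hS : ∀ y ∈ S, (y - x).rank ≤ 4 → y = x) :
    ¬ omegaGL Q ≤ mStab S := fun h =>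
  hxs (isScal_of_comm_small hQ hd fun g hg hr => hS _ ((h hg x).1 hx) (rank_cj_sub hr x))

theorem tensor_nonmax {a b : ℕ} (ha : 1 ≤ a) (hb : 5 ≤ b) {e : ι ≃ Fin a × Fin b} {P : GL ι F}
    {A : Matrix (Fin a) (Fin a) F} {B : Matrix (Fin b) (Fin b) F} (hA : A.det ≠ 0) (hB : B.det ≠ 0)
    (hG : frameGram (QuadraticMap.polar Q) e P = A ⊗ₖ B) {S : Set (Matrix (Fin a) (Fin a) F)}
    (hinv : ∀ (x : GL (Fin a) F) (μ : F), tw (RingHom.id F) A x = μ • A → ∀ X ∈ S, cj x X ∈ S)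
    (hns : ∃ X ∈ S, ¬ IsScal X) {g : GL ι F} (hg : g ∈ omegaGL Q)
    (hr : ((g : Matrix ι ι F) - 1).rank ≤ 2)
    (h1 : ∀ X ∈ S, cj g (frameEquiv e P (X ⊗ₖ 1)) = frameEquiv e P (X ⊗ₖ 1))
    (h2 : ¬ ∀ X, cj g (frameEquiv e P (X ⊗ₖ 1)) = frameEquiv e P (X ⊗ₖ 1)) :
    ∃ K : Subgroup (GL ι F), tensorProductSubgroup a b e P ⊓ omegaGL Q < K ∧ K < omegaGL Q := by
  haveI : Nonempty (Fin a) := ⟨⟨0, ha⟩⟩
  haveI : Nonempty (Fin b) := ⟨⟨0, by omega⟩⟩
  have hc : 5 ≤ Fintype.card ι := by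
    rw [Fintype.card_congr e, Fintype.card_prod, Fintype.card_fin, Fintype.card_fin]; nlinarith
  obtain ⟨X₀, hX₀, hns⟩ := hns
  refine between_of (K := mStab {z | ∃ X ∈ S, z = frameEquiv e P (X ⊗ₖ 1)}) (fun k hk hk' => ?_)
    ⟨g, hg, mem_mStab ?_, fun h => h2 fun X => ?_⟩
    (omega_not_le_mStab hQ hc ⟨X₀, hX₀, rfl⟩
      (fun h => hns (isScal_kron_one ((H7.isScal_frameEquiv_iff e P).1 h))) ?_)
  · obtain ⟨x, y, hxy⟩ := (H7.mem_tensorProductSubgroup_iff e P k).1 hk
    have h5 := (hfQ hQ).frameGram_sim e P (c := 1) (X := (x : Matrix (Fin a) (Fin a) F) ⊗ₖ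
      (y : Matrix (Fin b) (Fin b) F)) fun u v => by
        rw [← hxy, isom_of_le hQ omega_le _ hk', one_mul]
    rw [hG, one_smul] at h5
    obtain ⟨μ, -, h6, -⟩ := H7.tw_of_kron hA hB h5
    refine mem_mStab ?_
    rintro _ ⟨X, hX, rfl⟩
    exact ⟨_, hinv x μ h6 X hX, cj_kron_one hxy X⟩
  · rintro _ ⟨X, hX, rfl⟩
    exact ⟨X, hX, h1 X hX⟩
  · obtain ⟨x, y, hxy⟩ := (H7.mem_tensorProductSubgroup_iff e P g).1 h
    have := rank_cj_sub hr (frameEquiv e P (X ⊗ₖ 1))
    rw [cj_kron_one hxy] at this ⊢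
    rw [kron_eq_of_rank (by simpa using hb) e P this]
  · rintro _ ⟨Y, -, rfl⟩ h
    rw [kron_eq_of_rank (by simpa using hb) e P h]

/-- `O₃(3) ⊗ O_b(3)` -/
theorem nm_three (hq : Fintype.card F = 3) {b : ℕ} (hb : 5 ≤ b) {e : ι ≃ Fin 3 × Fin b}
    {P : GL ι F} {f₁ : (Fin 3 → F) → (Fin 3 → F) → F} {f₂ : (Fin b → F) → (Fin b → F) → F}
    (h₁ : IsSymmetricForm f₁) (h₂ : IsSymmetricForm f₂)
    (hT : IsTensorFormStructure id (QuadraticMap.polar Q) f₁ f₂ e P) :
    ∃ K : Subgroup (GL ι F), tensorProductSubgroup 3 b e P ⊓ omegaGL Q < K ∧ K < omegaGL Q := by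
  have hf := hfQ hQ
  have hq' : Nat.card F = 3 := by rw [Nat.card_eq_fintype_card, hq]
  have h2 : (2 : F) ≠ 0 := two_ne_zero_of_three hq
  obtain ⟨c, hc, hG⟩ := H7.frameGram_of_isTensorFormStructure (σ := RingHom.id F) hT
  rw [← Matrix.kronecker_smul] at hG
  have hA := (H7.hform_of_symmetric h₁).det_ne_zero
  have hs : (gramMatrix f₁)ᵀ = gramMatrix f₁ := by ext i j; exact h₁.symm _ _
  have hB : (c • gramMatrix f₂).det ≠ 0 := by
    rw [Matrix.det_smul]
    exact mul_ne_zero (pow_ne_zero _ hc) (H7.hform_of_symmetric h₂).det_ne_zero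
  have hs' : (c • gramMatrix f₂)ᵀ = c • gramMatrix f₂ := by
    ext i j; simp [gramMatrix, h₂.symm (Pi.single j 1)]
  set A := gramMatrix f₁
  set B := c • gramMatrix f₂
  have hcard : 5 ≤ Fintype.card ι := by
    rw [Fintype.card_congr e, Fintype.card_prod, Fintype.card_fin, Fintype.card_fin]; omega
  have hpol : ∀ x x' y y', QuadraticMap.polar Q (frameVec e P (pT x y)) (frameVec e P (pT x' y')) =
      gf A x x' * gf B y y' := fun x x' y y' => by
    rw [hf.frameGram_spec, hG]; exact gf_kron_pT _ _ _ _ _ _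
  obtain ⟨v, hv⟩ := frame_dim_three hq' (nd_qf hA hs h2).ndOn_top (by simp)
  have hvv : gf A v v ≠ 0 := hv.2.1
  have hex : ∀ u u' : Fin 3 → F, ∃ X : Matrix (Fin 3) (Fin 3) F, ∀ w, X *ᵥ w = gf A u w • u' := by
    intro u u'
    refine ⟨Matrix.vecMulVec u' (u ᵥ* A), fun w => ?_⟩
    rw [Matrix.vecMulVec_mulVec, gf_def, Matrix.dotProduct_mulVec]
    simp
  obtain ⟨s, -, hs0, hqs⟩ := exists_sing_of_three (Q := qf hB hs' h2) ⊤ (by simp; omega)
  have k1 := finrank_perp_ge (Q := qf hB hs' h2) (F ∙ s)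
  have k2 := finrank_span_singleton_le (F := F) s
  obtain ⟨w, hw, hws⟩ := exists_mem_notMem_of_finrank_lt (H := perp (qf hB hs' h2) (F ∙ s))
    (X := F ∙ s) (by simp at k1; omega)
  rw [mem_perp_span_singleton, B_qf, mul_eq_zero, or_iff_right h2] at hw
  obtain ⟨s', hss'⟩ := (nd_qf hB hs' h2).exists_B_ne hs0
  rw [B_qf, mul_ne_zero_iff] at hss'
  obtain ⟨g, hg, hr, he⟩ := exists_eich hQ hcard (u := frameVec e P (pT v s))
    (w := frameVec e P (pT v w)) (by
      have := B_self (toQF hQ) (frameVec e P (pT v s))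
      rw [B_toQF, hpol, show gf B s s = 0 from hqs, mul_zero, eq_comm, mul_eq_zero,
        or_iff_right h2] at this
      exact this) (by rw [hpol, hw, mul_zero])
  refine tensor_nonmax hQ (by norm_num) hb hA hB hG (S := {X | ∃ u, FrameVec (qf hA hs h2) ⊤ u ∧
    gf A u u = gf A v v ∧ ∀ w, X *ᵥ w = gf A u w • u}) ?_ ?_ hg hr ?_ fun h => ?_
  · rintro x μ hx X ⟨u, hu, hq1, hX⟩
    have hμ : μ = 1 := by
      have h1 := congrArg Matrix.det hx
      simp only [tw, RingHom.coe_id, Matrix.map_id, Matrix.det_mul, Matrix.det_transpose,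
        Matrix.det_smul, Fintype.card_fin] at h1
      have h3 := mul_self_of_card_le_three hq'.le (H7.val_det_ne_zero x)
      have h4 : μ ^ 3 = 1 := mul_right_cancel₀ hA (by linear_combination -h1 + A.det * h3)
      have h5 : μ ≠ 0 := by rintro rfl; simp at h4
      have h6 := mul_self_of_card_le_three hq'.le h5
      linear_combination h4 - μ * h6
    have h1 := gf_sim hx
    simp only [hμ, one_mul] at h1
    refine ⟨(x : Matrix (Fin 3) (Fin 3) F) *ᵥ u, ⟨trivial, ?_, fun y _ hy => ?_⟩, ?_, fun w => ?_⟩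
    · rw [qf_apply, h1]; exact hu.2.1
    · rw [← H7.val_mulVec_inv x y] at hy ⊢
      rw [qf_apply, qf_apply, h1, h1] at hy
      rcases hu.2.2 _ trivial hy with h | h
      · obtain ⟨c, hc⟩ := Submodule.mem_span_singleton.1 h
        exact Or.inl (Submodule.mem_span_singleton.2 ⟨c, by rw [← hc, Matrix.mulVec_smul]⟩)
      · right
        rwa [B_qf, h1, ← B_qf hA hs h2]
    · rw [h1, hq1]
    · rw [← H7.val_mulVec_inv x w, H7.cj_mulVec, hX, h1, Matrix.mulVec_smul]
  · obtain ⟨X, hX⟩ := hex v v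
    refine ⟨X, ⟨v, hv, rfl, hX⟩, ?_⟩
    rintro ⟨c, rfl⟩
    simp only [Matrix.smul_mulVec, Matrix.one_mulVec] at hX
    have hc : c ≠ 0 := by
      rintro rfl
      have := hX v
      rw [zero_smul, eq_comm, smul_eq_zero] at this
      exact this.elim hv.2.1 (ne_zero_of_Q_ne hv.2.1)
    have h3 : (⊤ : Submodule F (Fin 3 → F)) ≤ F ∙ v := fun w _ => by
      rw [← Submodule.smul_mem_iff _ hc, hX]
      exact Submodule.smul_mem _ _ (Submodule.mem_span_singleton_self v)
    have := (Submodule.finrank_mono h3).trans (finrank_span_singleton_le v)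
    simp at this
  · rintro X ⟨u, hu, hq1, hX⟩
    have hXA : Xᵀ * A = A * X := by
      refine H7.gform_ext (σ := RingHom.id F) fun a b => ?_
      have h1 := H7.gform_mulVec_right (RingHom.id F) A X a b
      rw [RingHom.coe_id, Matrix.map_id] at h1
      rw [← H7.gform_mulVec_left, ← h1, hX, hX]
      change gf A _ _ = gf A _ _
      rw [gf_smul_left, gf_smul_right, gf_symm hs a u, mul_comm]
    have hadj := hf.adj_frameEquiv e P (X := X ⊗ₖ 1) (Y := X ⊗ₖ 1) (by
      rw [hG, H7.kron_transpose, RingHom.coe_id, Matrix.map_id, ← Matrix.mul_kronecker_mul,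
        ← Matrix.mul_kronecker_mul, hXA]
      simp)
    obtain ⟨l, hl⟩ : ∃ l : F, X *ᵥ v = l • v := by
      rcases hv.2.2 u trivial hq1 with h | h
      · obtain ⟨c, rfl⟩ := Submodule.mem_span_singleton.1 h
        exact ⟨_, by rw [hX, smul_smul]⟩
      · rw [B_qf, mul_eq_zero, or_iff_right h2] at h
        exact ⟨0, by rw [hX, gf_symm hs, h, zero_smul, zero_smul]⟩
    have hπ : ∀ y, frameEquiv e P (X ⊗ₖ 1) *ᵥ frameVec e P (pT v y) = l • frameVec e P (pT v y) := by
      intro y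
      rw [H7.frameEquiv_mulVec, kron_mulVec_pT, hl, Matrix.one_mulVec, ← map_smul]
      exact congrArg _ ((pTL y).map_smul l v)
    have hπ' : ∀ y z, QuadraticMap.polar Q (frameVec e P (pT v y)) (frameEquiv e P (X ⊗ₖ 1) *ᵥ z) =
        l * QuadraticMap.polar Q (frameVec e P (pT v y)) z := fun y z => by
      rw [← hadj, ← hf.adj_spec, hπ, hf.smul_left]
    refine cj_of_comm fun z => ?_
    rw [he, he, hπ', hπ', Matrix.mulVec_sub, Matrix.mulVec_add, Matrix.mulVec_smul,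
      Matrix.mulVec_smul, hπ, hπ]
    module
  · have k3 := finrank_perp_ge (Q := qf hA hs h2) (F ∙ v)
    have k4 := finrank_span_singleton_le (F := F) v
    obtain ⟨u, hu, hu0⟩ := exists_mem_notMem_of_finrank_lt (H := perp (qf hA hs h2) (F ∙ v))
      (X := ⊥) (by simp at k3 ⊢; omega)
    rw [mem_perp_span_singleton, B_qf, mul_eq_zero, or_iff_right h2] at hu
    obtain ⟨X, hX⟩ := hex v u
    have hπ : ∀ y, frameEquiv e P (X ⊗ₖ 1) *ᵥ frameVec e P (pT v y) =
        frameVec e P (pT (gf A v v • u) y) := fun y => by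
      rw [H7.frameEquiv_mulVec, kron_mulVec_pT, hX, Matrix.one_mulVec]
    have h5 := comm_of_cj (h X) (frameVec e P (pT v s'))
    rw [he (frameVec e P (pT v s')), Matrix.mulVec_sub, Matrix.mulVec_add, Matrix.mulVec_smul,
      Matrix.mulVec_smul, hπ, hπ, hπ, he, hpol, hpol v (gf A v v • u), gf_smul_right, hu] at h5
    simp only [mul_zero, zero_mul, zero_smul, add_zero, sub_zero] at h5
    rw [add_sub_assoc, left_eq_add, sub_eq_zero, ← map_smul, ← map_smul, hpol] at h5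
    replace h5 := (frameVec e P).injective h5
    obtain ⟨i, hi⟩ := Function.ne_iff.1 (show u ≠ 0 by simpa using hu0)
    apply hws
    rw [← Submodule.smul_mem_iff _ (mul_ne_zero hvv hss'.2), Submodule.mem_span_singleton]
    generalize QuadraticMap.polar Q _ _ + _ = d at h5
    refine ⟨d, funext fun j => mul_left_cancel₀ (mul_ne_zero hvv hi) ?_⟩
    have := congrFun h5 (i, j)
    simp only [Pi.smul_apply, pT, smul_eq_mul] at this ⊢
    linear_combination -this

lemma Q_pure_ext {κ : Type} [Fintype κ] [DecidableEq κ] (e : ι ≃ κ) (P : GL ι F) {x : Matrix ι ι F}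
    {c : F} (hB : ∀ u v, QuadraticMap.polar Q (x *ᵥ u) (x *ᵥ v) = c * QuadraticMap.polar Q u v)
    (h : ∀ k, Q (x *ᵥ frameVec e P (Pi.single k 1)) = c * Q (frameVec e P (Pi.single k 1)))
    (v : ι → F) : Q (x *ᵥ v) = c * Q v := by
  refine quad_ext (Q₁ := (toQF hQ).comp (Matrix.toLin' x)) (Q₂ := c • toQF hQ) (fun u v => ?_)
    (S := Set.range fun k => frameVec e P (Pi.single k 1)) ?_ ?_ v
  · rw [B_smul_form, B_toQF, ← hB, B_eq_polar]
    simp only [QuadraticMap.polar, QuadraticMap.comp_apply, Matrix.toLin'_apply, toQF_apply,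
      Matrix.mulVec_add]
  · exact ((Pi.basisFun F κ).map (frameVec e P)).span_eq.symm ▸ congrArg _ (congrArg _ (by
      ext1 k; simp))
  · rintro _ ⟨k, rfl⟩
    exact h k

/-- `Sp₂(2) ⊗ Sp_b(2)` -/
theorem nm_sp2 (hq : Fintype.card F = 2) {b : ℕ} (hb : 5 ≤ b) {e : ι ≃ Fin 2 × Fin b}
    {P : GL ι F} {f₁ : (Fin 2 → F) → (Fin 2 → F) → F} {f₂ : (Fin b → F) → (Fin b → F) → F}
    (h₁ : IsSymplecticForm f₁) (h₂ : IsSymplecticForm f₂)
    (hT : IsTensorFormStructure id (QuadraticMap.polar Q) f₁ f₂ e P)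
    (hpure : ∀ x y, Q (frameVec e P (pT x y)) = 0) :
    ∃ K : Subgroup (GL ι F), tensorProductSubgroup 2 b e P ⊓ omegaGL Q < K ∧ K < omegaGL Q := by
  have hf := hfQ hQ
  have hq' : Nat.card F = 2 := by rw [Nat.card_eq_fintype_card, hq]
  have h2 : (2 : F) = 0 := H7.two_eq_zero_of_not_odd (by rw [hq]; decide)
  have h01 : ∀ a : F, a = 0 ∨ a = 1 := fun a => (em (a = 0)).imp_right (eq_one_of_card_two hq')
  obtain ⟨c, hc, hG⟩ := H7.frameGram_of_isTensorFormStructure (σ := RingHom.id F) hT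
  rw [← Matrix.kronecker_smul] at hG
  have hA := (H7.hform_of_symplectic h₁).det_ne_zero
  have hB : (c • gramMatrix f₂).det ≠ 0 := by
    rw [Matrix.det_smul]
    exact mul_ne_zero (pow_ne_zero _ hc) (H7.hform_of_symplectic h₂).det_ne_zero
  have hAJ : gramMatrix f₁ = gramMatrix f₁ 0 1 • J2 F := by
    ext i j
    fin_cases i <;> fin_cases j <;> simp [J2, gramMatrix, h₁.alternating]
    exact h₁.skew _ _
  set A := gramMatrix f₁
  set B := c • gramMatrix f₂
  have hcard : 5 ≤ Fintype.card ι := by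
    rw [Fintype.card_congr e, Fintype.card_prod, Fintype.card_fin, Fintype.card_fin]; omega
  let ω : Matrix (Fin 2) (Fin 2) F := !![0, 1; 1, 1]
  have hω : ω * ω = ω + 1 := by
    ext i j
    fin_cases i <;> fin_cases j <;> simp [ω]
  have hωd : ω.det = 1 := by simp [ω]; linear_combination -h2
  let θ := frameEquiv e P (ω ⊗ₖ (1 : Matrix (Fin b) (Fin b) F))
  have hθ2 : ∀ v, θ *ᵥ (θ *ᵥ v) = θ *ᵥ v + v := fun v => by
    rw [Matrix.mulVec_mulVec, ← map_mul, ← Matrix.mul_kronecker_mul, hω, Matrix.add_kronecker,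
      mul_one, map_add, Matrix.one_kronecker_one, map_one, Matrix.add_mulVec, Matrix.one_mulVec]
  have hθB : ∀ u v, QuadraticMap.polar Q (θ *ᵥ u) (θ *ᵥ v) = QuadraticMap.polar Q u v := by
    intro u v
    have := hf.sim_of_frameGram e P (X := ω ⊗ₖ 1) (c := 1) (by
      rw [hG, H7.tw_kron, H7.tw_one, hAJ, H7.tw_smul, H7.tw_J2, hωd, one_smul, one_smul]) u v
    rwa [one_mul] at this
  have hθQ : ∀ v, Q (θ *ᵥ v) = Q v := fun v => by
    have := Q_pure_ext hQ e P (x := θ) (c := 1) (by simpa using hθB) (by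
      rintro ⟨i, j⟩
      rw [H7.frameEquiv_mulVec, ← pT_single, kron_mulVec_pT, hpure, hpure, mul_zero]) v
    rwa [one_mul] at this
  have hN := nd_toQF hQ
  obtain ⟨a, -, ha⟩ := hN.ndOn_top.exists_Q_eq (H := ⊤) le_rfl (by simp; omega) 1
  rw [toQF_apply] at ha
  have hb1 : Q (θ *ᵥ a) = 1 := by rw [hθQ, ha]
  have hab : QuadraticMap.polar Q a (θ *ᵥ a) = 1 := by
    have := hθQ (θ *ᵥ a)
    rw [hθ2, add_comm, Q_add' hQ, ha, hb1] at this
    linear_combination this - h2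
  obtain ⟨g, hg, he⟩ := exists_omega hQ hcard (hN.refl_mul_refl_mem_EO (by simpa using hcard)
    (a := a) (b := θ *ᵥ a) (by simp [ha, hb1]))
  replace he : ∀ v, (g : Matrix ι ι F) *ᵥ v = v - QuadraticMap.polar Q (θ *ᵥ a) v • (θ *ᵥ a) -
      (QuadraticMap.polar Q a v - QuadraticMap.polar Q (θ *ᵥ a) v) • a := fun v => by
    rw [he, mul_app, refl_apply, refl_apply, map_sub, map_smul]
    simp only [toQF_apply, ha, hb1, B_toQF, hab, inv_one, one_mul, smul_eq_mul, mul_one]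
  have hmove : ∀ v, (g : Matrix ι ι F) *ᵥ v - v ∈ Submodule.span F {a, θ *ᵥ a} := fun v => by
    rw [he, sub_right_comm, sub_sub_cancel_left]
    exact Submodule.sub_mem _ (Submodule.neg_mem _ (Submodule.smul_mem _ _ (right_mem_pair _ _)))
      (Submodule.smul_mem _ _ (left_mem_pair _ _))
  have hgθ : cj g θ = θ := cj_of_comm fun v => by
    have k1 : QuadraticMap.polar Q a (θ *ᵥ v) =
        QuadraticMap.polar Q a v + QuadraticMap.polar Q (θ *ᵥ a) v := by
      rw [← hf.add_left, ← hθB (a + _), Matrix.mulVec_add, hθ2, ← add_assoc, ← two_smul F, h2,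
        zero_smul, zero_add]
    rw [he, he, hθB, k1, Matrix.mulVec_sub, Matrix.mulVec_sub, Matrix.mulVec_smul,
      Matrix.mulVec_smul, hθ2]
    module
  refine tensor_nonmax hQ (by norm_num) hb hA hB hG (S := {X | X.trace = 1 ∧ X.det = 1}) ?_
    ⟨ω, ⟨by simp [ω], hωd⟩, ?_⟩ hg
    (rank_le_two_of_span fun v => by simpa [Matrix.sub_mulVec] using hmove v) ?_ fun h => ?_
  · rintro x μ - X ⟨h1, h3⟩
    exact ⟨by rw [trace_cj, h1], by rw [H7.cj_apply, Matrix.det_units_conj, h3]⟩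
  · rintro ⟨c, hc⟩
    simpa [ω] using congrFun (congrFun hc 0) 1
  · rintro X ⟨h1, h3⟩
    have : X = ω ∨ X = ω + 1 := by
      rw [Matrix.trace_fin_two] at h1
      rw [Matrix.det_fin_two] at h3
      have h4 : X 0 0 * X 1 1 = 0 := by
        rcases h01 (X 0 0) with h | h
        · rw [h, zero_mul]
        · rw [h, add_eq_left] at h1
          rw [h1, mul_zero]
      have h5 : X 0 1 * X 1 0 ≠ 0 := fun h => by rw [h4, h] at h3; simp at h3
      have h6 := eq_one_of_card_two hq' (left_ne_zero_of_mul h5)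
      have h7 := eq_one_of_card_two hq' (right_ne_zero_of_mul h5)
      rcases h01 (X 0 0) with h | h
      · left
        rw [h, zero_add] at h1
        ext i j
        fin_cases i <;> fin_cases j <;> simp [ω, h, h1, h6, h7]
      · right
        rw [h, add_eq_left] at h1
        ext i j
        fin_cases i <;> fin_cases j <;> simp [ω, h, h1, h6, h7]
        linear_combination -h2
    rcases this with rfl | rfl
    · exact hgθ
    · rw [Matrix.add_kronecker, Matrix.one_kronecker_one, map_add, map_one, map_add, map_one, hgθ]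
  · have k1 : ∀ i : Fin 2, frameEquiv e P (Matrix.single i i 1 ⊗ₖ 1) *ᵥ
        ((g : Matrix ι ι F) *ᵥ a - a) = 0 := by
      intro i
      have k2 := hmove (frameEquiv e P (Matrix.single i i 1 ⊗ₖ 1) *ᵥ a)
      rw [comm_of_cj (h _), ← Matrix.mulVec_sub] at k2
      obtain ⟨w, hw⟩ := (frameVec e P).surjective ((g : Matrix ι ι F) *ᵥ a - a)
      have k3 : Q (frameEquiv e P (Matrix.single i i 1 ⊗ₖ 1) *ᵥ ((g : Matrix ι ι F) *ᵥ a - a)) = 0 := by
        rw [← hw, H7.frameEquiv_mulVec, ← hpure (Pi.single i 1) fun j => w (i, j)]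
        congr 2
        ext ⟨k, l⟩
        simp [Matrix.mulVec, dotProduct, Fintype.sum_prod_type, Matrix.single_apply, pT,
          Matrix.one_apply, Pi.single_apply, ite_and, eq_comm]
      obtain ⟨α, β, k4⟩ := mem_span_pair'.1 k2
      rw [k4] at k3 ⊢
      have k5 := Q_pair (Q := toQF hQ) a (θ *ᵥ a) α β
      simp only [toQF_apply, B_toQF, k3, ha, hb1, hab] at k5
      rcases h01 α with rfl | rfl <;> rcases h01 β with rfl | rfl <;> simp at k5 ⊢
      exact (one_ne_zero (α := F) (by linear_combination -k5 - h2)).elim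
    have k2 : (g : Matrix ι ι F) *ᵥ a - a = 0 := by
      have : (Matrix.single 0 0 1 + Matrix.single 1 1 1 : Matrix (Fin 2) (Fin 2) F) = 1 := by
        ext i j; fin_cases i <;> fin_cases j <;> simp
      rw [← Matrix.one_mulVec (_ - a), ← map_one (frameEquiv e P), ← Matrix.one_kronecker_one,
        ← this, Matrix.add_kronecker, map_add, Matrix.add_mulVec, k1, k1, add_zero]
    have k3 : QuadraticMap.polar Q a a = 0 := by rw [← B_toQF hQ, B_self, h2, zero_mul]
    have k4 := congrArg (QuadraticMap.polar Q a) k2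
    rw [he, hf.zero_right, QuadraticMap.polar_comm Q (θ *ᵥ a) a] at k4
    simp [hf.sub_right, hf.smul_right, hab, k3] at k4

end Cfsg.Agent.H8
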