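import Cfsg.Agent.H8.ONm2

/-! Non-maximal tensor subgroups of orthogonal groups, part 2: spin overgroups in
characteristic two. -/

set_option autoImplicit false
set_option linter.unusedSectionVars false
set_option linter.style.haveILetI false
set_option linter.unusedSimpArgs false
set_option linter.unnecessarySeqFocus false

namespace Cfsg.Agent.H8

open Module Cfsg.Agent.Orth Cfsg.Geo
open Cfsg.Agent.H7 (Irr AbsIrr IsScal NormA NormG cj Isom HForm adj spanAlg ctr gform tw frameEquiv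
  frameVec frameGram frameGL pt slot ptGL permGL J2 permMat)
open scoped Matrix Kronecker commutatorElement

section cl
variable {F : Type*} [Field F] {α : Type} [Fintype α] [DecidableEq α]

/-- Clifford data on a symplectic space -/
structure Cl (A : Matrix α α F) (S : Set (Matrix α α F)) : Prop where
  sa : ∀ X ∈ S, Xᵀ * A = A * X
  anti : ∀ X ∈ S, ∀ Y ∈ S, IsScal (X * Y + Y * X)
  inv : ∀ (x : GL α F) (μ : F), tw (RingHom.id F) A x = μ • A → ∀ X ∈ S, cj x X ∈ S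
  gen : ∀ Z, (∀ X ∈ S, Z * X = X * Z) → IsScal Z
  ex : ∃ X ∈ S, ∃ Y ∈ S, ∃ N ∈ S, X * X = 1 ∧ Y * Y = 1 ∧ X * Y + Y * X = 1 ∧ N * N = 0 ∧ N ≠ 0

lemma cl_two (h2 : (2 : F) = 0) (a : F) : Cl (a • J2 F) {X | X.trace = 0} where
  sa X hX := by
    rw [Set.mem_ofPred_eq, Matrix.trace_fin_two] at hX
    rw [Matrix.mul_smul, Matrix.smul_mul]
    congr 1
    ext i j
    fin_cases i <;> fin_cases j <;> simp [J2, Matrix.mul_apply, Fin.sum_univ_two] <;> grind
  anti X hX Y hY := by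
    rw [Set.mem_ofPred_eq, Matrix.trace_fin_two] at hX hY
    refine ⟨(X * Y + Y * X) 0 0, ?_⟩
    ext i j
    fin_cases i <;> fin_cases j <;> simp [Matrix.mul_apply, Fin.sum_univ_two] <;> grind
  inv x μ _ X hX := by rw [Set.mem_ofPred_eq, trace_cj]; exact hX
  gen Z h := by
    have h1 := h !![0, 1; 0, 0] (by simp [Matrix.trace_fin_two])
    have h3 := h !![0, 0; 1, 0] (by simp [Matrix.trace_fin_two])
    have e1 := congrFun (congrFun h1 0) 0
    have e2 := congrFun (congrFun h1 0) 1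
    have e3 := congrFun (congrFun h3 0) 0
    simp [Matrix.mul_apply, Fin.sum_univ_two] at e1 e2 e3
    refine ⟨Z 0 0, ?_⟩
    ext i j
    fin_cases i <;> fin_cases j <;> simp [← e1, e2, e3]
  ex := by
    refine ⟨!![0, 1; 1, 0], by simp [Matrix.trace_fin_two], !![1, 1; 0, 1],
      by simp [Matrix.trace_fin_two]; grind, !![0, 1; 0, 0], by simp [Matrix.trace_fin_two],
      ?_, ?_, ?_, ?_, fun h => by simpa using congrFun (congrFun h 0) 1⟩ <;>
    · ext i j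
      fin_cases i <;> fin_cases j <;> simp <;> grind

/-- the self-adjoint alternating matrices of `Sp₄` -/
def Xr (p r a b c d : F) : Matrix (Fin 2 × Fin 2) (Fin 2 × Fin 2) F :=
  !![p, 0; 0, r] ⊗ₖ (1 : Matrix (Fin 2) (Fin 2) F) + !![0, 1; 0, 0] ⊗ₖ !![a, b; c, d] +
    !![0, 0; 1, 0] ⊗ₖ !![d, -b; -c, a]

lemma Xr_alt (p r a b c d : F) (w : Fin 2 × Fin 2 → F) :
    gf ((1 : Matrix (Fin 2) (Fin 2) F) ⊗ₖ J2 F) w (Xr p r a b c d *ᵥ w) = 0 := by
  simp [gf_def, Xr, J2, Matrix.mulVec, dotProduct, Fintype.sum_prod_type, Fin.sum_univ_two]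
  ring

lemma alt_param {X : Matrix (Fin 2 × Fin 2) (Fin 2 × Fin 2) F}
    (h : ∀ w, gf ((1 : Matrix (Fin 2) (Fin 2) F) ⊗ₖ J2 F) w (X *ᵥ w) = 0) :
    ∃ p r a b c d, X = Xr p r a b c d := by
  have e1 := h (Pi.single (0, 0) 1)
  have e2 := h (Pi.single (0, 1) 1)
  have e3 := h (Pi.single (1, 0) 1)
  have e4 := h (Pi.single (1, 1) 1)
  have e5 := h (Pi.single (0, 0) 1 + Pi.single (0, 1) 1)
  have e6 := h (Pi.single (0, 0) 1 + Pi.single (1, 0) 1)
  have e7 := h (Pi.single (0, 0) 1 + Pi.single (1, 1) 1)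
  have e8 := h (Pi.single (0, 1) 1 + Pi.single (1, 0) 1)
  have e9 := h (Pi.single (0, 1) 1 + Pi.single (1, 1) 1)
  have e10 := h (Pi.single (1, 0) 1 + Pi.single (1, 1) 1)
  simp [gf_def, J2, Matrix.mulVec, dotProduct, Fintype.sum_prod_type, Fin.sum_univ_two,
    Pi.single_apply] at e1 e2 e3 e4 e5 e6 e7 e8 e9 e10
  refine ⟨X (0, 0) (0, 0), X (1, 0) (1, 0), X (0, 0) (1, 0), X (0, 0) (1, 1), X (0, 1) (1, 0),
    X (0, 1) (1, 1), ?_⟩
  ext ⟨i, j⟩ ⟨k, l⟩
  fin_cases i <;> fin_cases j <;> fin_cases k <;> fin_cases l <;> simp [Xr] <;> grind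

lemma Xr_anti (h2 : (2 : F) = 0) (p a b c d p' a' b' c' d' : F) :
    Xr p p a b c d * Xr p' p' a' b' c' d' + Xr p' p' a' b' c' d' * Xr p p a b c d =
      (a * d' + d * a' - b * c' - c * b') • 1 := by
  ext ⟨i, j⟩ ⟨k, l⟩
  fin_cases i <;> fin_cases j <;> fin_cases k <;> fin_cases l <;>
    simp [Xr, Matrix.mul_apply, Fintype.sum_prod_type, Fin.sum_univ_two] <;> grind

lemma Xr_sq (h2 : (2 : F) = 0) (p a b c d : F) :
    Xr p p a b c d * Xr p p a b c d = (p * p + a * d - b * c) • 1 := by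
  ext ⟨i, j⟩ ⟨k, l⟩
  fin_cases i <;> fin_cases j <;> fin_cases k <;> fin_cases l <;>
    simp [Xr, Matrix.mul_apply, Fintype.sum_prod_type, Fin.sum_univ_two] <;> grind

lemma Xr_eq_of_sq (h2 : (2 : F) = 0) {p r a b c d : F}
    (h : IsScal (Xr p r a b c d * Xr p r a b c d)) : r = p := by
  obtain ⟨s, hs⟩ := h
  have e1 := congrFun (congrFun hs (0, 0)) (0, 0)
  have e2 := congrFun (congrFun hs (1, 0)) (1, 0)
  simp [Xr, Matrix.mul_apply, Fintype.sum_prod_type, Fin.sum_univ_two] at e1 e2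
  have : (r - p) ^ 2 = 0 := by linear_combination e2 - e1 + (p * p - r * p) * h2
  exact sub_eq_zero.1 (pow_eq_zero_iff two_ne_zero |>.1 this)

lemma Xr_gen {Z : Matrix (Fin 2 × Fin 2) (Fin 2 × Fin 2) F}
    (h : ∀ a b c d, Z * Xr 0 0 a b c d = Xr 0 0 a b c d * Z) : IsScal Z := by
  have e := fun a b c d p q => congrFun (congrFun (h a b c d) p) q
  refine ⟨Z (0, 0) (0, 0), ?_⟩
  have a1 := e 1 0 0 0
  have a2 := e 0 1 0 0
  have a3 := e 0 0 1 0
  have a4 := e 0 0 0 1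
  simp [Xr, Matrix.mul_apply, Fintype.sum_prod_type, Fin.sum_univ_two, Fin.forall_fin_two] at a1 a2 a3 a4
  ext ⟨i, j⟩ ⟨k, l⟩
  fin_cases i <;> fin_cases j <;> fin_cases k <;> fin_cases l <;> simp <;> grind

lemma exists_frame_four' {f : (α → F) → (α → F) → F} (hs : IsSymplecticForm f)
    (hc : Fintype.card α = 4) : ∃ (e : α ≃ Fin 2 × Fin 2) (P : GL α F),
      frameGram f e P = (1 : Matrix (Fin 2) (Fin 2) F) ⊗ₖ J2 F := by
  have hf := H7.hform_of_symplectic hs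
  obtain ⟨v₀, hv0, -⟩ := sp_exists_perp hs (by omega) (0 : α → F) 0
  obtain ⟨u, hu⟩ := sp_exists_ne hs hv0
  have h₀ : f v₀ ((f v₀ u)⁻¹ • u) = 1 := by rw [hf.smul_right]; simp [hu]
  generalize (f v₀ u)⁻¹ • u = w₀ at h₀
  obtain ⟨v₁, hv1, h1, h3⟩ := sp_exists_perp hs (by omega) v₀ w₀
  obtain ⟨z, hz⟩ := sp_exists_ne hs hv1
  obtain ⟨e, P, -, -, -, -, h⟩ := exists_frame_four hs hc h₀ (v₁ := v₁)
    (w₁ := (f v₁ z)⁻¹ • (z + f w₀ z • v₀ - f v₀ z • w₀))
    (by simp [hf.smul_right, hf.add_right, hf.sub_right, h1, h3, hz]) (hf.eq_zero_comm h1)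
    (by simp [hf.smul_right, hf.add_right, hf.sub_right, hs.alternating, h₀]) (hf.eq_zero_comm h3)
    (by simp [hf.smul_right, hf.add_right, hf.sub_right, hs.alternating, hs.skew w₀ v₀, h₀])
  exact ⟨e, P, h⟩

lemma cl_four (h2 : (2 : F) = 0) {f : (α → F) → (α → F) → F} (hs : IsSymplecticForm f)
    (hc : Fintype.card α = 4) :
    Cl (gramMatrix f) {X | (∀ v, f v (X *ᵥ v) = 0) ∧ IsScal (X * X)} := by
  have hf := H7.hform_of_symplectic hs
  obtain ⟨e, P, hG⟩ := exists_frame_four' hs hc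
  have h1 : ∀ X', (∀ v, f v (frameEquiv e P X' *ᵥ v) = 0) ↔
      ∀ w, gf ((1 : Matrix (Fin 2) (Fin 2) F) ⊗ₖ J2 F) w (X' *ᵥ w) = 0 := fun X' => by
    rw [(frameVec e P).surjective.forall]
    simp only [H7.frameEquiv_mulVec, hf.frameGram_spec, hG]
  have hS : ∀ p a b c d : F, frameEquiv e P (Xr p p a b c d) ∈
      {X | (∀ v, f v (X *ᵥ v) = 0) ∧ IsScal (X * X)} := fun p a b c d =>
    ⟨(h1 _).2 (Xr_alt _ _ _ _ _ _), by
      rw [← map_mul, Xr_sq h2]; exact H7.isScal_frameEquiv e P ⟨_, rfl⟩⟩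
  have hS' : ∀ X ∈ {X | (∀ v, f v (X *ᵥ v) = 0) ∧ IsScal (X * X)}, ∃ p a b c d : F,
      X = frameEquiv e P (Xr p p a b c d) := by
    rintro X ⟨hX, hX'⟩
    obtain ⟨X, rfl⟩ := (frameEquiv e P).surjective X
    obtain ⟨p, r, a, b, c, d, rfl⟩ := alt_param ((h1 _).1 hX)
    rw [← map_mul, H7.isScal_frameEquiv_iff] at hX'
    obtain rfl := Xr_eq_of_sq h2 hX'
    exact ⟨_, _, _, _, _, rfl⟩
  refine ⟨?_, fun X hX Y hY => ?_, ?_, fun Z h => ?_, ⟨_, hS 0 1 0 0 1, _, hS 1 1 0 0 0, _,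
    hS 0 1 0 0 0, ?_, ?_, ?_, ?_, fun h => ?_⟩⟩
  · rintro X ⟨hX, -⟩
    refine H7.gform_ext (σ := RingHom.id F) fun u v => ?_
    have h3 := H7.gform_mulVec_right (RingHom.id F) (gramMatrix f) X u v
    rw [RingHom.coe_id, Matrix.map_id] at h3
    rw [← H7.gform_mulVec_left, ← h3, ← hf.eq_gform, ← hf.eq_gform, hs.skew]
    have := hX (u + v)
    rw [Matrix.mulVec_add, hf.add_left, hf.add_right, hf.add_right, hX, hX] at this
    linear_combination -this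
  · obtain ⟨p, a, b, c, d, rfl⟩ := hS' X hX
    obtain ⟨p', a', b', c', d', rfl⟩ := hS' Y hY
    rw [← map_mul, ← map_mul, ← map_add, Xr_anti h2]
    exact H7.isScal_frameEquiv e P ⟨_, rfl⟩
  · rintro x μ hx X ⟨hX, hX'⟩
    refine ⟨fun v => ?_, by rwa [← map_mul, H7.isScal_cj_iff]⟩
    rw [← H7.val_mulVec_inv x v, H7.cj_mulVec, hf.eq_gform]
    change gf _ _ _ = 0
    rw [gf_sim hx, gf, ← hf.eq_gform, hX, mul_zero]
  · obtain ⟨Z, rfl⟩ := (frameEquiv e P).surjective Z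
    refine H7.isScal_frameEquiv e P (Xr_gen fun a b c d => (frameEquiv e P).injective ?_)
    rw [map_mul, map_mul, h _ (hS 0 a b c d)]
  · rw [← map_mul, Xr_sq h2]; simp
  · rw [← map_mul, Xr_sq h2]; simp
  · rw [← map_mul, ← map_mul, ← map_add, Xr_anti h2]; simp
  · rw [← map_mul, Xr_sq h2]; simp
  · have := congrFun (congrFun ((map_eq_zero_iff _ (frameEquiv e P).injective).1 h) (0, 0)) (1, 0)
    simp [Xr] at this

end cl

end Cfsg.Agent.H8
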