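import Cfsg.Agent.H8.ONm3

/-! Non-maximal tensor subgroups of orthogonal groups, part 3: spin overgroups in
characteristic two. -/

set_option autoImplicit false
set_option linter.unusedSectionVars false
set_option linter.style.haveILetI false
set_option linter.unusedSimpArgs false
set_option linter.unnecessarySeqFocus false

namespace Cfsg.Agent.H8

open Module Cfsg.Agent.Orth Cfsg.Geo
open Cfsg.Agent.H7 (Irr AbsIrr IsScal NormA NormG cj Isom HForm adj spanAlg ctr gform tw frameEquiv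
  frameVec frameGram frameGL pt slot ptGL permGL J2 permMat)
open scoped Matrix Kronecker commutatorElement

variable {ι : Type} [Fintype ι] [DecidableEq ι] {F : Type*} [Field F] [Fintype F]
  {Q : (ι → F) → F} (hQ : IsNondegenerateQuadraticForm Q)

lemma anti_span {S : Set (Matrix ι ι F)} (h : ∀ x ∈ S, ∀ y ∈ S, IsScal (x * y + y * x))
    {x y : Matrix ι ι F} (hx : x ∈ Submodule.span F S) (hy : y ∈ Submodule.span F S) :
    IsScal (x * y + y * x) := by
  induction hx, hy using Submodule.span_induction₂ with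
  | mem_mem x y hx hy => exact h x hx y hy
  | zero_left y _ => simpa using H7.isScal_zero
  | zero_right y _ => simpa using H7.isScal_zero
  | add_left x y z _ _ _ h1 h2 => convert h1.add h2 using 1; noncomm_ring
  | add_right x y z _ _ _ h1 h2 => convert h1.add h2 using 1; noncomm_ring
  | smul_left r x y _ _ h1 => convert h1.smul r using 1; simp
  | smul_right r x y _ _ h1 => convert h1.smul r using 1; simp

lemma mem_mStab_span {S : Set (Matrix ι ι F)} {g : GL ι F}
    (h : ∀ x ∈ S, cj g x ∈ Submodule.span F S) : g ∈ mStab (Submodule.span F S : Set _) := by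
  refine mem_mStab fun x hx => ?_
  induction hx using Submodule.span_induction with
  | mem x hx => exact h x hx
  | zero => simp
  | add x y _ _ hx hy => rw [map_add]; exact Submodule.add_mem _ hx hy
  | smul c x _ hx => rw [map_smul]; exact Submodule.smul_mem _ _ hx

include hQ in
theorem nm_spin (hn : 9 ≤ Fintype.card ι) (h2 : (2 : F) = 0) {k t : ℕ} (hk : 1 ≤ k)
    {e : ι ≃ (Fin t → Fin k)} {P : GL ι F} {A : Matrix (Fin k) (Fin k) F} {c : F} (hc : c ≠ 0)
    (hA : A.det ≠ 0) (hAs : Aᵀ = A) (hAd : ∀ a, A a a = 0)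
    (hG : frameGram (QuadraticMap.polar Q) e P = c • pt fun _ : Fin t => A)
    (hpure : ∀ xs : Fin t → Fin k → F, Q (frameVec e P fun a => ∏ i, xs i (a i)) = 0)
    {S : Set (Matrix (Fin k) (Fin k) F)} (hS : Cl A S) {i₀ i₁ : Fin t} (h01 : i₀ ≠ i₁)
    (halt : (∃ l, l ≠ i₀ ∧ l ≠ i₁) ∨ ∀ X ∈ S, ∀ a, (A * X) a a = 0) :
    ∃ K : Subgroup (GL ι F), tensorWreathSubgroup k t e P ⊓ omegaGL Q < K ∧ K < omegaGL Q := by
  haveI : Nonempty (Fin k) := ⟨⟨0, hk⟩⟩
  have hf := hfQ hQ
  let φ : Fin t → (Matrix (Fin k) (Fin k) F →ₐ[F] Matrix ι ι F) := fun i =>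
    (frameEquiv e P).toAlgHom.comp (slot i)
  have hφ : ∀ i X, φ i X = frameEquiv e P (slot i X) := fun _ _ => rfl
  have hinj : ∀ i, Function.Injective (φ i) := fun i =>
    (frameEquiv e P).injective.comp (H7.slot_injective i)
  have hcomm : ∀ {i j}, i ≠ j → ∀ X Y, φ i X * φ j Y = φ j Y * φ i X := fun hij X Y => by
    rw [hφ, hφ, ← map_mul, ← map_mul, H7.slot_comm hij]
  have hdbl : ∀ x : Matrix ι ι F, x + x = 0 := fun x => by rw [← two_smul F, h2, zero_smul]
  let L := Submodule.span F {z | ∃ i, ∃ X ∈ S, z = φ i X}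
  have hL : ∀ i, ∀ X ∈ S, φ i X ∈ L := fun i X hX => Submodule.subset_span ⟨i, X, hX, rfl⟩
  have hanti : ∀ x ∈ L, ∀ y ∈ L, IsScal (x * y + y * x) := fun x hx y hy => by
    refine anti_span ?_ hx hy
    rintro _ ⟨i, X, hX, rfl⟩ _ ⟨j, Y, hY, rfl⟩
    by_cases hij : i = j
    · subst hij
      obtain ⟨d, hd⟩ := hS.anti X hX Y hY
      exact ⟨d, by rw [← map_mul, ← map_mul, ← map_add, hd, map_smul, map_one]⟩
    · rw [hcomm hij, hdbl]; exact H7.isScal_zero
  have hT : ∀ g ∈ tensorWreathSubgroup k t e P, ∃ (s : Equiv.Perm (Fin t))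
      (a : Fin t → GL (Fin k) F), g = frameGL e P (permGL s * ptGL a) ∧
      ∀ i X, cj g (φ i X) = φ (s i) (cj (a i) X) := fun g hg => by
    obtain ⟨s, a, rfl⟩ := H7.exists_perm_pt_of_mem_wreath hk (Fin.pos i₀) hg
    refine ⟨s, a, rfl, fun i X => ?_⟩
    rw [hφ, hφ, H7.cj_frameEquiv e P (H7.frameGL_val e P _)]
    congr 1
    apply cj_eq_of_mul
    rw [Units.val_mul, mul_assoc, H7.ptGL_norm, ← mul_assoc, ← mul_assoc]
    congr 1
    exact H7.permMat_mul_slot s i _
  have hQφ : ∀ i, ∀ X ∈ S, ∀ d : F, X * X = d • 1 → ∀ v, Q (φ i X *ᵥ v) = d * Q v := by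
    intro i X hX d hd
    rw [hφ]
    refine Q_pure_ext hQ e P (hf.sim_of_frameGram e P ?_) fun a => ?_
    · rw [hG, H7.tw_smul, H7.tw_pt_slot (RingHom.id F) _ i (c := d), smul_comm]
      rw [tw, hS.sa X hX, RingHom.coe_id, Matrix.map_id, mul_assoc, hd, Matrix.mul_smul, mul_one]
    · have k1 : ∀ B : Fin t → Matrix (Fin k) (Fin k) F,
          Q (frameVec e P (pt B *ᵥ Pi.single a 1)) = 0 := fun B => by
        rw [← hpure fun i b => B i b (a i)]
        congr 2
        ext x
        simp [H7.pt_apply]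
      have k2 := k1 1
      rw [H7.pt_one, Matrix.one_mulVec] at k2
      rw [H7.frameEquiv_mulVec, H7.slot_eq_pt, k1, k2, mul_zero]
  obtain ⟨X, hX, Y, hY, N, hN, hX2, hY2, hXY, hN2, hN0⟩ := hS.ex
  have hcross : ∀ v, QuadraticMap.polar Q (φ i₀ X *ᵥ v) (φ i₁ N *ᵥ v) = 0 := by
    intro v
    obtain ⟨w, rfl⟩ := (frameVec e P).surjective v
    rw [hφ, hφ, H7.frameEquiv_mulVec, H7.frameEquiv_mulVec, hf.frameGram_spec, hG, H7.gform_smul,
      H7.gform_mulVec_left, H7.gform_mulVec_right, H7.slot_transpose, RingHom.coe_id, Matrix.map_id,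
      (H7.pt_update _ _ _).1, (H7.pt_update _ _ _).2, Function.update_of_ne h01.symm, hS.sa X hX,
      H7.gform_self_eq_zero, mul_zero]
    · rw [H7.pt_transpose, eq_neg_iff_add_eq_zero, ← (show ∀ x : Matrix (Fin t → Fin k)
        (Fin t → Fin k) F, x + x = 0 from fun x => by rw [← two_smul F, h2, zero_smul]) _]
      congr 2
      ext1 l
      by_cases h1 : l = i₁
      · rw [h1, Function.update_self, Matrix.transpose_mul, hAs, hS.sa N hN]
      · rw [Function.update_of_ne h1]
        by_cases h0 : l = i₀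
        · rw [h0, Function.update_self, Matrix.transpose_mul, hAs, hS.sa X hX]
        · rw [Function.update_of_ne h0, hAs]
    · intro a
      rw [H7.pt_apply]
      rcases halt with ⟨l, h0, h1⟩ | h
      · exact Finset.prod_eq_zero (Finset.mem_univ l) (by
          rw [Function.update_of_ne h1, Function.update_of_ne h0, hAd])
      · exact Finset.prod_eq_zero (Finset.mem_univ i₁) (by rw [Function.update_self, h N hN])
  have hx2 : (φ i₀ X + φ i₁ N) * (φ i₀ X + φ i₁ N) = 1 := by
    rw [add_mul, mul_add, mul_add, ← map_mul, ← map_mul, hX2, hN2, hcomm h01, map_one, map_zero,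
      add_zero, add_assoc, hdbl, add_zero]
  have hy2 : φ i₀ Y * φ i₀ Y = 1 := by rw [← map_mul, hY2, map_one]
  have hxy : (φ i₀ X + φ i₁ N) * φ i₀ Y + φ i₀ Y * (φ i₀ X + φ i₁ N) = 1 := by
    rw [add_mul, mul_add, hcomm h01, add_add_add_comm, hdbl, add_zero, ← map_mul, ← map_mul,
      ← map_add, hXY, map_one]
  let x : GL ι F := ⟨_, _, hx2, hx2⟩
  let y : GL ι F := ⟨_, _, hy2, hy2⟩
  have hxL : (x : Matrix ι ι F) ∈ L := L.add_mem (hL _ _ hX) (hL _ _ hN)
  have hyL : (y : Matrix ι ι F) ∈ L := hL _ _ hY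
  have hnorm : ∀ z : GL ι F, (z : Matrix ι ι F) ∈ L → (z : Matrix ι ι F) * z = 1 →
      z ∈ mStab (L : Set _) := by
    intro z hz hz2
    refine mem_mStab fun w hw => ?_
    obtain ⟨d, hd⟩ := hanti _ hz w hw
    rw [cj_eq_of_mul (y := d • (z : Matrix ι ι F) - w)]
    · exact L.sub_mem (L.smul_mem _ hz) hw
    · rw [sub_mul, smul_mul_assoc, hz2, ← hd, add_sub_cancel_right]
  have hxO : x ∈ isometryGroup F Q := (mem_isometryGroup hQ).2 fun v => by
    change Q ((φ i₀ X + φ i₁ N) *ᵥ v) = Q v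
    rw [Matrix.add_mulVec, Q_add' hQ, hcross, hQφ _ X hX 1 (by rw [hX2, one_smul]),
      hQφ _ N hN 0 (by rw [hN2, zero_smul])]
    simp
  have hyO : y ∈ isometryGroup F Q := (mem_isometryGroup hQ).2 fun v => by
    change Q (φ i₀ Y *ᵥ v) = Q v
    rw [hQφ _ Y hY 1 (by rw [hY2, one_smul]), one_mul]
  have hscal : ∀ {Z : Matrix (Fin k) (Fin k) F} {i : Fin t},
      (∀ W, φ i Z * φ i W = φ i W * φ i Z) → IsScal Z := fun h =>
    H7.isScal_of_comm_all fun W => hinj _ (by rw [map_mul, map_mul, h])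
  have hNs : ¬ IsScal N := by
    rintro ⟨d, rfl⟩
    simp only [Matrix.smul_mul, one_mul, smul_smul, smul_eq_zero, one_ne_zero, or_false,
      mul_self_eq_zero] at hN2
    exact hN0 (by rw [hN2, zero_smul])
  refine between_of (K := mStab (L : Set _)) (fun g hg hg' => ?_) ⟨⁅x, y⁆, ?_, ?_, fun h => ?_⟩
    (omega_not_le_mStab hQ (by omega) (hL i₀ N hN) (fun h => hNs (hscal fun W => h.comm _))
      fun z hz hr => ?_)
  · obtain ⟨s, a, rfl, h⟩ := hT g hg
    have h5 := hf.frameGram_sim e P (c := 1) (X := ((permGL s * ptGL a : GL (Fin t → Fin k) F) :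
      Matrix (Fin t → Fin k) (Fin t → Fin k) F)) (fun u v => by
        rw [← H7.frameGL_val, isom_of_le hQ omega_le _ hg', one_mul])
    rw [hG, one_smul, H7.tw_smul, Units.val_mul, H7.tw_mul] at h5
    change c • tw _ (tw _ _ (permMat s)) _ = _ at h5
    rw [tw_pt_permMat, H7.ptGL_val, H7.tw_pt] at h5
    refine mem_mStab_span ?_
    rintro _ ⟨i, Z, hZ, rfl⟩
    obtain ⟨μ, hμ⟩ := eq_smul_of_pt_eq (fun _ => H7.ne_zero_of_det hA)
      (smul_right_injective _ hc h5) i
    rw [h]
    exact hL _ _ (hS.inv _ μ hμ Z hZ)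
  · rw [omegaGL_eq_commutator]
    exact Subgroup.commutator_mem_commutator hxO hyO
  · have k1 := hnorm x hxL hx2
    have k2 := hnorm y hyL hy2
    exact mul_mem (mul_mem (mul_mem k1 k2) (inv_mem k1)) (inv_mem k2)
  · obtain ⟨s, a, -, h3⟩ := hT _ h
    have k1 : cj x (y : Matrix ι ι F) = x + y := cj_eq_of_mul (by
      rw [add_mul (x : Matrix ι ι F), show (x : Matrix ι ι F) * x = 1 from hx2, ← hxy, add_assoc]
      exact (add_eq_left.2 (hdbl _)).symm)
    have k2 : cj y (x : Matrix ι ι F) = x + y := cj_eq_of_mul (by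
      rw [add_mul, show (y : Matrix ι ι F) * y = 1 from hy2, ← hxy, ← add_assoc]
      exact (add_eq_right.2 (hdbl _)).symm)
    have k3 : cj x (x : Matrix ι ι F) = x := cj_eq_of_mul rfl
    have k4 : cj y (y : Matrix ι ι F) = y := cj_eq_of_mul rfl
    have k5 : cj ⁅x, y⁆ (y : Matrix ι ι F) = x := by
      rw [commutatorElement_def, show x⁻¹ = x from rfl, show y⁻¹ = y from rfl, H7.cj_mul, H7.cj_mul,
        H7.cj_mul, k4, k1, map_add, k2, k4, add_assoc, hdbl, add_zero, k3]
    have k6 : φ i₀ X + φ i₁ N = φ (s i₀) (cj (a i₀) Y) := k5.symm.trans (h3 i₀ Y)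
    by_cases hs : s i₀ = i₀
    · rw [hs, ← eq_sub_iff_add_eq', ← map_sub] at k6
      exact hNs (hscal fun W => by rw [k6, hcomm h01])
    · have := hscal (Z := X) (i := i₀) fun W => by
        rw [eq_sub_of_add_eq k6, sub_mul, mul_sub, hcomm hs, hcomm h01]
      rw [this.comm Y, ← two_smul F, h2, zero_smul] at hXY
      exact zero_ne_one hXY
  · have hR : z - φ i₀ N ∈ L := L.sub_mem hz (hL _ _ hN)
    rw [← sub_eq_zero]
    generalize z - φ i₀ N = R at hr hR
    have k1 : ∀ w ∈ L, R * w = w * R := fun w hw => by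
      obtain ⟨d, hd⟩ := hanti R hR w hw
      have h3 := H7.rank_add_le' (R * w) (w * R)
      have h4 := Matrix.rank_mul_le_left R w
      have h5 := Matrix.rank_mul_le_right w R
      rw [hd] at h3
      rw [H7.eq_zero_of_rank_smul_one (c := d) (ι := ι) (by omega), zero_smul, ← hdbl (w * R)] at hd
      exact add_right_cancel hd
    have k2 : ∀ i, ∃ Z, ∀ W, R * φ i W - φ i W * R = φ i (Z * W - W * Z) := by
      intro i
      clear k1 hr
      induction hR using Submodule.span_induction with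
      | mem x hx =>
        obtain ⟨j, Z, -, rfl⟩ := hx
        by_cases hij : j = i
        · exact ⟨Z, fun W => by rw [hij, map_sub, map_mul, map_mul]⟩
        · exact ⟨0, fun W => by rw [hcomm hij]; simp⟩
      | zero => exact ⟨0, fun W => by simp⟩
      | add x y _ _ hx hy =>
        obtain ⟨Z, hZ⟩ := hx
        obtain ⟨Z', hZ'⟩ := hy
        refine ⟨Z + Z', fun W => ?_⟩
        rw [add_mul, mul_add, add_mul, mul_add, add_sub_add_comm, add_sub_add_comm, map_add, hZ, hZ']
      | smul c x _ hx =>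
        obtain ⟨Z, hZ⟩ := hx
        refine ⟨c • Z, fun W => ?_⟩
        rw [smul_mul_assoc, mul_smul_comm, smul_mul_assoc, mul_smul_comm, ← smul_sub, ← smul_sub,
          map_smul, hZ]
    obtain ⟨R', rfl⟩ := (frameEquiv e P).surjective R
    obtain ⟨d, rfl⟩ : IsScal R' := H7.isScal_of_comm_slot fun i W => by
      obtain ⟨Z, hZ⟩ := k2 i
      have h3 := hS.gen Z fun W hW => by
        have := hZ W
        rw [k1 _ (hL i W hW), sub_self, eq_comm, map_eq_zero_iff _ (hinj i), sub_eq_zero] at this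
        exact this
      have h4 := hZ W
      rw [h3.comm, sub_self, map_zero, sub_eq_zero, hφ, ← map_mul, ← map_mul] at h4
      exact (frameEquiv e P).injective h4
    rw [map_smul, map_one] at hr ⊢
    rw [H7.eq_zero_of_rank_smul_one (c := d) (ι := ι) (by omega), zero_smul]

include hQ in
theorem nm_power (hn : 9 ≤ Fintype.card ι) (h2 : (2 : F) = 0) {k t : ℕ} (ht : 2 ≤ t) (hk : k ≤ 4)
    {e : ι ≃ (Fin t → Fin k)} {P : GL ι F} {f₁ : (Fin k → F) → (Fin k → F) → F}
    (h₁ : IsSymplecticForm f₁) (hT : IsTensorPowerFormStructure id (QuadraticMap.polar Q) f₁ e P)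
    (hpure : ∀ xs : Fin t → Fin k → F, Q (frameVec e P fun a => ∏ i, xs i (a i)) = 0) :
    ∃ K : Subgroup (GL ι F), tensorWreathSubgroup k t e P ⊓ omegaGL Q < K ∧ K < omegaGL Q := by
  have hc := Fintype.card_congr e
  rw [Fintype.card_fun, Fintype.card_fin, Fintype.card_fin] at hc
  obtain ⟨c, hc0, hG⟩ : ∃ c : F, c ≠ 0 ∧
      frameGram (QuadraticMap.polar Q) e P = c • pt fun _ : Fin t => gramMatrix f₁ := by
    obtain ⟨c, hc, h⟩ := hT
    refine ⟨c, hc, ?_⟩
    ext i j
    have := h (Pi.single i 1) (Pi.single j 1)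
    simp only [Pi.single_apply, id, ite_mul, one_mul, zero_mul, mul_ite, mul_one, mul_zero,
      Finset.sum_ite_eq', Finset.mem_univ, if_true] at this
    exact this
  have hA := (H7.hform_of_symplectic h₁).det_ne_zero
  have hAs : (gramMatrix f₁)ᵀ = gramMatrix f₁ := by
    ext i j
    have := h₁.skew (Pi.single j 1) (Pi.single i 1)
    simp only [Matrix.transpose_apply, gramMatrix]
    linear_combination this - f₁ (Pi.single i 1) (Pi.single j 1) * h2
  have he := H7.even_card_of_symplectic h₁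
  rw [Fintype.card_fin] at he
  have h01 : (⟨0, by omega⟩ : Fin t) ≠ ⟨1, by omega⟩ := by simp
  obtain rfl | rfl | rfl : k = 0 ∨ k = 2 ∨ k = 4 := by obtain ⟨j, hj⟩ := he; omega
  · rw [zero_pow (by omega)] at hc; omega
  · have hAJ : gramMatrix f₁ = gramMatrix f₁ 0 1 • J2 F := by
      ext i j
      fin_cases i <;> fin_cases j <;> simp [J2, gramMatrix, h₁.alternating]
      exact h₁.skew _ _
    have h3 : 3 ≤ t := by
      by_contra h
      obtain rfl : t = 2 := by omega
      omega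
    exact nm_spin hQ hn h2 (by norm_num) hc0 hA hAs (fun a => h₁.alternating _) hG hpure
      (hAJ ▸ cl_two h2 _) h01 (Or.inl ⟨⟨2, h3⟩, by simp, by simp⟩)
  · refine nm_spin hQ hn h2 (by norm_num) hc0 hA hAs (fun a => h₁.alternating _) hG hpure
      (cl_four h2 h₁ (by simp)) h01 (Or.inr fun X hX a => ?_)
    have h3 := H7.gform_mulVec_right (RingHom.id F) (gramMatrix f₁) X (Pi.single a 1) (Pi.single a 1)
    rw [RingHom.coe_id, Matrix.map_id, H7.gform_single, ← (H7.hform_of_symplectic h₁).eq_gform,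
      hX.1] at h3
    exact h3.symm

end Cfsg.Agent.H8
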