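import Cfsg.Agent.H8.OType2

/-! Non-maximality of some reducible and imprimitive subgroups of `Ω`. -/

set_option autoImplicit false
set_option linter.unusedSectionVars false

namespace Cfsg.Agent.H8

open Module Cfsg.Agent.Orth Cfsg.Geo
open scoped Matrix

section abstr
variable {F V : Type*} [Field F] [AddCommGroup V] [Module F V] {Q : QuadraticForm F V}

/-- orthogonal decomposition into non-degenerate `k`-spaces -/
structure ODec {κ : Type*} (Q : QuadraticForm F V) (k : ℕ) (D : κ → Submodule F V) : Prop where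
  nd : ∀ i, NdOn Q (D i)
  orth : ∀ i j, i ≠ j → D j ≤ perp Q (D i)
  rk : ∀ i, finrank F (D i) = k

/-- setwise stabiliser -/
def setStab (F : Type*) [Field F] [Module F V] (S : Set V) : Subgroup (V ≃ₗ[F] V) where
  carrier := {g | ∀ v, v ∈ S ↔ g v ∈ S}
  mul_mem' {a b} ha hb v := (hb v).trans (ha _)
  one_mem' _ := Iff.rfl
  inv_mem' {a} ha v := by
    have := ha (a⁻¹ v)
    rw [← mul_app, mul_inv_cancel, one_app] at this
    exact this.symm

lemma mem_setStab [Finite V] {S : Set V} {g : V ≃ₗ[F] V} (h : ∀ v ∈ S, g v ∈ S) :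
    g ∈ setStab F S := by
  intro v
  refine ⟨h v, fun hv => ?_⟩
  have h1 : Set.BijOn g S S :=
    (Set.toFinite S).injOn_iff_bijOn_of_mapsTo h |>.1 g.injective.injOn
  obtain ⟨w, hw, he⟩ := h1.surjOn hv
  rwa [← g.injective he]

lemma map_mul' (a b : V ≃ₗ[F] V) (U : Submodule F V) :
    U.map ((a * b : V ≃ₗ[F] V) : V →ₗ[F] V) = (U.map (b : V →ₗ[F] V)).map (a : V →ₗ[F] V) := by
  rw [← Submodule.map_comp]
  rfl

lemma map_one' (U : Submodule F V) : U.map ((1 : V ≃ₗ[F] V) : V →ₗ[F] V) = U := Submodule.map_id U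

/-- stabiliser of a family of subspaces -/
def dStab {κ : Type*} (D : κ → Submodule F V) : Subgroup (V ≃ₗ[F] V) where
  carrier := {g | ∃ σ : Equiv.Perm κ, ∀ i, (D i).map (g : V →ₗ[F] V) = D (σ i)}
  mul_mem' := by
    rintro a b ⟨σ, hσ⟩ ⟨τ, hτ⟩
    exact ⟨τ.trans σ, fun i => by rw [map_mul', hτ, hσ, Equiv.trans_apply]⟩
  one_mem' := ⟨1, fun i => map_one' _⟩
  inv_mem' := by
    rintro a ⟨σ, hσ⟩
    refine ⟨σ.symm, fun i => ?_⟩
    have := hσ (σ.symm i)
    rw [Equiv.apply_symm_apply] at this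
    rw [← this, ← map_mul', inv_mul_cancel, map_one']

variable {κ : Type*} {k : ℕ} {D : κ → Submodule F V}

lemma not_mem_dStab (hD : ∀ i j, i ≠ j → Disjoint (D i) (D j)) {g : V ≃ₗ[F] V} {i : κ} {z x : V}
    (hz : z ∈ D i) (hz0 : z ≠ 0) (hgz : g z = z) (hx : x ∈ D i) (hgx : g x ∉ D i) :
    g ∉ dStab D := by
  rintro ⟨σ, hσ⟩
  by_cases h : σ i = i
  · exact hgx (h ▸ (hσ i).le ⟨x, hx, rfl⟩)
  · exact hz0 (Submodule.disjoint_def.1 (hD _ _ h) z ((hσ i).le ⟨z, hz, hgz⟩) hz)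

lemma ODec.disjoint (hD : ODec Q k D) : ∀ i j, i ≠ j → Disjoint (D i) (D j) :=
  fun i j h => disjoint_of_perp (hD.nd i) (hD.orth i j h)

/-- vectors of norm `c` in the blocks -/
def normSet (Q : QuadraticForm F V) (D : κ → Submodule F V) (c : F) : Set V :=
  {x | (∃ i, x ∈ D i) ∧ Q x = c}

lemma normSet_inv {g : V ≃ₗ[F] V} (hg : g ∈ O Q) (h : g ∈ dStab D) (c : F) :
    ∀ v ∈ normSet Q D c, g v ∈ normSet Q D c := by
  obtain ⟨σ, hσ⟩ := h
  rintro v ⟨⟨i, hi⟩, hv⟩
  exact ⟨⟨σ i, (hσ i).le ⟨v, hi, rfl⟩⟩, (hg v).trans hv⟩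

variable [FiniteDimensional F V]

lemma refl_mem_dStab (hD : ODec Q k D) {i : κ} {x : V} (hx : x ∈ D i) : refl Q x ∈ dStab D := by
  refine ⟨1, fun j => map_eq_of_forall_mem fun v hv => ?_⟩
  by_cases h : i = j
  · subst h; exact refl_mem hx hv
  · rwa [refl_of_perp (hD.orth i j h hv x hx)]

lemma refl_not_mem_dStab (hD : ODec Q k D) (hk : 2 ≤ k) {i : κ} {a b : V} (ha : a ∈ D i)
    (ha0 : a ≠ 0) (hb : b ∈ perp Q (D i)) (hb0 : b ≠ 0) (hq : Q (a + b) ≠ 0) :
    refl Q (a + b) ∉ dStab D := by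
  have h1 := finrank_inf_perp_ge (Q := Q) (D i) (F ∙ a)
  have h2 := finrank_span_singleton_le (F := F) a
  have h3 := hD.rk i
  obtain ⟨z, hz, hz0⟩ := exists_mem_notMem_of_finrank_lt (H := D i ⊓ perp Q (F ∙ a)) (X := ⊥)
    (by rw [finrank_bot]; omega)
  obtain ⟨x, hx, hax⟩ := (hD.nd i).exists_B_ne ha ha0
  have h4 : ∀ y ∈ D i, B Q (a + b) y = B Q a y := fun y hy => by
    rw [map_add, LinearMap.add_apply, B_comm Q b, hb y hy, add_zero]
  refine not_mem_dStab hD.disjoint hz.1 hz0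
    (refl_of_perp (by rw [h4 z hz.1]; exact mem_perp_span_singleton.1 hz.2)) hx fun h => ?_
  rw [refl_apply, h4 x hx, (D i).sub_mem_iff_right hx,
    (D i).smul_mem_iff (mul_ne_zero (inv_ne_zero hq) hax), (D i).add_mem_iff_right ha] at h
  exact hb0 (Submodule.disjoint_def.1 (ndOn_iff_disjoint.1 (hD.nd i)) b h hb)

variable [Finite F]

lemma exists_EO_refl (hQ : Nd Q) (hd : 5 ≤ finrank F V) (hD : ODec Q k D) (hk : 2 ≤ k)
    {K : Subgroup (V ≃ₗ[F] V)} (hK : ∀ g ∈ O Q, g ∈ dStab D → g ∈ K) {i : κ} {a b : V}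
    (ha : a ∈ D i) (ha0 : a ≠ 0) (hb : b ∈ perp Q (D i)) (hb0 : b ≠ 0) (hq : Q (a + b) ≠ 0)
    (hr : refl Q (a + b) ∈ K) : ∃ g ∈ EO Q, g ∈ K ∧ g ∉ dStab D := by
  obtain ⟨x, hx, hqx⟩ := (hD.nd i).exists_Q_eq le_rfl (by rw [hD.rk]; omega) (Q (a + b))
  have h1 := refl_mem_dStab hD hx
  refine ⟨_, hQ.refl_mul_refl_mem_EO hd hqx.symm, K.mul_mem hr (hK _ (refl_mem_O Q x) h1),
    fun h => refl_not_mem_dStab hD hk ha ha0 hb hb0 hq ?_⟩
  exact (Subgroup.mul_mem_cancel_right _ h1).1 h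

lemma exists_EO_out (hQ : Nd Q) (hd : 5 ≤ finrank F V) {W : Submodule F V} (hW : 4 ≤ finrank F W)
    {v : V} (hv : v ∉ W) : ∃ s ∈ W, s ≠ 0 ∧ ∀ c : F, ∃ g ∈ EO Q, g v = v + c • s := by
  obtain ⟨s, hs, hs0, hq, hb⟩ := exists_sing_perp (Q := Q) hW v
  refine ⟨s, hs, hs0, fun c => hQ.EO_trans hd (by rintro rfl; exact hv W.zero_mem) (fun h => hv ?_)
    (by rw [Q_add, Q_smul, map_smul, hq, hb]; simp)⟩
  rw [eq_neg_of_add_eq_zero_left h]
  exact W.neg_mem (W.smul_mem c hs)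

lemma exists_EO_out_block (hQ : Nd Q) (hD : ODec Q k D) (hd : k + 4 ≤ finrank F V) {i : κ} {v : V}
    (hv : v ∈ D i) (hv0 : v ≠ 0) : ∃ g ∈ EO Q, ∀ j, g v ∉ D j := by
  have h1 := hQ.finrank_perp (D i)
  have h2 := hD.rk i
  have h3 : 0 < finrank F (D i) := by
    by_contra h
    rw [Submodule.finrank_eq_zero.1 (by omega : finrank F (D i) = 0)] at hv
    exact hv0 hv
  have h4 := Submodule.disjoint_def.1 (ndOn_iff_disjoint.1 (hD.nd i))
  obtain ⟨s, hs, hs0, hg⟩ := exists_EO_out hQ (by omega) (W := perp Q (D i)) (by omega)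
    (fun h => hv0 (h4 v hv h))
  obtain ⟨g, hg, he⟩ := hg 1
  refine ⟨g, hg, fun j hj => ?_⟩
  rw [he, one_smul] at hj
  by_cases h : i = j
  · subst h
    exact hs0 (h4 s (((D i).add_mem_iff_right hv).1 hj) hs)
  · exact hv0 (h4 v hv (((perp Q (D i)).add_mem_iff_left hs).1 (hD.orth i j h hj)))

lemma FrameVec.iso {W W' : Submodule F V} {v : V} (h : FrameVec Q W v) (hi : Iso Q W Q W') :
    ∃ v', FrameVec Q W' v' ∧ Q v' = Q v := by
  obtain ⟨f, rfl, hf⟩ := hi
  refine ⟨f v, ⟨⟨v, h.1, rfl⟩, by rw [hf v h.1]; exact h.2.1, ?_⟩, hf v h.1⟩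
  rintro _ ⟨x, hx, rfl⟩ hq
  rw [hf x hx, hf v h.1] at hq
  rcases h.2.2 x hx hq with h1 | h1
  · obtain ⟨c, rfl⟩ := Submodule.mem_span_singleton.1 h1
    exact Or.inl (by rw [map_smul]; exact Submodule.smul_mem _ _ (Submodule.mem_span_singleton_self _))
  · exact Or.inr (by rw [B_map_of_iso hf h.1 hx, h1])

theorem between_frame (hQ : Nd Q) (h2 : (2 : F) ≠ 0) (hD : ODec Q k D) (hk : 2 ≤ k)
    (hd : k + 4 ≤ finrank F V) {i j : κ} (hij : i ≠ j) (hi : Iso Q (D i) Q (D j)) {a : V}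
    (ha : FrameVec Q (D i) a) : ∃ K : Subgroup (V ≃ₗ[F] V), (∀ g ∈ O Q, g ∈ dStab D → g ∈ K) ∧
      (∃ g ∈ EO Q, g ∈ K ∧ g ∉ dStab D) ∧ ∃ g ∈ EO Q, g ∉ K := by
  have : Finite V := Module.finite_of_finite F
  obtain ⟨b, hb, hqb⟩ := ha.iso hi
  have hK : ∀ g ∈ O Q, g ∈ dStab D → g ∈ setStab F (normSet Q D (Q a)) :=
    fun g hg h => mem_setStab (normSet_inv hg h _)
  have hab : B Q a b = 0 := hD.orth i j hij hb.1 a ha.1
  have hq : Q (a - b) ≠ 0 := by
    rw [Q_sub, hqb, hab, sub_zero, ← two_mul]; exact mul_ne_zero h2 ha.2.1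
  have e1 : refl Q (a - b) b = a := refl_sub_apply hqb hq
  have e2 : refl Q (a - b) a = b := (congrArg _ e1.symm).trans (refl_refl Q _ b)
  refine ⟨_, hK, ?_, ?_⟩
  · refine exists_EO_refl hQ (by omega) hD hk hK ha.1 (ne_zero_of_Q_ne ha.2.1)
      (b := -b) (neg_mem (hD.orth i j hij hb.1)) (neg_ne_zero.2 (ne_zero_of_Q_ne hb.2.1))
      (by rwa [← sub_eq_add_neg]) ?_
    rw [← sub_eq_add_neg]
    refine mem_setStab ?_
    rintro x ⟨⟨l, hl⟩, hx⟩
    refine ⟨?_, (refl_mem_O Q _ x).trans hx⟩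
    have h3 : B Q a x = 0 → B Q b x = 0 → ∃ l, refl Q (a - b) x ∈ D l := fun h3 h4 =>
      ⟨l, by rwa [refl_of_perp (by rw [map_sub, LinearMap.sub_apply, h3, h4, sub_zero])]⟩
    by_cases hli : i = l
    · subst hli
      rcases ha.2.2 x hl hx with h4 | h4
      · obtain ⟨c, rfl⟩ := Submodule.mem_span_singleton.1 h4
        exact ⟨j, by rw [map_smul, e2]; exact (D j).smul_mem c hb.1⟩
      · exact h3 h4 (hD.orth j i hij.symm hl b hb.1)
    by_cases hlj : j = l
    · subst hlj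
      rcases hb.2.2 x hl (hx.trans hqb.symm) with h4 | h4
      · obtain ⟨c, rfl⟩ := Submodule.mem_span_singleton.1 h4
        exact ⟨i, by rw [map_smul, e1]; exact (D i).smul_mem c ha.1⟩
      · exact h3 (hD.orth i j hij hl a ha.1) h4
    exact h3 (hD.orth i l hli hl a ha.1) (hD.orth j l hlj hl b hb.1)
  · obtain ⟨g, hg, h⟩ := exists_EO_out_block hQ hD hd ha.1 (ne_zero_of_Q_ne ha.2.1)
    refine ⟨g, hg, fun hgK => ?_⟩
    obtain ⟨⟨l, hl⟩, -⟩ := (hgK a).1 ⟨⟨i, ha.1⟩, rfl⟩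
    exact h l hl

lemma plus_plane_four (h : Nat.card F = 4) {W : Submodule F V} (hW : NdOn Q W)
    (hd : finrank F W = 2) (hp : Plus Q W) : ∃ u w, Q u = 1 ∧ Q w = 1 ∧ B Q u w = 1 ∧
      W = Submodule.span F {u, w} ∧ ∀ x ∈ W, Q x = 1 → x = u ∨ x = w ∨ x = u + w := by
  have h2 : (2 : F) = 0 := by
    have := cast_card_eq_zero (F := F)
    rw [h] at this
    have h4 : (2 : F) ^ 2 = 0 := by rw [← this]; norm_num
    exact pow_eq_zero_iff two_ne_zero |>.1 h4
  obtain ⟨ω, hω0, hω1⟩ : ∃ ω : F, ω ≠ 0 ∧ ω ≠ 1 := by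
    have := Fintype.ofFinite F
    obtain ⟨ω, h1, h2⟩ := ENat.exists_ne_ne_of_three_le (α := F)
      (by rw [ENat.card_eq_coe_natCard, h]; norm_num) 0 1
    exact ⟨ω, h1, h2⟩
  have h3 : ∀ a : F, a ≠ 0 → a ^ 3 = 1 := fun a ha => by simpa [h] using pow_card_sub_one ha
  have hω : ω ^ 2 + ω + 1 = 0 := by
    apply mul_left_cancel₀ (sub_ne_zero.2 hω1)
    linear_combination h3 ω hω0
  obtain ⟨e, f, he, hf, hef, rfl⟩ := hp.exists_basis hW hd
  have q1 : Q ((1 : F) • e + (1 : F) • f) = 1 := by rw [Q_pair, he, hf, hef]; ring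
  have q2 : Q (ω • e + ω ^ 2 • f) = 1 := by
    rw [Q_pair, he, hf, hef]; linear_combination h3 ω hω0
  have q3 : B Q ((1 : F) • e + (1 : F) • f) (ω • e + ω ^ 2 • f) = 1 := by
    rw [one_smul, one_smul, map_add (B Q), LinearMap.add_apply, B_left_pair, B_right_pair, he, hf,
      hef]
    linear_combination hω - h2
  refine ⟨_, _, q1, q2, q3, eq_span_pair hd (mem_span_pair'.2 ⟨_, _, rfl⟩)
    (mem_span_pair'.2 ⟨_, _, rfl⟩) (by
      rw [q1, q2, q3, show (4 : F) = 0 by linear_combination 2 * h2]; simp), fun x hx hq => ?_⟩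
  obtain ⟨a, b, rfl⟩ := mem_span_pair'.1 hx
  rw [Q_pair, he, hf, hef] at hq
  have h4 : a * b = 1 := by linear_combination hq
  have h5 := h3 a (left_ne_zero_of_mul_eq_one h4)
  have h6 : b = a ^ 2 := by linear_combination a ^ 2 * h4 - b * h5
  have h7 : (a - 1) * (a - ω) * (a - ω ^ 2) = 0 := by
    linear_combination h5 + (-a ^ 2 + a * ω - ω + 1) * hω
  subst h6
  rcases mul_eq_zero.1 h7 with h8 | h8
  · rcases mul_eq_zero.1 h8 with h8 | h8
    · left; rw [sub_eq_zero.1 h8, one_pow]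
    · right; left; rw [sub_eq_zero.1 h8]
  · right; right
    rw [sub_eq_zero.1 h8, show (ω ^ 2) ^ 2 = 1 + ω ^ 2 by
      linear_combination ω * h3 ω hω0 + hω - (1 + ω ^ 2) * h2]
    nth_rw 1 [show ω ^ 2 = 1 + ω by linear_combination hω - (1 + ω) * h2]
    module

theorem between_lattice (hQ : Nd Q) (h2 : (2 : F) = 0) (hD : ODec Q k D) (hk : 2 ≤ k)
    (hd : 5 ≤ finrank F V) {i j l : κ} (hij : i ≠ j) (hil : i ≠ l) (hjl : j ≠ l)
    (T : AddSubgroup F) (hT : ∀ b ∈ T, b = 0 ∨ b = 1) {θ : F} (hθ : θ ∉ T)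
    (hB : ∀ i, ∀ x ∈ D i, ∀ y ∈ D i, Q x = 1 → Q y = 1 → B Q x y ∈ T) :
    ∃ K : Subgroup (V ≃ₗ[F] V), (∀ g ∈ O Q, g ∈ dStab D → g ∈ K) ∧
      (∃ g ∈ EO Q, g ∈ K ∧ g ∉ dStab D) ∧ ∃ g ∈ EO Q, g ∉ K := by
  have : Finite V := Module.finite_of_finite F
  let Λ := AddSubgroup.closure (normSet Q D 1)
  have hK : ∀ g ∈ O Q, g ∈ dStab D → g ∈ setStab F (Λ : Set V) := fun g hg h =>
    mem_setStab fun v hv => by
      induction hv using AddSubgroup.closure_induction with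
      | mem x hx => exact AddSubgroup.subset_closure (normSet_inv hg h _ x hx)
      | zero => simp
      | add x y _ _ hx hy => rw [map_add]; exact Λ.add_mem hx hy
      | neg x _ hx => rw [map_neg]; exact Λ.neg_mem hx
  have hΛ : ∀ x ∈ Λ, ∀ y ∈ Λ, B Q x y ∈ T := by
    intro x hx y hy
    induction hx using AddSubgroup.closure_induction with
    | mem x hx =>
      induction hy using AddSubgroup.closure_induction with
      | mem y hy =>
        obtain ⟨⟨a, ha⟩, hx⟩ := hx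
        obtain ⟨⟨b, hb⟩, hy⟩ := hy
        by_cases hab : a = b
        · subst hab; exact hB a x ha y hb hx hy
        · rw [hD.orth a b hab hb x ha]; exact T.zero_mem
      | zero => simp
      | add x y _ _ hx hy => rw [map_add]; exact T.add_mem hx hy
      | neg x _ hx => rw [map_neg]; exact T.neg_mem hx
    | zero => simp
    | add x y _ _ hx hy => rw [map_add]; exact T.add_mem hx hy
    | neg x _ hx => rw [map_neg]; exact T.neg_mem hx
  have hu : ∀ i c, ∃ x ∈ D i, Q x = c := fun i c =>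
    (hD.nd i).exists_Q_eq le_rfl (by rw [hD.rk]; omega) c
  obtain ⟨a, ha, hqa⟩ := hu i 1
  obtain ⟨b, hb, hqb⟩ := hu j 1
  obtain ⟨c, hc, hqc⟩ := hu l 1
  have ha0 : a ≠ 0 := ne_zero_of_Q_ne (by rw [hqa]; exact one_ne_zero)
  have m : ∀ i, ∀ x ∈ D i, Q x = 1 → x ∈ Λ := fun i x hx hq =>
    AddSubgroup.subset_closure ⟨⟨i, hx⟩, hq⟩
  have hbc : b + c ∈ perp Q (D i) := add_mem (hD.orth i j hij hb) (hD.orth i l hil hc)
  have hq : Q (a + (b + c)) = 1 := by
    rw [Q_add, Q_add, hqa, hqb, hqc, hbc a ha, hD.orth j l hjl hc b hb]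
    linear_combination h2
  refine ⟨_, hK, ?_, ?_⟩
  · refine exists_EO_refl hQ hd hD hk hK ha ha0 hbc (fun h => ?_) (by rw [hq]; exact one_ne_zero)
      (mem_setStab fun x hx => ?_)
    · have h3 : b = 0 := Submodule.disjoint_def.1 (hD.disjoint j l hjl) b hb
        (by rw [eq_neg_of_add_eq_zero_left h]; exact neg_mem hc)
      rw [h3, map_zero] at hqb
      exact zero_ne_one hqb
    · have h3 : a + (b + c) ∈ Λ := add_mem (m i a ha hqa) (add_mem (m j b hb hqb) (m l c hc hqc))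
      rw [refl_apply, hq, inv_one, one_mul]
      rcases hT _ (hΛ _ h3 x hx) with h4 | h4
      · rwa [h4, zero_smul, sub_zero]
      · rw [h4, one_smul]; exact Λ.sub_mem hx h3
  · obtain ⟨w, hw, hb⟩ := (hD.nd i).exists_B_ne ha ha0
    obtain ⟨z, hz, hqz⟩ := hu j (1 - Q ((θ / B Q a w) • w))
    have h3 : B Q a ((θ / B Q a w) • w + z) = θ := by
      rw [map_add, map_smul, hD.orth i j hij hz a ha, smul_eq_mul]; field_simp; ring
    obtain ⟨g, hg, he⟩ := hQ.EO_trans hd ha0 (y := (θ / B Q a w) • w + z) (fun h => hθ (by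
      rw [← h3, h, map_zero]; exact T.zero_mem)) (by
      rw [Q_add, hqz, hD.orth i j hij hz _ ((D i).smul_mem _ hw), hqa]; ring)
    refine ⟨g, hg, fun hgK => hθ ?_⟩
    rw [← h3, ← he]
    exact hΛ _ (m i a ha hqa) _ ((hgK a).1 (m i a ha hqa))

theorem between_four (hQ : Nd Q) (h : Nat.card F = 2) (hD : ODec Q 4 D) (hd : 8 ≤ finrank F V)
    {i j : κ} (hij : i ≠ j) (hi : Plus Q (D i)) (hj : Plus Q (D j)) :
    ∃ K : Subgroup (V ≃ₗ[F] V), (∀ g ∈ O Q, g ∈ dStab D → g ∈ K) ∧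
      (∃ g ∈ EO Q, g ∈ K ∧ g ∉ dStab D) ∧ ∃ g ∈ EO Q, g ∉ K := by
  have : Finite V := Module.finite_of_finite F
  have h2 : (2 : F) = 0 := by
    have := cast_card_eq_zero (F := F)
    rw [h] at this
    exact_mod_cast this
  have hK : ∀ g ∈ O Q, g ∈ dStab D → g ∈ setStab F (normSet Q D 1) :=
    fun g hg h => mem_setStab (normSet_inv hg h _)
  obtain ⟨a, ha, b, hb, qa, qb, qab, -, -, hab⟩ := plus_four_two h (hD.nd i) (hD.rk i) hi
  obtain ⟨c, hc, d, hd', qc, qd, qcd, -, -, hcd⟩ := plus_four_two h (hD.nd j) (hD.rk j) hj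
  have o1 := hD.orth i j hij
  have ac : B Q a c = 0 := o1 hc a ha
  have ad : B Q a d = 0 := o1 hd' a ha
  have bc : B Q b c = 0 := o1 hc b hb
  have bd : B Q b d = 0 := o1 hd' b hb
  have hu : Q (a + c) = 0 := by rw [Q_add, qa, qc, ac]; linear_combination h2
  have hw : Q (b + d) = 0 := by rw [Q_add, qb, qd, bd]; linear_combination h2
  have huw : B Q (a + c) (b + d) = 0 := by
    simp only [map_add, LinearMap.add_apply, qab, ad, B_comm Q c b, bc, qcd]
    linear_combination h2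
  have hv2 : ∀ x : V, x + x = 0 := fun x => by rw [← two_smul F, h2, zero_smul]
  have ea : eich Q (a + c) (b + d) a = c := by
    rw [eich_apply hu huw, hw]
    simp only [map_add, LinearMap.add_apply, B_self, h2, B_comm Q c a, ac, B_comm Q b a, qab,
      B_comm Q d a, ad]
    linear_combination (norm := module) -hv2 c
  have eb : eich Q (a + c) (b + d) b = d := by
    rw [eich_apply hu huw, hw]
    simp only [map_add, LinearMap.add_apply, B_self, h2, B_comm Q c b, bc, qab,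
      B_comm Q d b, bd]
    linear_combination (norm := module) hv2 b
  have ec : eich Q (a + c) (b + d) c = a := by
    rw [eich_apply hu huw, hw]
    simp only [map_add, LinearMap.add_apply, B_self, h2, ac, bc, B_comm Q d c, qcd]
    linear_combination (norm := module) -hv2 a
  have ed : eich Q (a + c) (b + d) d = b := by
    rw [eich_apply hu huw, hw]
    simp only [map_add, LinearMap.add_apply, B_self, h2, ad, bd, qcd]
    linear_combination (norm := module) hv2 d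
  have efix : ∀ x, B Q a x = 0 → B Q b x = 0 → B Q c x = 0 → B Q d x = 0 →
      eich Q (a + c) (b + d) x = x := fun x h1 h2 h3 h4 =>
    eich_apply_of_perp (by simp [h1, h3]) (by simp [h2, h4])
  have ha0 : a ≠ 0 := ne_zero_of_Q_ne (by rw [qa]; exact one_ne_zero)
  refine ⟨_, hK, ⟨_, eich_mem_EO (a + c) (b + d), mem_setStab ?_, ?_⟩, ?_⟩
  · rintro x ⟨⟨l, hl⟩, hx⟩
    refine ⟨?_, (eich_mem_O _ _ x).trans hx⟩
    by_cases hli : i = l
    · subst hli
      rcases hab x hl (by rw [hx]; exact one_ne_zero) with h4 | h4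
      · obtain ⟨s, t, rfl⟩ := mem_span_pair'.1 h4
        exact ⟨j, by rw [map_add, map_smul, map_smul, ea, eb]
                     exact add_mem ((D j).smul_mem _ hc) ((D j).smul_mem _ hd')⟩
      · rw [mem_perp_pair] at h4
        exact ⟨i, by rwa [efix x h4.1 h4.2 (hD.orth j i hij.symm hl c hc)
          (hD.orth j i hij.symm hl d hd')]⟩
    by_cases hlj : j = l
    · subst hlj
      rcases hcd x hl (by rw [hx]; exact one_ne_zero) with h4 | h4
      · obtain ⟨s, t, rfl⟩ := mem_span_pair'.1 h4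
        exact ⟨i, by rw [map_add, map_smul, map_smul, ec, ed]
                     exact add_mem ((D i).smul_mem _ ha) ((D i).smul_mem _ hb)⟩
      · rw [mem_perp_pair] at h4
        exact ⟨j, by rwa [efix x (o1 hl a ha) (o1 hl b hb) h4.1 h4.2]⟩
    exact ⟨l, by rwa [efix x (hD.orth i l hli hl a ha) (hD.orth i l hli hl b hb)
      (hD.orth j l hlj hl c hc) (hD.orth j l hlj hl d hd')]⟩
  · have h1 := finrank_inf_perp_ge (Q := Q) (D i) (Submodule.span F {a, b})
    have h3 := finrank_span_pair_le (F := F) a b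
    have h4 := hD.rk i
    obtain ⟨z, hz, hz0⟩ := exists_mem_notMem_of_finrank_lt
      (H := D i ⊓ perp Q (Submodule.span F {a, b})) (X := ⊥) (by rw [finrank_bot]; omega)
    have h5 := mem_perp_pair.1 hz.2
    refine not_mem_dStab hD.disjoint hz.1 hz0 (efix z h5.1 h5.2 (hD.orth j i hij.symm hz.1 c hc)
      (hD.orth j i hij.symm hz.1 d hd')) ha fun h6 => ?_
    rw [ea] at h6
    rw [Submodule.disjoint_def.1 (hD.disjoint i j hij) c h6 hc, map_zero] at qc
    exact zero_ne_one qc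
  · obtain ⟨g, hg, h⟩ := exists_EO_out_block hQ hD hd ha ha0
    refine ⟨g, hg, fun hgK => ?_⟩
    obtain ⟨⟨l, hl⟩, -⟩ := (hgK a).1 ⟨⟨i, ha⟩, qa⟩
    exact h l hl

end abstr

variable {ι : Type} [Fintype ι] [DecidableEq ι] {F : Type*} [Field F] [Fintype F]
  {Q : (ι → F) → F} (hQ : IsNondegenerateQuadraticForm Q)

lemma plus_iff {W : Submodule F (ι → F)} : IsPlusTypeOn Q W ↔ Plus (toQF hQ) W := Iff.rfl

lemma odec_of {t k : ℕ} {D : Fin t → Submodule F (ι → F)}
    (hD : IsNondegenerateMDecomposition (QuadraticMap.polar Q) k D) : ODec (toQF hQ) k D :=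
  ⟨fun i => (ndOn_toQF hQ).1 (hD.nondegenerate i),
    fun i j hij _ hx u hu => hD.orthogonal i j hij u hu _ hx, hD.decomp.finrank_eq⟩

lemma iso_of_isometric {W W' : Submodule F (ι → F)} (h : AreIsometricFor Q W W') :
    Iso (toQF hQ) W (toQF hQ) W' := by
  obtain ⟨e, he⟩ := h
  exact iso_of_equiv e he

lemma isometric_of_iso {W W' : Submodule F (ι → F)} (hW : NdOn (toQF hQ) W)
    (h : Iso (toQF hQ) W (toQF hQ) W') : AreIsometricFor Q W W' := h.exists_equiv hW

include hQ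

theorem nm_dec (hd : 5 ≤ Fintype.card ι) {t : ℕ} {D : Fin t → Submodule F (ι → F)}
    (h : ∃ K : Subgroup ((ι → F) ≃ₗ[F] (ι → F)), (∀ g ∈ O (toQF hQ), g ∈ dStab D → g ∈ K) ∧
      (∃ g ∈ EO (toQF hQ), g ∈ K ∧ g ∉ dStab D) ∧ ∃ g ∈ EO (toQF hQ), g ∉ K) :
    ∃ K : Subgroup (GL ι F), decompositionStabilizer D ⊓ omegaGL Q < K ∧ K < omegaGL Q := by
  obtain ⟨K, h1, h2, h3⟩ := h
  exact exists_between_of hQ hd _ (· ∈ dStab D) (fun g _ => mem_decompositionStabilizer) K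
    (fun g hg => h1 g (EO_le_O hg)) h2 h3

theorem nm_plus_plane (hd : 5 ≤ Fintype.card ι) (hq : Fintype.card F ≤ 3)
    {W : Submodule F (ι → F)} (hdim : finrank F W = 2)
    (hW : IsNondegenerateOn (QuadraticMap.polar Q) W) (hp : IsPlusTypeOn Q W) :
    ∃ K : Subgroup (GL ι F), subspaceStabilizer W ⊓ omegaGL Q < K ∧ K < omegaGL Q := by
  have hN := nd_toQF hQ
  have hW' := (ndOn_toQF hQ).1 hW
  have hd' : 5 ≤ finrank F (ι → F) := by simpa using hd
  obtain ⟨v, hv, hqv, hv1⟩ := plus_plane_small (by rwa [Nat.card_eq_fintype_card]) hW' hdim hp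
  have hv0 : v ≠ 0 := ne_zero_of_Q_ne (Q := toQF hQ) (by rw [hqv]; exact one_ne_zero)
  have h1 := finrank_span_singleton (K := F) hv0
  refine exists_between_of hQ hd _ (fun g => ∀ v ∈ W, g v ∈ W) (fun g _ => mem_subspaceStabilizer')
    (stab (F ∙ v)) (fun g hg h x hx => ?_) ?_ (exists_EO_not_stab hN hd' (by simpa using hv0)
      (fun h => by rw [h, finrank_top] at h1; omega))
  · obtain ⟨c, rfl⟩ := Submodule.mem_span_singleton.1 hx
    rw [map_smul]
    exact Submodule.smul_mem _ _ (hv1 _ (h v hv) ((EO_le_O hg v).trans hqv))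
  · have h2 := hN.finrank_perp W
    obtain ⟨u, hu, hu0, hqu⟩ := exists_sing_of_three (Q := toQF hQ) (perp (toQF hQ) W) (by omega)
    have h3 := finrank_inf_perp_ge (Q := toQF hQ) W (F ∙ v)
    obtain ⟨w, hw, hw0⟩ := exists_mem_notMem_of_finrank_lt (H := W ⊓ perp (toQF hQ) (F ∙ v))
      (X := ⊥) (by rw [finrank_bot]; omega)
    obtain ⟨x, hx, hwx⟩ := hW'.exists_B_ne hw.1 hw0
    have h4 : ∀ y ∈ W, B (toQF hQ) u y = 0 := fun y hy => by rw [B_comm]; exact hu y hy
    refine ⟨_, eich_mem_EO u w, fun y hy => ?_, fun h => ?_⟩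
    · obtain ⟨c, rfl⟩ := Submodule.mem_span_singleton.1 hy
      rwa [map_smul, eich_apply_of_perp (h4 v hv)
        (by rw [B_comm]; exact mem_perp_span_singleton.1 hw.2)]
    · have h5 := h x hx
      rw [eich_apply_of_perp_left hqu (h4 w hw.1) (h4 x hx), W.sub_mem_iff_right hx,
        W.smul_mem_iff hwx] at h5
      exact hu0 (Submodule.disjoint_def.1 (ndOn_iff_disjoint.1 hW') u h5 hu)

theorem nm_submax (hd : 5 ≤ Fintype.card ι) (hp : IsPlusTypeOn Q ⊤) {W : Submodule F (ι → F)}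
    (hW : IsTotallySingularQuad Q W) (hdim : 2 * (finrank F W + 1) = Fintype.card ι) :
    ∃ K : Subgroup (GL ι F), subspaceStabilizer W ⊓ omegaGL Q < K ∧ K < omegaGL Q := by
  have hN := nd_toQF hQ
  have hd' : 5 ≤ finrank F (ι → F) := by simpa using hd
  obtain ⟨U, hWU, -, hU, hUd⟩ := Plus.exists_ge hN.ndOn_top ((plus_iff hQ).1 hp) le_top hW
  rw [finrank_top] at hUd
  have h0 := hUd
  rw [finrank_fintype_fun_eq_card] at h0
  refine exists_between_of hQ hd _ (fun g => ∀ v ∈ W, g v ∈ W) (fun g _ => mem_subspaceStabilizer')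
    (stab U) (fun g hg h => EO_fix_of_submax hN hd' ⟨hU, hUd⟩ hWU (by omega) hg h) ?_
    (exists_EO_not_stab hN hd' (by rintro rfl; rw [finrank_bot] at h0; omega)
      (by rintro rfl; rw [finrank_top] at hUd; omega))
  obtain ⟨u, hu, huW⟩ := exists_mem_notMem_of_finrank_lt (H := U) (X := W) (by omega)
  obtain ⟨x, hx, hx0⟩ := exists_mem_notMem_of_finrank_lt (H := W) (X := ⊥)
    (by rw [finrank_bot]; omega)
  obtain ⟨w, hw, hxw⟩ := hN.exists_perp_B_ne (X := F ∙ u) (a := x) (fun h => by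
    obtain ⟨c, rfl⟩ := Submodule.mem_span_singleton.1 h
    exact huW ((W.smul_mem_iff (by rintro rfl; simp at hx0)).1 hx))
  have h1 := mem_perp_span_singleton.1 hw
  refine ⟨_, eich_mem_EO u w, fun y hy => ?_, fun h => ?_⟩
  · rw [eich_apply_of_perp_left (hU u hu) h1 (hU.B_eq_zero hu hy)]
    exact U.sub_mem hy (U.smul_mem _ hu)
  · have h5 := h x hx
    rw [eich_apply_of_perp_left (hU u hu) h1 (hU.B_eq_zero hu (hWU hx)), W.sub_mem_iff_right hx,
      W.smul_mem_iff (by rwa [B_comm])] at h5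
    exact huW h5

omit hQ in
lemma disjoint_of_mdec {t k : ℕ} {D : Fin t → Submodule F (ι → F)} (hD : IsMDecomposition k D) :
    ∀ i j, i ≠ j → Disjoint (D i) (D j) := fun _ _ h => hD.indep.pairwiseDisjoint h

lemma fix_of_pair_odd (hd : 5 ≤ Fintype.card ι) {k : ℕ} (hk : 2 * k = Fintype.card ι) (ho : Odd k)
    {D : Fin 2 → Submodule F (ι → F)} (hD : IsMDecomposition k D)
    (hts : ∀ i, IsTotallySingularQuad Q (D i)) {g : (ι → F) ≃ₗ[F] (ι → F)}
    (hg : g ∈ EO (toQF hQ)) (h : g ∈ dStab D) : ∀ v ∈ D 0, g v ∈ D 0 := by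
  obtain ⟨σ, hσ⟩ := h
  by_cases h0 : σ 0 = 0
  · exact fun v hv => h0 ▸ (hσ 0).le ⟨v, hv, rfl⟩
  · have := even_of_EO_swap (nd_toQF hQ) (by simpa using hd) (U := D 0)
      ⟨hts 0, by rw [hD.finrank_eq, hk]; simp⟩ (disjoint_of_mdec hD _ _ h0) hg (hσ 0)
    rw [hD.finrank_eq] at this
    exact absurd this (Nat.not_even_iff_odd.2 ho)

theorem nm_pair (hd : 5 ≤ Fintype.card ι) {k : ℕ} (hk : 2 * k = Fintype.card ι) (ho : Odd k)
    {D : Fin 2 → Submodule F (ι → F)} (hD : IsMDecomposition k D)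
    (hts : ∀ i, IsTotallySingularQuad Q (D i)) :
    ∃ K : Subgroup (GL ι F), decompositionStabilizer D ⊓ omegaGL Q < K ∧ K < omegaGL Q := by
  have hN := nd_toQF hQ
  have hd' : 5 ≤ finrank F (ι → F) := by simpa using hd
  have h0 := hD.finrank_eq 0
  have h1 := hD.finrank_eq 1
  have hh : ∀ i, Half (toQF hQ) (D i) := fun i => ⟨hts i, by rw [hD.finrank_eq, hk]; simp⟩
  have hdis := disjoint_of_mdec hD
  refine exists_between_of hQ hd _ (· ∈ dStab D) (fun g _ => mem_decompositionStabilizer)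
    (stab (D 0)) (fun g hg h => fix_of_pair_odd hQ hd hk ho hD hts hg h) ?_
    (exists_EO_not_stab hN hd' (by intro h; rw [h, finrank_bot] at h0; omega)
      (by intro h; rw [h, finrank_top, finrank_fintype_fun_eq_card] at h0; omega))
  obtain ⟨u, hu, hu0⟩ := exists_mem_notMem_of_finrank_lt (H := D 0) (X := ⊥)
    (by rw [finrank_bot]; omega)
  have h2 := finrank_span_singleton_le (F := F) u
  obtain ⟨w, hw, hwu⟩ := exists_mem_notMem_of_finrank_lt (H := D 0) (X := F ∙ u) (by omega)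
  have h3 := finrank_inf_perp_ge (Q := toQF hQ) (D 1) (Submodule.span F {u, w})
  have h4 := finrank_span_pair_le (F := F) u w
  obtain ⟨z, hz, hz0⟩ := exists_mem_notMem_of_finrank_lt
    (H := D 1 ⊓ perp (toQF hQ) (Submodule.span F {u, w})) (X := ⊥) (by rw [finrank_bot]; omega)
  have h5 := mem_perp_pair.1 hz.2
  obtain ⟨x, hx, hux⟩ : ∃ x ∈ D 1, B (toQF hQ) x u ≠ 0 := by
    by_contra hc
    push Not at hc
    have : u ∈ perp (toQF hQ) (D 1) := hc
    rw [(hh 1).perp_eq hN] at this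
    exact hu0 (Submodule.disjoint_def.1 (hdis 0 1 (by decide)) u hu this)
  have huw := (hh 0).1.B_eq_zero hu hw
  refine ⟨_, eich_mem_EO u w, fun y hy => ?_, not_mem_dStab hdis hz.1 hz0
    (eich_apply_of_perp h5.1 h5.2) hx fun h => ?_⟩
  · rw [eich_apply_of_perp_left ((hh 0).1 u hu) huw ((hh 0).1.B_eq_zero hu hy)]
    exact (D 0).sub_mem hy ((D 0).smul_mem _ hu)
  · rw [eich_apply ((hh 0).1 u hu) huw, add_sub_assoc, (D 1).add_mem_iff_right hx] at h
    have h6 := Submodule.disjoint_def.1 (hdis 0 1 (by decide)) _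
      ((D 0).sub_mem ((D 0).smul_mem _ hw) ((D 0).smul_mem _ hu)) h
    rw [sub_eq_zero] at h6
    rw [B_comm] at hux
    apply hwu
    rw [← Submodule.smul_mem_iff _ hux, h6]
    exact Submodule.smul_mem _ _ (Submodule.mem_span_singleton_self u)

/-- non-maximal imprimitive subgroups over small fields -/
theorem nm_small (hd : 8 ≤ Fintype.card ι) {t k : ℕ} {D : Fin t → Submodule F (ι → F)}
    (hD : IsOrthogonalMDecomposition Q k D) (ht : k = 2 → 3 ≤ t)
    (hcase : ((k = 2 ∧ (Fintype.card F = 3 ∨ ((∀ i, IsPlusTypeOn Q (D i)) ∧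
      (Fintype.card F = 2 ∨ Fintype.card F = 4 ∨ Fintype.card F = 5)))) ∨
      (k = 3 ∧ Fintype.card F = 3) ∨ (k = 4 ∧ Fintype.card F = 2 ∧ ∀ i, IsPlusTypeOn Q (D i)))) :
    ∃ K : Subgroup (GL ι F), decompositionStabilizer D ⊓ omegaGL Q < K ∧ K < omegaGL Q := by
  have hN := nd_toQF hQ
  have hd' : 8 ≤ finrank F (ι → F) := by simpa using hd
  have hO := odec_of hQ hD.decomp
  have h2 := hD.decomp.decomp.two_le
  have h01 : (⟨0, by omega⟩ : Fin t) ≠ ⟨1, by omega⟩ := by simp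
  have hi := iso_of_isometric hQ (hD.isometric ⟨0, by omega⟩ ⟨1, by omega⟩)
  refine nm_dec hQ (by omega) ?_
  have hc := cast_card_eq_zero (F := F)
  simp only [← Nat.card_eq_fintype_card] at hcase
  have h3 : Nat.card F = 3 → (2 : F) ≠ 0 := fun h h2 => by
    rw [h] at hc
    exact one_ne_zero (by push_cast at hc; linear_combination hc - h2)
  rcases hcase with ⟨rfl, h | ⟨hp, h | h | h⟩⟩ | ⟨rfl, h⟩ | ⟨rfl, h, hp⟩
  · obtain ⟨v, hv⟩ : ∃ v, FrameVec (toQF hQ) (D ⟨0, by omega⟩) v := by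
      by_cases hp : Plus (toQF hQ) (D ⟨0, by omega⟩)
      · obtain ⟨v, h1, h2, h3⟩ := plus_plane_small h.le (hO.nd _) (hO.rk _) hp
        exact ⟨v, h1, by rw [h2]; exact one_ne_zero, fun x hx hq => Or.inl (h3 x hx (hq.trans h2))⟩
      · exact frame_minus_three h (hO.nd _) (hO.rk _) hp
    exact between_frame hN (h3 h) hO le_rfl (by omega) h01 hi hv
  · have ht := ht rfl
    have h2' : (2 : F) = 0 := by rw [h] at hc; exact_mod_cast hc
    refine between_lattice hN h2' hO le_rfl (by omega) h01 (l := ⟨2, by omega⟩) (by simp) (by simp)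
      ⊥ (fun b hb => Or.inl hb) (θ := 1) (by simp) fun i x hx y hy qx qy => ?_
    obtain ⟨v, -, -, h3⟩ := plus_plane_small (by omega) (hO.nd i) (hO.rk i) (hp i)
    obtain ⟨a, rfl⟩ := Submodule.mem_span_singleton.1 (h3 x hx qx)
    obtain ⟨b, rfl⟩ := Submodule.mem_span_singleton.1 (h3 y hy qy)
    simp [B_self, h2']
  · have ht := ht rfl
    have h2' : (2 : F) = 0 := by
      rw [h] at hc
      have h4 : (2 : F) ^ 2 = 0 := by rw [← hc]; norm_num
      exact pow_eq_zero_iff two_ne_zero |>.1 h4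
    obtain ⟨ω, hω0, hω1⟩ := ENat.exists_ne_ne_of_three_le (α := F)
      (by rw [ENat.card_eq_coe_natCard, h]; norm_num) 0 1
    let T : AddSubgroup F :=
      { carrier := {b | b = 0 ∨ b = 1}
        add_mem' := by
          rintro a b (rfl | rfl) (rfl | rfl) <;> simp [one_add_one_eq_two, h2']
        zero_mem' := Or.inl rfl
        neg_mem' := by
          rintro a (rfl | rfl)
          · simp
          · right; linear_combination -h2' }
    refine between_lattice hN h2' hO le_rfl (by omega) h01 (l := ⟨2, by omega⟩) (by simp) (by simp)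
      T (fun b hb => hb) (θ := ω) (by rintro (h | h) <;> contradiction)
      fun i x hx y hy qx qy => ?_
    obtain ⟨u, w, -, -, q3, -, h3⟩ := plus_plane_four h (hO.nd i) (hO.rk i) (hp i)
    change _ = 0 ∨ _ = 1
    rcases h3 x hx qx with h4 | h4 | h4 <;> rcases h3 y hy qy with h5 | h5 | h5 <;>
      simp [h4, h5, B_self, h2', q3, B_comm _ w u, one_add_one_eq_two]
  · obtain ⟨v, hv⟩ := frame_plus_five h (hO.nd _) (hO.rk _) (hp ⟨0, by omega⟩)
    refine between_frame hN (fun h2 => ?_) hO le_rfl (by omega) h01 hi hv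
    rw [h] at hc
    exact one_ne_zero (α := F) (by push_cast at hc; linear_combination hc - 2 * h2)
  · obtain ⟨v, hv⟩ := frame_dim_three h (hO.nd ⟨0, by omega⟩) (hO.rk _)
    exact between_frame hN (h3 h) hO (by omega) (by omega) h01 hi hv
  · exact between_four hN h hO hd' h01 (hp _) (hp _)

end Cfsg.Agent.H8
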