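import Cfsg.Agent.Orth.C1Fin

/-! Types of finite quadratic spaces: plus type, Witt cancellation, isometry classification,
the two families of maximal totally singular subspaces. -/

set_option autoImplicit false
set_option linter.unusedSectionVars false

namespace Cfsg.Agent.H8

open Module Cfsg.Agent.Orth

variable {F V : Type*} [Field F] [AddCommGroup V] [Module F V] {Q : QuadraticForm F V}

/-- plus type on a subspace -/
def Plus (Q : QuadraticForm F V) (W : Submodule F V) : Prop :=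
  ∃ U : Submodule F V, U ≤ W ∧ TS Q U ∧ 2 * finrank F U = finrank F W

/-- anisotropic on a subspace -/
def Aniso (Q : QuadraticForm F V) (W : Submodule F V) : Prop := ∀ v ∈ W, Q v = 0 → v = 0

lemma ts_sup {U U' : Submodule F V} (hU : TS Q U) (hU' : TS Q U') (h : U' ≤ perp Q U) :
    TS Q (U ⊔ U') := by
  intro y hy
  obtain ⟨a, ha, b, hb, rfl⟩ := Submodule.mem_sup.1 hy
  rw [Q_add, hU a ha, hU' b hb, h hb a ha]; simp

lemma ts_span_singleton {x : V} (hx : Q x = 0) : TS Q (F ∙ x) := by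
  intro y hy
  obtain ⟨c, rfl⟩ := Submodule.mem_span_singleton.1 hy
  rw [Q_smul, hx, mul_zero]

lemma ndOn_bot : NdOn Q ⊥ := fun _ hv _ => hv

lemma plus_bot : Plus Q ⊥ := ⟨⊥, le_rfl, by simp [TS], by simp⟩

lemma ndOn_sup {A C : Submodule F V} (hA : NdOn Q A) (hC : NdOn Q C) (h : C ≤ perp Q A) :
    NdOn Q (A ⊔ C) := by
  intro v hv hx
  obtain ⟨a, ha, c, hc, rfl⟩ := Submodule.mem_sup.1 hv
  have h1 : a = 0 := hA a ha fun x hxA => by
    have := hx x (Submodule.mem_sup_left hxA)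
    rwa [map_add, h hc x hxA, add_zero] at this
  have h2 : c = 0 := hC c hc fun x hxC => by
    have := hx x (Submodule.mem_sup_right hxC)
    rwa [h1, zero_add] at this
  rw [h1, h2, add_zero]

lemma disjoint_of_perp {A C : Submodule F V} (hA : NdOn Q A) (h : C ≤ perp Q A) :
    Disjoint A C := (ndOn_iff_disjoint.1 hA).mono_right h

lemma Aniso.mono {W W' : Submodule F V} (h : Aniso Q W) (h' : W' ≤ W) : Aniso Q W' :=
  fun v hv => h v (h' hv)

section fd
variable [FiniteDimensional F V]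

lemma finrank_sup_of_disjoint {A C : Submodule F V} (h : Disjoint A C) :
    finrank F (A ⊔ C : Submodule F V) = finrank F A + finrank F C := by
  have := Submodule.finrank_sup_add_finrank_inf_eq A C
  rw [h.eq_bot, finrank_bot] at this
  omega

lemma finrank_sup_of_perp {A C : Submodule F V} (hA : NdOn Q A) (h : C ≤ perp Q A) :
    finrank F (A ⊔ C : Submodule F V) = finrank F A + finrank F C :=
  finrank_sup_of_disjoint (disjoint_of_perp hA h)

lemma sup_inf_perp {W A : Submodule F V} (hA : NdOn Q A) (h : A ≤ W) :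
    A ⊔ (W ⊓ perp Q A) = W := by
  apply le_antisymm (sup_le h inf_le_left)
  intro x hx
  obtain ⟨a, ha, b, hb, rfl⟩ := hA.exists_decomp x
  refine Submodule.add_mem_sup ha ⟨?_, hb⟩
  simpa using W.sub_mem hx (h ha)

lemma inf_perp_eq_of_half {W T : Submodule F V} (hW : NdOn Q W) (hT : T ≤ W)
    (hB : T ≤ perp Q T) (hd : 2 * finrank F T = finrank F W) : W ⊓ perp Q T = T := by
  have := hW.finrank_inf_perp hT
  exact (Submodule.eq_of_le_of_finrank_eq (le_inf hT hB) (by omega)).symm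

/-- a maximal totally singular subspace of a space of plus type has half dimension -/
lemma two_mul_finrank_of_max {W U : Submodule F V} (hW : NdOn Q W) (hp : Plus Q W) (hU : U ≤ W)
    (hts : TS Q U) (hmax : ∀ x ∈ W, x ∈ perp Q U → Q x = 0 → x ∈ U) :
    2 * finrank F U = finrank F W := by
  obtain ⟨T, hT, hTs, hd⟩ := hp
  have h1 := hW.finrank_inf_perp (sup_le hT hU)
  have h2 : W ⊓ perp Q (T ⊔ U) ≤ T ⊓ U := by
    rw [perp_sup, ← inf_assoc, inf_perp_eq_of_half hW hT hTs.le_perp hd]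
    exact fun x hx => ⟨hx.1, hmax x (hT hx.1) hx.2 (hTs x hx.1)⟩
  have h3 := Submodule.finrank_mono h2
  have h4 := Submodule.finrank_sup_add_finrank_inf_eq T U
  have h5 := hW.ts_finrank_le hU hts.le_perp
  omega

lemma exists_max_ts_of (P : Submodule F V → Prop) {U₀ : Submodule F V} (h0 : P U₀) :
    ∃ U, U₀ ≤ U ∧ P U ∧ ∀ U', U ≤ U' → P U' → U' = U := by
  obtain ⟨U, hU, hmax⟩ := (wellFounded_gt (α := Submodule F V)).has_min {U | U₀ ≤ U ∧ P U}
    ⟨U₀, le_rfl, h0⟩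
  refine ⟨U, hU.1, hU.2, fun U' h1 h2 => ?_⟩
  by_contra hne
  exact hmax U' ⟨hU.1.trans h1, h2⟩ (lt_of_le_of_ne h1 (Ne.symm hne))

lemma exists_max_ts {W U₀ : Submodule F V} (h0 : U₀ ≤ W) (hts : TS Q U₀) :
    ∃ U, U₀ ≤ U ∧ U ≤ W ∧ TS Q U ∧ ∀ x ∈ W, x ∈ perp Q U → Q x = 0 → x ∈ U := by
  obtain ⟨U, h1, ⟨h2, h3⟩, h4⟩ := exists_max_ts_of (fun U => U ≤ W ∧ TS Q U) ⟨h0, hts⟩
  refine ⟨U, h1, h2, h3, fun x hx hp hq => ?_⟩
  rw [← h4 (U ⊔ F ∙ x) le_sup_left ⟨sup_le h2 (by simpa using hx),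
    ts_sup h3 (ts_span_singleton hq) (by simpa using hp)⟩]
  exact Submodule.mem_sup_right (Submodule.mem_span_singleton_self x)

/-- in plus type every totally singular subspace lies in one of half dimension -/
lemma Plus.exists_ge {W U₀ : Submodule F V} (hW : NdOn Q W) (hp : Plus Q W) (h0 : U₀ ≤ W)
    (hts : TS Q U₀) : ∃ U, U₀ ≤ U ∧ U ≤ W ∧ TS Q U ∧ 2 * finrank F U = finrank F W := by
  obtain ⟨U, h1, h2, h3, h4⟩ := exists_max_ts h0 hts
  exact ⟨U, h1, h2, h3, two_mul_finrank_of_max hW hp h2 h3 h4⟩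

lemma Aniso.finrank_le [Finite F] {W : Submodule F V} (h : Aniso Q W) : finrank F W ≤ 2 := by
  by_contra hc
  obtain ⟨s, hs, hs0, hq⟩ := exists_sing_of_three (Q := Q) W (by omega)
  exact hs0 (h s hs hq)

/-- a maximal totally singular subspace has codimension at most two in its perp -/
lemma finrank_le_of_max [Finite F] {W U : Submodule F V} (hW : NdOn Q W) (hU : U ≤ W)
    (hts : TS Q U) (hmax : ∀ x ∈ W, x ∈ perp Q U → Q x = 0 → x ∈ U) :
    finrank F W ≤ 2 * finrank F U + 2 := by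
  obtain ⟨C, hC, hd, hr⟩ := exists_compl_in (W ⊓ perp Q U) U (le_inf hU hts.le_perp)
  have h1 := hW.finrank_inf_perp hU
  have h2 : Aniso Q C := fun v hv hq =>
    (Submodule.disjoint_def.1 hd) v hv (hmax v (hC hv).1 (hC hv).2 hq)
  have := h2.finrank_le
  omega

lemma Plus.sup {A C : Submodule F V} (hA : NdOn Q A) (h : C ≤ perp Q A) (h1 : Plus Q A)
    (h2 : Plus Q C) : Plus Q (A ⊔ C) := by
  obtain ⟨U, hU, hUs, hUd⟩ := h1
  obtain ⟨U', hU', hU's, hU'd⟩ := h2
  refine ⟨U ⊔ U', sup_le_sup hU hU', ts_sup hUs hU's (hU'.trans (h.trans (perp_anti hU))), ?_⟩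
  rw [finrank_sup_of_perp hA h, finrank_sup_of_disjoint ((disjoint_of_perp hA h).mono hU hU')]
  omega

/-- Witt cancellation for types -/
lemma Plus.sup_iff {A C : Submodule F V} (hA : NdOn Q A) (hC : NdOn Q C) (h : C ≤ perp Q A)
    (h1 : Plus Q A) : Plus Q (A ⊔ C) ↔ Plus Q C := by
  refine ⟨fun h2 => ?_, h1.sup hA h⟩
  obtain ⟨U, hU, hUs, hUd⟩ := h1
  obtain ⟨U', -, hU', hU's, hmax⟩ := exists_max_ts (Q := Q) (W := C) bot_le (by simp [TS])
  have h3 := two_mul_finrank_of_max (ndOn_sup hA hC h) h2 (sup_le_sup hU hU')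
    (ts_sup hUs hU's (hU'.trans (h.trans (perp_anti hU)))) (by
      intro x hx hp hq
      obtain ⟨a, ha, c, hc, rfl⟩ := Submodule.mem_sup.1 hx
      rw [perp_sup] at hp
      have h4 : a ∈ U := by
        rw [← inf_perp_eq_of_half hA hU hUs.le_perp hUd]
        refine ⟨ha, fun u hu => ?_⟩
        have := hp.1 u hu
        rwa [map_add, h hc u (hU hu), add_zero] at this
      have h5 : c ∈ U' := by
        refine hmax c hc (fun u hu => ?_) ?_
        · have := hp.2 u hu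
          rwa [map_add, B_comm, h (hU' hu) a ha, zero_add] at this
        · rwa [Q_add, hUs a h4, h hc a ha, zero_add, add_zero] at hq
      exact Submodule.add_mem_sup h4 h5)
  rw [finrank_sup_of_perp hA h, finrank_sup_of_disjoint ((disjoint_of_perp hA h).mono hU hU')] at h3
  exact ⟨U', hU', hU's, by omega⟩

lemma Aniso.not_plus {W : Submodule F V} (h : Aniso Q W) (h0 : W ≠ ⊥) : ¬ Plus Q W := by
  rintro ⟨U, hU, hUs, hd⟩
  have : U = ⊥ := eq_bot_iff.2 fun v hv => h v (hU hv) (hUs v hv)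
  rw [this, finrank_bot] at hd
  exact h0 (Submodule.finrank_eq_zero.1 (by omega))

lemma plus_of_sing {W : Submodule F V} (hd : finrank F W = 2) {s : V} (hs : s ∈ W) (hs0 : s ≠ 0)
    (hq : Q s = 0) : Plus Q W :=
  ⟨F ∙ s, by simpa using hs, ts_span_singleton hq, by rw [finrank_span_singleton hs0, hd]⟩

lemma aniso_of_not_plus {W : Submodule F V} (hd : finrank F W = 2) (h : ¬ Plus Q W) :
    Aniso Q W := fun v hv hq => by
  by_contra h0
  exact h (plus_of_sing hd hv h0 hq)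

end fd

/-! ### planes -/

lemma mem_span_pair' {e f x : V} : x ∈ Submodule.span F ({e, f} : Set V) ↔
    ∃ a b : F, x = a • e + b • f := by
  rw [Submodule.mem_span_pair]
  exact exists₂_congr fun _ _ => eq_comm

lemma Q_pair (e f : V) (a b : F) :
    Q (a • e + b • f) = a * a * Q e + b * b * Q f + a * b * B Q e f := by
  simp only [Q_add, Q_smul, map_smul, LinearMap.smul_apply, smul_eq_mul]; ring

lemma B_left_pair (e f : V) (a b : F) : B Q e (a • e + b • f) = 2 * a * Q e + b * B Q e f := by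
  simp only [map_add, map_smul, smul_eq_mul, B_self]; ring

lemma B_right_pair (e f : V) (a b : F) : B Q f (a • e + b • f) = a * B Q e f + 2 * b * Q f := by
  simp only [map_add, map_smul, smul_eq_mul, B_self, B_comm Q f e]; ring

lemma pair_coeff_eq_zero {e f : V} (hD : 4 * Q e * Q f - B Q e f ^ 2 ≠ 0) {a b : F}
    (h1 : B Q e (a • e + b • f) = 0) (h2 : B Q f (a • e + b • f) = 0) : a = 0 ∧ b = 0 := by
  rw [B_left_pair] at h1
  rw [B_right_pair] at h2
  constructor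
  · apply mul_left_cancel₀ hD
    linear_combination 2 * Q f * h1 - B Q e f * h2
  · apply mul_left_cancel₀ hD
    linear_combination 2 * Q e * h2 - B Q e f * h1

lemma ndOn_pair {e f : V} (hD : 4 * Q e * Q f - B Q e f ^ 2 ≠ 0) :
    NdOn Q (Submodule.span F ({e, f} : Set V)) := by
  intro v hv h
  obtain ⟨a, b, rfl⟩ := mem_span_pair'.1 hv
  obtain ⟨rfl, rfl⟩ := pair_coeff_eq_zero hD (h e (Submodule.subset_span (by simp)))
    (h f (Submodule.subset_span (by simp)))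
  simp

lemma finrank_pair {e f : V} (hD : 4 * Q e * Q f - B Q e f ^ 2 ≠ 0) :
    finrank F (Submodule.span F ({e, f} : Set V)) = 2 := by
  have hli : LinearIndependent F ![e, f] := by
    rw [LinearIndependent.pair_iff]
    intro a b h
    exact pair_coeff_eq_zero hD (by rw [h, map_zero]) (by rw [h, map_zero])
  have := finrank_span_eq_card hli
  rwa [Matrix.range_cons_cons_empty, Fintype.card_fin] at this

lemma hyp_D {e f : V} (he : Q e = 0) (hef : B Q e f = 1) : 4 * Q e * Q f - B Q e f ^ 2 ≠ 0 := by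
  rw [he, hef]; simp

lemma span_pair_le {W : Submodule F V} {e f : V} (he : e ∈ W) (hf : f ∈ W) :
    Submodule.span F ({e, f} : Set V) ≤ W := by
  rw [Submodule.span_le]
  rintro x (rfl | rfl) <;> assumption

lemma left_mem_pair (e f : V) : e ∈ Submodule.span F ({e, f} : Set V) :=
  Submodule.subset_span (by simp)

lemma right_mem_pair (e f : V) : f ∈ Submodule.span F ({e, f} : Set V) :=
  Submodule.subset_span (by simp)

lemma mem_perp_pair {e f x : V} :
    x ∈ perp Q (Submodule.span F ({e, f} : Set V)) ↔ B Q e x = 0 ∧ B Q f x = 0 := by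
  simp [mem_perp_span]

lemma eq_span_pair [FiniteDimensional F V] {W : Submodule F V} (hd : finrank F W = 2) {e f : V}
    (he : e ∈ W) (hf : f ∈ W) (hD : 4 * Q e * Q f - B Q e f ^ 2 ≠ 0) :
    W = Submodule.span F ({e, f} : Set V) :=
  (Submodule.eq_of_le_of_finrank_eq (span_pair_le he hf) (by rw [finrank_pair hD, hd])).symm

lemma exists_hyp {W : Submodule F V} (hW : NdOn Q W) {e : V} (he : e ∈ W) (he0 : e ≠ 0)
    (hq : Q e = 0) : ∃ f ∈ W, Q f = 0 ∧ B Q e f = 1 :=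
  exists_partner he hq (hW.exists_B_ne he he0)

lemma Plus.exists_sing [FiniteDimensional F V] {W : Submodule F V} (h : Plus Q W) (h0 : W ≠ ⊥) :
    ∃ e ∈ W, e ≠ 0 ∧ Q e = 0 := by
  by_contra hc
  push Not at hc
  exact Aniso.not_plus (fun v hv hq => by by_contra h1; exact hc v hv h1 hq) h0 h

/-! ### isometries between subspaces -/

section iso
variable {V' V'' : Type*} [AddCommGroup V'] [Module F V'] [AddCommGroup V''] [Module F V'']
  {Q' : QuadraticForm F V'} {Q'' : QuadraticForm F V''}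

/-- `W` and `W'` are isometric -/
def Iso (Q : QuadraticForm F V) (W : Submodule F V) (Q' : QuadraticForm F V')
    (W' : Submodule F V') : Prop :=
  ∃ f : V →ₗ[F] V', W.map f = W' ∧ ∀ w ∈ W, Q' (f w) = Q w

lemma B_map_of_iso {W : Submodule F V} {f : V →ₗ[F] V'} (h : ∀ w ∈ W, Q' (f w) = Q w) {x y : V}
    (hx : x ∈ W) (hy : y ∈ W) : B Q' (f x) (f y) = B Q x y := by
  have h1 := h _ (W.add_mem hx hy)
  rw [map_add, Q_add, Q_add, h x hx, h y hy] at h1
  exact add_left_cancel h1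

lemma inj_of_iso {W : Submodule F V} (hW : NdOn Q W) {f : V →ₗ[F] V'}
    (h : ∀ w ∈ W, Q' (f w) = Q w) : ∀ w ∈ W, f w = 0 → w = 0 := fun w hw h0 =>
  hW w hw fun x hx => by rw [← B_map_of_iso h hx hw, h0, map_zero]

lemma Iso.finrank_eq {W : Submodule F V} {W' : Submodule F V'} (hW : NdOn Q W)
    (h : Iso Q W Q' W') : finrank F W' = finrank F W := by
  obtain ⟨f, rfl, hf⟩ := h
  exact finrank_map_of_inj (inj_of_iso hW hf)

lemma Iso.ndOn {W : Submodule F V} {W' : Submodule F V'} (hW : NdOn Q W)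
    (h : Iso Q W Q' W') : NdOn Q' W' := by
  obtain ⟨f, rfl, hf⟩ := h
  rintro _ ⟨v, hv, rfl⟩ h
  have : v = 0 := hW v hv fun x hx => by
    rw [← B_map_of_iso hf hx hv]; exact h _ ⟨x, hx, rfl⟩
  simp [this]

lemma Iso.exists_equiv {W : Submodule F V} {W' : Submodule F V'} (hW : NdOn Q W)
    (h : Iso Q W Q' W') : ∃ e : W ≃ₗ[F] W', ∀ w : W, Q' (e w) = Q w := by
  obtain ⟨f, rfl, hf⟩ := h
  refine ⟨LinearEquiv.ofBijective (f.submoduleMap W) ⟨?_, f.submoduleMap_surjective W⟩,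
    fun w => hf w w.2⟩
  rw [← LinearMap.ker_eq_bot, eq_bot_iff]
  intro w hw
  exact Subtype.ext (inj_of_iso hW hf w w.2 (congrArg Subtype.val hw))

lemma iso_of_equiv {W : Submodule F V} {W' : Submodule F V'} (e : W ≃ₗ[F] W')
    (he : ∀ w : W, Q' (e w) = Q w) : Iso Q W Q' W' := by
  obtain ⟨f, hf⟩ := LinearMap.exists_extend (W'.subtype ∘ₗ (e : W →ₗ[F] W'))
  have h1 : ∀ w : W, f w = e w := fun w => congrArg (fun g => g w) hf
  refine ⟨f, le_antisymm ?_ ?_, fun w hw => by rw [h1 ⟨w, hw⟩, he]⟩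
  · rintro _ ⟨w, hw, rfl⟩
    rw [h1 ⟨w, hw⟩]
    exact (e ⟨w, hw⟩).2
  · intro w hw
    exact ⟨e.symm ⟨w, hw⟩, (e.symm ⟨w, hw⟩).2, by rw [h1]; simp⟩

lemma Iso.symm {W : Submodule F V} {W' : Submodule F V'} (hW : NdOn Q W)
    (h : Iso Q W Q' W') : Iso Q' W' Q W := by
  obtain ⟨e, he⟩ := h.exists_equiv hW
  exact iso_of_equiv e.symm fun w => by rw [← he]; simp

lemma Iso.trans {W : Submodule F V} {W' : Submodule F V'} {W'' : Submodule F V''}
    (h : Iso Q W Q' W') (h' : Iso Q' W' Q'' W'') : Iso Q W Q'' W'' := by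
  obtain ⟨f, rfl, hf⟩ := h
  obtain ⟨g, rfl, hg⟩ := h'
  exact ⟨g ∘ₗ f, Submodule.map_comp _ _ _, fun w hw => by
    rw [LinearMap.comp_apply, hg _ ⟨w, hw, rfl⟩, hf w hw]⟩

lemma iso_map {g : V ≃ₗ[F] V} (hg : g ∈ O Q) (W : Submodule F V) :
    Iso Q W Q (W.map (g : V →ₗ[F] V)) := ⟨g, rfl, fun w _ => hg w⟩

lemma iso_refl (W : Submodule F V) : Iso Q W Q W := ⟨LinearMap.id, by simp, fun _ _ => rfl⟩

lemma Iso.plus {W : Submodule F V} {W' : Submodule F V'} (hW : NdOn Q W) (h : Iso Q W Q' W')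
    (hp : Plus Q W) : Plus Q' W' := by
  have h1 := h.finrank_eq hW
  obtain ⟨f, rfl, hf⟩ := h
  obtain ⟨U, hU, hUs, hd⟩ := hp
  refine ⟨U.map f, Submodule.map_mono hU, ?_, ?_⟩
  · rintro _ ⟨u, hu, rfl⟩
    rw [hf u (hU hu), hUs u hu]
  · rw [h1, finrank_map_of_inj fun w hw => inj_of_iso hW hf w (hU hw), hd]

lemma Iso.plus_iff {W : Submodule F V} {W' : Submodule F V'} (hW : NdOn Q W)
    (h : Iso Q W Q' W') : Plus Q W ↔ Plus Q' W' :=
  ⟨h.plus hW, (h.symm hW).plus (h.ndOn hW)⟩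

lemma Iso.sup [FiniteDimensional F V] {A C : Submodule F V} {A' C' : Submodule F V'}
    (hA : NdOn Q A) (h : C ≤ perp Q A) (h' : C' ≤ perp Q' A') (h1 : Iso Q A Q' A')
    (h2 : Iso Q C Q' C') : Iso Q (A ⊔ C) Q' (A' ⊔ C') := by
  obtain ⟨f, rfl, hf⟩ := h1
  obtain ⟨g, rfl, hg⟩ := h2
  let k := LinearMap.ofIsCompl hA.isCompl (f.domRestrict A) (g.domRestrict (perp Q A))
  have k1 : ∀ a ∈ A, k a = f a := fun a ha => LinearMap.ofIsCompl_apply_left hA.isCompl ⟨a, ha⟩
  have k2 : ∀ c ∈ C, k c = g c := fun c hc =>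
    LinearMap.ofIsCompl_apply_right hA.isCompl ⟨c, h hc⟩
  refine ⟨k, ?_, fun w hw => ?_⟩
  · rw [Submodule.map_sup]
    congr 1
    · exact le_antisymm (by rintro _ ⟨a, ha, rfl⟩; exact ⟨a, ha, (k1 a ha).symm⟩)
        (by rintro _ ⟨a, ha, rfl⟩; exact ⟨a, ha, k1 a ha⟩)
    · exact le_antisymm (by rintro _ ⟨a, ha, rfl⟩; exact ⟨a, ha, (k2 a ha).symm⟩)
        (by rintro _ ⟨a, ha, rfl⟩; exact ⟨a, ha, k2 a ha⟩)
  · obtain ⟨a, ha, c, hc, rfl⟩ := Submodule.mem_sup.1 hw
    rw [map_add, k1 a ha, k2 c hc, Q_add, Q_add, hf a ha, hg c hc, h hc a ha,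
      h' ⟨c, hc, rfl⟩ _ ⟨a, ha, rfl⟩]

lemma iso_pair {e f : V} {e' f' : V'} (hD : 4 * Q e * Q f - B Q e f ^ 2 ≠ 0) (h1 : Q' e' = Q e)
    (h2 : Q' f' = Q f) (h3 : B Q' e' f' = B Q e f) :
    Iso Q (Submodule.span F {e, f}) Q' (Submodule.span F {e', f'}) := by
  set D := 4 * Q e * Q f - B Q e f ^ 2 with hDdef
  let α : V →ₗ[F] F := D⁻¹ • ((2 * Q f) • B Q e - B Q e f • B Q f)
  let β : V →ₗ[F] F := D⁻¹ • ((2 * Q e) • B Q f - B Q e f • B Q e)
  let k : V →ₗ[F] V' := α.smulRight e' + β.smulRight f'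
  have ke : k e = e' := by
    have a1 : α e = 1 := by
      simp only [α, LinearMap.smul_apply, LinearMap.sub_apply, smul_eq_mul, B_self, B_comm Q f e]
      field_simp
      ring
    have a2 : β e = 0 := by
      simp only [β, LinearMap.smul_apply, LinearMap.sub_apply, smul_eq_mul, B_self, B_comm Q f e]
      ring
    simp [k, a1, a2]
  have kf : k f = f' := by
    have a1 : α f = 0 := by
      simp only [α, LinearMap.smul_apply, LinearMap.sub_apply, smul_eq_mul, B_self]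
      ring
    have a2 : β f = 1 := by
      simp only [β, LinearMap.smul_apply, LinearMap.sub_apply, smul_eq_mul, B_self]
      field_simp
      ring
    simp [k, a1, a2]
  refine ⟨k, by rw [Submodule.map_span, Set.image_pair, ke, kf], fun w hw => ?_⟩
  obtain ⟨a, b, rfl⟩ := mem_span_pair'.1 hw
  rw [map_add, map_smul, map_smul, ke, kf, Q_pair, Q_pair, h1, h2, h3]

lemma iso_line (h2 : (2 : F) ≠ 0) {v : V} {v' : V'} (hv : Q v ≠ 0) (h : Q' v' = Q v) :
    Iso Q (F ∙ v) Q' (F ∙ v') := by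
  let k : V →ₗ[F] V' := ((2 * Q v)⁻¹ • B Q v).smulRight v'
  have kv : k v = v' := by
    simp only [k, LinearMap.smulRight_apply, LinearMap.smul_apply, B_self, smul_eq_mul]
    rw [inv_mul_cancel₀ (mul_ne_zero h2 hv), one_smul]
  refine ⟨k, by rw [Submodule.map_span, Set.image_singleton, kv], fun w hw => ?_⟩
  obtain ⟨a, rfl⟩ := Submodule.mem_span_singleton.1 hw
  rw [map_smul, kv, Q_smul, Q_smul, h]

end iso

/-! ### negation of the form -/

lemma B_neg (x y : V) : B (-Q) x y = -B Q x y := by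
  have h1 := Q_add (-Q) x y
  have h2 := Q_add Q x y
  simp only [neg_apply] at h1
  linear_combination -h1 - h2

lemma ndOn_neg {W : Submodule F V} (h : NdOn Q W) : NdOn (-Q) W := fun v hv hx =>
  h v hv fun x hxW => by simpa [B_neg] using hx x hxW

lemma plus_neg {W : Submodule F V} : Plus (-Q) W ↔ Plus Q W := by
  simp [Plus, TS]

lemma plus_of_iso_neg [FiniteDimensional F V] {A C : Submodule F V} (hA : NdOn Q A)
    (h : C ≤ perp Q A) (hi : Iso Q A (-Q) C) : Plus Q (A ⊔ C) := by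
  have h1 := hi.finrank_eq hA
  obtain ⟨f, rfl, hf⟩ := hi
  refine ⟨A.map (LinearMap.id + f), ?_, ?_, ?_⟩
  · rintro _ ⟨w, hw, rfl⟩
    exact Submodule.add_mem_sup hw ⟨w, hw, rfl⟩
  · rintro _ ⟨w, hw, rfl⟩
    have := hf w hw
    rw [neg_apply] at this
    simp only [LinearMap.add_apply, LinearMap.id_apply]
    rw [Q_add, h ⟨w, hw, rfl⟩ w hw, ← this]
    ring
  · rw [finrank_sup_of_perp hA h, h1, finrank_map_of_inj, two_mul]
    intro w hw h0
    refine hA w hw fun x hx => ?_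
    simp only [LinearMap.add_apply, LinearMap.id_apply] at h0
    have := congrArg (B Q x) h0
    rwa [map_add, h ⟨w, hw, rfl⟩ x hx, add_zero, map_zero] at this

/-! ### finite fields -/

lemma isSquare_mul_of_not' {k : Type*} [Field k] [Finite k] {a b : k} (ha : ¬ IsSquare a)
    (hb : ¬ IsSquare b) : IsSquare (a * b) := by
  classical
  have := Fintype.ofFinite k
  rw [← quadraticChar_neg_one_iff_not_isSquare] at ha hb
  have ha0 : a ≠ 0 := by rintro rfl; simp at ha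
  have hb0 : b ≠ 0 := by rintro rfl; simp at hb
  rw [← quadraticChar_one_iff_isSquare (mul_ne_zero ha0 hb0), map_mul, ha, hb]
  norm_num

lemma exists_artin_schreier [Finite F] (h2 : (2 : F) = 0) {d d' : F} (hd : ∀ t, t * t + t ≠ d)
    (hd' : ∀ t, t * t + t ≠ d') : ∃ s, s * s + s = d + d' := by
  let φ : F →+ F :=
    { toFun := fun t => t * t + t
      map_zero' := by simp
      map_add' := fun a b => by linear_combination (a * b) * h2 }
  have hk : Nat.card φ.ker = 2 := by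
    rw [Nat.card_eq_two_iff' (0 : φ.ker)]
    refine ⟨⟨1, show (1 : F) * 1 + 1 = 0 by linear_combination h2⟩, fun h => ?_, fun y hy => ?_⟩
    · exact one_ne_zero (congrArg Subtype.val h)
    · have h3 : y.1 * y.1 + y.1 = 0 := y.2
      have h4 : y.1 ≠ 0 := fun h => hy (Subtype.ext h)
      apply Subtype.ext
      apply mul_left_cancel₀ h4
      linear_combination h3 - y.1 * h2
  have hi : φ.range.index = 2 := by
    have h3 := φ.range.card_mul_index
    have h4 := φ.ker.card_mul_index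
    rw [AddSubgroup.index_ker, hk] at h4
    have h5 : 0 < Nat.card φ.range := Nat.card_pos
    have h6 : Nat.card (Set.range φ) = Nat.card φ.range := rfl
    nlinarith
  have := (AddSubgroup.add_mem_iff_of_index_two hi (a := d) (b := d')).2
    (iff_of_false (by rintro ⟨t, ht⟩; exact hd t ht) (by rintro ⟨t, ht⟩; exact hd' t ht))
  obtain ⟨s, hs⟩ := this
  exact ⟨s, hs⟩

section class_
variable [Finite F] [FiniteDimensional F V]
variable {V' : Type*} [AddCommGroup V'] [Module F V'] [FiniteDimensional F V']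
  {Q' : QuadraticForm F V'}

lemma ne_zero_of_Q_ne {v : V} (h : Q v ≠ 0) : v ≠ 0 := by
  rintro rfl; exact h (map_zero Q)

lemma split_line (h2 : (2 : F) ≠ 0) {W : Submodule F V} (hW : NdOn Q W) {v : V} (hv : v ∈ W)
    (hq : Q v ≠ 0) : NdOn Q (W ⊓ perp Q (F ∙ v)) ∧
      finrank F (W ⊓ perp Q (F ∙ v) : Submodule F V) + 1 = finrank F W ∧
      (F ∙ v) ⊔ (W ⊓ perp Q (F ∙ v)) = W := by
  have hs : F ∙ v ≤ W := by simpa using hv
  have h1 := hW.finrank_inf_perp hs
  rw [finrank_span_singleton (ne_zero_of_Q_ne hq)] at h1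
  exact ⟨hW.inf_perp (NdOn.span_singleton h2 hq) hs, h1,
    sup_inf_perp (NdOn.span_singleton h2 hq) hs⟩

lemma split_pair {W : Submodule F V} (hW : NdOn Q W) {e f : V} (he : e ∈ W) (hf : f ∈ W)
    (hD : 4 * Q e * Q f - B Q e f ^ 2 ≠ 0) :
    NdOn Q (W ⊓ perp Q (Submodule.span F {e, f})) ∧
      finrank F (W ⊓ perp Q (Submodule.span F {e, f}) : Submodule F V) + 2 = finrank F W ∧
      Submodule.span F {e, f} ⊔ (W ⊓ perp Q (Submodule.span F {e, f})) = W := by
  have hs := span_pair_le he hf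
  have h1 := hW.finrank_inf_perp hs
  rw [finrank_pair hD] at h1
  exact ⟨hW.inf_perp (ndOn_pair hD) hs, h1, sup_inf_perp (ndOn_pair hD) hs⟩

lemma exists_eq_span_singleton {W : Submodule F V} (hW : NdOn Q W) (hd : finrank F W = 1) :
    ∃ v, Q v ≠ 0 ∧ W = F ∙ v := by
  obtain ⟨v, hv, hq⟩ := hW.exists_nonsing le_rfl (by omega)
  exact ⟨v, hq, (Submodule.eq_of_le_of_finrank_eq (by simpa using hv)
    (by rw [finrank_span_singleton (ne_zero_of_Q_ne hq), hd])).symm⟩

lemma two_ne_zero_of_ndOn_span {v : V} (h0 : v ≠ 0) (h : NdOn Q (F ∙ v)) : (2 : F) ≠ 0 := by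
  intro h2
  refine h0 (h v (Submodule.mem_span_singleton_self v) fun x hx => ?_)
  obtain ⟨c, rfl⟩ := Submodule.mem_span_singleton.1 hx
  simp [B_self, h2]

/-- normal form of an anisotropic plane -/
lemma aniso_normal {W : Submodule F V} (hW : NdOn Q W) (hd : finrank F W = 2) (ha : Aniso Q W) :
    ∃ e ∈ W, ∃ f ∈ W, Q e = 1 ∧ 4 * Q e * Q f - B Q e f ^ 2 ≠ 0 ∧
      (((2 : F) ≠ 0 ∧ B Q e f = 0 ∧ ¬ IsSquare (-Q f)) ∨
        ((2 : F) = 0 ∧ B Q e f = 1 ∧ ∀ t, t * t + t ≠ Q f)) := by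
  obtain ⟨e, he, hq⟩ := hW.exists_Q_eq le_rfl (by omega) 1
  have key : ∀ f ∈ W, 4 * Q e * Q f - B Q e f ^ 2 ≠ 0 → ∀ t : F, t * t + Q f + t * B Q e f ≠ 0 := by
    intro f hf hD t ht
    have h1 := ha (t • e + (1 : F) • f) (W.add_mem (W.smul_mem _ he) (W.smul_mem _ hf))
      (by rw [Q_pair, hq]; linear_combination ht)
    exact one_ne_zero (pair_coeff_eq_zero hD (by rw [h1, map_zero]) (by rw [h1, map_zero])).2
  by_cases h2 : (2 : F) = 0
  · obtain ⟨x, hx, hb⟩ := hW.exists_B_ne he (ne_zero_of_Q_ne (by rw [hq]; exact one_ne_zero))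
    have h3 : B Q e ((B Q e x)⁻¹ • x) = 1 := by rw [map_smul, smul_eq_mul, inv_mul_cancel₀ hb]
    have hD : 4 * Q e * Q ((B Q e x)⁻¹ • x) - B Q e ((B Q e x)⁻¹ • x) ^ 2 ≠ 0 := by
      rw [h3, show (4 : F) = 0 by linear_combination 2 * h2]; simp
    refine ⟨e, he, _, W.smul_mem _ hx, hq, hD, Or.inr ⟨h2, h3, fun t ht => ?_⟩⟩
    refine key _ (W.smul_mem _ hx) hD t ?_
    rw [h3, ← ht]
    linear_combination (t * t + t) * h2
  · obtain ⟨h3, h4, -⟩ := split_line h2 hW he (by rw [hq]; exact one_ne_zero)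
    obtain ⟨f, hf, hqf⟩ := h3.exists_nonsing le_rfl (by omega)
    have h5 : B Q e f = 0 := mem_perp_span_singleton.1 hf.2
    have hD : 4 * Q e * Q f - B Q e f ^ 2 ≠ 0 := by
      rw [h5, hq, show (4 : F) = 2 * 2 by norm_num]; simp [h2, hqf]
    refine ⟨e, he, f, hf.1, hq, hD, Or.inl ⟨h2, h5, ?_⟩⟩
    rintro ⟨t, ht⟩
    refine key f hf.1 hD t ?_
    rw [h5, ← ht]; ring

lemma iso_of_aniso {W : Submodule F V} {W' : Submodule F V'} (hW : NdOn Q W) (hW' : NdOn Q' W')
    (hd : finrank F W = 2) (hd' : finrank F W' = 2) (ha : Aniso Q W) (ha' : Aniso Q' W') :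
    Iso Q W Q' W' := by
  obtain ⟨e, he, f, hf, hq, hD, h⟩ := aniso_normal hW hd ha
  obtain ⟨e', he', f', hf', hq', hD', h'⟩ := aniso_normal hW' hd' ha'
  have key : ∀ f'' ∈ W', Q' f'' = Q f → B Q' e' f'' = B Q e f → Iso Q W Q' W' := by
    intro f'' h1 h2 h3
    rw [eq_span_pair hd he hf hD, eq_span_pair (Q := Q') hd' he' h1 (by rwa [h2, h3, hq', ← hq])]
    exact iso_pair hD (hq'.trans hq.symm) h2 h3
  rcases h with ⟨h2, h3, h4⟩ | ⟨h2, h3, h4⟩ <;> rcases h' with ⟨h2', h3', h4'⟩ | ⟨h2', h3', h4'⟩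
  · obtain ⟨s, hs⟩ := isSquare_mul_of_not' h4 h4'
    have h5 : Q' f' ≠ 0 := by intro h; rw [h] at h4'; simp at h4'
    refine key ((s / Q' f') • f') (W'.smul_mem _ hf') ?_ (by rw [map_smul, h3', h3, smul_zero])
    rw [Q_smul]
    field_simp
    linear_combination -hs
  · exact absurd h2' h2
  · exact absurd h2 h2'
  · obtain ⟨s, hs⟩ := exists_artin_schreier h2 h4 h4'
    refine key (s • e' + (1 : F) • f') (W'.add_mem (W'.smul_mem _ he') (W'.smul_mem _ hf')) ?_ ?_
    · rw [Q_pair, hq', h3']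
      linear_combination hs + Q' f' * h2
    · rw [B_left_pair, h3', h3, h2]; simp

lemma plus_hyp {e f : V} (he : Q e = 0) (hef : B Q e f = 1) :
    Plus Q (Submodule.span F ({e, f} : Set V)) :=
  plus_of_sing (finrank_pair (hyp_D he hef)) (left_mem_pair e f)
    (by rintro rfl; simp at hef) he

/-- classification of even-dimensional spaces by their type -/
theorem iso_of_type (j : ℕ) : ∀ (W : Submodule F V) (W' : Submodule F V'), NdOn Q W → NdOn Q' W' →
    finrank F W = 2 * j → finrank F W' = 2 * j → (Plus Q W ↔ Plus Q' W') → Iso Q W Q' W' := by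
  induction j with
  | zero =>
    intro W W' _ _ h1 h2 _
    rw [Submodule.finrank_eq_zero.1 h1, Submodule.finrank_eq_zero.1 h2]
    exact ⟨0, by simp, by simp⟩
  | succ j ih =>
    intro W W' hW hW' h1 h2 hp
    have h0 : W ≠ ⊥ := by rintro rfl; simp at h1
    have h0' : W' ≠ ⊥ := by rintro rfl; simp at h2
    by_cases ha : Aniso Q W
    · have h3 := ha.finrank_le
      exact iso_of_aniso hW hW' (by omega) (by omega) ha
        (aniso_of_not_plus (by omega) (hp.not.1 (ha.not_plus h0)))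
    by_cases ha' : Aniso Q' W'
    · have h3 := ha'.finrank_le
      exact absurd (aniso_of_not_plus (by omega) (hp.not.2 (ha'.not_plus h0'))) ha
    simp only [Aniso, not_forall] at ha ha'
    obtain ⟨e, he, hq, he0⟩ := ha
    obtain ⟨e', he', hq', he0'⟩ := ha'
    obtain ⟨f, hf, hqf, hef⟩ := exists_hyp hW he he0 hq
    obtain ⟨f', hf', hqf', hef'⟩ := exists_hyp hW' he' he0' hq'
    obtain ⟨a1, a2, a3⟩ := split_pair hW he hf (hyp_D hq hef)
    obtain ⟨b1, b2, b3⟩ := split_pair hW' he' hf' (hyp_D hq' hef')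
    rw [← a3, ← b3] at hp ⊢
    rw [(plus_hyp hq hef).sup_iff (ndOn_pair (hyp_D hq hef)) a1 inf_le_right,
      (plus_hyp hq' hef').sup_iff (ndOn_pair (hyp_D hq' hef')) b1 inf_le_right] at hp
    exact Iso.sup (ndOn_pair (hyp_D hq hef)) inf_le_right inf_le_right
      (iso_pair (hyp_D hq hef) (hq'.trans hq.symm) (hqf'.trans hqf.symm) (hef'.trans hef.symm))
      (ih _ _ a1 b1 (by omega) (by omega) hp)

/-- Witt decomposition of a space of minus type -/
lemma exists_witt (j : ℕ) : ∀ W : Submodule F V, NdOn Q W → finrank F W = 2 * j → ¬ Plus Q W →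
    ∃ A C : Submodule F V, NdOn Q A ∧ NdOn Q C ∧ C ≤ perp Q A ∧ Plus Q A ∧ finrank F C = 2 ∧
      ¬ Plus Q C ∧ A ⊔ C = W := by
  induction j with
  | zero =>
    intro W _ h1 h
    rw [Submodule.finrank_eq_zero.1 h1] at h
    exact absurd plus_bot h
  | succ j ih =>
    intro W hW h1 hp
    by_cases ha : Aniso Q W
    · have h3 := ha.finrank_le
      exact ⟨⊥, W, ndOn_bot, hW, by simp, plus_bot, by omega, hp, by simp⟩
    simp only [Aniso, not_forall] at ha
    obtain ⟨e, he, hq, he0⟩ := ha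
    obtain ⟨f, hf, hqf, hef⟩ := exists_hyp hW he he0 hq
    obtain ⟨a1, a2, a3⟩ := split_pair hW he hf (hyp_D hq hef)
    rw [← a3, (plus_hyp hq hef).sup_iff (ndOn_pair (hyp_D hq hef)) a1 inf_le_right] at hp
    obtain ⟨A, C, c1, c2, c3, c4, c5, c6, c7⟩ := ih _ a1 (by omega) hp
    have hA : A ≤ perp Q (Submodule.span F {e, f}) := (c7 ▸ le_sup_left).trans inf_le_right
    have hC : C ≤ perp Q (Submodule.span F {e, f}) := (c7 ▸ le_sup_right).trans inf_le_right
    refine ⟨Submodule.span F {e, f} ⊔ A, C, ndOn_sup (ndOn_pair (hyp_D hq hef)) c1 hA, c2,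
      by rw [perp_sup]; exact le_inf hC c3,
      (plus_hyp hq hef).sup (ndOn_pair (hyp_D hq hef)) hA c4, c5, c6, by rw [sup_assoc, c7, a3]⟩

/-- types multiply -/
theorem plus_sup_iff {A C : Submodule F V} (hA : NdOn Q A) (hC : NdOn Q C) (h : C ≤ perp Q A)
    (hA2 : Even (finrank F A)) (hC2 : Even (finrank F C)) :
    Plus Q (A ⊔ C) ↔ (Plus Q A ↔ Plus Q C) := by
  by_cases h1 : Plus Q A
  · rw [h1.sup_iff hA hC h]; simp [h1]
  by_cases h2 : Plus Q C
  · rw [sup_comm, h2.sup_iff hC hA (le_perp_comm h)]; simp [h2]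
  refine iff_of_true ?_ (iff_of_false h1 h2)
  obtain ⟨j, hj⟩ := hA2
  obtain ⟨k, hk⟩ := hC2
  obtain ⟨A1, A2, a1, a2, a3, a4, a5, a6, rfl⟩ := exists_witt j A hA (by omega) h1
  obtain ⟨C1, C2, c1, c2, c3, c4, c5, c6, rfl⟩ := exists_witt k C hC (by omega) h2
  rw [perp_sup] at h
  have p11 : C1 ≤ perp Q A1 := le_sup_left.trans (h.trans inf_le_left)
  have p12 : C2 ≤ perp Q A1 := le_sup_right.trans (h.trans inf_le_left)
  have p21 : C1 ≤ perp Q A2 := le_sup_left.trans (h.trans inf_le_right)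
  have p22 : C2 ≤ perp Q A2 := le_sup_right.trans (h.trans inf_le_right)
  have h3 : Plus Q (A2 ⊔ C2) := plus_of_iso_neg a2 p22
    (iso_of_type 1 _ _ a2 (ndOn_neg c2) a5 c5 (by rw [plus_neg]; exact iff_of_false a6 c6))
  have : A1 ⊔ A2 ⊔ (C1 ⊔ C2) = (A1 ⊔ C1) ⊔ (A2 ⊔ C2) := sup_sup_sup_comm _ _ _ _
  rw [this]
  refine (a4.sup a1 p11 c4).sup (ndOn_sup a1 c1 p11) ?_ h3
  rw [perp_sup]
  exact sup_le (le_inf a3 (le_perp_comm p21)) (le_inf p12 c3)

lemma even_finrank_of_char_two (h2 : (2 : F) = 0) (n : ℕ) : ∀ W : Submodule F V, NdOn Q W →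
    finrank F W = n → Even n := by
  induction n using Nat.strong_induction_on with
  | _ n ih =>
    intro W hW hd
    by_cases h0 : W = ⊥
    · rw [h0, finrank_bot] at hd; exact ⟨0, by omega⟩
    obtain ⟨e, he, he0⟩ := Submodule.exists_mem_ne_zero_of_ne_bot h0
    obtain ⟨f, hf, hb⟩ := hW.exists_B_ne he he0
    obtain ⟨a1, a2, -⟩ := split_pair hW he hf (by
      rw [show (4 : F) = 0 by linear_combination 2 * h2]; simpa using hb)
    obtain ⟨k, hk⟩ := ih _ (by omega) _ a1 rfl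
    exact ⟨k + 1, by omega⟩

lemma two_ne_zero_of_odd_finrank {W : Submodule F V} (hW : NdOn Q W) (h : Odd (finrank F W)) :
    (2 : F) ≠ 0 := fun h2 => (Nat.not_even_iff_odd.2 h) (even_finrank_of_char_two h2 _ W hW rfl)

lemma plus_two_lines (h2 : (2 : F) ≠ 0) {v w : V} (hv : Q v ≠ 0) (hq : Q w = Q v)
    (hb : B Q v w = 0) : Plus Q ((F ∙ v) ⊔ (F ∙ w)) ↔ IsSquare (-1 : F) := by
  have hD : 4 * Q v * Q w - B Q v w ^ 2 ≠ 0 := by
    rw [hb, hq, show (4 : F) = 2 * 2 by norm_num]; simp [h2, hv]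
  rw [← Submodule.span_insert]
  constructor
  · intro h
    obtain ⟨x, hx, hx0, hqx⟩ := h.exists_sing (by
      intro h0
      have := finrank_pair hD
      rw [h0, finrank_bot] at this
      omega)
    obtain ⟨a, b, rfl⟩ := mem_span_pair'.1 hx
    rw [Q_pair, hb, hq] at hqx
    have h3 : a * a + b * b = 0 := by
      apply mul_right_cancel₀ hv
      linear_combination hqx
    have hb0 : b ≠ 0 := by
      rintro rfl
      have : a = 0 := by simpa using h3
      exact hx0 (by simp [this])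
    exact ⟨a / b, by field_simp; linear_combination -h3⟩
  · rintro ⟨i, hi⟩
    refine plus_of_sing (finrank_pair hD) (s := i • v + (1 : F) • w)
      (mem_span_pair'.2 ⟨i, 1, rfl⟩) (fun h0 => ?_) ?_
    · exact one_ne_zero (pair_coeff_eq_zero hD (by rw [h0, map_zero]) (by rw [h0, map_zero])).2
    · rw [Q_pair, hb, hq, ← hi]; ring

lemma odd_aux {W W' : Submodule F V} (hW : NdOn Q W) (hW' : NdOn Q W') (h : W' ≤ perp Q W)
    (ho : Odd (finrank F W)) (hd : finrank F W' = finrank F W) {v v' : V} (hv : v ∈ W)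
    (hv' : v' ∈ W') (hq : Q v ≠ 0) (hqq : Q v' = Q v) :
    Plus Q (W ⊔ W') ↔ ((Plus Q (W ⊓ perp Q (F ∙ v)) ↔ Plus Q (W' ⊓ perp Q (F ∙ v'))) ↔
      IsSquare (-1 : F)) := by
  have h2 := two_ne_zero_of_odd_finrank hW ho
  obtain ⟨a1, a2, a3⟩ := split_line h2 hW hv hq
  obtain ⟨b1, b2, b3⟩ := split_line h2 hW' hv' (hqq ▸ hq)
  obtain ⟨j, hj⟩ := ho
  have hs : F ∙ v ≤ W := by simpa using hv
  have hs' : F ∙ v' ≤ W' := by simpa using hv'
  have p1 : W' ⊓ perp Q (F ∙ v') ≤ perp Q (W ⊓ perp Q (F ∙ v)) :=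
    inf_le_left.trans (h.trans (perp_anti inf_le_left))
  have p2 : F ∙ v' ≤ perp Q (F ∙ v) := hs'.trans (h.trans (perp_anti hs))
  have n1 := NdOn.span_singleton h2 hq
  have n2 := NdOn.span_singleton h2 (hqq ▸ hq : Q v' ≠ 0)
  have e1 : Even (finrank F (W ⊓ perp Q (F ∙ v) : Submodule F V)) := ⟨j, by omega⟩
  have e2 : Even (finrank F (W' ⊓ perp Q (F ∙ v') : Submodule F V)) := ⟨j, by omega⟩
  rw [← plus_two_lines h2 hq hqq (h hv' v hv), ← plus_sup_iff a1 b1 p1 e1 e2,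
    ← plus_sup_iff (ndOn_sup a1 b1 p1) (ndOn_sup n1 n2 p2)]
  · rw [sup_comm _ ((F ∙ v) ⊔ (F ∙ v')), sup_sup_sup_comm, a3, b3]
  · rw [perp_sup]
    exact sup_le (le_inf (le_perp_comm inf_le_right)
        (hs.trans ((le_perp_comm h).trans (perp_anti inf_le_left))))
      (le_inf (hs'.trans (h.trans (perp_anti inf_le_left))) (le_perp_comm inf_le_right))
  · rw [finrank_sup_of_perp a1 p1]; exact e1.add e2
  · rw [finrank_sup_of_perp n1 p2, finrank_span_singleton (ne_zero_of_Q_ne hq),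
      finrank_span_singleton (ne_zero_of_Q_ne (hqq ▸ hq : Q v' ≠ 0))]
    exact ⟨1, rfl⟩

/-- type of the sum of two isometric odd-dimensional spaces -/
theorem plus_iff_of_iso_odd {W W' : Submodule F V} (hW : NdOn Q W) (h : W' ≤ perp Q W)
    (ho : Odd (finrank F W)) (hi : Iso Q W Q W') : Plus Q (W ⊔ W') ↔ IsSquare (-1 : F) := by
  have h2 := two_ne_zero_of_odd_finrank hW ho
  have hW' := hi.ndOn hW
  have hd := hi.finrank_eq hW
  obtain ⟨v, hv, hq⟩ := hW.exists_nonsing le_rfl (by obtain ⟨j, hj⟩ := ho; omega)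
  obtain ⟨f, rfl, hf⟩ := hi
  rw [odd_aux hW hW' h ho hd hv ⟨v, hv, rfl⟩ hq (hf v hv)]
  obtain ⟨a1, a2, -⟩ := split_line h2 hW hv hq
  obtain ⟨b1, b2, -⟩ := split_line h2 hW' ⟨v, hv, rfl⟩ (by rw [hf v hv]; exact hq)
  have h3 : Iso Q (W ⊓ perp Q (F ∙ v)) Q (W.map f ⊓ perp Q (F ∙ f v)) := by
    refine ⟨f, Submodule.eq_of_le_of_finrank_eq ?_ ?_, fun w hw => hf w hw.1⟩
    · rintro _ ⟨w, hw, rfl⟩
      refine ⟨⟨w, hw.1, rfl⟩, mem_perp_span_singleton.2 ?_⟩
      rw [B_map_of_iso hf hv hw.1]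
      exact mem_perp_span_singleton.1 hw.2
    · rw [finrank_map_of_inj fun w (hw : w ∈ W ⊓ perp Q (F ∙ v)) => inj_of_iso hW hf w hw.1]
      omega
  simp [h3.plus_iff a1]

theorem iso_of_plus_iff_odd {W W' : Submodule F V} (hW : NdOn Q W) (hW' : NdOn Q W')
    (h : W' ≤ perp Q W) (ho : Odd (finrank F W)) (hd : finrank F W' = finrank F W)
    (h3 : 2 ≤ finrank F W) (hp : Plus Q (W ⊔ W') ↔ IsSquare (-1 : F)) : Iso Q W Q W' := by
  have h2 := two_ne_zero_of_odd_finrank hW ho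
  obtain ⟨v, hv, hq⟩ := hW.exists_Q_eq le_rfl (by omega) 1
  obtain ⟨v', hv', hq'⟩ := hW'.exists_Q_eq le_rfl (by omega) 1
  have hq0 : Q v ≠ 0 := by rw [hq]; exact one_ne_zero
  have hq0' : Q v' ≠ 0 := by rw [hq']; exact one_ne_zero
  rw [odd_aux hW hW' h ho hd hv hv' hq0 (hq'.trans hq.symm)] at hp
  obtain ⟨a1, a2, a3⟩ := split_line h2 hW hv hq0
  obtain ⟨b1, b2, b3⟩ := split_line h2 hW' hv' hq0'
  obtain ⟨j, hj⟩ := ho
  rw [← a3, ← b3]
  exact Iso.sup (NdOn.span_singleton h2 hq0) inf_le_right inf_le_right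
    (iso_line h2 hq0 (hq'.trans hq.symm))
    (iso_of_type j _ _ a1 b1 (by omega) (by omega) (by tauto))

end class_

end Cfsg.Agent.H8
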