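import Cfsg.Agent.H8.OType

/-! The two families of maximal totally singular subspaces, orthogonal sums, small fields. -/

set_option autoImplicit false
set_option linter.unusedSectionVars false

namespace Cfsg.Agent.H8

open Module Cfsg.Agent.Orth

variable {F V : Type*} [Field F] [AddCommGroup V] [Module F V] {Q : QuadraticForm F V}
  [FiniteDimensional F V]

/-- maximal totally singular subspace of half dimension -/
def Half (Q : QuadraticForm F V) (U : Submodule F V) : Prop :=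
  TS Q U ∧ 2 * finrank F U = finrank F V

lemma Half.perp_eq (hQ : Nd Q) {U : Submodule F V} (hU : Half Q U) : perp Q U = U := by
  have := inf_perp_eq_of_half hQ.ndOn_top le_top hU.1.le_perp (by rw [finrank_top]; exact hU.2)
  rwa [top_inf_eq] at this

lemma Half.map {U : Submodule F V} (hU : Half Q U) {g : V ≃ₗ[F] V} (hg : g ∈ O Q) :
    Half Q (U.map (g : V →ₗ[F] V)) := by
  refine ⟨?_, by rw [LinearEquiv.finrank_map_eq]; exact hU.2⟩
  rintro _ ⟨u, hu, rfl⟩
  exact (hg u).trans (hU.1 u hu)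

lemma adj_aux {U U' U₀ W : Submodule F V} (hW : U ⊓ U' = W) (hd : finrank F W + 1 = finrank F U)
    (hp : perp Q W = U ⊔ U') {y : V} (hy0 : y ∈ U₀) (hyU : y ∈ U) (hyW : y ∉ W)
    (hd2 : finrank F (U₀ ⊓ perp Q W : Submodule F V) = finrank F (U₀ ⊓ W : Submodule F V) + 1) :
    finrank F (U ⊓ U₀ : Submodule F V) = finrank F (U' ⊓ U₀ : Submodule F V) + 1 := by
  have hWU : W ≤ U := hW ▸ inf_le_left
  have hWU' : W ≤ U' := hW ▸ inf_le_right
  have h1 : (U₀ ⊓ W) ⊔ F ∙ y = U₀ ⊓ perp Q W := by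
    apply Submodule.eq_of_le_of_finrank_eq
    · refine sup_le (inf_le_inf_left _ (hp ▸ hWU.trans le_sup_left)) ?_
      rw [Submodule.span_singleton_le_iff_mem]
      exact ⟨hy0, hp ▸ Submodule.mem_sup_left hyU⟩
    · rw [Submodule.finrank_sup_span_singleton (fun h : y ∈ U₀ ⊓ W => hyW h.2), hd2]
  have h2 : U ⊓ U₀ = U₀ ⊓ perp Q W := by
    apply le_antisymm
    · exact fun x hx => ⟨hx.2, hp ▸ Submodule.mem_sup_left hx.1⟩
    · rw [← h1]
      exact sup_le (fun x hx => ⟨hWU hx.2, hx.1⟩) (by simpa using ⟨hyU, hy0⟩)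
  have h3 : U' ⊓ U₀ = U₀ ⊓ W := by
    apply le_antisymm
    · intro x hx
      have : x ∈ U ⊓ U₀ := h2 ▸ ⟨hx.2, hp ▸ Submodule.mem_sup_right hx.1⟩
      exact ⟨hx.2, hW ▸ ⟨this.1, hx.1⟩⟩
    · exact fun x hx => ⟨hWU' hx.2, hx.1⟩
  rw [h2, h3, hd2]

lemma adj_parity (hQ : Nd Q) {U U' U₀ : Submodule F V} (hU : Half Q U) (hU' : Half Q U')
    (hU₀ : Half Q U₀) (hd : finrank F (U ⊓ U' : Submodule F V) + 1 = finrank F U) :
    Odd (finrank F (U ⊓ U₀ : Submodule F V) + finrank F (U' ⊓ U₀ : Submodule F V)) := by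
  obtain ⟨W, hW⟩ : ∃ W, U ⊓ U' = W := ⟨_, rfl⟩
  rw [hW] at hd
  have e1 := hU.2
  have e2 := hU'.2
  have e3 := hU₀.2
  have hp : perp Q W = U ⊔ U' := by rw [← hW, hQ.perp_inf, hU.perp_eq hQ, hU'.perp_eq hQ]
  have hd2 : finrank F (U₀ ⊓ perp Q W : Submodule F V) =
      finrank F (U₀ ⊓ W : Submodule F V) + 1 := by
    have h1 := hQ.finrank_perp (U₀ ⊔ W)
    rw [perp_sup, hU₀.perp_eq hQ] at h1
    have h2 := Submodule.finrank_sup_add_finrank_inf_eq U₀ W
    omega
  obtain ⟨y, hy, hyn⟩ := exists_mem_notMem_of_finrank_lt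
    (H := U₀ ⊓ perp Q W) (X := U₀ ⊓ W) (by omega)
  have hyW : y ∉ W := fun h => hyn ⟨hy.1, h⟩
  by_cases hyU : y ∈ U
  · rw [adj_aux hW hd hp hy.1 hyU hyW hd2]
    exact ⟨_, by ring⟩
  have hyU' : y ∈ U' := by
    obtain ⟨u, hu, u', hu', rfl⟩ := Submodule.mem_sup.1 (hp ▸ hy.2)
    have hq := hU₀.1 _ hy.1
    rw [Q_add, hU.1 u hu, hU'.1 u' hu', zero_add, zero_add] at hq
    by_contra hc
    have huW : u ∉ W := fun h => hc (U'.add_mem ((hW ▸ h : u ∈ U ⊓ U').2) hu')
    have h1 : W ⊔ F ∙ u = U := Submodule.eq_of_le_of_finrank_eq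
      (sup_le (hW ▸ inf_le_left) (by simpa using hu))
      (by rw [Submodule.finrank_sup_span_singleton huW, hd])
    apply hyU
    refine U.add_mem hu ?_
    rw [← hU.perp_eq hQ, ← h1, perp_sup]
    exact ⟨hp ▸ Submodule.mem_sup_right hu', mem_perp_span_singleton.2 hq⟩
  rw [adj_aux (by rw [inf_comm, hW]) (by omega) (by rw [hp, sup_comm]) hy.1 hyU' hyW hd2]
  exact ⟨_, by ring⟩

lemma refl_parity (hQ : Nd Q) {U U₀ : Submodule F V} (hU : Half Q U) (hU₀ : Half Q U₀) {a : V}
    (ha : Q a ≠ 0) : Odd (finrank F (U ⊓ U₀ : Submodule F V) +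
      finrank F (U.map (refl Q a : V →ₗ[F] V) ⊓ U₀ : Submodule F V)) := by
  have hU' := hU.map (refl_mem_O Q a)
  refine adj_parity hQ hU hU' hU₀ ?_
  have h1 : U ⊓ perp Q (F ∙ a) ≤ U ⊓ U.map (refl Q a : V →ₗ[F] V) := fun x hx =>
    ⟨hx.1, x, hx.1, refl_of_perp (mem_perp_span_singleton.1 hx.2)⟩
  have h2 := finrank_inf_perp_ge (Q := Q) U (F ∙ a)
  have h3 := Submodule.finrank_mono h1
  have h4 := finrank_span_singleton_le (F := F) a
  have h5 : U ⊓ U.map (refl Q a : V →ₗ[F] V) < U := by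
    refine lt_of_le_of_ne inf_le_left fun h => ?_
    have h6 : a ∉ perp Q U := by rw [hU.perp_eq hQ]; exact fun h => ha (hU.1 a h)
    apply h6
    intro u hu
    obtain ⟨x, hx, hxu⟩ := (h.symm.le hu).2
    by_contra hb
    have h7 : refl Q a u = x := by rw [← hxu]; exact refl_refl Q a x
    rw [refl_apply, B_comm] at h7
    have h8 : ((Q a)⁻¹ * B Q u a) • a ∈ U := by
      have := U.sub_mem hu hx
      rwa [← h7, sub_sub_cancel] at this
    exact ha (hU.1 a ((U.smul_mem_iff (mul_ne_zero (inv_ne_zero ha) hb)).1 h8))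
  have := Submodule.finrank_lt_finrank_of_lt h5
  omega

lemma eich_eq_refl_mul {u w : V} (hu : Q u = 0) (hw : B Q u w = 0) (hq : Q w ≠ 0) :
    eich Q u w = refl Q w * refl Q (w + Q w • u) := by
  ext x
  have h1 : Q (w + Q w • u) = Q w := by
    rw [Q_add, Q_smul, hu, map_smul, B_comm, hw]; simp
  have h2 : B Q w u = 0 := by rw [B_comm, hw]
  rw [mul_app, eich_apply hu hw, refl_apply, refl_apply, h1]
  simp only [map_sub, map_add, map_smul, LinearMap.add_apply, LinearMap.smul_apply, smul_eq_mul,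
    h2, B_self]
  match_scalars <;> (field_simp; try ring)

theorem EO_parity (hQ : Nd Q) (hd : 5 ≤ finrank F V) {U₀ : Submodule F V} (hU₀ : Half Q U₀)
    {g : V ≃ₗ[F] V} (hg : g ∈ EO Q) {U : Submodule F V} (hU : Half Q U) :
    Even (finrank F (U ⊓ U₀ : Submodule F V) +
      finrank F (U.map (g : V →ₗ[F] V) ⊓ U₀ : Submodule F V)) := by
  have hmul : ∀ (a b : V ≃ₗ[F] V) (U : Submodule F V),
      U.map ((a * b : V ≃ₗ[F] V) : V →ₗ[F] V) = (U.map (b : V →ₗ[F] V)).map (a : V →ₗ[F] V) := by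
    intro a b U
    rw [← Submodule.map_comp]
    rfl
  let M : Subgroup (V ≃ₗ[F] V) :=
    { carrier := {g | g ∈ O Q ∧ ∀ U : Submodule F V, Half Q U →
        Even (finrank F (U ⊓ U₀ : Submodule F V) +
          finrank F (U.map (g : V →ₗ[F] V) ⊓ U₀ : Submodule F V))}
      mul_mem' := fun {a b} ha hb => ⟨(O Q).mul_mem ha.1 hb.1, fun U hU => by
        have h1 := hb.2 U hU
        have h2 := ha.2 _ (hU.map hb.1)
        rw [hmul]
        rw [Nat.even_iff] at *
        omega⟩
      one_mem' := ⟨(O Q).one_mem, fun U hU => by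
        have : U.map ((1 : V ≃ₗ[F] V) : V →ₗ[F] V) = U := Submodule.map_id U
        rw [this]
        exact ⟨_, rfl⟩⟩
      inv_mem' := fun {a} ha => ⟨(O Q).inv_mem ha.1, fun U hU => by
        have h1 := ha.2 _ (hU.map ((O Q).inv_mem ha.1))
        have : U.map ((1 : V ≃ₗ[F] V) : V →ₗ[F] V) = U := Submodule.map_id U
        rw [← hmul, mul_inv_cancel, this, add_comm] at h1
        exact h1⟩ }
  have h1 : ∀ a b, Q a ≠ 0 → Q b ≠ 0 → refl Q a * refl Q b ∈ M := fun a b ha hb =>
    ⟨(O Q).mul_mem (refl_mem_O Q a) (refl_mem_O Q b), fun U hU => by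
      have h1 := refl_parity hQ hU hU₀ hb
      have h2 := refl_parity hQ (hU.map (refl_mem_O Q b)) hU₀ ha
      rw [hmul]
      rw [Nat.odd_iff] at h1 h2
      rw [Nat.even_iff]
      omega⟩
  have h2 : ∀ u w, Q u = 0 → B Q u w = 0 → Q w ≠ 0 → eich Q u w ∈ M := fun u w hu hw hq => by
    rw [eich_eq_refl_mul hu hw hq]
    refine h1 _ _ hq ?_
    rw [Q_add, Q_smul, hu, map_smul, B_comm, hw]
    simpa using hq
  have h3 : EO Q ≤ M := by
    rw [EO_le_iff]
    intro u w hu hw
    by_cases hq : Q w = 0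
    swap
    · exact h2 u w hu hw hq
    have h4 := hQ.finrank_perp (Submodule.span F {u, w})
    have h5 := finrank_span_pair_le (F := F) u w
    obtain ⟨a, ha, hqa⟩ := hQ.ndOn_top.exists_nonsing (H := perp Q (Submodule.span F {u, w}))
      le_top (by rw [finrank_top]; omega)
    rw [mem_perp_pair] at ha
    have h6 : B Q u (w - a) = 0 := by rw [map_sub, hw, ha.1, sub_zero]
    have := M.mul_mem (h2 u (w - a) hu h6 (by rw [Q_sub, hq, ha.2]; simpa using hqa))
      (h2 u a hu ha.1 hqa)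
    rwa [eich_mul hu h6 ha.1, sub_add_cancel] at this
  exact (h3 hg).2 U hU

/-- elements of `Ω` stabilising a submaximal singular subspace fix the maximal ones above it -/
theorem EO_fix_of_submax (hQ : Nd Q) (hd : 5 ≤ finrank F V) {W U : Submodule F V} (hU : Half Q U)
    (hWU : W ≤ U) (hW : finrank F W + 1 = finrank F U) {g : V ≃ₗ[F] V} (hg : g ∈ EO Q)
    (hgW : ∀ v ∈ W, g v ∈ W) : ∀ v ∈ U, g v ∈ U := by
  have h1 := EO_parity hQ hd hU hg hU
  rw [inf_idem] at h1
  have h2 : W ≤ U.map (g : V →ₗ[F] V) ⊓ U :=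
    le_inf ((map_eq_of_forall_mem hgW).symm.le.trans (Submodule.map_mono hWU)) hWU
  have h3 := Submodule.finrank_mono h2
  have h4 := Submodule.finrank_mono (inf_le_right : U.map (g : V →ₗ[F] V) ⊓ U ≤ U)
  have h5 : U.map (g : V →ₗ[F] V) ⊓ U = U.map (g : V →ₗ[F] V) :=
    Submodule.eq_of_le_of_finrank_eq inf_le_left (by
      rw [LinearEquiv.finrank_map_eq]
      rw [Nat.even_iff] at h1
      omega)
  intro v hv
  exact (h5.symm.le ⟨v, hv, rfl⟩).2

theorem even_of_EO_swap (hQ : Nd Q) (hd : 5 ≤ finrank F V) {U U' : Submodule F V} (hU : Half Q U)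
    (hUU : Disjoint U' U) {g : V ≃ₗ[F] V} (hg : g ∈ EO Q) (h : U.map (g : V →ₗ[F] V) = U') :
    Even (finrank F U) := by
  have h1 := EO_parity hQ hd hU hg hU
  rwa [inf_idem, h, hUU.eq_bot, finrank_bot, add_zero] at h1

/-! ### orthogonal sums -/

section sums
variable {κ : Type*} [DecidableEq κ] {D : κ → Submodule F V}

lemma le_perp_sup (horth : ∀ i j, i ≠ j → D j ≤ perp Q (D i)) {s : Finset κ} {a : κ} (ha : a ∉ s) :
    s.sup D ≤ perp Q (D a) :=
  Finset.sup_le fun j hj => horth a j (by rintro rfl; exact ha hj)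

lemma ndOn_finsup (hnd : ∀ i, NdOn Q (D i)) (horth : ∀ i j, i ≠ j → D j ≤ perp Q (D i))
    (s : Finset κ) : NdOn Q (s.sup D) := by
  induction s using Finset.induction_on with
  | empty => exact ndOn_bot
  | insert a s ha ih => rw [Finset.sup_insert]; exact ndOn_sup (hnd a) ih (le_perp_sup horth ha)

lemma finrank_finsup (hnd : ∀ i, NdOn Q (D i)) (horth : ∀ i j, i ≠ j → D j ≤ perp Q (D i))
    {k : ℕ} (hk : ∀ i, finrank F (D i) = k) (s : Finset κ) :
    finrank F (s.sup D : Submodule F V) = s.card * k := by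
  induction s using Finset.induction_on with
  | empty => simp
  | insert a s ha ih =>
    rw [Finset.sup_insert, finrank_sup_of_perp (hnd a) (le_perp_sup horth ha), ih, hk,
      Finset.card_insert_of_notMem ha]
    ring

variable [Finite F]

theorem plus_finsup_even (hnd : ∀ i, NdOn Q (D i)) (horth : ∀ i j, i ≠ j → D j ≤ perp Q (D i))
    {k : ℕ} (hk : ∀ i, finrank F (D i) = k) (he : Even k) {τ : Prop} (hτ : ∀ i, Plus Q (D i) ↔ τ)
    (s : Finset κ) : Plus Q (s.sup D) ↔ (τ ∨ Even s.card) := by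
  induction s using Finset.induction_on with
  | empty => simpa using plus_bot
  | insert a s ha ih =>
    rw [Finset.sup_insert, plus_sup_iff (hnd a) (ndOn_finsup hnd horth s) (le_perp_sup horth ha)
      (by rw [hk]; exact he) (by rw [finrank_finsup hnd horth hk]; exact he.mul_left _), ih, hτ,
      Finset.card_insert_of_notMem ha, Nat.even_add_one]
    tauto

theorem plus_finsup_odd (hnd : ∀ i, NdOn Q (D i)) (horth : ∀ i j, i ≠ j → D j ≤ perp Q (D i))
    {k : ℕ} (hk : ∀ i, finrank F (D i) = k) (ho : Odd k) (hi : ∀ i j, Iso Q (D i) Q (D j))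
    (j : ℕ) : ∀ s : Finset κ, s.card = 2 * j →
      (Plus Q (s.sup D) ↔ (IsSquare (-1 : F) ∨ Even j)) := by
  induction j with
  | zero =>
    intro s hs
    rw [Finset.card_eq_zero.1 hs]
    simpa using plus_bot
  | succ j ih =>
    intro s hs
    obtain ⟨a, s1, ha, rfl, h1⟩ := Finset.card_eq_succ.1 (show s.card = (2 * j + 1) + 1 by omega)
    obtain ⟨b, s2, hb, rfl, h2⟩ := Finset.card_eq_succ.1 h1
    have hab : a ≠ b := by rintro rfl; simp at ha
    have ha2 : a ∉ s2 := fun h => ha (Finset.mem_insert_of_mem h)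
    rw [Finset.sup_insert, Finset.sup_insert, ← sup_assoc,
      plus_sup_iff (ndOn_sup (hnd a) (hnd b) (horth a b hab)) (ndOn_finsup hnd horth s2)
        (by rw [perp_sup]; exact le_inf (le_perp_sup horth ha2) (le_perp_sup horth hb))
        (by rw [finrank_sup_of_perp (hnd a) (horth a b hab), hk, hk]; exact ⟨k, rfl⟩)
        (by rw [finrank_finsup hnd horth hk, h2]; exact ⟨j * k, by ring⟩),
      ih s2 h2, plus_iff_of_iso_odd (hnd a) (horth a b hab) (by rw [hk]; exact ho) (hi a b),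
      Nat.even_add_one]
    tauto

end sums

/-! ### small fields -/

section small
variable [Finite F]

lemma exists_sing_perp {W : Submodule F V} (hd : 4 ≤ finrank F W) (v : V) :
    ∃ s ∈ W, s ≠ 0 ∧ Q s = 0 ∧ B Q v s = 0 := by
  have h1 := finrank_inf_perp_ge (Q := Q) W (F ∙ v)
  have h2 := finrank_span_singleton_le (F := F) v
  obtain ⟨s, hs, h0, hq⟩ := exists_sing_of_three (Q := Q) (W ⊓ perp Q (F ∙ v)) (by omega)
  exact ⟨s, hs.1, h0, hq, mem_perp_span_singleton.1 hs.2⟩

lemma pow_card_sub_one {a : F} (ha : a ≠ 0) : a ^ (Nat.card F - 1) = 1 := by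
  have := Fintype.ofFinite F
  rw [Nat.card_eq_fintype_card]
  exact FiniteField.pow_card_sub_one_eq_one a ha

lemma cast_card_eq_zero : (Nat.card F : F) = 0 := by
  have := Fintype.ofFinite F
  rw [Nat.card_eq_fintype_card]
  exact FiniteField.cast_card_eq_zero F

lemma mul_self_of_card_le_three (h : Nat.card F ≤ 3) {a : F} (ha : a ≠ 0) : a * a = 1 := by
  have h1 := pow_card_sub_one ha
  have h2 : 2 ≤ Nat.card F := Finite.one_lt_card
  interval_cases Nat.card F
  · simp only [Nat.add_one_sub_one, pow_one] at h1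
    rw [h1, one_mul]
  · simpa [sq] using h1

lemma Plus.exists_basis {W : Submodule F V} (hW : NdOn Q W) (hd : finrank F W = 2)
    (hp : Plus Q W) : ∃ e f, Q e = 0 ∧ Q f = 0 ∧ B Q e f = 1 ∧ W = Submodule.span F {e, f} := by
  obtain ⟨e, he, he0, hq⟩ := hp.exists_sing (by rintro rfl; simp at hd)
  obtain ⟨f, hf, hqf, hef⟩ := exists_hyp hW he he0 hq
  exact ⟨e, f, hq, hqf, hef, eq_span_pair hd he hf (hyp_D hq hef)⟩

/-- a plus type plane over a field with at most three elements has one line of norm one -/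
lemma plus_plane_small (h : Nat.card F ≤ 3) {W : Submodule F V} (hW : NdOn Q W)
    (hd : finrank F W = 2) (hp : Plus Q W) :
    ∃ v ∈ W, Q v = 1 ∧ ∀ x ∈ W, Q x = 1 → x ∈ F ∙ v := by
  obtain ⟨e, f, he, hf, hef, rfl⟩ := hp.exists_basis hW hd
  refine ⟨(1 : F) • e + (1 : F) • f, mem_span_pair'.2 ⟨1, 1, rfl⟩,
    by rw [Q_pair, he, hf, hef]; ring, fun x hx hq => ?_⟩
  obtain ⟨a, b, rfl⟩ := mem_span_pair'.1 hx
  rw [Q_pair, he, hf, hef] at hq
  have h1 : a * b = 1 := by linear_combination hq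
  have h2 := mul_self_of_card_le_three h (left_ne_zero_of_mul_eq_one h1)
  have h3 : b = a := by linear_combination a * h1 - b * h2
  rw [h3, Submodule.mem_span_singleton]
  exact ⟨a, by module⟩

/-- `v` belongs to an orthogonal frame of `W` determined by its norm -/
def FrameVec (Q : QuadraticForm F V) (W : Submodule F V) (v : V) : Prop :=
  v ∈ W ∧ Q v ≠ 0 ∧ ∀ x ∈ W, Q x = Q v → x ∈ F ∙ v ∨ B Q v x = 0

lemma frame_plus_five (h : Nat.card F = 5) {W : Submodule F V} (hW : NdOn Q W)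
    (hd : finrank F W = 2) (hp : Plus Q W) : ∃ v, FrameVec Q W v := by
  obtain ⟨e, f, he, hf, hef, rfl⟩ := hp.exists_basis hW hd
  have h0 : Q ((1 : F) • e + (1 : F) • f) = 1 := by rw [Q_pair, he, hf, hef]; ring
  refine ⟨(1 : F) • e + (1 : F) • f, mem_span_pair'.2 ⟨1, 1, rfl⟩,
    by rw [h0]; exact one_ne_zero, fun x hx hq => ?_⟩
  obtain ⟨a, b, rfl⟩ := mem_span_pair'.1 hx
  rw [h0, Q_pair, he, hf, hef] at hq
  have h1 : a * b = 1 := by linear_combination hq
  have h2 := pow_card_sub_one (left_ne_zero_of_mul_eq_one h1)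
  rw [h] at h2
  have h3 : (b - a) * (a + b) = 0 := by
    have : a ^ 2 * ((b - a) * (a + b)) = 0 := by
      linear_combination (a * b + 1) * h1 - h2
    exact (mul_eq_zero.1 this).resolve_left (pow_ne_zero _ (left_ne_zero_of_mul_eq_one h1))
  rcases mul_eq_zero.1 h3 with h4 | h4
  · left
    rw [sub_eq_zero.1 h4, Submodule.mem_span_singleton]
    exact ⟨a, by module⟩
  · right
    rw [one_smul, one_smul, map_add (B Q), LinearMap.add_apply, B_left_pair, B_right_pair, he, hf,
      hef]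
    linear_combination h4

lemma frame_of_aniso (h : Nat.card F = 3) {W : Submodule F V} {v : V} (hv : v ∈ W)
    (hq : Q v ≠ 0) (ha : Aniso Q (W ⊓ perp Q (F ∙ v))) : FrameVec Q W v := by
  have h2 : (2 : F) ≠ 0 := by
    intro h2
    have := cast_card_eq_zero (F := F)
    rw [h] at this
    exact one_ne_zero (by push_cast at this; linear_combination this - h2)
  refine ⟨hv, hq, fun x hx hqx => ?_⟩
  obtain ⟨_, ha', y, hy, rfl⟩ := (NdOn.span_singleton h2 hq).exists_decomp x
  obtain ⟨c, rfl⟩ := Submodule.mem_span_singleton.1 ha'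
  have h3 : B Q v y = 0 := mem_perp_span_singleton.1 hy
  by_cases hc : c = 0
  · right
    simp [hc, h3]
  · left
    rw [Q_add, Q_smul, mul_self_of_card_le_three h.le hc, map_smul, LinearMap.smul_apply, h3] at hqx
    have : y = 0 := ha y ⟨by simpa using W.sub_mem hx (W.smul_mem c hv), hy⟩
      (by linear_combination hqx)
    rw [this, add_zero]
    exact ha'

lemma frame_minus_three (h : Nat.card F = 3) {W : Submodule F V} (hW : NdOn Q W)
    (hd : finrank F W = 2) (hp : ¬ Plus Q W) : ∃ v, FrameVec Q W v := by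
  obtain ⟨v, hv, hq⟩ := hW.exists_nonsing le_rfl (by omega)
  exact ⟨v, frame_of_aniso h hv hq ((aniso_of_not_plus hd hp).mono inf_le_left)⟩

lemma frame_dim_three (h : Nat.card F = 3) {W : Submodule F V} (hW : NdOn Q W)
    (hd : finrank F W = 3) : ∃ v, FrameVec Q W v := by
  have h3 : (3 : F) = 0 := by
    have := cast_card_eq_zero (F := F)
    rw [h] at this
    exact_mod_cast this
  have h2 : (2 : F) ≠ 0 := fun h2 => one_ne_zero (by linear_combination h3 - h2)
  obtain ⟨e, he, hqe⟩ := hW.exists_Q_eq le_rfl (by omega) 1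
  obtain ⟨a1, a2, -⟩ := split_line h2 hW he (by rw [hqe]; exact one_ne_zero)
  obtain ⟨f, hf, hqf⟩ := a1.exists_Q_eq le_rfl (by omega) 1
  have hef : B Q e f = 0 := mem_perp_span_singleton.1 hf.2
  have hD : 4 * Q e * Q f - B Q e f ^ 2 ≠ 0 := by
    rw [hef, hqe, hqf, show (4 : F) = 2 * 2 by norm_num]; simp [h2]
  obtain ⟨b1, b2, -⟩ := split_pair hW he hf.1 hD
  obtain ⟨v, hv, hq⟩ := b1.exists_nonsing le_rfl (by omega)
  refine ⟨v, frame_of_aniso h hv.1 hq ?_⟩
  obtain ⟨-, c2, -⟩ := split_line h2 hW hv.1 hq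
  have hv2 := mem_perp_pair.1 hv.2
  rw [eq_span_pair (W := W ⊓ perp Q (F ∙ v)) (by omega)
    ⟨he, mem_perp_span_singleton.2 (by rw [B_comm]; exact hv2.1)⟩
    ⟨hf.1, mem_perp_span_singleton.2 (by rw [B_comm]; exact hv2.2)⟩ hD]
  intro x hx hqx
  obtain ⟨a, b, rfl⟩ := mem_span_pair'.1 hx
  rw [Q_pair, hqe, hqf, hef] at hqx
  by_cases ha : a = 0
  · have : b = 0 := by simpa [ha] using hqx
    simp [ha, this]
  · by_cases hb : b = 0
    · exact absurd (by simpa [hb] using hqx) ha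
    · rw [mul_self_of_card_le_three h.le ha, mul_self_of_card_le_three h.le hb] at hqx
      exact absurd (by linear_combination hqx) h2

lemma eq_one_of_card_two (h : Nat.card F = 2) {a : F} (ha : a ≠ 0) : a = 1 := by
  simpa [h] using pow_card_sub_one ha

/-- `O₄⁺(2)` is the sum of two anisotropic planes containing all non-singular vectors -/
lemma plus_four_two (h : Nat.card F = 2) {W : Submodule F V} (hW : NdOn Q W)
    (hd : finrank F W = 4) (hp : Plus Q W) :
    ∃ a ∈ W, ∃ b ∈ W, Q a = 1 ∧ Q b = 1 ∧ B Q a b = 1 ∧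
      Aniso Q (Submodule.span F {a, b}) ∧ Aniso Q (W ⊓ perp Q (Submodule.span F {a, b})) ∧
      ∀ x ∈ W, Q x ≠ 0 → x ∈ Submodule.span F {a, b} ∨ x ∈ perp Q (Submodule.span F {a, b}) := by
  have h2 : (2 : F) = 0 := by
    have := cast_card_eq_zero (F := F)
    rw [h] at this
    exact_mod_cast this
  obtain ⟨e, he, he0, hq⟩ := hp.exists_sing (by rintro rfl; simp at hd)
  obtain ⟨f, hf, hqf, hef⟩ := exists_hyp hW he he0 hq
  obtain ⟨a1, a2, -⟩ := split_pair hW he hf (hyp_D hq hef)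
  obtain ⟨c, hc, hqc⟩ := a1.exists_nonsing le_rfl (by omega)
  have hc2 := mem_perp_pair.1 hc.2
  have q1 : Q (e + f) = 1 := by rw [Q_add, hq, hqf, hef]; ring
  have q2 : Q (e + c) = 1 := by rw [Q_add, hq, eq_one_of_card_two h hqc, hc2.1]; ring
  have q3 : B Q (e + f) (e + c) = 1 := by
    simp [B_self, hq, hc2.1, hc2.2, B_comm Q f e, hef]
  have hD : 4 * Q (e + f) * Q (e + c) - B Q (e + f) (e + c) ^ 2 ≠ 0 := by
    rw [q1, q2, q3, show (4 : F) = 0 by linear_combination 2 * h2]; simp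
  have han : Aniso Q (Submodule.span F {e + f, e + c}) := by
    intro x hx hqx
    obtain ⟨a, b, rfl⟩ := mem_span_pair'.1 hx
    rw [Q_pair, q1, q2, q3] at hqx
    by_cases ha : a = 0
    · have : b = 0 := by simpa [ha] using hqx
      simp [ha, this]
    · by_cases hb : b = 0
      · exact absurd (by simpa [hb] using hqx) ha
      · rw [eq_one_of_card_two h ha, eq_one_of_card_two h hb] at hqx
        exact absurd (by linear_combination hqx - h2) (one_ne_zero (α := F))
  obtain ⟨b1, b2, b3⟩ := split_pair hW (W.add_mem he hf) (W.add_mem he hc.1) hD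
  have han' : Aniso Q (W ⊓ perp Q (Submodule.span F {e + f, e + c})) := by
    refine aniso_of_not_plus (by omega) fun hp' => ?_
    rw [← b3, plus_sup_iff (ndOn_pair hD) b1 inf_le_right (by rw [finrank_pair hD]; exact ⟨1, rfl⟩)
      ⟨1, by omega⟩] at hp
    refine han.not_plus (fun h0 => ?_) (hp.2 hp')
    have := finrank_pair hD
    rw [h0, finrank_bot] at this
    omega
  refine ⟨_, W.add_mem he hf, _, W.add_mem he hc.1, q1, q2, q3, han, han', fun x hx hqx => ?_⟩
  rw [← b3] at hx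
  obtain ⟨y, hy, z, hz, rfl⟩ := Submodule.mem_sup.1 hx
  by_cases hz0 : z = 0
  · left; simpa [hz0] using hy
  by_cases hy0 : y = 0
  · right; simpa [hy0] using hz.2
  exfalso
  apply hqx
  rw [Q_add, hz.2 y hy, eq_one_of_card_two h (fun h0 => hy0 (han y hy h0)),
    eq_one_of_card_two h (fun h0 => hz0 (han' z hz h0))]
  linear_combination h2

end small

end Cfsg.Agent.H8
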