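import Cfsg.Agent.H8.OAsch6

/-! Maximal subgroups of symplectic groups, part 1: the group lies in no geometric stabiliser. -/

set_option autoImplicit false
set_option linter.unusedSectionVars false
set_option linter.style.haveILetI false

namespace Cfsg.Agent.H8

open Module Cfsg.Agent.Orth Cfsg.Geo
open Cfsg.Agent.H7 (Irr AbsIrr IsScal NormA NormG cj Isom HForm adj spanAlg ctr gform tw frameEquiv
  frameVec frameGram frameGL pt slot ptGL permGL J2 permMat)
open scoped Matrix Kronecker commutatorElement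

lemma eq_of_max' {G : Type*} [Group G] {K H S : Subgroup G} (hH : IsMaximalIn K H) (hS : H ≤ S)
    (hne : ¬ K ≤ S) : H = S ⊓ K := by
  rcases hH.2 (S ⊓ K) (le_inf hS hH.1.le) inf_le_right with h | h
  · exact h.symm
  · exact absurd (h ▸ inf_le_left) hne

lemma not_between' {G : Type*} [Group G] {K H S : Subgroup G} (hH : IsMaximalIn K H) (hS : H ≤ S)
    (h : ∃ L : Subgroup G, S ⊓ K < L ∧ L < K) : False := by
  obtain ⟨L, h1, h2⟩ := h
  have h3 : H < L := lt_of_le_of_lt (le_inf hS hH.1.le) h1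
  rcases hH.2 L h3.le h2.le with h | h
  · exact h3.ne h.symm
  · exact h2.ne h

lemma not_le_of_maximal {G : Type*} [Group G] {K S : Subgroup G} (h : IsMaximalIn K (S ⊓ K)) :
    ¬ K ≤ S := fun h' => h.1.ne (inf_eq_right.2 h')

variable {ι : Type} [Fintype ι] [DecidableEq ι] {F : Type*} [Field F]

/-- transitive on non-zero vectors -/
def VTrans (G : Subgroup (GL ι F)) : Prop :=
  ∀ v w : ι → F, v ≠ 0 → w ≠ 0 → ∃ g ∈ G, (g : Matrix ι ι F) *ᵥ v = w

namespace VTrans
variable {G : Subgroup (GL ι F)} (hG : VTrans G)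
include hG

lemma not_le_sub {W : Submodule F (ι → F)} (h0 : W ≠ ⊥) (h1 : W ≠ ⊤) :
    ¬ G ≤ subspaceStabilizer W := by
  intro h
  obtain ⟨v, hv, hv0⟩ := W.ne_bot_iff.1 h0
  obtain ⟨w, hw⟩ : ∃ w, w ∉ W := by
    by_contra hh
    push Not at hh
    exact h1 (eq_top_iff.2 fun x _ => hh x)
  obtain ⟨g, hg, he⟩ := hG v w hv0 (fun h => hw (h ▸ W.zero_mem))
  exact hw (he ▸ (H7.mem_subspaceStabilizer_iff.1 (h hg) v).1 hv)

lemma not_le_dec {t k : ℕ} {D : Fin t → Submodule F (ι → F)} (hD : IsMDecomposition k D) :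
    ¬ G ≤ decompositionStabilizer D := by
  intro h
  have ht := hD.two_le
  let i : Fin t := ⟨0, by omega⟩
  let j : Fin t := ⟨1, by omega⟩
  have hij : i ≠ j := by simp [i, j]
  have hne : ∀ l, ∃ v ∈ D l, v ≠ 0 := fun l => (D l).ne_bot_iff.1 fun h0 => by
    have := hD.finrank_eq l
    rw [h0, finrank_bot] at this
    exact hD.pos.ne this
  have key : ∀ a b : Fin t, a ≠ b → ∀ x ∈ D a, x ≠ 0 → ∀ y ∈ D b, ∀ l, l ≠ a → x + y ∉ D l := by
    intro a b hab x hx hx0 y hy l hl hxy
    have h1 := Submodule.disjoint_def.1 (hD.indep a) x hx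
    refine hx0 (h1 ?_)
    have : x = (x + y) - y := by abel
    rw [this]
    exact Submodule.sub_mem _
      ((le_iSup₂_of_le (f := fun j (_ : j ≠ a) => D j) l hl le_rfl) hxy)
      ((le_iSup₂_of_le (f := fun j (_ : j ≠ a) => D j) b hab.symm le_rfl) hy)
  obtain ⟨v, hv, hv0⟩ := hne i
  obtain ⟨w, hw, hw0⟩ := hne j
  have hout : ∀ l, v + w ∉ D l := fun l => by
    by_cases hl : l = i
    · rw [add_comm]
      exact key j i hij.symm w hw hw0 v hv l (hl ▸ hij)
    · exact key i j hij v hv hv0 w hw l hl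
  obtain ⟨g, hg, he⟩ := hG v (v + w) hv0 (fun h => hout i (h ▸ (D i).zero_mem))
  obtain ⟨σ, hσ⟩ := h hg
  apply hout (σ i)
  rw [← hσ i, ← he]
  exact ⟨v, hv, by simp⟩

lemma not_le_subfield (hd : 2 ≤ Fintype.card ι) {F₀ : Subfield F} (h0 : F₀ ≠ ⊤) (P : GL ι F) :
    ¬ G ≤ subfieldSubgroup F₀ P := by
  intro h
  haveI : Nonempty ι := H7.nonempty_of_two_le hd
  obtain ⟨i, j, hij⟩ := Fintype.exists_pair_of_one_lt_card (α := ι) (by omega)
  obtain ⟨θ, hθ⟩ : ∃ θ, θ ∉ F₀ := by
    by_contra hh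
    push Not at hh
    exact h0 (eq_top_iff.2 fun x _ => hh x)
  obtain ⟨g, hg, he⟩ := hG ((P : Matrix ι ι F) *ᵥ Pi.single i 1)
    ((P : Matrix ι ι F) *ᵥ (Pi.single i 1 + Pi.single j θ))
    (by rw [Ne, H7.val_mulVec_eq_zero]; simp)
    (by
      rw [Ne, H7.val_mulVec_eq_zero]
      intro h
      simpa [hij] using congrFun h i)
  obtain ⟨d, hd0, hdd⟩ := H7.mem_subfieldSubgroup_iff.1 (h hg)
  have h3 : ∀ l, cj P⁻¹ (g : Matrix ι ι F) l i = (Pi.single i 1 + Pi.single j θ : ι → F) l := by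
    intro l
    have := H7.cj_mulVec P⁻¹ (g : Matrix ι ι F) ((P : Matrix ι ι F) *ᵥ Pi.single i 1)
    rw [he, H7.inv_mulVec_val, H7.inv_mulVec_val] at this
    rw [← this]
    simp
  have h4 := hdd i i
  have h5 := hdd j i
  rw [h3] at h4 h5
  simp only [Pi.add_apply, Pi.single_eq_same, Pi.single_eq_of_ne hij, add_zero, mul_one] at h4
  simp only [Pi.add_apply, Pi.single_eq_same, Pi.single_eq_of_ne hij.symm, zero_add] at h5
  apply hθ
  have := F₀.mul_mem (F₀.inv_mem h4) h5
  rwa [← mul_assoc, inv_mul_cancel₀ hd0, one_mul] at this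

lemma not_le_tensor {a b : ℕ} (ha : 2 ≤ a) (hb : 2 ≤ b) (e : ι ≃ Fin a × Fin b) (P : GL ι F) :
    ¬ G ≤ tensorProductSubgroup a b e P := by
  intro h
  let i : Fin a := ⟨0, by omega⟩
  let i' : Fin a := ⟨1, by omega⟩
  let j : Fin b := ⟨0, by omega⟩
  let j' : Fin b := ⟨1, by omega⟩
  have hi : i ≠ i' := by simp [i, i']
  have hj : j ≠ j' := by simp [j, j']
  obtain ⟨g, hg, he⟩ := hG (frameVec e P (Pi.single (i, j) 1))
    (frameVec e P (Pi.single (i, j) 1 + Pi.single (i', j') 1)) (by simp) (by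
      rw [Ne, map_eq_zero_iff _ (frameVec e P).injective]
      intro h
      simpa [hi] using congrFun h (i, j))
  obtain ⟨x, y, h1⟩ := (H7.mem_tensorProductSubgroup_iff e P g).1 (h hg)
  rw [h1, H7.frameEquiv_mulVec, ← pT_single, kron_mulVec_pT, pT_single] at he
  have h2 := (frameVec e P).injective he
  have e1 := congrFun h2 (i, j)
  have e2 := congrFun h2 (i', j')
  have e3 := congrFun h2 (i, j')
  simp only [pT, Pi.add_apply, Pi.single_apply, Prod.mk.injEq, hi, hj, hi.symm, hj.symm, and_self,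
    if_true, if_false, and_false, false_and, add_zero, zero_add] at e1 e2 e3
  rcases mul_eq_zero.1 e3 with h | h
  · simp [h] at e1
  · simp [h] at e2

lemma not_le_wreath [Finite F] {m t : ℕ} (hm : 2 ≤ m) (ht : 2 ≤ t) (e : ι ≃ (Fin t → Fin m))
    (P : GL ι F) : ¬ G ≤ tensorWreathSubgroup m t e P := by
  intro h
  let o : Fin m := ⟨0, by omega⟩
  let o' : Fin m := ⟨1, by omega⟩
  have ho : o ≠ o' := by simp [o, o']
  let i : Fin t := ⟨0, by omega⟩
  let j : Fin t := ⟨1, by omega⟩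
  have hij : j ≠ i := by simp [i, j]
  let pure : Set ((Fin t → Fin m) → F) := {w | ∃ x : Fin t → Fin m → F, w = fun k => ∏ i, x i (k i)}
  have hstab : tensorWreathStandard m t F ≤ (setStab F pure).comap phi.toMonoidHom := by
    rw [tensorWreathStandard, Subgroup.closure_le]
    rintro g (⟨gs, hg⟩ | ⟨σ, hg⟩)
    · refine mem_setStab ?_
      rintro _ ⟨x, rfl⟩
      refine ⟨fun i => (gs i : Matrix (Fin m) (Fin m) F) *ᵥ x i, ?_⟩
      ext k
      simp only [MulEquiv.toMonoidHom_eq_coe, MonoidHom.coe_coe, phi_apply, Matrix.mulVec,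
        dotProduct, hg, ← Finset.prod_mul_distrib]
      rw [Finset.prod_univ_sum]
      simp
    · refine mem_setStab ?_
      rintro _ ⟨x, rfl⟩
      refine ⟨fun i => x (σ.symm i), ?_⟩
      ext k
      simp only [MulEquiv.toMonoidHom_eq_coe, MonoidHom.coe_coe, phi_apply, Matrix.mulVec,
        dotProduct, hg, ite_mul, one_mul, zero_mul, Finset.sum_ite_eq', Finset.mem_univ, if_true]
      rw [← Equiv.prod_comp σ.symm]
      simp
  have hne : (fun _ : Fin t => o) ≠ fun _ => o' := fun h => ho (congrFun h i)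
  obtain ⟨g, hg, he⟩ := hG (frameVec e P (Pi.single (fun _ => o) 1))
    (frameVec e P (Pi.single (fun _ => o) 1 + Pi.single (fun _ => o') 1)) (by simp) (by
      rw [Ne, map_eq_zero_iff _ (frameVec e P).injective]
      intro h
      simpa [hne] using congrFun h (fun _ => o))
  have h1 := hstab ((H7.mem_tensorWreathSubgroup_iff e P g).1 (h hg))
  obtain ⟨x, hx⟩ := (h1 (Pi.single (fun _ => o) 1)).1 ⟨fun _ => Pi.single o 1, by
    ext k
    by_cases hk : k = fun _ => o
    · simp [hk]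
    · obtain ⟨i, hi⟩ := Function.ne_iff.1 hk
      rw [Pi.single_eq_of_ne hk, Finset.prod_eq_zero (Finset.mem_univ i) (by simp [hi])]⟩
  rw [← H7.frameEquiv_frameGL_symm e P g, H7.frameEquiv_mulVec] at he
  have h2 := ((frameVec e P).injective he).symm.trans hx
  have e1 := congrFun h2 (fun _ => o)
  have e2 := congrFun h2 (fun _ => o')
  have e3 := congrFun h2 (Function.update (fun _ => o) i o')
  have n1 : Function.update (fun _ : Fin t => o) i o' ≠ fun _ => o := fun h => by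
    simpa [ho.symm] using congrFun h i
  have n2 : Function.update (fun _ : Fin t => o) i o' ≠ fun _ => o' := fun h => by
    simpa [ho, hij] using congrFun h j
  simp only [Pi.add_apply, Pi.single_apply, hne, hne.symm, n1, n2, if_true, if_false, add_zero,
    zero_add] at e1 e2 e3
  obtain ⟨l, -, hl⟩ := Finset.prod_eq_zero_iff.1 e3.symm
  by_cases hli : l = i
  · rw [hli, Function.update_self] at hl
    rw [Finset.prod_eq_zero (Finset.mem_univ i) hl] at e2
    exact one_ne_zero e2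
  · rw [Function.update_of_ne hli] at hl
    rw [Finset.prod_eq_zero (Finset.mem_univ l) hl] at e1
    exact one_ne_zero e1

end VTrans

/-- `G` is the full isometry group of `f` -/
def IsIsomGroup (f : (ι → F) → (ι → F) → F) (G : Subgroup (GL ι F)) : Prop :=
  ∀ g : GL ι F, g ∈ G ↔ ∀ u v, f ((g : Matrix ι ι F) *ᵥ u) ((g : Matrix ι ι F) *ᵥ v) = f u v

lemma isIsomGroup_spGL (m : ℕ) : IsIsomGroup (sympForm m F) (spGL m F) := fun _ => Iff.rfl

lemma IsIsomGroup.isom {f : (ι → F) → (ι → F) → F} {G : Subgroup (GL ι F)} (h : IsIsomGroup f G) :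
    Isom f G := fun g hg => (h g).1 hg

lemma IsIsomGroup.exists_mem {σ : F →+* F} {f : (ι → F) → (ι → F) → F} {G : Subgroup (GL ι F)}
    (h : IsIsomGroup f G) (hf : H7.Sesq σ f) {x : Matrix ι ι F}
    (hx : ∀ u v, f (x *ᵥ u) (x *ᵥ v) = f u v) : ∃ g ∈ G, (g : Matrix ι ι F) = x := by
  have hd : x.det ≠ 0 := by
    intro h0
    obtain ⟨v, hv, hxv⟩ := Matrix.exists_mulVec_eq_zero_iff.2 h0
    exact hv (hf.eq_zero_of_left fun u => by rw [← hx, hxv, hf.zero_right])
  exact ⟨Matrix.GeneralLinearGroup.mkOfDetNeZero _ hd, (h _).2 hx, rfl⟩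

section sp
variable {f : (ι → F) → (ι → F) → F} (hs : IsSymplecticForm f) {G : Subgroup (GL ι F)}
  (hG : IsIsomGroup f G)
include hs

lemma sp_exists_ne {v : ι → F} (hv : v ≠ 0) : ∃ x, f v x ≠ 0 := by
  by_contra h
  push Not at h
  exact hv ((H7.hform_of_symplectic hs).eq_zero_of_right h)

lemma sp_exists_perp (hn : 3 ≤ Fintype.card ι) (u w : ι → F) :
    ∃ x, x ≠ 0 ∧ f x u = 0 ∧ f x w = 0 := by
  have hf := H7.hform_of_symplectic hs
  have h1 := H7.card_le_finrank_add_perp hf.toSesq (Submodule.span F {u, w})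
  have h2 := finrank_span_pair_le (F := F) u w
  obtain ⟨x, hx, hx0⟩ := (H7.perp hf.toSesq (Submodule.span F {u, w})).ne_bot_iff.1 fun h => by
    rw [h, finrank_bot] at h1
    omega
  exact ⟨x, hx0, hx u (left_mem_pair u w), hx w (right_mem_pair u w)⟩

include hG

lemma exists_tv (u : ι → F) (c : F) :
    ∃ g ∈ G, ∀ v, (g : Matrix ι ι F) *ᵥ v = v + (c * f v u) • u := by
  have hf := H7.hform_of_symplectic hs
  let T : (ι → F) →ₗ[F] (ι → F) :=
    { toFun := fun v => v + (c * f v u) • u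
      map_add' := fun x y => by rw [hf.add_left, mul_add, add_smul]; abel
      map_smul' := fun a x => by
        rw [hf.smul_left, RingHom.id_apply, smul_add, smul_smul, mul_left_comm] }
  have hT : ∀ v, LinearMap.toMatrix' T *ᵥ v = v + (c * f v u) • u := fun v => by
    rw [LinearMap.toMatrix'_mulVec]; rfl
  obtain ⟨g, hg, he⟩ := hG.exists_mem hf.toSesq (x := LinearMap.toMatrix' T) fun x y => by
    rw [hT, hT, hf.add_left, hf.add_right, hf.add_right, hf.smul_left, hf.smul_left, hf.smul_right,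
      hf.smul_right, hs.alternating, hs.skew u y]
    simp only [RingHom.id_apply]
    ring
  exact ⟨g, hg, fun v => by rw [he, hT]⟩

lemma sp_vtrans : VTrans G := by
  have hf := H7.hform_of_symplectic hs
  have key : ∀ v w, f v w ≠ 0 → ∃ g ∈ G, (g : Matrix ι ι F) *ᵥ v = w := by
    intro v w h
    obtain ⟨g, hg, he⟩ := exists_tv hs hG (w - v) (f v w)⁻¹
    refine ⟨g, hg, ?_⟩
    rw [he, hf.sub_right, hs.alternating, sub_zero, inv_mul_cancel₀ h, one_smul]
    abel
  intro v w hv hw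
  obtain ⟨z, hz1, hz2⟩ : ∃ z, f v z ≠ 0 ∧ f w z ≠ 0 := by
    obtain ⟨x, hx⟩ := sp_exists_ne hs hv
    obtain ⟨y, hy⟩ := sp_exists_ne hs hw
    by_cases h1 : f w x = 0
    · by_cases h2 : f v y = 0
      · exact ⟨x + y, by rwa [hf.add_right, h2, add_zero], by rwa [hf.add_right, h1, zero_add]⟩
      · exact ⟨y, h2, hy⟩
    · exact ⟨x, hx, h1⟩
  obtain ⟨g, hg, he⟩ := key v z hz1
  obtain ⟨g', hg', he'⟩ := key z w (by rw [hs.skew]; exact neg_ne_zero.2 hz2)
  exact ⟨g' * g, G.mul_mem hg' hg, by rw [Units.val_mul, ← Matrix.mulVec_mulVec, he, he']⟩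

omit hs hG in
lemma isScal_of_forall_eigen {x : Matrix ι ι F} (h : ∀ u, ∃ c : F, x *ᵥ u = c • u) : IsScal x := by
  rcases isEmpty_or_nonempty ι with hι | ⟨⟨i⟩⟩
  · exact ⟨0, Subsingleton.elim _ _⟩
  choose c hc using h
  refine ⟨c (Pi.single i 1), ?_⟩
  ext k l
  have h1 := congrFun (hc (Pi.single l 1)) k
  by_cases hl : l = i
  · subst hl
    simpa [Matrix.one_apply, Pi.single_apply] using h1
  have h2 := hc (Pi.single i 1 + Pi.single l 1)
  rw [Matrix.mulVec_add, hc, hc] at h2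
  have h3 := congrFun h2 i
  have h4 := congrFun h2 l
  simp [hl, Ne.symm hl] at h3 h4
  rw [h3, ← h4]
  simpa [Matrix.one_apply, Pi.single_apply] using h1

lemma sp_not_le_field [Fintype F] (hn : 3 ≤ Fintype.card ι) {r : ℕ} (hr : 2 ≤ r)
    {K : Subalgebra F (Matrix ι ι F)} (hK : IsFieldSubalgebra r K) :
    ¬ G ≤ subalgebraNormalizer K := by
  intro h
  have hf := H7.hform_of_symplectic hs
  haveI : Nonempty ι := H7.nonempty_of_two_le (by omega)
  obtain ⟨k, hk, hks⟩ := exists_not_scal_of_field hr hK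
  refine hks (isScal_of_forall_eigen fun u => ?_)
  by_cases hu : u = 0
  · exact ⟨0, by simp [hu]⟩
  obtain ⟨g, hg, he⟩ := exists_tv hs hG u 1
  obtain ⟨x, hx0, hx1, hx2⟩ := sp_exists_perp hs hn u (adj (RingHom.id F) f k *ᵥ u)
  rw [← hf.adj_spec] at hx2
  have h1 : cj g k = k := eq_of_field_mulVec hK.comm hK.inv ((h hg k).1 hk) hk hx0 (by
    have := H7.cj_mulVec g k x
    rwa [he, he, hx1, hx2, mul_zero, zero_smul, add_zero, add_zero] at this)
  obtain ⟨y, hy⟩ := sp_exists_ne hs hu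
  have hy' : f y u ≠ 0 := by rw [hs.skew]; exact neg_ne_zero.2 hy
  have h2 := H7.cj_mulVec g k y
  rw [h1, he, he, Matrix.mulVec_add, Matrix.mulVec_smul, add_right_inj, one_mul, one_mul] at h2
  exact ⟨(f y u)⁻¹ * f (k *ᵥ y) u, by rw [mul_smul, ← h2, smul_smul, inv_mul_cancel₀ hy', one_smul]⟩

/-- the symplectic group normalises no non-scalar group of isometries with scalar squares -/
lemma sp_not_normG (hn : 3 ≤ Fintype.card ι) (h2 : (2 : F) ≠ 0) {R : Subgroup (GL ι F)}
    (hR : Isom f R) (hsq : ∀ x ∈ R, IsScal ((x : Matrix ι ι F) * (x : Matrix ι ι F))) {x : GL ι F} (hx : x ∈ R)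
    (hxs : ¬ IsScal (x : Matrix ι ι F)) : ¬ NormG G R := by
  intro h
  have hf := H7.hform_of_symplectic hs
  refine hxs (isScal_of_forall_eigen fun u => ?_)
  by_contra hu
  push Not at hu
  set w := (x : Matrix ι ι F) *ᵥ u with hw
  have hli : ∀ a b : F, a • u + b • w = 0 → b = 0 := by
    intro a b hab
    by_contra hb
    refine hu (-(b⁻¹ * a)) ?_
    rw [neg_smul, mul_smul, eq_neg_of_add_eq_zero_left hab, smul_neg, neg_neg, smul_smul,
      inv_mul_cancel₀ hb, one_smul]
  have hu0 : u ≠ 0 := fun h0 => hu 0 (by simp [hw, h0])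
  obtain ⟨t, ht, he⟩ := exists_tv hs hG u 1
  have hti : ∀ v, ((t⁻¹ : GL ι F) : Matrix ι ι F) *ᵥ v = v - f v u • u := fun v => by
    have : v = (t : Matrix ι ι F) *ᵥ (v - f v u • u) := by
      rw [he, hf.sub_left, hf.smul_left, hs.alternating]
      simp
    conv_lhs => rw [this, H7.inv_mulVec_val]
  have hy : t * x * t⁻¹ * x⁻¹ ∈ R := R.mul_mem (h t ht x hx) (R.inv_mem hx)
  set y := t * x * t⁻¹ * x⁻¹ with hy'
  have hyv : ∀ v, (y : Matrix ι ι F) *ᵥ v =
      v - f v w • w + (f v u - f v w * f w u) • u := fun v => by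
    have h1 : f (((x⁻¹ : GL ι F) : Matrix ι ι F) *ᵥ v) u = f v w := by
      rw [← hR x hx, H7.val_mulVec_inv]
    simp only [hy', Units.val_mul, ← Matrix.mulVec_mulVec]
    rw [hti, Matrix.mulVec_sub, Matrix.mulVec_smul, H7.val_mulVec_inv, h1, ← hw, he, one_mul,
      hf.sub_left, hf.smul_left]
  obtain ⟨c, hc⟩ := hsq y hy
  have hyy : ∀ v, (y : Matrix ι ι F) *ᵥ ((y : Matrix ι ι F) *ᵥ v) = c • v := fun v => by
    rw [Matrix.mulVec_mulVec, hc, Matrix.smul_mulVec, Matrix.one_mulVec]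
  obtain ⟨z, hz0, hz1, hz2⟩ := sp_exists_perp hs hn u w
  have hc1 : c = 1 := by
    have h1 : (y : Matrix ι ι F) *ᵥ z = z := by rw [hyv, hz1, hz2]; simp
    have h3 := hyy z
    rw [h1, h1] at h3
    have : (c - 1) • z = 0 := by rw [sub_smul, one_smul, ← h3, sub_self]
    exact sub_eq_zero.1 ((smul_eq_zero.1 this).resolve_right hz0)
  subst hc1
  have hwu : f w u = -f u w := hs.skew w u
  have key : ∀ v, ((2 + f u w * f u w) * f v w + f u w * f v u) = 0 ∧
      ((2 + f u w * f u w) * (f v u + f v w * f u w) + f u w * f v w) = 0 := by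
    intro v
    have h1 := hyy v
    rw [hyv, hyv] at h1
    simp only [hf.add_left, hf.sub_left, hf.smul_left, hs.alternating, hwu] at h1
    have h3 : ((2 + f u w * f u w) * (f v u + f v w * f u w) + f u w * f v w) • u +
        (-((2 + f u w * f u w) * f v w + f u w * f v u)) • w = 0 := by
      rw [← sub_eq_zero] at h1
      rw [← h1]
      module
    have h4 := hli _ _ h3
    rw [h4, zero_smul, add_zero] at h3
    exact ⟨neg_eq_zero.1 h4, (smul_eq_zero.1 h3).resolve_right hu0⟩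
  have hb : f u w = 0 := by
    by_contra hb
    obtain ⟨h1, h3⟩ := key u
    rw [hs.alternating] at h1 h3
    have h4 : 2 + f u w * f u w = 0 := mul_right_cancel₀ hb (by linear_combination h1)
    rw [h4] at h3
    exact hb (by simpa using h3)
  obtain ⟨v, hv⟩ := sp_exists_ne hs hu0
  have h1 := (key v).2
  rw [hb, hs.skew] at h1
  exact hv (mul_left_cancel₀ h2 (by linear_combination -h1))

end sp

end Cfsg.Agent.H8
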