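import Cfsg.Agent.H8.SpMax1
import Cfsg.Agent.H7.AschBlock

/-! Maximal subgroups of symplectic groups, part 2: the exceptions in `Sp₄(3)`. -/

set_option autoImplicit false
set_option linter.unusedSectionVars false
set_option linter.style.haveILetI false

namespace Cfsg.Agent.H8

open Module Cfsg.Agent.Orth Cfsg.Geo
open Cfsg.Agent.H7 (Irr AbsIrr IsScal NormA NormG cj Isom HForm adj spanAlg ctr gform tw frameEquiv
  frameVec frameGram frameGL pt slot ptGL permGL J2 permMat)
open scoped Matrix Kronecker commutatorElement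

section three
variable {F : Type*} [Field F] [Fintype F]

lemma exists_zmod3 (h : Fintype.card F = 3) : Nonempty (ZMod 3 ≃+* F) :=
  ⟨ZMod.ringEquivOfPrime F Nat.prime_three h⟩

lemma three_eq_zero (h : Fintype.card F = 3) : (3 : F) = 0 := by
  have := FiniteField.cast_card_eq_zero F
  rw [h] at this
  exact_mod_cast this

lemma two_ne_zero_of_three (h : Fintype.card F = 3) : (2 : F) ≠ 0 := fun h2 =>
  one_ne_zero (α := F) (by linear_combination three_eq_zero h - h2)

lemma mul_self_ne_neg_one (h : Fintype.card F = 3) (a : F) : a * a ≠ -1 := by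
  obtain ⟨φ⟩ := exists_zmod3 h
  obtain ⟨a, rfl⟩ := φ.surjective a
  have : ∀ a : ZMod 3, a * a ≠ -1 := by decide
  exact fun h => this a (φ.injective (by simpa using h))

lemma eq_or_of_three (h : Fintype.card F = 3) (a : F) : a = 0 ∨ a = 1 ∨ a = -1 := by
  obtain ⟨φ⟩ := exists_zmod3 h
  obtain ⟨a, rfl⟩ := φ.surjective a
  have : ∀ a : ZMod 3, a = 0 ∨ a = 1 ∨ a = -1 := by decide
  rcases this a with rfl | rfl | rfl <;> simp

lemma arith3_a (h : Fintype.card F = 3) {a b c a' b' c' : F} (h1 : a * a + b * b + c * c = 1)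
    (h2 : a' * a' + b' * b' + c' * c' = 1) : a * a' + b * b' + c * c' = 0 ∨
      (a' = a ∧ b' = b ∧ c' = c) ∨ (a' = -a ∧ b' = -b ∧ c' = -c) := by
  obtain ⟨φ⟩ := exists_zmod3 h
  obtain ⟨a, rfl⟩ := φ.surjective a
  obtain ⟨b, rfl⟩ := φ.surjective b
  obtain ⟨c, rfl⟩ := φ.surjective c
  obtain ⟨a', rfl⟩ := φ.surjective a'
  obtain ⟨b', rfl⟩ := φ.surjective b'
  obtain ⟨c', rfl⟩ := φ.surjective c'
  have : ∀ a b c a' b' c' : ZMod 3, a * a + b * b + c * c = 1 → a' * a' + b' * b' + c' * c' = 1 →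
      a * a' + b * b' + c * c' = 0 ∨ (a' = a ∧ b' = b ∧ c' = c) ∨ (a' = -a ∧ b' = -b ∧ c' = -c) := by
    decide +kernel
  rcases this a b c a' b' c' (φ.injective (by simpa using h1)) (φ.injective (by simpa using h2))
    with h | ⟨rfl, rfl, rfl⟩ | ⟨rfl, rfl, rfl⟩
  · left
    simpa using congrArg φ h
  · simp
  · simp

lemma arith3_b (h : Fintype.card F = 3) {a b a' b' : F} (h1 : a * a + b * b = -1)
    (h2 : a' * a' + b' * b' = -1) : a * a' + b * b' = 0 ∨
      (a' = a ∧ b' = b) ∨ (a' = -a ∧ b' = -b) := by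
  obtain ⟨φ⟩ := exists_zmod3 h
  obtain ⟨a, rfl⟩ := φ.surjective a
  obtain ⟨b, rfl⟩ := φ.surjective b
  obtain ⟨a', rfl⟩ := φ.surjective a'
  obtain ⟨b', rfl⟩ := φ.surjective b'
  have : ∀ a b a' b' : ZMod 3, a * a + b * b = -1 → a' * a' + b' * b' = -1 →
      a * a' + b * b' = 0 ∨ (a' = a ∧ b' = b) ∨ (a' = -a ∧ b' = -b) := by
    decide +kernel
  rcases this a b a' b' (φ.injective (by simpa using h1)) (φ.injective (by simpa using h2))
    with h | ⟨rfl, rfl⟩ | ⟨rfl, rfl⟩
  · left
    simpa using congrArg φ h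
  · simp
  · simp

lemma arith3_c (h : Fintype.card F = 3) {a b c a' b' c' : F} (h1 : a * a + b * c = -1)
    (h2 : a' * a' + b' * c' = -1) : 2 * a * a' + b * c' + c * b' = 0 ∨
      (a' = a ∧ b' = b ∧ c' = c) ∨ (a' = -a ∧ b' = -b ∧ c' = -c) := by
  obtain ⟨φ⟩ := exists_zmod3 h
  obtain ⟨a, rfl⟩ := φ.surjective a
  obtain ⟨b, rfl⟩ := φ.surjective b
  obtain ⟨c, rfl⟩ := φ.surjective c
  obtain ⟨a', rfl⟩ := φ.surjective a'
  obtain ⟨b', rfl⟩ := φ.surjective b'
  obtain ⟨c', rfl⟩ := φ.surjective c'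
  have : ∀ a b c a' b' c' : ZMod 3, a * a + b * c = -1 → a' * a' + b' * c' = -1 →
      (a * a' + a * a') + b * c' + c * b' = 0 ∨ (a' = a ∧ b' = b ∧ c' = c) ∨
        (a' = -a ∧ b' = -b ∧ c' = -c) := by
    decide +kernel
  rcases this a b c a' b' c' (φ.injective (by simpa using h1)) (φ.injective (by simpa using h2))
    with h | ⟨rfl, rfl, rfl⟩ | ⟨rfl, rfl, rfl⟩
  · left
    have := congrArg φ h
    simp only [map_add, map_mul, map_zero] at this
    linear_combination this
  · simp
  · simp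

lemma arith3_d (h : Fintype.card F = 3) {a b : F} (h1 : a * a - b * b = 1) :
    b = 0 ∧ (a = 1 ∨ a = -1) := by
  obtain ⟨φ⟩ := exists_zmod3 h
  obtain ⟨a, rfl⟩ := φ.surjective a
  obtain ⟨b, rfl⟩ := φ.surjective b
  have : ∀ a b : ZMod 3, a * a - b * b = 1 → b = 0 ∧ (a = 1 ∨ a = -1) := by decide
  obtain ⟨rfl, rfl | rfl⟩ := this a b (φ.injective (by simpa using h1)) <;> simp

end three

variable {ι : Type} [Fintype ι] [DecidableEq ι] {F : Type*} [Field F]

section cliff
variable {M : Type*} [Ring M]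

/-- commute up to sign -/
def PM (x y : M) : Prop := x * y = y * x ∨ x * y = -(y * x)

lemma PM.symm {x y : M} (h : PM x y) : PM y x :=
  h.imp Eq.symm fun h => by rw [h, neg_neg]

lemma PM.mul_left {x y z : M} (h : PM x z) (h' : PM y z) : PM (x * y) z := by
  rcases h with h | h <;> rcases h' with h' | h'
  · left; rw [mul_assoc, h', ← mul_assoc, h, mul_assoc]
  · right; rw [mul_assoc, h', mul_neg, ← mul_assoc, h, mul_assoc]
  · right; rw [mul_assoc, h', ← mul_assoc, h, neg_mul, mul_assoc]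
  · left; rw [mul_assoc, h', mul_neg, ← mul_assoc, h, neg_mul, neg_neg, mul_assoc]

lemma pm_closure {S : Set M} (hc : ∀ x ∈ S, ∀ y ∈ S, PM x y) {x y : M}
    (hx : x ∈ Submonoid.closure (insert (-1) S)) (hy : y ∈ Submonoid.closure (insert (-1) S)) :
    PM x y := by
  have key : ∀ z : M, (∀ s ∈ S, PM s z) → ∀ x ∈ Submonoid.closure (insert (-1) S), PM x z := by
    intro z hz x hx
    induction hx using Submonoid.closure_induction with
    | mem s hs =>
      rcases hs with rfl | hs
      · left; simp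
      · exact hz s hs
    | one => left; simp
    | mul a b _ _ ha hb => exact ha.mul_left hb
  exact key y (fun s hs => (key s (fun t ht => hc t ht s hs) y hy).symm) x hx

lemma sq_closure {S : Set M} (hc : ∀ x ∈ S, ∀ y ∈ S, PM x y)
    (hsq : ∀ x ∈ S, x * x = 1 ∨ x * x = -1) {x : M}
    (hx : x ∈ Submonoid.closure (insert (-1) S)) : x * x = 1 ∨ x * x = -1 := by
  induction hx using Submonoid.closure_induction with
  | mem s hs =>
    rcases hs with rfl | hs
    · left; simp
    · exact hsq s hs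
  | one => left; simp
  | mul a b ha hb h1 h2 =>
    have : a * b * (a * b) = a * (b * a) * b := by simp only [mul_assoc]
    rw [this]
    rcases pm_closure hc hb ha with h | h
    · have : a * (a * b) * b = (a * a) * (b * b) := by simp only [mul_assoc]
      rw [h, this]
      rcases h1 with h1 | h1 <;> rcases h2 with h2 | h2 <;> simp [h1, h2]
    · have : a * -(a * b) * b = -((a * a) * (b * b)) := by simp only [mul_neg, neg_mul, mul_assoc]
      rw [h, this]
      rcases h1 with h1 | h1 <;> rcases h2 with h2 | h2 <;> simp [h1, h2]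

end cliff

/-- the unit `1 + x` for `x² = -1` in characteristic three -/
def onePlus (h3 : (3 : F) = 0) (x : Matrix ι ι F) (hx : x * x = -1) : GL ι F where
  val := 1 + x
  inv := x - 1
  val_inv := by
    have : (1 + x) * (x - 1) = x * x - 1 := by noncomm_ring
    rw [this, hx, ← sub_eq_zero]
    have : (-1 - 1 - 1 : Matrix ι ι F) = (-3 : F) • 1 := by module
    rw [this, h3]; simp
  inv_val := by
    have : (x - 1) * (1 + x) = x * x - 1 := by noncomm_ring
    rw [this, hx, ← sub_eq_zero]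
    have : (-1 - 1 - 1 : Matrix ι ι F) = (-3 : F) • 1 := by module
    rw [this, h3]; simp

lemma cj_onePlus_comm (h3 : (3 : F) = 0) {x : Matrix ι ι F} (hx : x * x = -1) {z : Matrix ι ι F}
    (h : x * z = z * x) : cj (onePlus h3 x hx) z = z :=
  cj_eq_of_mul (by
    change (1 + x) * z = z * (1 + x)
    rw [add_mul, mul_add, h, one_mul, mul_one])

lemma cj_onePlus_anti (h3 : (3 : F) = 0) {x : Matrix ι ι F} (hx : x * x = -1) {z : Matrix ι ι F}
    (h : x * z = -(z * x)) : cj (onePlus h3 x hx) z = -(z * x) :=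
  cj_eq_of_mul (by
    change (1 + x) * z = -(z * x) * (1 + x)
    rw [add_mul, mul_add, h, one_mul, mul_one, neg_mul, mul_assoc, hx, mul_neg, mul_one, neg_neg,
      add_comm])

variable [Fintype F] {f : (ι → F) → (ι → F) → F} (hs : IsSymplecticForm f)
  {G : Subgroup (GL ι F)} (hG : IsIsomGroup f G) {H : Subgroup (GL ι F)}
include hs hG

theorem cliff_mem (hn : 3 ≤ Fintype.card ι) (hq : Fintype.card F = 3) (hH : IsMaximalIn G H)
    {S : Set (Matrix ι ι F)} (hiso : ∀ x ∈ S, ∀ u v, f (x *ᵥ u) (x *ᵥ v) = f u v)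
    (hsq : ∀ x ∈ S, x * x = 1 ∨ x * x = -1) (hc : ∀ x ∈ S, ∀ y ∈ S, PM x y)
    (hN : ∀ h ∈ H, ∀ x ∈ S, cj h x ∈ S) {x y : Matrix ι ι F}
    (hx : x ∈ Submonoid.closure (insert (-1) S)) (hy : y ∈ Submonoid.closure (insert (-1) S))
    (hx2 : x * x = -1) (hy2 : y * y = -1) :
    ∃ h ∈ H, ∀ z, y * z = z * y → x * z = -(z * x) → cj h z = -(z * x) := by
  have hf := H7.hform_of_symplectic hs
  have h3 := three_eq_zero hq
  haveI : Nonempty ι := H7.nonempty_of_two_le (by omega)
  set C := Submonoid.closure (insert (-1) S) with hC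
  have hneg : ∀ z ∈ C, -z ∈ C := fun z hz => by
    rw [← neg_one_mul]
    exact C.mul_mem (Submonoid.subset_closure (Set.mem_insert _ _)) hz
  let R : Subgroup (GL ι F) :=
    { carrier := {g | (g : Matrix ι ι F) ∈ C}
      mul_mem' := fun ha hb => C.mul_mem ha hb
      one_mem' := C.one_mem
      inv_mem' := fun {a} ha => by
        change ((a⁻¹ : GL ι F) : Matrix ι ι F) ∈ C
        rcases sq_closure hc hsq ha with h | h
        · rwa [Units.inv_eq_of_mul_eq_one_right h]
        · rw [Units.inv_eq_of_mul_eq_one_right (a := -(a : Matrix ι ι F)) (by rw [mul_neg, h, neg_neg])]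
          exact hneg _ ha }
  have hCiso : ∀ z ∈ C, ∀ u v, f (z *ᵥ u) (z *ᵥ v) = f u v := by
    intro z hz
    induction hz using Submonoid.closure_induction with
    | mem s hs =>
      rcases hs with rfl | hs
      · intro u v
        rw [Matrix.neg_mulVec, Matrix.neg_mulVec, hf.neg_left, hf.neg_right, neg_neg,
          Matrix.one_mulVec, Matrix.one_mulVec]
      · exact hiso s hs
    | one => intro u v; rw [Matrix.one_mulVec, Matrix.one_mulVec]
    | mul a b _ _ ha hb => intro u v; rw [← Matrix.mulVec_mulVec, ← Matrix.mulVec_mulVec, ha, hb]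
  have hHR : NormG H R := by
    intro h hh r hr
    change ((h * r * h⁻¹ : GL ι F) : Matrix ι ι F) ∈ C
    rw [← H7.cj_val]
    have hr' : (r : Matrix ι ι F) ∈ C := hr
    generalize (r : Matrix ι ι F) = z at hr'
    induction hr' using Submonoid.closure_induction with
    | mem s hs =>
      rcases hs with rfl | hs
      · rw [map_neg, map_one]
        exact Submonoid.subset_closure (Set.mem_insert _ _)
      · exact Submonoid.subset_closure (Set.mem_insert_of_mem _ (hN h hh s hs))
    | one => rw [map_one]; exact C.one_mem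
    | mul a b _ _ ha hb => rw [map_mul]; exact C.mul_mem ha hb
  have hop : ∀ (z : Matrix ι ι F) (hz2 : z * z = -1), z ∈ C → ∀ r ∈ R,
      onePlus h3 z hz2 * r * (onePlus h3 z hz2)⁻¹ ∈ R := by
    intro z hz2 hz r hr
    change ((_ * r * _ : GL ι F) : Matrix ι ι F) ∈ C
    rw [← H7.cj_val]
    rcases pm_closure hc hz hr with h | h
    · rw [cj_onePlus_comm h3 hz2 h]; exact hr
    · rw [cj_onePlus_anti h3 hz2 h]; exact hneg _ (C.mul_mem hr hz)
  have hsim : ∀ (z : Matrix ι ι F) (hz2 : z * z = -1), z ∈ C → ∀ u v,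
      f ((onePlus h3 z hz2 : Matrix ι ι F) *ᵥ u) ((onePlus h3 z hz2 : Matrix ι ι F) *ᵥ v) =
        -f u v := by
    intro z hz2 hz u v
    change f ((1 + z) *ᵥ u) ((1 + z) *ᵥ v) = _
    have h1 := hCiso z hz (z *ᵥ u) v
    rw [Matrix.mulVec_mulVec, hz2, Matrix.neg_mulVec, Matrix.one_mulVec, hf.neg_left] at h1
    rw [Matrix.add_mulVec, Matrix.add_mulVec, Matrix.one_mulVec, Matrix.one_mulVec, hf.add_left,
      hf.add_right, hf.add_right, hCiso z hz]
    linear_combination -h1 + f u v * h3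
  obtain ⟨x', -, hx'⟩ := hG.exists_mem hf.toSesq (hCiso x hx)
  have hne : ¬ G ≤ subgroupNormalizer R := fun h => sp_not_normG hs hG hn (two_ne_zero_of_three hq)
    (R := R) (fun r hr => hCiso _ hr) (fun r hr => by
      rcases sq_closure hc hsq hr with h | h
      · exact ⟨1, by rw [h, one_smul]⟩
      · exact ⟨-1, by rw [h, neg_smul, one_smul]⟩) (x := x') (by change _ ∈ C; rwa [hx']) (by
      rintro ⟨c, hc⟩
      rw [← hx', hc, Matrix.smul_mul, one_mul, smul_smul, ← neg_one_smul F] at hx2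
      exact mul_self_ne_neg_one hq c (smul_left_injective F one_ne_zero hx2))
    (H7.normG_of_le_normalizer h)
  have heq := eq_of_max' hH hHR.le_normalizer hne
  refine ⟨onePlus h3 x hx2 * onePlus h3 y hy2, ?_, fun z h1 h2 => ?_⟩
  · rw [heq]
    refine ⟨Subgroup.mem_normalizer_fintype fun r hr => ?_, (hG _).2 fun u v => ?_⟩
    · have := hop x hx2 hx _ (hop y hy2 hy r hr)
      simpa only [mul_inv_rev, mul_assoc, SetLike.mem_coe] using this
    · rw [Units.val_mul, ← Matrix.mulVec_mulVec, ← Matrix.mulVec_mulVec, hsim x hx2 hx,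
        hsim y hy2 hy, neg_neg]
  · rw [H7.cj_mul, cj_onePlus_comm h3 hy2 h1, cj_onePlus_anti h3 hx2 h2]

end Cfsg.Agent.H8
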