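import Cfsg.Agent.H8.SpMax2

/-! Maximal subgroups of symplectic groups, part 3: `4 × 4` matrix computations. -/

set_option autoImplicit false
set_option linter.unusedSectionVars false
set_option linter.style.haveILetI false

namespace Cfsg.Agent.H8

open Module Cfsg.Agent.Orth Cfsg.Geo
open Cfsg.Agent.H7 (Irr AbsIrr IsScal NormA NormG cj Isom HForm adj spanAlg ctr gform tw frameEquiv
  frameVec frameGram frameGL pt slot ptGL permGL J2 permMat)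
open scoped Matrix Kronecker commutatorElement

variable {F : Type*} [Field F]

def Dm (F : Type*) [Field F] : Matrix (Fin 2) (Fin 2) F := !![1, 0; 0, -1]
def Pm (F : Type*) [Field F] : Matrix (Fin 2) (Fin 2) F := !![0, 1; 1, 0]

def Xp (a b c d e : F) : Matrix (Fin 2 × Fin 2) (Fin 2 × Fin 2) F :=
  a • (Dm F ⊗ₖ (1 : Matrix (Fin 2) (Fin 2) F)) + b • (Pm F ⊗ₖ (1 : Matrix (Fin 2) (Fin 2) F)) +
    c • (J2 F ⊗ₖ J2 F) + d • (J2 F ⊗ₖ Dm F) + e • (J2 F ⊗ₖ Pm F)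

lemma sa_param (h2 : (2 : F) ≠ 0) {X : Matrix (Fin 2 × Fin 2) (Fin 2 × Fin 2) F}
    (h : Xᵀ * ((1 : Matrix (Fin 2) (Fin 2) F) ⊗ₖ J2 F) = ((1 : Matrix (Fin 2) (Fin 2) F) ⊗ₖ J2 F) * X)
    (htr : X.trace = 0) : ∃ a b c d e, X = Xp a b c d e := by
  have e := fun p q => congrFun (congrFun h p) q
  have e1 := e (0, 0) (0, 0)
  have e2 := e (0, 0) (0, 1)
  have e3 := e (0, 0) (1, 0)
  have e4 := e (0, 0) (1, 1)
  have e5 := e (0, 1) (0, 1)
  have e6 := e (0, 1) (1, 0)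
  have e7 := e (0, 1) (1, 1)
  have e8 := e (1, 0) (1, 0)
  have e9 := e (1, 0) (1, 1)
  have e10 := e (1, 1) (1, 1)
  simp [Matrix.mul_apply, Fintype.sum_prod_type, Fin.sum_univ_two, J2, Matrix.one_apply,
    Matrix.trace] at e1 e2 e3 e4 e5 e6 e7 e8 e9 e10 htr
  refine ⟨X (0, 0) (0, 0), (X (0, 0) (1, 0) + X (1, 0) (0, 0)) / 2,
    (X (0, 0) (1, 1) - X (0, 1) (1, 0)) / 2, (X (0, 0) (1, 0) - X (1, 0) (0, 0)) / 2,
    (X (0, 0) (1, 1) + X (0, 1) (1, 0)) / 2, ?_⟩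
  ext ⟨i, j⟩ ⟨k, l⟩
  fin_cases i <;> fin_cases j <;> fin_cases k <;> fin_cases l <;>
    simp [Xp, Dm, Pm, J2] <;> grind

lemma Xp_anti (a b c d e a' b' c' d' e' : F) : Xp a b c d e * Xp a' b' c' d' e' +
    Xp a' b' c' d' e' * Xp a b c d e = (2 * (a * a' + b * b' + c * c' - d * d' - e * e')) • 1 := by
  ext ⟨i, j⟩ ⟨k, l⟩
  fin_cases i <;> fin_cases j <;> fin_cases k <;> fin_cases l <;>
    simp [Xp, Dm, Pm, J2, Matrix.mul_apply, Fintype.sum_prod_type, Fin.sum_univ_two] <;> ring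

lemma Xp_omega (a b c d e : F) : Xp a b c d e * ((1 : Matrix (Fin 2) (Fin 2) F) ⊗ₖ J2 F) =
    ((1 : Matrix (Fin 2) (Fin 2) F) ⊗ₖ J2 F) * Xp a b c (-d) (-e) := by
  ext ⟨i, j⟩ ⟨k, l⟩
  fin_cases i <;> fin_cases j <;> fin_cases k <;> fin_cases l <;>
    simp [Xp, Dm, Pm, J2, Matrix.mul_apply, Fintype.sum_prod_type, Fin.sum_univ_two] <;> ring

lemma Xp_theta (a b c d e : F) : Xp a b c d e * ((1 : Matrix (Fin 2) (Fin 2) F) ⊗ₖ Dm F) =
    ((1 : Matrix (Fin 2) (Fin 2) F) ⊗ₖ Dm F) * Xp a b (-c) d (-e) := by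
  ext ⟨i, j⟩ ⟨k, l⟩
  fin_cases i <;> fin_cases j <;> fin_cases k <;> fin_cases l <;>
    simp [Xp, Dm, Pm, J2, Matrix.mul_apply, Fintype.sum_prod_type, Fin.sum_univ_two] <;> ring

lemma Xp_inj (h2 : (2 : F) ≠ 0) {a b c d e a' b' c' d' e' : F} (h : Xp a b c d e = Xp a' b' c' d' e') :
    a = a' ∧ b = b' ∧ c = c' ∧ d = d' ∧ e = e' := by
  have e := fun p q => congrFun (congrFun h p) q
  have e1 := e (0, 0) (0, 0)
  have e2 := e (0, 0) (1, 0)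
  have e3 := e (1, 0) (0, 0)
  have e4 := e (0, 0) (1, 1)
  have e5 := e (0, 1) (1, 0)
  simp [Xp, Dm, Pm, J2] at e1 e2 e3 e4 e5
  refine ⟨e1, ?_, ?_, ?_, ?_⟩ <;> grind

lemma Xp_neg (a b c d e : F) : Xp (-a) (-b) (-c) (-d) (-e) = -Xp a b c d e := by
  simp only [Xp, neg_smul]
  abel

lemma Xp_sa (a b c d e : F) : (Xp a b c d e)ᵀ * ((1 : Matrix (Fin 2) (Fin 2) F) ⊗ₖ J2 F) =
    ((1 : Matrix (Fin 2) (Fin 2) F) ⊗ₖ J2 F) * Xp a b c d e := by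
  ext ⟨i, j⟩ ⟨k, l⟩
  fin_cases i <;> fin_cases j <;> fin_cases k <;> fin_cases l <;>
    simp [Xp, Dm, Pm, J2, Matrix.mul_apply, Fintype.sum_prod_type, Fin.sum_univ_two] <;> ring

lemma Xp_trace (a b c d e : F) : (Xp a b c d e).trace = 0 := by
  simp [Xp, Dm, Pm, J2, Matrix.trace, Fintype.sum_prod_type, Fin.sum_univ_two]

/-- skew elements of `J ⊗ J` -/
lemma skew_param (h2 : (2 : F) ≠ 0) {X : Matrix (Fin 2 × Fin 2) (Fin 2 × Fin 2) F}
    (h : Xᵀ * (J2 F ⊗ₖ J2 F) = -((J2 F ⊗ₖ J2 F) * X)) : ∃ a b c a' b' c' : F,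
      X = !![a, b; c, -a] ⊗ₖ (1 : Matrix (Fin 2) (Fin 2) F) +
        (1 : Matrix (Fin 2) (Fin 2) F) ⊗ₖ !![a', b'; c', -a'] := by
  have e := fun p q => congrFun (congrFun h p) q
  have e1 := e (0, 0) (0, 0)
  have e2 := e (0, 0) (0, 1)
  have e3 := e (0, 0) (1, 0)
  have e4 := e (0, 0) (1, 1)
  have e5 := e (0, 1) (0, 1)
  have e6 := e (0, 1) (1, 0)
  have e7 := e (0, 1) (1, 1)
  have e8 := e (1, 0) (1, 0)
  have e9 := e (1, 0) (1, 1)
  have e10 := e (1, 1) (1, 1)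
  simp [Matrix.mul_apply, Fintype.sum_prod_type, Fin.sum_univ_two, J2] at e1 e2 e3 e4 e5 e6 e7 e8 e9 e10
  refine ⟨(X (0, 0) (0, 0) + X (0, 1) (0, 1)) / 2, X (0, 0) (1, 0), X (1, 0) (0, 0),
    (X (0, 0) (0, 0) - X (0, 1) (0, 1)) / 2, X (0, 0) (0, 1), X (0, 1) (0, 0), ?_⟩
  ext ⟨i, j⟩ ⟨k, l⟩
  fin_cases i <;> fin_cases j <;> fin_cases k <;> fin_cases l <;>
    simp <;> grind

lemma Xp_sq (h2 : (2 : F) ≠ 0) (a b c d e : F) :
    Xp a b c d e * Xp a b c d e = (a * a + b * b + c * c - d * d - e * e) • 1 := by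
  have := Xp_anti a b c d e a b c d e
  rw [← two_smul F, mul_smul] at this
  exact smul_right_injective _ h2 this

lemma coef_of_sq (h2 : (2 : F) ≠ 0) {a b c d e : F} (h : Xp a b c d e * Xp a b c d e = 1) :
    a * a + b * b + c * c - d * d - e * e = 1 := by
  rw [Xp_sq h2] at h
  simpa using congrFun (congrFun h (0, 0)) (0, 0)

lemma pm_of_inner {a b c d e a' b' c' d' e' : F}
    (h : a * a' + b * b' + c * c' - d * d' - e * e' = 0) : PM (Xp a b c d e) (Xp a' b' c' d' e') := by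
  have := Xp_anti a b c d e a' b' c' d' e'
  rw [h, mul_zero, zero_smul] at this
  exact Or.inr (eq_neg_of_add_eq_zero_left this)

lemma det_one_kron_J2 : ((1 : Matrix (Fin 2) (Fin 2) F) ⊗ₖ J2 F).det ≠ 0 := by
  rw [Matrix.det_kronecker]
  simp [J2, Matrix.det_fin_two]

lemma det_one_kron_Dm : ((1 : Matrix (Fin 2) (Fin 2) F) ⊗ₖ Dm F).det ≠ 0 := by
  rw [Matrix.det_kronecker]
  simp [Dm, Matrix.det_fin_two]

lemma omega_cases (h2 : (2 : F) ≠ 0) {a b c d e : F}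
    (h : PM (Xp a b c d e) ((1 : Matrix (Fin 2) (Fin 2) F) ⊗ₖ J2 F)) :
    (d = 0 ∧ e = 0) ∨ (a = 0 ∧ b = 0 ∧ c = 0) := by
  rcases h with h | h
  · rw [Xp_omega] at h
    obtain ⟨-, -, -, h1, h3⟩ := Xp_inj h2 (H7.mul_left_cancel_det det_one_kron_J2 h)
    exact Or.inl ⟨by grind, by grind⟩
  · rw [Xp_omega, ← mul_neg, ← Xp_neg] at h
    obtain ⟨h1, h3, h4, -⟩ := Xp_inj h2 (H7.mul_left_cancel_det det_one_kron_J2 h)
    exact Or.inr ⟨by grind, by grind, by grind⟩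

lemma pm_of_omega [Fintype F] (hq : Fintype.card F = 3)
    {X Y : Matrix (Fin 2 × Fin 2) (Fin 2 × Fin 2) F}
    (hX : Xᵀ * ((1 : Matrix (Fin 2) (Fin 2) F) ⊗ₖ J2 F) = ((1 : Matrix (Fin 2) (Fin 2) F) ⊗ₖ J2 F) * X)
    (hY : Yᵀ * ((1 : Matrix (Fin 2) (Fin 2) F) ⊗ₖ J2 F) = ((1 : Matrix (Fin 2) (Fin 2) F) ⊗ₖ J2 F) * Y)
    (hX1 : X.trace = 0) (hY1 : Y.trace = 0) (hX2 : X * X = 1) (hY2 : Y * Y = 1)
    (hX3 : PM X ((1 : Matrix (Fin 2) (Fin 2) F) ⊗ₖ J2 F))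
    (hY3 : PM Y ((1 : Matrix (Fin 2) (Fin 2) F) ⊗ₖ J2 F)) : PM X Y := by
  have h2 := two_ne_zero_of_three hq
  obtain ⟨a, b, c, d, e, rfl⟩ := sa_param h2 hX hX1
  obtain ⟨a', b', c', d', e', rfl⟩ := sa_param h2 hY hY1
  have h3 := coef_of_sq h2 hX2
  have h4 := coef_of_sq h2 hY2
  have hneg : ∀ X : Matrix (Fin 2 × Fin 2) (Fin 2 × Fin 2) F, PM X (-X) := fun X =>
    Or.inl (by rw [mul_neg, neg_mul])
  rcases omega_cases h2 hX3 with ⟨rfl, rfl⟩ | ⟨rfl, rfl, rfl⟩ <;>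
    rcases omega_cases h2 hY3 with ⟨rfl, rfl⟩ | ⟨rfl, rfl, rfl⟩
  · rcases arith3_a hq (a := a) (b := b) (c := c) (a' := a') (b' := b') (c' := c')
      (by linear_combination h3) (by linear_combination h4) with h | ⟨rfl, rfl, rfl⟩ | ⟨rfl, rfl, rfl⟩
    · exact pm_of_inner (by linear_combination h)
    · exact Or.inl rfl
    · have := hneg (Xp a b c 0 0)
      rwa [← Xp_neg, neg_zero] at this
  · exact pm_of_inner (by ring)
  · exact pm_of_inner (by ring)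
  · rcases arith3_b hq (a := d) (b := e) (a' := d') (b' := e')
      (by linear_combination -h3) (by linear_combination -h4) with h | ⟨rfl, rfl⟩ | ⟨rfl, rfl⟩
    · exact pm_of_inner (by linear_combination -h)
    · exact Or.inl rfl
    · have := hneg (Xp 0 0 0 d e)
      rwa [← Xp_neg, neg_zero] at this

lemma eq_of_theta [Fintype F] (hq : Fintype.card F = 3)
    {X : Matrix (Fin 2 × Fin 2) (Fin 2 × Fin 2) F}
    (hX : Xᵀ * ((1 : Matrix (Fin 2) (Fin 2) F) ⊗ₖ J2 F) = ((1 : Matrix (Fin 2) (Fin 2) F) ⊗ₖ J2 F) * X)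
    (hX1 : X.trace = 0) (hX2 : X * X = 1)
    (hX3 : X * ((1 : Matrix (Fin 2) (Fin 2) F) ⊗ₖ Dm F) =
      -(((1 : Matrix (Fin 2) (Fin 2) F) ⊗ₖ Dm F) * X)) : X = Xp 0 0 1 0 0 ∨ X = -Xp 0 0 1 0 0 := by
  have h2 := two_ne_zero_of_three hq
  obtain ⟨a, b, c, d, e, rfl⟩ := sa_param h2 hX hX1
  have h3 := coef_of_sq h2 hX2
  rw [Xp_theta, ← mul_neg, ← Xp_neg] at hX3
  obtain ⟨h4, h5, -, h6, -⟩ := Xp_inj h2 (H7.mul_left_cancel_det det_one_kron_Dm hX3)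
  obtain rfl : a = 0 := by grind
  obtain rfl : b = 0 := by grind
  obtain rfl : d = 0 := by grind
  obtain ⟨rfl, rfl | rfl⟩ := arith3_d hq (a := c) (b := e) (by linear_combination h3)
  · exact Or.inl rfl
  · right
    rw [← Xp_neg, neg_zero]

/-- the factor swap -/
def swM (F : Type*) [Field F] : GL (Fin 2 × Fin 2) F where
  val := Matrix.of fun p q => if q = p.swap then 1 else 0
  inv := Matrix.of fun p q => if q = p.swap then 1 else 0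
  val_inv := by
    ext ⟨i, j⟩ ⟨k, l⟩
    fin_cases i <;> fin_cases j <;> fin_cases k <;> fin_cases l <;>
      simp [Matrix.mul_apply, Fintype.sum_prod_type, Fin.sum_univ_two]
  inv_val := by
    ext ⟨i, j⟩ ⟨k, l⟩
    fin_cases i <;> fin_cases j <;> fin_cases k <;> fin_cases l <;>
      simp [Matrix.mul_apply, Fintype.sum_prod_type, Fin.sum_univ_two]

lemma swM_mul (X Y : Matrix (Fin 2) (Fin 2) F) :
    (swM F : Matrix (Fin 2 × Fin 2) (Fin 2 × Fin 2) F) * (X ⊗ₖ Y) = (Y ⊗ₖ X) * swM F := by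
  ext ⟨i, j⟩ ⟨k, l⟩
  fin_cases i <;> fin_cases j <;> fin_cases k <;> fin_cases l <;>
    simp [swM, Matrix.mul_apply, Fintype.sum_prod_type, Fin.sum_univ_two] <;> ring

lemma swM_sq : swM F * swM F = 1 := Units.ext (swM F).val_inv

lemma zero_or_of_sq (h2 : (2 : F) ≠ 0) {a b c a' b' c' : F}
    (h : IsScal ((!![a, b; c, -a] ⊗ₖ (1 : Matrix (Fin 2) (Fin 2) F) +
        (1 : Matrix (Fin 2) (Fin 2) F) ⊗ₖ !![a', b'; c', -a']) *
      (!![a, b; c, -a] ⊗ₖ (1 : Matrix (Fin 2) (Fin 2) F) +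
        (1 : Matrix (Fin 2) (Fin 2) F) ⊗ₖ !![a', b'; c', -a']))) :
    !![a, b; c, -a] = 0 ∨ !![a', b'; c', -a'] = 0 := by
  obtain ⟨s, h⟩ := h
  have e := fun p q => congrFun (congrFun h p) q
  have e1 := e (0, 0) (0, 0)
  have e2 := e (0, 1) (0, 1)
  have e3 := e (0, 0) (0, 1)
  have e4 := e (0, 1) (0, 0)
  have e5 := e (0, 0) (1, 0)
  have e6 := e (0, 0) (1, 1)
  have e7 := e (0, 1) (1, 0)
  have e8 := e (1, 0) (0, 0)
  have e9 := e (1, 0) (0, 1)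
  have e10 := e (1, 1) (0, 0)
  simp [Matrix.mul_apply, Fintype.sum_prod_type, Fin.sum_univ_two] at e1 e2 e3 e4 e5 e6 e7 e8 e9 e10
  by_cases h0 : a = 0 ∧ b = 0 ∧ c = 0
  · left
    obtain ⟨rfl, rfl, rfl⟩ := h0
    ext i j
    fin_cases i <;> fin_cases j <;> simp
  · right
    have h4 : (4 : F) ≠ 0 := by
      rw [show (4 : F) = 2 * 2 by norm_num]
      exact mul_ne_zero h2 h2
    have : a' = 0 ∧ b' = 0 ∧ c' = 0 := by
      by_cases ha : a = 0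
      · by_cases hb : b = 0
        · have hc : c ≠ 0 := fun hc => h0 ⟨ha, hb, hc⟩
          exact ⟨mul_left_cancel₀ (mul_ne_zero h2 hc) (by linear_combination e8),
            mul_left_cancel₀ (mul_ne_zero h2 hc) (by linear_combination e9),
            mul_left_cancel₀ (mul_ne_zero h2 hc) (by linear_combination e10)⟩
        · exact ⟨mul_left_cancel₀ (mul_ne_zero h2 hb) (by linear_combination e5),
            mul_left_cancel₀ (mul_ne_zero h2 hb) (by linear_combination e6),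
            mul_left_cancel₀ (mul_ne_zero h2 hb) (by linear_combination e7)⟩
      · exact ⟨mul_left_cancel₀ (mul_ne_zero h4 ha) (by linear_combination e1 - e2),
          mul_left_cancel₀ (mul_ne_zero h2 ha) (by linear_combination e3),
          mul_left_cancel₀ (mul_ne_zero h2 ha) (by linear_combination e4)⟩
    obtain ⟨rfl, rfl, rfl⟩ := this
    ext i j
    fin_cases i <;> fin_cases j <;> simp

/-- similarities of `J ⊗ J` -/
theorem sim_JJ (h2 : (2 : F) ≠ 0) {y : GL (Fin 2 × Fin 2) F} {μ : F} (hμ : μ ≠ 0)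
    (h : tw (RingHom.id F) (J2 F ⊗ₖ J2 F) y = μ • (J2 F ⊗ₖ J2 F)) :
    ∃ a b : GL (Fin 2) F, (y : Matrix (Fin 2 × Fin 2) (Fin 2 × Fin 2) F) =
        (a : Matrix (Fin 2) (Fin 2) F) ⊗ₖ (b : Matrix (Fin 2) (Fin 2) F) ∨
      (y : Matrix (Fin 2 × Fin 2) (Fin 2 × Fin 2) F) =
        swM F * ((a : Matrix (Fin 2) (Fin 2) F) ⊗ₖ (b : Matrix (Fin 2) (Fin 2) F)) := by
  let U₁ : Submodule F (Matrix (Fin 2 × Fin 2) (Fin 2 × Fin 2) F) :=
    { carrier := {z | ∃ Y : Matrix (Fin 2) (Fin 2) F, z = Y ⊗ₖ (1 : Matrix (Fin 2) (Fin 2) F)}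
      add_mem' := by
        rintro _ _ ⟨X, rfl⟩ ⟨Y, rfl⟩
        exact ⟨X + Y, (Matrix.add_kronecker _ _ _).symm⟩
      zero_mem' := ⟨0, by simp⟩
      smul_mem' := by
        rintro c _ ⟨X, rfl⟩
        exact ⟨c • X, (Matrix.smul_kronecker _ _ _).symm⟩ }
  let U₂ : Submodule F (Matrix (Fin 2 × Fin 2) (Fin 2 × Fin 2) F) :=
    { carrier := {z | ∃ Y : Matrix (Fin 2) (Fin 2) F, z = (1 : Matrix (Fin 2) (Fin 2) F) ⊗ₖ Y}
      add_mem' := by
        rintro _ _ ⟨X, rfl⟩ ⟨Y, rfl⟩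
        exact ⟨X + Y, (Matrix.kronecker_add _ _ _).symm⟩
      zero_mem' := ⟨0, by simp⟩
      smul_mem' := by
        rintro c _ ⟨X, rfl⟩
        exact ⟨c • X, (Matrix.kronecker_smul _ _ _).symm⟩ }
  have h' : (y : Matrix (Fin 2 × Fin 2) (Fin 2 × Fin 2) F)ᵀ * (J2 F ⊗ₖ J2 F) * y =
      μ • (J2 F ⊗ₖ J2 F) := by simpa [tw] using h
  have key : ∀ X : Matrix (Fin 2) (Fin 2) F,
      cj y (X ⊗ₖ (1 : Matrix (Fin 2) (Fin 2) F)) ∈ U₁ ∨
        cj y (X ⊗ₖ (1 : Matrix (Fin 2) (Fin 2) F)) ∈ U₂ := by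
    intro X
    obtain ⟨t, a, b, c, rfl⟩ : ∃ t a b c : F, X = t • 1 + !![a, b; c, -a] := by
      refine ⟨(X 0 0 + X 1 1) / 2, (X 0 0 - X 1 1) / 2, X 0 1, X 1 0, ?_⟩
      ext i j
      fin_cases i <;> fin_cases j <;> simp <;> field_simp <;> ring
    set s := !![a, b; c, -a] ⊗ₖ (1 : Matrix (Fin 2) (Fin 2) F) with hs
    have h1 : sᵀ * (J2 F ⊗ₖ J2 F) = -((J2 F ⊗ₖ J2 F) * s) := by
      rw [hs]
      ext ⟨i, j⟩ ⟨k, l⟩
      fin_cases i <;> fin_cases j <;> fin_cases k <;> fin_cases l <;>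
        simp [J2, Matrix.mul_apply, Fintype.sum_prod_type, Fin.sum_univ_two]
    have h3 : IsScal (s * s) := by
      refine ⟨a * a + b * c, ?_⟩
      rw [hs]
      ext ⟨i, j⟩ ⟨k, l⟩
      fin_cases i <;> fin_cases j <;> fin_cases k <;> fin_cases l <;>
        simp [Matrix.mul_apply, Fintype.sum_prod_type, Fin.sum_univ_two] <;> ring
    have h4 : (cj y s)ᵀ * (J2 F ⊗ₖ J2 F) = -((J2 F ⊗ₖ J2 F) * cj y s) := by
      have hy := H7.val_det_ne_zero y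
      refine H7.mul_right_cancel_det hy (H7.mul_left_cancel_det
        (z := (y : Matrix (Fin 2 × Fin 2) (Fin 2 × Fin 2) F)ᵀ) (by rwa [Matrix.det_transpose]) ?_)
      rw [← mul_assoc, ← mul_assoc, ← Matrix.transpose_mul, H7.cj_mul_val, Matrix.transpose_mul,
        neg_mul, mul_neg, mul_assoc _ (cj y s), H7.cj_mul_val, ← mul_assoc, ← mul_assoc, h',
        mul_assoc sᵀ, mul_assoc sᵀ, h', Matrix.mul_smul, Matrix.smul_mul, h1, smul_neg]
    obtain ⟨a₁, b₁, c₁, a₂, b₂, c₂, h5⟩ := skew_param h2 h4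
    have h6 : IsScal (cj y s * cj y s) := by rwa [← map_mul, H7.isScal_cj_iff]
    rw [Matrix.add_kronecker, Matrix.smul_kronecker, Matrix.one_kronecker_one, map_add, map_smul,
      map_one, ← hs]
    rw [h5] at h6 ⊢
    rcases zero_or_of_sq h2 h6 with h7 | h7
    · right
      rw [h7, Matrix.zero_kronecker, zero_add]
      exact U₂.add_mem (U₂.smul_mem _ ⟨1, by simp⟩) ⟨_, rfl⟩
    · left
      rw [h7, Matrix.kronecker_zero, add_zero]
      exact U₁.add_mem (U₁.smul_mem _ ⟨1, by simp⟩) ⟨_, rfl⟩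
  by_cases h1 : ∀ X : Matrix (Fin 2) (Fin 2) F, cj y (X ⊗ₖ (1 : Matrix (Fin 2) (Fin 2) F)) ∈ U₁
  · obtain ⟨a, b, h3⟩ := H7.kron_of_normalizes (H7.val_det_ne_zero y) fun X => by
      obtain ⟨Y, hY⟩ := h1 X
      exact ⟨Y, by rw [← hY, H7.cj_mul_val]⟩
    exact ⟨a, b, Or.inl h3⟩
  push Not at h1
  obtain ⟨X₀, hX₀⟩ := h1
  have h3 : ∀ X : Matrix (Fin 2) (Fin 2) F, cj y (X ⊗ₖ (1 : Matrix (Fin 2) (Fin 2) F)) ∈ U₂ := by
    intro X
    rcases key X with h4 | h4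
    · rcases key (X + X₀) with h5 | h5
      · rw [Matrix.add_kronecker, map_add] at h5
        exact absurd ((U₁.add_mem_iff_right h4).1 h5) hX₀
      · rw [Matrix.add_kronecker, map_add] at h5
        exact (U₂.add_mem_iff_left ((key X₀).resolve_left hX₀)).1 h5
    · exact h4
  obtain ⟨a, b, h4⟩ := H7.kron_of_normalizes (H7.val_det_ne_zero (swM F * y)) fun X => by
    obtain ⟨Y, hY⟩ := h3 X
    refine ⟨Y, ?_⟩
    rw [Units.val_mul, mul_assoc, ← H7.cj_mul_val y, hY, ← mul_assoc, swM_mul, mul_assoc]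
  refine ⟨a, b, Or.inr ?_⟩
  rw [← h4, ← Units.val_mul, ← mul_assoc, swM_sq, one_mul]

end Cfsg.Agent.H8
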