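import Cfsg.Agent.H8.SpMax3

/-! Maximal subgroups of symplectic groups, part 4: `Sp₄(3)`. -/

set_option autoImplicit false
set_option linter.unusedSectionVars false
set_option linter.style.haveILetI false

namespace Cfsg.Agent.H8

open Module Cfsg.Agent.Orth Cfsg.Geo
open Cfsg.Agent.H7 (Irr AbsIrr IsScal NormA NormG cj Isom HForm adj spanAlg ctr gform tw frameEquiv
  frameVec frameGram frameGL pt slot ptGL permGL J2 permMat)
open scoped Matrix Kronecker commutatorElement

variable {ι : Type} [Fintype ι] [DecidableEq ι] {F : Type*} [Field F]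

lemma exists_frame_of_gram {σ : F →+* F} {f : (ι → F) → (ι → F) → F} (hf : H7.Sesq σ f)
    {κ : Type} [Fintype κ] [DecidableEq κ] (hc : Fintype.card ι = Fintype.card κ)
    (b : κ → ι → F) {A : Matrix κ κ F} (hA : A.det ≠ 0) (h : ∀ k l, f (b k) (b l) = A k l) :
    ∃ (e : ι ≃ κ) (P : GL ι F), (∀ k, frameVec e P (Pi.single k 1) = b k) ∧
      frameGram f e P = A := by
  have hli : LinearIndependent F b := by
    rw [Fintype.linearIndependent_iff]
    intro g hg
    have : g ᵥ* A = 0 := by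
      ext l
      have := hf.zero_left (b l)
      rw [← hg, hf.sum_left] at this
      simp only [hf.smul_left, h] at this
      exact this
    exact congrFun (Matrix.eq_zero_of_vecMul_eq_zero hA this)
  obtain ⟨e, P, he⟩ := H7.exists_frame b hli (by
    rw [top_le_iff]
    apply Submodule.eq_top_of_finrank_eq
    rw [finrank_span_eq_card hli, finrank_fintype_fun_eq_card, hc])
  refine ⟨e, P, he, ?_⟩
  ext k l
  rw [H7.frameGram_apply, he, he, h]

lemma trace_frameEquiv {κ : Type} [Fintype κ] [DecidableEq κ] (e : ι ≃ κ) (P : GL ι F)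
    (X : Matrix κ κ F) : (frameEquiv e P X).trace = X.trace := by
  rw [H7.frameEquiv_apply, H7.cj_apply, Matrix.trace_mul_cycle, Units.inv_mul, one_mul]
  exact Equiv.sum_comp e fun k => X k k

lemma trace_cj (g : GL ι F) (X : Matrix ι ι F) : (cj g X).trace = X.trace := by
  rw [H7.cj_apply, Matrix.trace_mul_cycle, Units.inv_mul, one_mul]

lemma PM.map {M N : Type*} [Ring M] [Ring N] {φ : Type*} [FunLike φ M N] [RingHomClass φ M N]
    (ψ : φ) {x y : M} (h : PM x y) : PM (ψ x) (ψ y) := by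
  rcases h with h | h
  · left; rw [← map_mul, h, map_mul]
  · right; rw [← map_mul, h, map_neg, map_mul]

lemma PM.neg_right {M : Type*} [Ring M] {x y : M} (h : PM x y) : PM x (-y) := by
  rcases h with h | h
  · left; rw [mul_neg, neg_mul, h]
  · right; rw [mul_neg, neg_mul, h]

variable {f : (ι → F) → (ι → F) → F} (hs : IsSymplecticForm f)
include hs

lemma two_mul_finrank_of_max_ti {U : Submodule F (ι → F)} (hU : IsTotallySingularFor f U)
    (hmax : ∀ x, (∀ u ∈ U, f x u = 0) → x ∈ U) : 2 * finrank F U = Fintype.card ι := by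
  have hf := H7.hform_of_symplectic hs
  let B : LinearMap.BilinForm F (ι → F) := LinearMap.mk₂ F f hf.add_left
    (fun c x y => hf.smul_left c x y) hf.add_right (fun c x y => hf.smul_right c x y)
  have hB : B.Nondegenerate := ⟨fun v h => hf.eq_zero_of_right h, fun v h => hf.eq_zero_of_left h⟩
  have h1 := LinearMap.BilinForm.finrank_orthogonal hB U
  have h2 : B.orthogonal U = U := le_antisymm
    (fun x hx => hmax x fun u hu => hf.eq_zero_comm (hx u hu)) fun x hx u hu => hU u hu x hx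
  have h3 := Submodule.finrank_le U
  rw [h2, finrank_fintype_fun_eq_card] at h1
  rw [finrank_fintype_fun_eq_card] at h3
  omega

lemma two_mul_dvd_of_field [Fintype F] [Nonempty ι] {r : ℕ} {K : Subalgebra F (Matrix ι ι F)}
    (hK : IsFieldSubalgebra r K) (hsa : IsSelfAdjointFor f K)
    (halt : ∀ k ∈ K, ∀ v, f (k *ᵥ v) v = 0) : 2 * r ∣ Fintype.card ι := by
  have hf := H7.hform_of_symplectic hs
  refine field_bridge hK fun L _ _ _ _ _ hr h1 _ _ => ?_
  haveI : FiniteDimensional L (ι → F) := Module.Finite.of_restrictScalars_finite F L _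
  have e1 : ∀ (a : L) x y, f (a • x) y = f x (a • y) := fun a x y => by
    obtain ⟨k, hk, ha⟩ := h1 a
    rw [ha, ha, hsa k hk]
  have e2 : ∀ (a : L) x, f (a • x) x = 0 := fun a x => by
    obtain ⟨k, hk, ha⟩ := h1 a
    rw [ha, halt k hk]
  obtain ⟨U, -, hU, hmax⟩ := exists_max_ts_of (F := L) (V := ι → F)
    (fun U => ∀ u ∈ U, ∀ v ∈ U, f u v = 0) (U₀ := ⊥) (by
      intro u hu v _
      rw [Submodule.mem_bot] at hu
      rw [hu, hf.zero_left])
  have h2 := two_mul_finrank_of_max_ti hs (U := U.restrictScalars F) hU fun x hx => by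
    have := hmax (U ⊔ L ∙ x) le_sup_left (by
      intro u' hu₀ v' hv₀
      obtain ⟨u, hu, _, hu', rfl⟩ := Submodule.mem_sup.1 hu₀
      obtain ⟨v, hv, _, hv', rfl⟩ := Submodule.mem_sup.1 hv₀
      obtain ⟨a, rfl⟩ := Submodule.mem_span_singleton.1 hu'
      obtain ⟨b, rfl⟩ := Submodule.mem_span_singleton.1 hv'
      rw [hf.add_left, hf.add_right, hf.add_right, hU u hu v hv, ← e1 b u,
        hf.eq_zero_comm (hx _ (U.smul_mem b hu)), e1 a x v, hx _ (U.smul_mem a hv), ← e1 b,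
        smul_smul, e2]
      simp)
    change x ∈ U
    rw [← this]
    exact Submodule.mem_sup_right (Submodule.mem_span_singleton_self x)
  have h3 := Module.finrank_mul_finrank F L U
  rw [hr] at h3
  have h4 : finrank F (U.restrictScalars F) = finrank F U :=
    ((Submodule.restrictScalarsEquiv F L _ U).restrictScalars F).finrank_eq
  exact ⟨finrank L U, by rw [← h2, h4, ← h3, mul_assoc]⟩

lemma even_finrank_of_nondeg {W : Submodule F (ι → F)} (hW : IsNondegenerateOn f W) :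
    Even (finrank F W) := by
  have hf := H7.hform_of_symplectic hs
  let b := Module.finBasis F W
  have := H7.even_card_of_alt (G := Matrix.of fun i j => f (b i) (b j)) (by
    intro h0
    obtain ⟨v, hv, hxv⟩ := Matrix.exists_vecMul_eq_zero_iff.2 h0
    let w : W := ∑ i, v i • b i
    have hw : ∀ j, f w (b j) = 0 := fun j => by
      have := congrFun hxv j
      simp only [w, Submodule.coe_sum, Submodule.coe_smul, hf.sum_left, hf.smul_left]
      exact this
    have hw0 : w ≠ 0 := fun h => hv (funext (Fintype.linearIndependent_iff.1 b.linearIndependent v h))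
    obtain ⟨x, hx, hne⟩ := (hW w w.2 (fun h => hw0 (Subtype.ext h))).2
    apply hne
    have := b.sum_repr ⟨x, hx⟩
    rw [show x = ((⟨x, hx⟩ : W) : ι → F) from rfl, ← this]
    simp only [Submodule.coe_sum, Submodule.coe_smul, hf.sum_right, hf.smul_right, hw, mul_zero,
      Finset.sum_const_zero]) (by
    ext i j
    exact hs.skew _ _) fun i => hs.alternating _
  simpa using this

lemma exists_frame_four (hc : Fintype.card ι = 4) {v₀ w₀ v₁ w₁ : ι → F} (h₀ : f v₀ w₀ = 1)
    (h₁ : f v₁ w₁ = 1) (e₁ : f v₀ v₁ = 0) (e₂ : f v₀ w₁ = 0) (e₃ : f w₀ v₁ = 0)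
    (e₄ : f w₀ w₁ = 0) : ∃ (e : ι ≃ Fin 2 × Fin 2) (P : GL ι F),
      frameVec e P (Pi.single (0, 0) 1) = v₀ ∧ frameVec e P (Pi.single (0, 1) 1) = w₀ ∧
      frameVec e P (Pi.single (1, 0) 1) = v₁ ∧ frameVec e P (Pi.single (1, 1) 1) = w₁ ∧
      frameGram f e P = (1 : Matrix (Fin 2) (Fin 2) F) ⊗ₖ J2 F := by
  obtain ⟨e, P, h, hG⟩ := exists_frame_of_gram (H7.hform_of_symplectic hs).toSesq
    (κ := Fin 2 × Fin 2) (by simpa using hc) (fun p => ![![v₀, w₀], ![v₁, w₁]] p.1 p.2)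
    det_one_kron_J2 (by
      rintro ⟨i, j⟩ ⟨k, l⟩
      fin_cases i <;> fin_cases j <;> fin_cases k <;> fin_cases l <;>
        simp [J2, hs.alternating, hs.skew w₀ v₀, hs.skew w₁ v₁, hs.skew v₁ v₀, hs.skew w₁ v₀,
          hs.skew v₁ w₀, hs.skew w₁ w₀, h₀, h₁, e₁, e₂, e₃, e₄])
  exact ⟨e, P, h (0, 0), h (0, 1), h (1, 0), h (1, 1), hG⟩

lemma adj_eq_iff_frame {κ : Type} [Fintype κ] [DecidableEq κ] (e : ι ≃ κ) (P : GL ι F)
    (X : Matrix κ κ F) : adj (RingHom.id F) f (frameEquiv e P X) = frameEquiv e P X ↔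
      Xᵀ * frameGram f e P = frameGram f e P * X :=
  ⟨fun h => by simpa using (H7.hform_of_symplectic hs).frameGram_adj e P h,
    fun h => (H7.hform_of_symplectic hs).adj_frameEquiv e P (by simpa using h)⟩

lemma isom_of_sa {x : Matrix ι ι F} (h : adj (RingHom.id F) f x = x) (h2 : x * x = 1) (u v : ι → F) :
    f (x *ᵥ u) (x *ᵥ v) = f u v := by
  rw [(H7.hform_of_symplectic hs).adj_spec, h, Matrix.mulVec_mulVec, h2, Matrix.one_mulVec]

variable [Fintype F]

lemma exists_skew_gen [Nonempty ι] (h2 : (2 : F) ≠ 0) {K : Subalgebra F (Matrix ι ι F)}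
    (hK : IsFieldSubalgebra 2 K) (hadj : IsAdjointClosedFor f K) (hns : ¬ IsSelfAdjointFor f K) :
    ∃ (ω : Matrix ι ι F) (a : F), adj (RingHom.id F) f ω = -ω ∧ ω * ω = a • 1 ∧ ¬ IsSquare a ∧
      ∀ H : Subgroup (GL ι F), Isom f H → H ≤ subalgebraNormalizer K →
        ∀ h ∈ H, cj h ω = ω ∨ cj h ω = -ω := by
  have hf := H7.hform_of_symplectic hs
  rw [hf.isSelfAdjointFor_iff] at hns
  push Not at hns
  obtain ⟨k, hk, hkn⟩ := hns
  set ω := k - adj (RingHom.id F) f k with hω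
  have hωK : ω ∈ K := K.sub_mem hk (hf.adj_mem_of_isAdjointClosedFor hadj k hk)
  have h1 : adj (RingHom.id F) f ω = -ω := by rw [hω, hf.adj_sub, hf.adj_adj, neg_sub]
  have h0 : ω ≠ 0 := sub_ne_zero.2 hkn.symm
  have hlin : ∀ a b : F, adj (RingHom.id F) f (a • 1 + b • ω) = a • 1 - b • ω := fun a b => by
    rw [hf.adj_add, hf.adj_smul, hf.adj_smul, hf.adj_one, h1, smul_neg, sub_eq_add_neg]; rfl
  have h3 : ¬ IsScal ω := by
    rintro ⟨c, hc⟩
    have := hlin c 0
    rw [zero_smul, add_zero, sub_zero, ← hc, h1] at this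
    apply h0
    apply smul_right_injective _ h2
    simp only [two_smul, smul_zero]
    rw [← sub_neg_eq_add, this, sub_self]
  obtain ⟨a, b, hab⟩ := mem_span_of_two hK hωK h3 (K.mul_mem hωK hωK)
  have hb : b = 0 := by
    have := hlin a b
    rw [← hab, hf.adj_mul, h1, neg_mul_neg, hab, sub_eq_add_neg, add_right_inj] at this
    have h4 : (2 * b) • ω = 0 := by rw [mul_smul, two_smul, ← sub_neg_eq_add, ← this, sub_self]
    exact (mul_eq_zero.1 ((smul_eq_zero.1 h4).resolve_right h0)).resolve_left h2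
  rw [hb, zero_smul, add_zero] at hab
  have hsq : ∀ c : F, a ≠ c * c := by
    rintro c rfl
    have h4 : (ω - c • 1) * (ω + c • 1) = 0 := by
      rw [sub_mul, mul_add, mul_add, hab, Matrix.mul_smul, Matrix.smul_mul, Matrix.smul_mul,
        mul_one, one_mul, one_mul, smul_smul]
      abel
    have h5 : ω + c • 1 ≠ 0 := fun h => h3 ⟨-c, by rw [neg_smul]; exact eq_neg_of_add_eq_zero_left h⟩
    obtain ⟨y, -, hy⟩ := hK.inv _ (K.add_mem hωK (K.smul_mem K.one_mem c)) h5
    apply h3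
    refine ⟨c, sub_eq_zero.1 ?_⟩
    have h6 := congrArg (· * y) h4
    simp only [mul_assoc, hy, mul_one, zero_mul] at h6
    exact h6
  refine ⟨ω, a, h1, hab, fun ⟨c, hc⟩ => hsq c hc, fun H hH hN h hh => ?_⟩
  obtain ⟨c, d, hcd⟩ := mem_span_of_two hK hωK h3 (H7.normA_of_le_normalizer hN h hh ω hωK)
  have hc : c = 0 := by
    have := hlin c d
    rw [← hcd, hf.adj_cj hH hh, h1, map_neg, hcd, neg_add', sub_left_inj] at this
    have h4 : (2 * c) • (1 : Matrix ι ι F) = 0 := by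
      rw [mul_smul, two_smul, ← sub_neg_eq_add, this, sub_self]
    exact (mul_eq_zero.1 ((smul_eq_zero.1 h4).resolve_right one_ne_zero)).resolve_left h2
  rw [hc, zero_smul, zero_add] at hcd
  have h4 := congrArg (cj h) hab
  rw [map_mul, hcd, map_smul, map_one, Matrix.smul_mul, Matrix.mul_smul, hab, smul_smul,
    smul_smul] at h4
  have h5 := smul_left_injective F one_ne_zero h4
  have ha : a ≠ 0 := fun h => hsq 0 (by simp [h])
  have h6 : d * d = 1 := mul_right_cancel₀ ha (by simpa using h5)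
  rcases mul_self_eq_one_iff.1 h6 with rfl | rfl
  · left; rw [hcd, one_smul]
  · right; rw [hcd, neg_smul, one_smul]

lemma exists_unit_vec (hq : Fintype.card F = 3) {ω : Matrix ι ι F}
    (h1 : adj (RingHom.id F) f ω = -ω) (h2 : ω * ω = -1) {U : Submodule F (ι → F)}
    (hU : ∀ u ∈ U, ω *ᵥ u ∈ U) {u u' : ι → F} (hu : u ∈ U) (hu' : u' ∈ U) (hne : f u u' ≠ 0) :
    ∃ v ∈ U, f v (-(ω *ᵥ v)) = 1 := by
  have hf := H7.hform_of_symplectic hs
  have h3 := three_eq_zero hq
  have e1 : ∀ x y, f (ω *ᵥ x) y = -f x (ω *ᵥ y) := fun x y => by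
    rw [hf.adj_spec, h1, Matrix.neg_mulVec, hf.neg_right]
  have e2 : ∀ x, ω *ᵥ (ω *ᵥ x) = -x := fun x => by
    rw [Matrix.mulVec_mulVec, h2, Matrix.neg_mulVec, Matrix.one_mulVec]
  obtain ⟨v, hv, hne⟩ : ∃ v ∈ U, f v (ω *ᵥ v) ≠ 0 := by
    by_contra h
    push Not at h
    have h4 := h _ (U.add_mem hu (hU u' hu'))
    rw [Matrix.mulVec_add, hf.add_left, hf.add_right, hf.add_right, h u hu, h _ (hU u' hu'), e2,
      hf.neg_right, e1, e2, hf.neg_right, hs.skew u' u] at h4
    exact hne (by linear_combination h4 + f u u' * h3)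
  rcases eq_or_of_three hq (f v (ω *ᵥ v)) with h | h | h
  · exact absurd h hne
  · refine ⟨v + ω *ᵥ v, U.add_mem hv (hU v hv), ?_⟩
    rw [hf.neg_right, Matrix.mulVec_add, e2, hf.add_left, hf.add_right, hf.add_right, hf.neg_right,
      hf.neg_right, hs.alternating, hs.alternating, e1, h]
    linear_combination -h3
  · exact ⟨v, hv, by rw [hf.neg_right, h, neg_neg]⟩

variable {G : Subgroup (GL ι F)} (hG : IsIsomGroup f G) {H : Subgroup (GL ι F)}
include hG

/-- `GU₂(3).2` is not maximal in `Sp₄(3)` -/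
theorem sp4_unitary (hc : Fintype.card ι = 4) (hq : Fintype.card F = 3) (hH : IsMaximalIn G H)
    {K : Subalgebra F (Matrix ι ι F)} (hK : IsFieldSubalgebra 2 K) (hadj : IsAdjointClosedFor f K)
    (hns : ¬ IsSelfAdjointFor f K) (hN : H ≤ subalgebraNormalizer K) : False := by
  have hf := H7.hform_of_symplectic hs
  have h3 := three_eq_zero hq
  have h2 := two_ne_zero_of_three hq
  haveI : Nonempty ι := H7.nonempty_of_two_le (by omega)
  have hI : Isom f H := hG.isom.mono hH.1.le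
  obtain ⟨ω, a, h1, hω, ha, hcj⟩ := exists_skew_gen hs h2 hK hadj hns
  replace hcj := hcj H hI hN
  obtain rfl : a = -1 := by
    rcases eq_or_of_three hq a with rfl | rfl | rfl
    · exact absurd IsSquare.zero ha
    · exact absurd IsSquare.one ha
    · rfl
  rw [neg_smul, one_smul] at hω
  have e1 : ∀ x y, f (ω *ᵥ x) y = -f x (ω *ᵥ y) := fun x y => by
    rw [hf.adj_spec, h1, Matrix.neg_mulVec, hf.neg_right]
  have e2 : ∀ x, ω *ᵥ (ω *ᵥ x) = -x := fun x => by
    rw [Matrix.mulVec_mulVec, hω, Matrix.neg_mulVec, Matrix.one_mulVec]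
  obtain ⟨u, hu0, -⟩ := sp_exists_perp hs (by omega) (0 : ι → F) 0
  obtain ⟨u', hu'⟩ := sp_exists_ne hs hu0
  obtain ⟨v₀, -, h₀⟩ := exists_unit_vec hs hq h1 hω (U := ⊤) (fun _ _ => trivial) trivial trivial hu'
  let U : Submodule F (ι → F) := H7.perp hf.toSesq (Submodule.span F {v₀, ω *ᵥ v₀})
  have hUm : ∀ x, x ∈ U ↔ f x v₀ = 0 ∧ f x (ω *ᵥ v₀) = 0 := fun x =>
    ⟨fun h => ⟨h _ (left_mem_pair _ _), h _ (right_mem_pair _ _)⟩, fun h w hw => by
      obtain ⟨a, b, rfl⟩ := mem_span_pair'.1 hw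
      rw [hf.add_right, hf.smul_right, hf.smul_right, h.1, h.2]; simp⟩
  obtain ⟨x, hx0, hx⟩ := sp_exists_perp hs (by omega) v₀ (ω *ᵥ v₀)
  obtain ⟨z, hz⟩ := sp_exists_ne hs hx0
  rw [hf.neg_right, neg_eq_iff_eq_neg] at h₀
  obtain ⟨v₁, hv₁, h₁⟩ := exists_unit_vec hs hq h1 hω (U := U) (fun u hu => by
      rw [hUm] at hu ⊢
      rw [e1, e1, e2, hf.neg_right, hu.1, hu.2]; simp)
    ((hUm x).2 hx) (u' := z + f z (ω *ᵥ v₀) • v₀ - f z v₀ • (ω *ᵥ v₀)) (by
      rw [hUm]
      simp only [hf.add_left, hf.sub_left, hf.smul_left, hs.alternating, e1, h₀]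
      constructor <;> ring) (by
      simpa only [hf.add_right, hf.sub_right, hf.smul_right, hx.1, hx.2, mul_zero, add_zero,
        sub_zero] using hz)
  rw [hUm] at hv₁
  obtain ⟨e, P, b1, b2, b3, b4, hGr⟩ := exists_frame_four hs hc (v₀ := v₀) (w₀ := -(ω *ᵥ v₀))
    (v₁ := v₁) (w₁ := -(ω *ᵥ v₁)) (by rw [hf.neg_right, h₀, neg_neg]) h₁
    (hf.eq_zero_comm hv₁.1) (by rw [hf.neg_right, ← e1, hf.eq_zero_comm hv₁.2])
    (by rw [hf.neg_left, hf.eq_zero_comm hv₁.2, neg_zero])
    (by rw [hf.neg_left, hf.neg_right, e1, e2, hf.neg_right, hf.eq_zero_comm hv₁.1]; simp)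
  have hωe : ω = frameEquiv e P ((1 : Matrix (Fin 2) (Fin 2) F) ⊗ₖ J2 F) := by
    refine H7.eq_frameEquiv e P ?_
    rintro ⟨i, j⟩
    fin_cases i <;> fin_cases j <;>
      simp [Fintype.sum_prod_type, Fin.sum_univ_two, J2, b1, b2, b3, b4, Matrix.mulVec_neg, e2]
  let S : Set (Matrix ι ι F) :=
    {x | adj (RingHom.id F) f x = x ∧ x * x = 1 ∧ x.trace = 0 ∧ PM x ω}
  have hS : ∀ a b c d e' : F, a * a + b * b + c * c - d * d - e' * e' = 1 →
      PM (Xp a b c d e') ((1 : Matrix (Fin 2) (Fin 2) F) ⊗ₖ J2 F) →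
      frameEquiv e P (Xp a b c d e') ∈ Submonoid.closure (insert (-1) S) := by
    intro a b c d e' h h'
    refine Submonoid.subset_closure (Set.mem_insert_of_mem _ ⟨?_, ?_, ?_, ?_⟩)
    · rw [adj_eq_iff_frame hs, hGr, Xp_sa]
    · rw [← map_mul, Xp_sq h2, h, one_smul, map_one]
    · rw [trace_frameEquiv, Xp_trace]
    · rw [hωe]; exact h'.map _
  have m1 := hS 1 0 0 0 0 (by ring) (Or.inl (by rw [Xp_omega, neg_zero]))
  have m2 := hS 0 1 0 0 0 (by ring) (Or.inl (by rw [Xp_omega, neg_zero]))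
  have m4 := hS 0 0 0 1 1 (by linear_combination -h3) (Or.inr (by
    rw [Xp_omega, ← mul_neg, ← Xp_neg, neg_zero]))
  have hsq : ∀ X Y : Matrix (Fin 2 × Fin 2) (Fin 2 × Fin 2) F, X * X = 1 → Y * Y = 1 →
      X * Y + Y * X = 0 → frameEquiv e P X * frameEquiv e P Y * (frameEquiv e P X * frameEquiv e P Y) =
        -1 := by
    intro X Y hX hY hXY
    rw [← map_mul, ← map_mul, mul_assoc, ← mul_assoc Y, eq_neg_of_add_eq_zero_right hXY, neg_mul,
      mul_neg, mul_assoc, hY, mul_one, hX, map_neg, map_one]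
  have q1 : Xp (1 : F) 0 0 0 0 * Xp 1 0 0 0 0 = 1 := by rw [Xp_sq h2]; simp
  have hx2 := hsq (Xp 1 0 0 0 0) (Xp 0 0 0 1 1) q1 (by
    rw [Xp_sq h2, show (0 : F) * 0 + 0 * 0 + 0 * 0 - 1 * 1 - 1 * 1 = 1 by linear_combination -h3,
      one_smul]) (by rw [Xp_anti]; simp)
  obtain ⟨h, hh, hz⟩ := cliff_mem hs hG (by omega) hq hH (S := S)
    (fun x hx => isom_of_sa hs hx.1 hx.2.1) (fun x hx => Or.inl hx.2.1) (by
      intro x hx y hy
      obtain ⟨X, rfl⟩ := (frameEquiv e P).surjective x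
      obtain ⟨Y, rfl⟩ := (frameEquiv e P).surjective y
      obtain ⟨x1, x2, x3, x4⟩ := hx
      obtain ⟨y1, y2, y3, y4⟩ := hy
      rw [adj_eq_iff_frame hs, hGr] at x1 y1
      rw [trace_frameEquiv] at x3 y3
      rw [hωe] at x4 y4
      refine (pm_of_omega hq x1 y1 x3 y3 ((frameEquiv e P).injective (by simpa using x2))
        ((frameEquiv e P).injective (by simpa using y2)) ?_ ?_).map _
      · simpa using x4.map (frameEquiv e P).symm
      · simpa using y4.map (frameEquiv e P).symm) (by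
      rintro h hh x ⟨x1, x2, x3, x4⟩
      refine ⟨by rw [hf.adj_cj hI hh, x1], by rw [← map_mul, x2, map_one], by rwa [trace_cj], ?_⟩
      have := x4.map (cj h)
      rcases hcj h hh with h' | h'
      · rwa [h'] at this
      · rw [h'] at this
        simpa using this.neg_right)
    (Submonoid.mul_mem _ m1 m4) (Submonoid.mul_mem _ m1 m2) hx2
    (hsq _ _ q1 (by rw [Xp_sq h2]; simp) (by rw [Xp_anti]; simp))
  have h4 := hz ω (by
    rw [hωe, ← map_mul, ← map_mul, ← map_mul, mul_assoc, Xp_omega, ← mul_assoc, Xp_omega, neg_zero,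
      mul_assoc]) (by
    rw [hωe, ← map_mul, ← map_mul, ← map_mul, mul_assoc, Xp_omega, ← mul_assoc, Xp_omega, neg_zero,
      mul_assoc, ← map_neg, ← mul_neg, ← mul_neg, ← Xp_neg, neg_zero])
  set x' := frameEquiv e P (Xp 1 0 0 0 0) * frameEquiv e P (Xp 0 0 0 1 1)
  have h5 : x' = 1 ∨ x' = -1 := by
    have : ω * (ω * x') = -x' := by rw [← mul_assoc, hω, neg_mul, one_mul]
    rcases hcj h hh with h' | h'
    · right
      rw [h'] at h4
      rw [← neg_eq_iff_eq_neg.2 h4, mul_neg, hω, neg_neg] at this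
      exact neg_eq_iff_eq_neg.1 this.symm
    · left
      rw [h', neg_inj] at h4
      rw [← h4, hω] at this
      exact (neg_inj.1 this).symm
  have h6 : x' * x' = 1 := by rcases h5 with h | h <;> simp [h]
  rw [hx2, ← neg_one_smul F, ← one_smul F (1 : Matrix ι ι F), smul_smul] at h6
  have h7 := smul_left_injective F one_ne_zero h6
  exact h2 (by linear_combination -h7)

/-- `GL₂(3).2` lies in `Sp₂(3) ≀ 2` -/
theorem sp4_pair (hc : Fintype.card ι = 4) (hq : Fintype.card F = 3) (hH : H ≤ G)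
    {D : Fin 2 → Submodule F (ι → F)} (hD : IsMDecomposition 2 D)
    (hts : ∀ i, IsTotallySingularFor f (D i)) (hN : H ≤ decompositionStabilizer D) :
    ∃ E : Fin 2 → Submodule F (ι → F), IsNondegenerateMDecomposition f 2 E ∧
      H ≤ decompositionStabilizer E := by
  have hf := H7.hform_of_symplectic hs
  have h3 := three_eq_zero hq
  have h2 := two_ne_zero_of_three hq
  have hI : Isom f H := hG.isom.mono hH
  have hco := H7.isCompl_of_pair hD
  have hex : ∀ (i : Fin 2) (w : ι → F), ∃ v ∈ D i, v ≠ 0 ∧ f v w = 0 := by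
    intro i w
    have h1 := H7.card_le_finrank_add_perp hf.toSesq (F ∙ w)
    have h4 := finrank_span_singleton_le (F := F) w
    have h5 := Submodule.finrank_sup_add_finrank_inf_eq (D i) (H7.perp hf.toSesq (F ∙ w))
    have h6 := Submodule.finrank_le (D i ⊔ H7.perp hf.toSesq (F ∙ w))
    rw [hD.finrank_eq] at h5
    rw [finrank_fintype_fun_eq_card] at h6
    obtain ⟨v, hv, hv0⟩ := (D i ⊓ H7.perp hf.toSesq (F ∙ w)).ne_bot_iff.1 fun h => by
      rw [h, finrank_bot] at h5
      omega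
    exact ⟨v, hv.1, hv0, hv.2 w (Submodule.mem_span_singleton_self w)⟩
  have hne : ∀ v ∈ D 0, v ≠ 0 → ∃ w ∈ D 1, f v w ≠ 0 := by
    intro v hv hv0
    obtain ⟨z, hz⟩ := sp_exists_ne hs hv0
    obtain ⟨a, ha, b, hb, rfl⟩ := Submodule.mem_sup.1 (hco.sup_eq_top.symm.le (x := z) trivial)
    exact ⟨b, hb, by rwa [hf.add_right, hts 0 v hv a ha, zero_add] at hz⟩
  obtain ⟨v₀, hv₀, hv₀0, -⟩ := hex 0 0
  obtain ⟨w₀, hw₀, h₀⟩ := hne v₀ hv₀ hv₀0
  obtain ⟨v₁, hv₁, hv₁0, e₃⟩ := hex 0 w₀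
  obtain ⟨w₁, hw₁, h₁⟩ := hne v₁ hv₁ hv₁0
  obtain ⟨e, P, b1, b2, b3, b4, hGr⟩ := exists_frame_four hs hc (v₀ := v₀)
    (w₀ := (f v₀ w₀)⁻¹ • w₀) (v₁ := v₁)
    (w₁ := (f v₁ w₁)⁻¹ • (w₁ - (f v₀ w₁ / f v₀ w₀) • w₀))
    (by rw [hf.smul_right]; exact inv_mul_cancel₀ h₀)
    (by rw [hf.smul_right, hf.sub_right, hf.smul_right, e₃, mul_zero, sub_zero]
        exact inv_mul_cancel₀ h₁)
    (hts 0 _ hv₀ _ hv₁)
    (by rw [hf.smul_right, hf.sub_right, hf.smul_right, RingHom.id_apply, RingHom.id_apply,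
          div_mul_cancel₀ _ h₀, sub_self, mul_zero])
    (by rw [hf.smul_left, hf.eq_zero_comm e₃, mul_zero])
    (hts 1 _ ((D 1).smul_mem _ hw₀) _ ((D 1).smul_mem _ ((D 1).sub_mem hw₁ ((D 1).smul_mem _ hw₀))))
  obtain ⟨ε, k1, k2, -, k4⟩ := hf.exists_idem_of_pair hD hts
  have hθ : ε - (1 - ε) = frameEquiv e P ((1 : Matrix (Fin 2) (Fin 2) F) ⊗ₖ Dm F) := by
    have m1 := k1 _ hv₀
    have m2 := k1 _ hv₁
    have m3 := k2 _ ((D 1).smul_mem (f v₀ w₀)⁻¹ hw₀)
    have m4 := k2 _ ((D 1).smul_mem (f v₁ w₁)⁻¹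
      ((D 1).sub_mem hw₁ ((D 1).smul_mem (f v₀ w₁ / f v₀ w₀) hw₀)))
    rw [← b1] at m1
    rw [← b3] at m2
    rw [← b2] at m3
    rw [← b4] at m4
    refine H7.eq_frameEquiv e P ?_
    rintro ⟨i, j⟩
    fin_cases i <;> fin_cases j <;>
      simp [Fintype.sum_prod_type, Fin.sum_univ_two, Dm, Matrix.sub_mulVec, m1, m2, m3, m4]
  set θ := ε - (1 - ε)
  set x := frameEquiv e P (Xp 0 0 1 0 0) with hx
  have x1 : adj (RingHom.id F) f x = x := by rw [adj_eq_iff_frame hs, hGr, Xp_sa]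
  have x2 : x * x = 1 := by rw [← map_mul, Xp_sq h2]; simp
  have x3 : x * θ = -(θ * x) := by
    rw [hθ, ← map_mul, ← map_mul, Xp_theta, ← map_neg, ← mul_neg, ← Xp_neg, neg_zero]
  have hcj : ∀ h ∈ H, cj h x = x ∨ cj h x = -x := by
    intro h hh
    obtain ⟨X, hX⟩ := (frameEquiv e P).surjective (cj h x)
    have y3 : cj h x * θ = -(θ * cj h x) := by
      have := congrArg (cj h) x3
      rw [map_mul, map_neg, map_mul] at this
      rcases k4 h (hN hh) with h' | h'
      · rwa [show cj h θ = θ by simp [θ, h']] at this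
      · rwa [show cj h θ = -θ by simp [θ, h'], mul_neg, neg_mul, neg_inj] at this
    rw [← hX, hx, ← map_neg]
    refine (eq_of_theta hq ?_ ?_ ?_ ?_).imp (congrArg _) (congrArg _)
    · rw [← hGr, ← adj_eq_iff_frame hs, hX, hf.adj_cj hI hh, x1]
    · rw [← trace_frameEquiv e P, hX, trace_cj, trace_frameEquiv, Xp_trace]
    · apply (frameEquiv e P).injective
      rw [map_mul, hX, ← map_mul, x2, map_one, map_one]
    · apply (frameEquiv e P).injective
      rw [map_mul, map_neg, map_mul, hX, ← hθ, y3]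
  have θ2 : θ * θ = 1 := by
    rw [hθ, ← map_mul, ← Matrix.mul_kronecker_mul, ← map_one (frameEquiv e P),
      ← Matrix.one_kronecker_one, one_mul]
    congr 2
    ext i j
    fin_cases i <;> fin_cases j <;> simp [Dm]
  let E : F → Submodule F (ι → F) := fun c => LinearMap.ker (Matrix.toLin' (x - c • 1))
  have hE : ∀ c v, v ∈ E c ↔ x *ᵥ v = c • v := fun c v => by
    simp only [E, LinearMap.mem_ker, Matrix.toLin'_apply, Matrix.sub_mulVec, Matrix.smul_mulVec,
      Matrix.one_mulVec, sub_eq_zero]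
  have hinf : E 1 ⊓ E (-1) = ⊥ := by
    rw [eq_bot_iff]
    rintro v ⟨h1, h4⟩
    rw [SetLike.mem_coe, hE] at h1 h4
    rw [h1] at h4
    have : (2 : F) • v = 0 := by linear_combination (norm := module) h4
    exact (smul_eq_zero.1 this).resolve_left h2
  have hsup : E 1 ⊔ E (-1) = ⊤ := by
    rw [eq_top_iff]
    intro v _
    have : v = (2 : F)⁻¹ • (v + x *ᵥ v) + (2 : F)⁻¹ • (v - x *ᵥ v) := by
      rw [← smul_add, add_add_sub_cancel, ← two_smul F, smul_smul, inv_mul_cancel₀ h2, one_smul]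
    rw [this]
    refine Submodule.add_mem_sup (Submodule.smul_mem _ _ ?_) (Submodule.smul_mem _ _ ?_)
    · rw [hE, Matrix.mulVec_add, Matrix.mulVec_mulVec, x2, Matrix.one_mulVec, one_smul, add_comm]
    · rw [hE, Matrix.mulVec_sub, Matrix.mulVec_mulVec, x2, Matrix.one_mulVec, neg_smul, one_smul,
        neg_sub]
  have hmap : ∀ (g : GL ι F) (s c : F), cj g x = s • x → s * s = 1 →
      (E c).map (Matrix.toLin' (g : Matrix ι ι F)) = E (s * c) := by
    have key : ∀ (g : GL ι F) (s c : F), cj g x = s • x → s * s = 1 → ∀ v ∈ E c,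
        (g : Matrix ι ι F) *ᵥ v ∈ E (s * c) := by
      intro g s c h h' v hv
      rw [hE] at hv ⊢
      have := H7.cj_mulVec g x v
      rw [h, hv, Matrix.smul_mulVec, Matrix.mulVec_smul] at this
      rw [mul_smul, ← this, smul_smul, h', one_smul]
    intro g s c h h'
    refine le_antisymm (by rintro _ ⟨v, hv, rfl⟩; exact key g s c h h' v hv) fun v hv => ?_
    refine ⟨((g⁻¹ : GL ι F) : Matrix ι ι F) *ᵥ v, ?_, by simp⟩
    have := key g⁻¹ s (s * c) (by
      have := congrArg (cj g⁻¹) h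
      rw [H7.cj_inv_cj, map_smul] at this
      conv_rhs => rw [this, smul_smul, h', one_smul]) h' v hv
    rwa [← mul_assoc, h', one_mul] at this
  have hrk : finrank F (E 1) = finrank F (E (-1)) := by
    let t : GL ι F := ⟨θ, θ, θ2, θ2⟩
    have := hmap t (-1) 1 (cj_eq_of_mul (by
      change θ * x = (-1 : F) • x * θ
      rw [neg_smul, one_smul, neg_mul, x3, neg_neg])) (by simp)
    rw [mul_one] at this
    rw [← this, ← phi_toLinearMap, LinearEquiv.finrank_map_eq]
  have h5 := Submodule.finrank_sup_add_finrank_inf_eq (E 1) (E (-1))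
  rw [hinf, hsup, finrank_bot, finrank_top, finrank_fintype_fun_eq_card] at h5
  have h6 : finrank F (E 1) = 2 := by omega
  have hdec := H7.isMDecomposition_pair (W := E 1) (fun h => by rw [h, finrank_bot] at h6; omega)
    hinf hsup hrk
  rw [h6] at hdec
  have horth : ∀ u ∈ E 1, ∀ v ∈ E (-1), f u v = 0 := by
    intro u hu v hv
    rw [hE] at hu hv
    have := hf.adj_spec x u v
    rw [x1, hu, hv, one_smul, neg_smul, one_smul, hf.neg_right] at this
    exact mul_left_cancel₀ h2 (by linear_combination this)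
  refine ⟨_, hf.toSesq.nondegDecomp hdec fun i j hij => ?_, fun g hg => ?_⟩
  · fin_cases i <;> fin_cases j
    · exact absurd rfl hij
    · exact horth
    · exact fun u hu v hv => hf.eq_zero_comm (horth v hv u hu)
    · exact absurd rfl hij
  · rcases hcj g hg with h | h
    · refine ⟨1, fun i => ?_⟩
      fin_cases i
      · simpa using hmap g 1 1 (by rw [h, one_smul]) (by simp)
      · simpa using hmap g 1 (-1) (by rw [h, one_smul]) (by simp)
    · refine ⟨Equiv.swap 0 1, fun i => ?_⟩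
      fin_cases i
      · simpa using hmap g (-1) 1 (by rw [h, neg_smul, one_smul]) (by simp)
      · simpa using hmap g (-1) (-1) (by rw [h, neg_smul, one_smul]) (by simp)

end Cfsg.Agent.H8
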