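import Cfsg.Agent.H8.SpMax4

/-! Maximal subgroups of symplectic groups, part 5: `Sp₂ ⊗ O₄⁺` in `Sp₈`. -/

set_option autoImplicit false
set_option linter.unusedSectionVars false
set_option linter.style.haveILetI false

namespace Cfsg.Agent.H8

open Module Cfsg.Agent.Orth Cfsg.Geo
open Cfsg.Agent.H7 (Irr AbsIrr IsScal NormA NormG cj Isom HForm adj spanAlg ctr gform tw frameEquiv
  frameVec frameGram frameGL pt slot ptGL permGL J2 permMat)
open scoped Matrix Kronecker commutatorElement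

variable {ι : Type} [Fintype ι] [DecidableEq ι] {F : Type*} [Field F]

lemma frameGram_trans (f : (ι → F) → (ι → F) → F) {κ μ : Type} [Fintype κ] [DecidableEq κ]
    [Fintype μ] [DecidableEq μ] (e : ι ≃ κ) (e' : κ ≃ μ) (P : GL ι F) :
    frameGram f (e.trans e') P = (frameGram f e P).submatrix e'.symm e'.symm := by
  have h : ∀ k : μ, (Pi.single k (1 : F) : μ → F) ∘ e' = Pi.single (e'.symm k) 1 := fun k => by
    ext i
    simp only [Function.comp_apply, Pi.single_apply, Equiv.eq_symm_apply]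
  ext k l
  simp only [frameGram, gramMatrix, H7.frameVec_trans, h, Matrix.submatrix_apply]

/-- three tensor factors -/
def eps3 : Fin 2 × (Fin 2 × Fin 2) ≃ (Fin 3 → Fin 2) where
  toFun p := ![p.1, p.2.1, p.2.2]
  invFun k := (k 0, k 1, k 2)
  left_inv := by rintro ⟨i, j, k⟩; rfl
  right_inv k := by ext i; fin_cases i <;> rfl

lemma pt_eps3 (a b c : Matrix (Fin 2) (Fin 2) F) :
    (pt ![a, b, c]).submatrix eps3 eps3 = a ⊗ₖ (b ⊗ₖ c) := by
  ext ⟨i, j, k⟩ ⟨i', j', k'⟩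
  rw [Matrix.submatrix_apply, H7.pt_apply, Fin.prod_univ_three, mul_assoc]
  rfl

lemma perm_eps3 : (permMat (Equiv.swap 1 2) : Matrix (Fin 3 → Fin 2) (Fin 3 → Fin 2) F).submatrix
    eps3 eps3 = (1 : Matrix (Fin 2) (Fin 2) F) ⊗ₖ (swM F : Matrix (Fin 2 × Fin 2) (Fin 2 × Fin 2) F) := by
  ext ⟨i, j, k⟩ ⟨i', j', k'⟩
  have : (eps3 (i', j', k') = eps3 (i, j, k) ∘ Equiv.swap 1 2) ↔ (i = i' ∧ (j', k') = (k, j)) := by
    revert i j k i' j' k'
    decide
  simp only [Matrix.submatrix_apply, permMat, Matrix.of_apply, this, Matrix.kronecker_apply,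
    Matrix.one_apply, swM, Prod.swap_prod_mk]
  by_cases h1 : i = i' <;> by_cases h2 : (j', k') = (k, j) <;> simp [h1, h2]

lemma JJ_det : (J2 F ⊗ₖ J2 F).det ≠ 0 := H7.det_kron_ne_zero (by simp [H7.J2_det]) (by simp [H7.J2_det])

lemma JJ_symm : (J2 F ⊗ₖ J2 F)ᵀ = J2 F ⊗ₖ J2 F := by
  rw [H7.kron_transpose, H7.J2_transpose]
  ext ⟨i, j⟩ ⟨k, l⟩
  simp

lemma plus_JJ (h2 : (2 : F) ≠ 0) : Plus (qf (JJ_det (F := F)) JJ_symm h2) ⊤ := by
  refine ⟨LinearMap.range (pTR (Pi.single 0 1)), le_top, ?_, ?_⟩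
  · rintro _ ⟨y, rfl⟩
    rw [qf_apply]
    change gf _ (pT _ _) (pT _ _) = 0
    rw [gf_kron_pT]
    simp [gf_def, J2]
  · rw [LinearMap.finrank_range_of_inj]
    · simp
    · intro y y' h
      ext j
      simpa [pTR, pT] using congrFun h (0, j)

lemma exists_gl_plus4 [Fintype F] (h2 : (2 : F) ≠ 0) {f₂ : (Fin 4 → F) → (Fin 4 → F) → F}
    (h : IsSymmetricForm f₂) (hp : IsPlusTypeOn (fun v => f₂ v v) ⊤) (δ : Fin 4 ≃ Fin 2 × Fin 2) :
    ∃ R : GL (Fin 2 × Fin 2) F, tw (RingHom.id F) ((gramMatrix f₂).submatrix δ.symm δ.symm) R =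
      J2 F ⊗ₖ J2 F := by
  have hf := H7.hform_of_symmetric h
  have hB := hf.det_ne_zero
  have hs : (gramMatrix f₂)ᵀ = gramMatrix f₂ := by ext i j; exact h.symm _ _
  have hp' : Plus (qf hB hs h2) ⊤ := by
    obtain ⟨U, h1, h3, h4⟩ := hp
    exact ⟨U, h1, fun v hv => by rw [qf_apply, gf, ← hf.eq_gform]; exact h3 v hv, h4⟩
  obtain ⟨T, -, hT⟩ := iso_of_type 2 ⊤ ⊤ (nd_qf (JJ_det (F := F)) JJ_symm h2).ndOn_top
    (nd_qf hB hs h2).ndOn_top (by simp) (by simp) (iff_of_true (plus_JJ h2) hp')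
  have hR : tw (RingHom.id F) ((gramMatrix f₂).submatrix δ.symm δ.symm)
      ((LinearMap.toMatrix' T).submatrix δ.symm id) = J2 F ⊗ₖ J2 F := by
    have : (LinearMap.toMatrix' T)ᵀ * gramMatrix f₂ * LinearMap.toMatrix' T = J2 F ⊗ₖ J2 F := by
      refine H7.gform_ext (σ := RingHom.id F) fun u v => ?_
      have := B_map_of_iso hT (x := u) (y := v) trivial trivial
      rw [B_qf, B_qf] at this
      change gf _ u v = gf _ u v
      rw [← mul_left_cancel₀ h2 this, gf_def, gf_def, ← Matrix.mulVec_mulVec,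
        ← Matrix.mulVec_mulVec, Matrix.dotProduct_mulVec, Matrix.vecMul_transpose,
        LinearMap.toMatrix'_mulVec, LinearMap.toMatrix'_mulVec]
    rw [← this, tw, Matrix.transpose_submatrix, Matrix.submatrix_mul_equiv]
    simp
  have hdet : ((LinearMap.toMatrix' T).submatrix δ.symm id).det ≠ 0 := by
    intro h0
    apply JJ_det (F := F)
    rw [← hR, tw, Matrix.det_mul, Matrix.det_mul, Matrix.det_transpose, h0, zero_mul, zero_mul]
  exact ⟨Matrix.GeneralLinearGroup.mkOfDetNeZero _ hdet, hR⟩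

variable [Fintype F] {f : (ι → F) → (ι → F) → F} (hs : IsSymplecticForm f)
include hs

lemma plus4_frame (h2 : (2 : F) ≠ 0) {e : ι ≃ Fin 2 × Fin 4} {P : GL ι F}
    {f₁ : (Fin 2 → F) → (Fin 2 → F) → F} {f₂ : (Fin 4 → F) → (Fin 4 → F) → F}
    (h₁ : IsSymplecticForm f₁) (h₂ : IsSymmetricForm f₂) (hp : IsPlusTypeOn (fun v => f₂ v v) ⊤)
    (hT : IsTensorFormStructure id f f₁ f₂ e P) :
    ∃ (e₃ : ι ≃ (Fin 3 → Fin 2)) (P₃ : GL ι F) (c : F), c ≠ 0 ∧
      frameGram f e₃ P₃ = c • pt (fun _ : Fin 3 => J2 F) ∧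
      ∀ g ∈ tensorProductSubgroup 2 4 e P, (∀ u v, f ((g : Matrix ι ι F) *ᵥ u)
        ((g : Matrix ι ι F) *ᵥ v) = f u v) → ∃ (s : Equiv.Perm (Fin 3)) (a : Fin 3 → GL (Fin 2) F),
          s 0 = 0 ∧ g = frameGL e₃ P₃ (permGL s * ptGL a) := by
  have hf := H7.hform_of_symplectic hs
  obtain ⟨c, hc, hGr⟩ := H7.frameGram_of_isTensorFormStructure (σ := RingHom.id F) hT
  have hA : gramMatrix f₁ = gramMatrix f₁ 0 1 • J2 F := by
    ext i j
    fin_cases i <;> fin_cases j <;> simp [J2, gramMatrix, h₁.alternating]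
    exact h₁.skew _ _
  have hα : gramMatrix f₁ 0 1 ≠ 0 := fun h => (H7.hform_of_symplectic h₁).det_ne_zero (by
    rw [hA, h]; simp)
  set α := gramMatrix f₁ 0 1
  let δ : Fin 4 ≃ Fin 2 × Fin 2 := Fintype.equivOfCardEq (by simp)
  obtain ⟨R, hR⟩ := exists_gl_plus4 h2 h₂ hp δ
  let R' : GL (Fin 2 × (Fin 2 × Fin 2)) F := Matrix.GeneralLinearGroup.mkOfDetNeZero
    ((1 : Matrix (Fin 2) (Fin 2) F) ⊗ₖ (R : Matrix (Fin 2 × Fin 2) (Fin 2 × Fin 2) F))
    (H7.det_kron_ne_zero (by simp) (H7.val_det_ne_zero R))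
  have hR' : (R' : Matrix (Fin 2 × (Fin 2 × Fin 2)) (Fin 2 × (Fin 2 × Fin 2)) F) =
    (1 : Matrix (Fin 2) (Fin 2) F) ⊗ₖ (R : Matrix (Fin 2 × Fin 2) (Fin 2 × Fin 2) F) := rfl
  let e₁ : ι ≃ Fin 2 × (Fin 2 × Fin 2) := e.trans (Equiv.prodCongr (Equiv.refl _) δ)
  obtain ⟨P', h3, h4⟩ := exists_reframe e₁ P R'
  have hG1 : frameGram f e₁ P' = ((c * α) • J2 F) ⊗ₖ (J2 F ⊗ₖ J2 F) := by
    have : frameGram f e₁ P = ((c * α) • J2 F) ⊗ₖ (gramMatrix f₂).submatrix δ.symm δ.symm := by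
      rw [frameGram_trans, hGr, hA]
      ext ⟨i, j⟩ ⟨k, l⟩
      simp [mul_assoc]
    refine H7.gform_ext (σ := RingHom.id F) fun u v => ?_
    rw [← hf.frameGram_spec, h3, h3, hf.frameGram_spec, H7.gform_tw, this, hR', H7.tw_kron,
      H7.tw_one, hR]
  have hX : ∀ X : Matrix (Fin 2) (Fin 2) F, frameEquiv e₁ P' (X ⊗ₖ 1) = frameEquiv e P (X ⊗ₖ 1) := by
    intro X
    rw [h4, cj_eq_of_mul (y := X ⊗ₖ 1) (by
      rw [hR', ← Matrix.mul_kronecker_mul, ← Matrix.mul_kronecker_mul]; simp), H7.frameEquiv_trans]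
    congr 1
    ext ⟨i, j⟩ ⟨k, l⟩
    simp [Matrix.one_apply]
  refine ⟨e₁.trans eps3, P', c * α, mul_ne_zero hc hα, ?_, fun g hg hiso => ?_⟩
  · rw [frameGram_trans, hG1, Matrix.smul_kronecker, ← pt_eps3]
    simp only [Matrix.submatrix_smul, Pi.smul_apply, Matrix.submatrix_submatrix,
      Equiv.self_comp_symm, Matrix.submatrix_id_id]
    congr 2
    ext1 i
    fin_cases i <;> rfl
  · obtain ⟨x, y, hxy⟩ := (H7.mem_tensorProductSubgroup_iff e P g).1 hg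
    obtain ⟨a, b, hab⟩ := H7.kron_of_normA e₁ P' (g := g) fun X =>
      ⟨cj x X, by rw [hX, hX, cj_kron_one hxy]⟩
    have h5 := hf.frameGram_sim e₁ P' (c := 1) (X := (a : Matrix (Fin 2) (Fin 2) F) ⊗ₖ
      (b : Matrix (Fin 2 × Fin 2) (Fin 2 × Fin 2) F)) fun u v => by rw [← hab, hiso, one_mul]
    rw [hG1, one_smul] at h5
    obtain ⟨μ, hμ, -, h6⟩ := H7.tw_of_kron (by
      rw [Matrix.det_smul, H7.J2_det]; simp [hc, hα]) JJ_det h5
    obtain ⟨b₁, b₂, h7⟩ := sim_JJ h2 (inv_ne_zero hμ) h6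
    have h8 : (pt fun i => ((![a, b₁, b₂] i : GL (Fin 2) F) : Matrix (Fin 2) (Fin 2) F)) =
        pt ![(a : Matrix (Fin 2) (Fin 2) F), b₁, b₂] := by
      congr 1
      ext1 i
      fin_cases i <;> rfl
    rcases h7 with h7 | h7
    · refine ⟨1, ![a, b₁, b₂], rfl, Units.ext ?_⟩
      rw [H7.frameGL_val, hab, h7, H7.frameEquiv_trans _ eps3, ← pt_eps3]
      congr 2
      rw [Units.val_mul, H7.ptGL_val, h8]
      ext u v
      exact (H7.permMat_mul 1 _ u v).symm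
    · refine ⟨Equiv.swap 1 2, ![a, b₁, b₂], by decide, Units.ext ?_⟩
      rw [H7.frameGL_val, hab, h7, H7.frameEquiv_trans _ eps3, Units.val_mul,
        ← Matrix.submatrix_mul_equiv _ _ _ eps3, H7.ptGL_val, h8, pt_eps3]
      congr 1
      change _ = (permMat _ : Matrix (Fin 3 → Fin 2) (Fin 3 → Fin 2) F).submatrix eps3 eps3 * _
      rw [perm_eps3, ← Matrix.mul_kronecker_mul, one_mul]

lemma sq_of_trace_det {X : Matrix (Fin 2) (Fin 2) F} (h1 : X.trace = 0) (h2 : X.det = 1) :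
    ∃ a b c : F, X = !![a, b; c, -a] ∧ a * a + b * c = -1 := by
  rw [Matrix.trace_fin_two] at h1
  rw [Matrix.det_fin_two] at h2
  refine ⟨X 0 0, X 0 1, X 1 0, ?_, by linear_combination X 0 0 * h1 - h2⟩
  ext i j
  fin_cases i <;> fin_cases j <;> simp
  linear_combination h1

lemma three_slots_false {G : Subgroup (GL ι F)} (hG : IsIsomGroup f G) {H : Subgroup (GL ι F)}
    (hn : 3 ≤ Fintype.card ι) (hq : Fintype.card F = 3) (hH : IsMaximalIn G H)
    (φ : Fin 3 → (Matrix (Fin 2) (Fin 2) F →ₐ[F] Matrix ι ι F))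
    (hcomm : ∀ i j, i ≠ j → ∀ X Y, φ i X * φ j Y = φ j Y * φ i X)
    (hiso : ∀ i X, X.det = 1 → ∀ u v, f (φ i X *ᵥ u) (φ i X *ᵥ v) = f u v)
    (hN : ∀ h ∈ H, ∃ s : Fin 3 → Fin 3, s 0 = 0 ∧ ∃ a : Fin 3 → GL (Fin 2) F,
      ∀ i X, cj h (φ i X) = φ (s i) (cj (a i) X)) : False := by
  haveI : Nonempty ι := H7.nonempty_of_two_le (by omega)
  have h2 := two_ne_zero_of_three hq
  let S : Set (Matrix ι ι F) := {x | ∃ i X, X.trace = 0 ∧ X.det = 1 ∧ x = φ i X}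
  have hsq : ∀ X : Matrix (Fin 2) (Fin 2) F, X.trace = 0 → X.det = 1 → X * X = -1 := by
    intro X h1 h3
    obtain ⟨a, b, c, rfl, h⟩ := sq_of_trace_det hs h1 h3
    ext i j
    fin_cases i <;> fin_cases j <;> simp [Matrix.mul_apply, Fin.sum_univ_two] <;>
      first | linear_combination h | ring
  have hJ1 : (J2 F).trace = 0 := by simp [J2, Matrix.trace_fin_two]
  have hJ : ∀ i, φ i (J2 F) ∈ Submonoid.closure (insert (-1) S) := fun i =>
    Submonoid.subset_closure (Set.mem_insert_of_mem _ ⟨i, _, hJ1, H7.J2_det, rfl⟩)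
  have hJ2 : ∀ i, φ i (J2 F) * φ i (J2 F) = -1 := fun i => by
    rw [← map_mul, hsq _ hJ1 H7.J2_det, map_neg, map_one]
  have hJD : J2 F * Dm F = -(Dm F * J2 F) := by
    ext i j
    fin_cases i <;> fin_cases j <;> simp [J2, Dm]
  have hD2 : Dm F * Dm F = 1 := by
    ext i j
    fin_cases i <;> fin_cases j <;> simp [Dm]
  have hJD' : ∀ i, φ i (J2 F) * φ i (Dm F) = -(φ i (Dm F) * φ i (J2 F)) := fun i => by
    rw [← map_mul, hJD, map_neg, map_mul]
  have c01 := hcomm 0 1 (by decide)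
  have c02 := hcomm 0 2 (by decide)
  have c12 := hcomm 1 2 (by decide)
  obtain ⟨h, hh, hz⟩ := cliff_mem hs hG hn hq hH (S := S)
    (by rintro _ ⟨i, X, -, h1, rfl⟩; exact hiso i X h1)
    (by rintro _ ⟨i, X, h0, h1, rfl⟩; right; rw [← map_mul, hsq X h0 h1, map_neg, map_one])
    (by
      rintro _ ⟨i, X, h0, h1, rfl⟩ _ ⟨j, Y, h3, h4, rfl⟩
      by_cases hij : i = j
      · subst hij
        refine PM.map (φ i) ?_
        obtain ⟨a, b, c, rfl, h5⟩ := sq_of_trace_det hs h0 h1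
        obtain ⟨a', b', c', rfl, h6⟩ := sq_of_trace_det hs h3 h4
        rcases arith3_c hq h5 h6 with h7 | ⟨rfl, rfl, rfl⟩ | ⟨rfl, rfl, rfl⟩
        · right
          ext i j
          fin_cases i <;> fin_cases j <;> simp [Matrix.mul_apply, Fin.sum_univ_two] <;>
            first | linear_combination h7 | ring
        · exact Or.inl rfl
        · left
          ext i j
          fin_cases i <;> fin_cases j <;> simp [Matrix.mul_apply, Fin.sum_univ_two]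
      · exact Or.inl (hcomm i j hij X Y))
    (by
      rintro h hh _ ⟨i, X, h0, h1, rfl⟩
      obtain ⟨s, -, a, ha⟩ := hN h hh
      exact ⟨s i, _, by rw [trace_cj, h0], by rw [H7.cj_apply, Matrix.det_units_conj, h1], ha i X⟩)
    (Submonoid.mul_mem _ (hJ 0) (Submonoid.mul_mem _ (hJ 1) (hJ 2))) (hJ 1) (by
      have d12 : Commute (φ 1 (J2 F)) (φ 2 (J2 F)) := c12 _ _
      have d0 : Commute (φ 0 (J2 F)) (φ 1 (J2 F) * φ 2 (J2 F)) :=
        Commute.mul_right (c01 _ _) (c02 _ _)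
      rw [← sq, d0.mul_pow, d12.mul_pow, sq, sq, sq]
      simp [hJ2]) (hJ2 1)
  have h4 := hz (φ 0 (Dm F)) (c01 _ _).symm (by
    rw [mul_assoc, mul_assoc, ← c02, ← mul_assoc (φ 1 _), ← c01, mul_assoc, ← mul_assoc, hJD',
      neg_mul, mul_assoc])
  obtain ⟨s, hs0, a, ha⟩ := hN h hh
  have h5 := c01 (cj (a 0) (Dm F)) (Dm F)
  have h5' := ha 0 (Dm F)
  rw [hs0] at h5'
  rw [← h5'] at h5
  have h6 : cj h (φ 0 (Dm F)) * φ 1 (Dm F) = -(φ 1 (Dm F) * cj h (φ 0 (Dm F))) := by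
    rw [h4, neg_mul, mul_neg, mul_assoc, mul_assoc, mul_assoc, ← c12, ← mul_assoc (φ 1 _), hJD',
      neg_mul, mul_neg, mul_neg, mul_assoc, ← mul_assoc (φ 0 (J2 F)), c01, mul_assoc,
      ← mul_assoc (φ 0 (Dm F)), c01, mul_assoc]
  rw [h5, eq_neg_iff_add_eq_zero, ← two_smul F, smul_eq_zero, or_iff_right h2] at h6
  have h7 : φ 1 (Dm F) * (φ 1 (Dm F) * cj h (φ 0 (Dm F))) * cj h (φ 0 (Dm F)) = 1 := by
    rw [← mul_assoc, ← map_mul, hD2, map_one, one_mul, ← map_mul, ← map_mul, hD2, map_one, map_one]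
  rw [h6, mul_zero, zero_mul] at h7
  exact zero_ne_one h7

/-- `Sp₂ ⊗ O₄⁺` lies in a tensor-induced subgroup, and is not maximal when `q = 3`. -/
theorem sp8_plus {G : Subgroup (GL ι F)} (hG : IsIsomGroup f G) {H : Subgroup (GL ι F)}
    (hH : IsMaximalIn G H) (ho : Odd (Fintype.card F)) {e : ι ≃ Fin 2 × Fin 4} {P : GL ι F}
    {f₁ : (Fin 2 → F) → (Fin 2 → F) → F} {f₂ : (Fin 4 → F) → (Fin 4 → F) → F}
    (h₁ : IsSymplecticForm f₁) (h₂ : IsSymmetricForm f₂) (hp : IsPlusTypeOn (fun v => f₂ v v) ⊤)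
    (hT : IsTensorFormStructure id f f₁ f₂ e P) (hle : H ≤ tensorProductSubgroup 2 4 e P) :
    Fintype.card F ≠ 3 ∧ ∃ (e₃ : ι ≃ (Fin 3 → Fin 2)) (P₃ : GL ι F)
      (g₁ : (Fin 2 → F) → (Fin 2 → F) → F), IsSymplecticForm g₁ ∧
      IsTensorPowerFormStructure id f g₁ e₃ P₃ ∧ H = tensorWreathSubgroup 2 3 e₃ P₃ ⊓ G := by
  have hf := H7.hform_of_symplectic hs
  obtain ⟨e₃, P₃, c, hc, hGr, hg⟩ := plus4_frame hs (H7.two_ne_zero_of_odd ho) h₁ h₂ hp hT
  replace hg := fun g (h : g ∈ H) => hg g (hle h) ((hG g).1 (hH.1.le h))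
  refine ⟨fun hq => ?_, e₃, P₃, gform (RingHom.id F) (J2 F),
    H7.isSymplecticForm_gform (by simp [H7.J2_det]) H7.J2_transpose H7.J2_diag,
    H7.isTensorPowerFormStructure_of_gram hf.toSesq hc hGr, eq_of_max' hH (fun g h => ?_)
      ((sp_vtrans hs hG).not_le_wreath le_rfl (by norm_num) e₃ P₃)⟩
  · refine three_slots_false hs hG (by rw [Fintype.card_congr e]; simp) hq hH
      (fun i => (frameEquiv e₃ P₃).toAlgHom.comp (slot i)) (fun i j hij X Y => ?_)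
      (fun i X hX u v => ?_) fun h hh => ?_
    · change frameEquiv e₃ P₃ (slot i X) * frameEquiv e₃ P₃ (slot j Y) =
        frameEquiv e₃ P₃ (slot j Y) * frameEquiv e₃ P₃ (slot i X)
      rw [← map_mul, ← map_mul, H7.slot_comm hij]
    · have := hf.sim_of_frameGram e₃ P₃ (X := slot i X) (c := 1) (by
        rw [hGr, H7.tw_smul, H7.tw_pt_slot (RingHom.id F) _ i (c := 1) (by rw [H7.tw_J2, hX]),
          one_smul, one_smul]) u v
      rw [one_mul] at this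
      exact this
    · obtain ⟨s, a, h0, rfl⟩ := hg h hh
      refine ⟨s, h0, a, fun i X => ?_⟩
      change cj _ (frameEquiv e₃ P₃ (slot i X)) = frameEquiv e₃ P₃ (slot (s i) _)
      rw [H7.cj_frameEquiv e₃ P₃ (H7.frameGL_val e₃ P₃ _)]
      congr 1
      apply cj_eq_of_mul
      rw [Units.val_mul, mul_assoc, H7.ptGL_norm, ← mul_assoc, ← mul_assoc]
      congr 1
      exact H7.permMat_mul_slot s i _
  · obtain ⟨s, a, -, rfl⟩ := hg g h
    rw [H7.mem_tensorWreathSubgroup_iff, MulEquiv.symm_apply_apply]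
    exact Subgroup.mul_mem _ (H7.permGL_mem_standard s) (H7.ptGL_mem_standard a)

end Cfsg.Agent.H8
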