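import Cfsg.Agent.H8.SpMax4
import Cfsg.Agent.H9.Sp.C8
import Cfsg.Agent.H9.Sp.Ten8

/-! Maximal subgroups of symplectic groups, part 6: the general reduction. -/

set_option autoImplicit false
set_option linter.unusedSectionVars false
set_option linter.style.haveILetI false

namespace Cfsg.Agent.H8

open Module Cfsg.Agent.Orth Cfsg.Geo
open Cfsg.Agent.H7 (Irr AbsIrr IsScal NormA NormG cj Isom HForm adj spanAlg ctr gform tw frameEquiv
  frameVec frameGram frameGL pt slot ptGL permGL J2 permMat)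
open scoped Matrix Kronecker commutatorElement

variable {F : Type*} [Field F] [Fintype F]

/-- The geometric maximal subgroups of `Sp_{2m}(q)`, with the arithmetic side conditions. -/
def SpMaxGeom (m : ℕ) (H : Subgroup (GL (Fin m ⊕ Fin m) F)) : Prop :=
  (∃ W : Submodule F (Fin m ⊕ Fin m → F), W ≠ ⊥ ∧ IsTotallySingularFor (sympForm m F) W ∧
    H = subspaceStabilizer W ⊓ spGL m F) ∨
  (∃ W : Submodule F (Fin m ⊕ Fin m → F), W ≠ ⊥ ∧ IsNondegenerateOn (sympForm m F) W ∧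
    Module.finrank F W < m ∧ H = subspaceStabilizer W ⊓ spGL m F ∧ 2 ≤ Module.finrank F W) ∨
  (∃ (t k : ℕ) (D : Fin t → Submodule F (Fin m ⊕ Fin m → F)), 2 ≤ t ∧ 1 ≤ k ∧ t * k = m ∧
    (k = 1 → 3 ≤ m → 3 ≤ Fintype.card F) ∧ IsNondegenerateMDecomposition (sympForm m F) (2 * k) D ∧
    H = decompositionStabilizer D ⊓ spGL m F) ∨
  (Odd (Fintype.card F) ∧ (m = 2 → 5 ≤ Fintype.card F) ∧
    ∃ D : Fin 2 → Submodule F (Fin m ⊕ Fin m → F), IsMDecomposition m D ∧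
      (∀ i, IsTotallySingularFor (sympForm m F) (D i)) ∧ H = decompositionStabilizer D ⊓ spGL m F) ∨
  (∃ (r : ℕ) (K : Subalgebra F (Matrix (Fin m ⊕ Fin m) (Fin m ⊕ Fin m) F)), r.Prime ∧ r ∣ m ∧
    IsFieldSubalgebra r K ∧ IsSelfAdjointFor (sympForm m F) K ∧
    (∀ k ∈ K, ∀ v, sympForm m F (k *ᵥ v) v = 0) ∧ H = subalgebraNormalizer K ⊓ spGL m F) ∨
  (Odd (Fintype.card F) ∧ (m = 2 → 5 ≤ Fintype.card F) ∧
    ∃ K : Subalgebra F (Matrix (Fin m ⊕ Fin m) (Fin m ⊕ Fin m) F), IsFieldSubalgebra 2 K ∧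
    IsAdjointClosedFor (sympForm m F) K ∧ ¬ IsSelfAdjointFor (sympForm m F) K ∧
    H = subalgebraNormalizer K ⊓ spGL m F) ∨
  (Odd (Fintype.card F) ∧ ∃ (a b : ℕ) (e : (Fin m ⊕ Fin m) ≃ Fin (2 * a) × Fin b)
    (P : GL (Fin m ⊕ Fin m) F) (f₁ : (Fin (2 * a) → F) → (Fin (2 * a) → F) → F)
    (f₂ : (Fin b → F) → (Fin b → F) → F), 1 ≤ a ∧ 3 ≤ b ∧ a * b = m ∧
    (b = 3 → 5 ≤ Fintype.card F) ∧ IsSymplecticForm f₁ ∧ IsSymmetricForm f₂ ∧
    IsTensorFormStructure id (sympForm m F) f₁ f₂ e P ∧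
    H = tensorProductSubgroup (2 * a) b e P ⊓ spGL m F) ∨
  (∃ (F₀ : Subfield F) (r : ℕ) (P : GL (Fin m ⊕ Fin m) F) (ζ : F), r.Prime ∧
    Fintype.card F = Nat.card F₀ ^ r ∧ ζ ≠ 0 ∧ IsFormRationalStructure (sympForm m F) F₀ ζ P ∧
    H = subfieldSubgroup F₀ P ⊓ spGL m F) ∨
  (∃ (k : ℕ) (R : Subgroup (GL (Fin m ⊕ Fin m) F)), 2 * m = 2 ^ k ∧ (Fintype.card F).Prime ∧
    Odd (Fintype.card F) ∧ IsSymplecticTypeGroup 2 R ∧ ActsAbsolutelyIrreducibly (matrixSet R) ∧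
    R ≤ similarityGroup (sympForm m F) ∧ Nat.card R = 2 ^ (1 + 2 * k) ∧
    Nat.card (Subgroup.center R) = 2 ∧ IsOfMinusType k R ∧ H = subgroupNormalizer R ⊓ spGL m F) ∨
  (Odd (Fintype.card F) ∧ ∃ (k t : ℕ) (e : (Fin m ⊕ Fin m) ≃ (Fin t → Fin k))
    (P : GL (Fin m ⊕ Fin m) F) (f₁ : (Fin k → F) → (Fin k → F) → F), 2 ≤ k ∧ 3 ≤ t ∧
    k ^ t = 2 * m ∧ (k = 2 → 5 ≤ Fintype.card F) ∧ IsSymplecticForm f₁ ∧
    IsTensorPowerFormStructure id (sympForm m F) f₁ e P ∧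
    H = tensorWreathSubgroup k t e P ⊓ spGL m F) ∨
  (¬ Odd (Fintype.card F) ∧ ∃ Q : (Fin m ⊕ Fin m → F) → F, IsNondegenerateQuadraticForm Q ∧
    (∀ u v, QuadraticMap.polar Q u v = sympForm m F u v) ∧ H = quadSimilarityGroup Q ⊓ spGL m F)

lemma five_le_of_odd (h : Odd (Fintype.card F)) (h3 : Fintype.card F ≠ 3) : 5 ≤ Fintype.card F := by
  have := Fintype.one_lt_card (α := F)
  obtain ⟨k, hk⟩ := h
  omega

theorem sp_max {m : ℕ} (hm : 2 ≤ m) {H : Subgroup (GL (Fin m ⊕ Fin m) F)}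
    (hH : IsMaximalIn (spGL m F) H) : SpMaxGeom m H ∨ InSymplecticResidualClass H := by
  have hs := H7.isSymplecticForm_sympForm (F := F) m
  have hG := isIsomGroup_spGL (F := F) m
  have hc : Fintype.card (Fin m ⊕ Fin m) = 2 * m := by simp; omega
  have hT := sp_vtrans hs hG
  haveI : Nonempty (Fin m ⊕ Fin m) := H7.nonempty_of_two_le (by omega)
  have hq := Fintype.one_lt_card (α := F)
  refine (H7.asch_sp (by omega) hs (H7.isom_of_le_spGL hH.1.le)).imp_left fun h => ?_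
  have dec : ∀ (t k : ℕ) (D : Fin t → Submodule F (Fin m ⊕ Fin m → F)),
      IsNondegenerateMDecomposition (sympForm m F) k D → H ≤ decompositionStabilizer D →
      SpMaxGeom m H := by
    intro t k D hD hle
    have h1 := H7.IsMDecomposition.mul_eq hD.decomp
    have h2 := hD.decomp.two_le
    have h3 := hD.decomp.pos
    have h4 := even_finrank_of_nondeg hs (hD.nondegenerate ⟨0, by omega⟩)
    rw [hD.decomp.finrank_eq] at h4
    obtain ⟨k, rfl⟩ := h4.two_dvd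
    refine Or.inr (Or.inr (Or.inl ⟨t, k, D, h2, by omega, ?_, ?_, hD,
      eq_of_max' hH hle (hT.not_le_dec hD.decomp)⟩))
    · rw [hc] at h1; nlinarith
    · rintro rfl h5
      by_contra h6
      exact not_between' hH hle (H9.Sp.two_decomp_not_maximal h5 (by omega) D hD)
  rcases h with ⟨W, h0, hW, hle⟩ | ⟨W, h0, hW, hd, hle⟩ | ⟨t, k, D, hD, hle⟩ |
    ⟨k, D, ho, hk, hD, hts, hle⟩ | ⟨r, K, hr, hK, hsa, halt, hle⟩ | ⟨K, ho, hK, hadj, hns, hle⟩ |
    ⟨a, b, e, P, f₁, f₂, ho, ha, hb, h1, h2, h3, hle⟩ | ⟨F₀, r, P, ζ, hr, h1, h2, h3, hle⟩ |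
    ⟨R, k, h0, h1, h2, h3, h4, h5, h6, h7⟩ | ⟨k, t, e, P, f₁, ho, hk, -, ht, h1, h2, h3, hle⟩ |
    ⟨Q, ho, hQ, hpol, hle⟩
  · refine Or.inl ⟨W, h0, hW, eq_of_max' hH hle (hT.not_le_sub h0 ?_)⟩
    rintro rfl
    obtain ⟨v, hv⟩ := exists_ne (0 : Fin m ⊕ Fin m → F)
    obtain ⟨x, hx⟩ := sp_exists_ne hs hv
    exact hx (hW v trivial x trivial)
  · refine Or.inr (Or.inl ⟨W, h0, hW, by omega, eq_of_max' hH hle (hT.not_le_sub h0 ?_), ?_⟩)
    · rintro rfl
      rw [finrank_top, Module.finrank_fintype_fun_eq_card] at hd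
      omega
    · have h4 := even_finrank_of_nondeg hs hW
      have h5 : finrank F W ≠ 0 := by rwa [Ne, Submodule.finrank_eq_zero]
      obtain ⟨j, hj⟩ := h4
      omega
  · exact dec t k D hD hle
  · obtain rfl : k = m := by omega
    by_cases h : k = 2 ∧ Fintype.card F = 3
    · obtain ⟨E, hE, hE'⟩ := sp4_pair hs hG (by omega) h.2 hH.1.le (h.1 ▸ hD) hts hle
      exact dec 2 2 E hE hE'
    · exact Or.inr (Or.inr (Or.inr (Or.inl ⟨ho, fun h' => five_le_of_odd ho fun h'' => h ⟨h', h''⟩,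
        D, hD, hts, eq_of_max' hH hle (hT.not_le_dec hD)⟩)))
  · have h1 := two_mul_dvd_of_field hs hK hsa halt
    rw [hc] at h1
    iterate 4 right
    exact Or.inl ⟨r, K, hr, Nat.dvd_of_mul_dvd_mul_left (by norm_num) h1, hK, hsa, halt,
      eq_of_max' hH hle (sp_not_le_field hs hG (by omega) hr.two_le hK)⟩
  · iterate 5 right
    refine Or.inl ⟨ho, fun h' => five_le_of_odd ho fun h'' => ?_, K, hK, hadj, hns,
      eq_of_max' hH hle (sp_not_le_field hs hG (by omega) le_rfl hK)⟩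
    exact sp4_unitary hs hG (by omega) h'' hH hK hadj hns hle
  · have h4 := H7.even_card_of_symplectic h1
    rw [Fintype.card_fin] at h4
    obtain ⟨a, rfl⟩ := h4.two_dvd
    have h5 := Fintype.card_congr e
    rw [hc, Fintype.card_prod, Fintype.card_fin, Fintype.card_fin] at h5
    iterate 6 right
    refine Or.inl ⟨ho, a, b, e, P, f₁, f₂, by omega, hb, by nlinarith, ?_, h1, h2, h3,
      eq_of_max' hH hle (hT.not_le_tensor ha (by omega) e P)⟩
    rintro rfl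
    refine five_le_of_odd ho fun h3' => ?_
    exact not_between' hH hle (H9.Sp.tensor_three (by omega) h3' e P f₁ f₂ h1 h2 h3)
  · iterate 7 right
    exact Or.inl ⟨F₀, r, P, ζ, hr, h1, h2, h3,
      eq_of_max' hH hle (hT.not_le_subfield (by omega) (subfield_ne_top hr h1) P)⟩
  · iterate 8 right
    refine Or.inl ⟨k, R, by omega, h2, h3, h0.isSymplecticTypeGroup (by omega),
      H7.absIrr_iff.1 h0.abs, h1.le_similarityGroup, h5, h6, h7,
      eq_of_max' hH h0.norm.le_normalizer fun hle => ?_⟩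
    obtain ⟨x, hx, y, -, hxy⟩ := h0.abs.exists_not_comm (by omega)
    refine sp_not_normG hs hG (by omega) (H7.two_ne_zero_of_odd h3) h1 (fun z hz => ?_) hx
      (fun h => hxy (Units.ext (h.comm _))) (H7.normG_of_le_normalizer hle)
    have := H7.isScal_of_mem_scalars (h0.pow_scal z hz)
    rwa [pow_two] at this
  · have h5 := Fintype.card_congr e
    rw [hc, Fintype.card_fun, Fintype.card_fin, Fintype.card_fin] at h5
    iterate 9 right
    exact Or.inl ⟨ho, k, t, e, P, f₁, hk, ht, h5.symm,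
      fun h => five_le_of_odd ho fun h' => h1 ⟨h', h⟩, h2, h3,
      eq_of_max' hH hle (hT.not_le_wreath hk (by omega) e P)⟩
  · iterate 10 right
    exact ⟨ho, Q, hQ, hpol, eq_of_max' hH hle
      (not_le_of_maximal (H9.Sp.orth_maximal hm ho Q hQ hpol))⟩

end Cfsg.Agent.H8
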