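import Cfsg.Agent.H5.U.Basic

/-! Elements of prime order dividing `q² + 1` in `GU₅(q)`. -/

set_option autoImplicit false
set_option linter.unusedSectionVars false

namespace Cfsg.Agent.H6.U5.TT

open Module H5.U Polynomial

variable {F V : Type*} [Field F] [StarRing F] [Fintype F] [AddCommGroup V] [Module F V]

/-- the underlying endomorphism -/
abbrev ph : (V ≃ₗ[F] V) →* End F V := LinearEquiv.automorphismGroup.toLinearMapMonoidHom

/-- `s + s⁻¹ - τ` -/
def uu (s : V ≃ₗ[F] V) (τ : F) : End F V := ph s + ph s⁻¹ - algebraMap F _ τ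

theorem uu_app (s : V ≃ₗ[F] V) (τ : F) (x : V) : uu s τ x = s x + s⁻¹ x - τ • x := rfl

theorem uu_shift (s : V ≃ₗ[F] V) (τ σ : F) (x : V) : uu s τ x = uu s σ x + (σ - τ) • x := by
  simp only [uu_app, sub_smul]; abel

theorem comm_uu {s : V ≃ₗ[F] V} {f : End F V} (h : Commute f (ph s)) (τ : F) :
    Commute f (uu s τ) := by
  have h' : Commute f (ph s⁻¹) := by
    have e1 : ph s * ph s⁻¹ = 1 := by rw [← map_mul, mul_inv_cancel, map_one]
    have e2 : ph s⁻¹ * ph s = 1 := by rw [← map_mul, inv_mul_cancel, map_one]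
    calc f * ph s⁻¹ = ph s⁻¹ * (ph s * f) * ph s⁻¹ := by rw [← mul_assoc, e2, one_mul]
      _ = ph s⁻¹ * f := by rw [← h.eq, mul_assoc, mul_assoc, e1, mul_one]
  exact (h.add_right h').sub_right (Algebra.commutes τ f).symm

theorem comm_ph {g s : V ≃ₗ[F] V} (h : g * s = s * g) : Commute (ph g) (ph s) := by
  rw [Commute, SemiconjBy, ← map_mul, h, map_mul]

theorem capp {f g : End F V} (h : Commute f g) (x : V) : f (g x) = g (f x) :=
  LinearMap.congr_fun h.eq x

/-- the standing data -/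
structure St (h : HF F V) (q r : ℕ) (s : V ≃ₗ[F] V) : Prop where
  hV : finrank F V = 5
  hq : Fintype.card F = q ^ 2
  hst : ∀ t : F, star t = t ^ q
  hr : r.Prime
  r2 : r ≠ 2
  dvd : r ∣ q ^ 2 + 1
  gu : s ∈ h.GU
  ord : orderOf s = r

theorem scal {q r : ℕ} (hq : Fintype.card F = q ^ 2) (hr : r.Prime) (r2 : r ≠ 2)
    (dvd : r ∣ q ^ 2 + 1) {c : F} {k : ℕ} (h : c ^ r ^ k = 1) : c = 1 := by
  have c0 : c ≠ 0 := fun e => by
    rw [e, zero_pow (pow_pos hr.pos k).ne'] at h; exact zero_ne_one h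
  have h1 := FiniteField.pow_card_sub_one_eq_one c c0
  have h2 : Nat.Coprime (r ^ k) (Fintype.card F - 1) := Nat.Coprime.pow_left k
    ((Nat.Prime.coprime_iff_not_dvd hr).2 fun d => r2 ((Nat.prime_dvd_prime_iff_eq hr
      Nat.prime_two).1 (by
        have := Nat.dvd_sub dvd d
        have h3 := Fintype.card_pos (α := F)
        rwa [← hq, show Fintype.card F + 1 - (Fintype.card F - 1) = 2 by omega] at this)))
  exact (pow_eq_one_iff_of_coprime h2).1 ⟨h, h1⟩

theorem eig_pow {g : V ≃ₗ[F] V} {c : F} {x : V} (h : g x = c • x) (n : ℕ) :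
    (g ^ n) x = c ^ n • x := by
  induction n with
  | zero => simp
  | succ n ih => rw [pow_succ', mul_app, ih, map_smul, h, smul_smul, ← pow_succ]

namespace St

variable {h : HF F V} {q r : ℕ} {s : V ≃ₗ[F] V} (S : St h q r s) {τ : F} {x : V}
include S

theorem fd : FiniteDimensional F V := Module.finite_of_finrank_pos (by rw [S.hV]; omega)

theorem eig1 {g : V ≃ₗ[F] V} {k : ℕ} (hg : g ^ r ^ k = 1) {c : F} (e : g x = c • x) : g x = x := by
  by_cases x0 : x = 0
  · simp [x0]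
  have := eig_pow e (r ^ k)
  rw [hg, one_app, eq_comm, ← sub_eq_zero, ← one_smul F x, smul_smul, mul_one, ← sub_smul,
    smul_eq_zero, sub_eq_zero] at this
  rw [e, scal S.hq S.hr S.r2 S.dvd (this.resolve_right x0), one_smul]

theorem pow_r : s ^ r ^ 1 = 1 := by rw [pow_one, ← S.ord, pow_orderOf_eq_one]

theorem fix_of_pow {j : ℕ} (hj : ¬ r ∣ j) (e : (s ^ j) x = x) : s x = x := by
  obtain ⟨m, hm⟩ := exists_pow_eq_self_of_coprime (x := s) (n := j)
    (by rw [S.ord]; exact ((Nat.Prime.coprime_iff_not_dvd S.hr).2 hj).symm)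
  have := eig_pow (c := (1 : F)) (by rw [e, one_smul]) m
  rwa [hm, one_pow, one_smul] at this

theorem zero_of_fix (t2 : τ ≠ 2) (hx : uu s τ x = 0) (e : s x = x) : x = 0 := by
  have e' : s⁻¹ x = x := by rw [← e, H6.inv_apply_apply, e]
  rw [uu_app, e, e', ← two_smul F x, ← sub_smul, smul_eq_zero, sub_eq_zero] at hx
  exact hx.resolve_left t2.symm

theorem frob : ∃ p k : ℕ, p.Prime ∧ CharP F p ∧ q = p ^ k := by
  obtain ⟨p, hp, n, h1, h2⟩ := FiniteField.card' F
  obtain ⟨k, -, e⟩ := (Nat.dvd_prime_pow h1).1 (show q ∣ p ^ (n : ℕ) by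
    rw [← h2, S.hq]; exact Dvd.intro_left _ (pow_succ q 1).symm |>.trans (by simp))
  exact ⟨p, k, h1, hp, e⟩

theorem uu_pow (τ : F) : uu s τ ^ q = uu (s ^ q) (τ ^ q) := by
  obtain ⟨p, k, hp, _, e⟩ := S.frob
  haveI := Fact.mk hp
  haveI : Nontrivial V := Module.nontrivial_of_finrank_pos (R := F) (by rw [S.hV]; omega)
  haveI : CharP (End F V) p := charP_of_injective_algebraMap (algebraMap F _).injective p
  rw [uu, uu, e, sub_pow_char_pow_of_commute _ _ (Algebra.commutes _ _).symm,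
    add_pow_char_pow_of_commute _ _ (comm_ph (by group)), ← map_pow, ← map_pow, ← map_pow, inv_pow]

theorem pow_q2 : s ^ q ^ 2 = s⁻¹ := by
  rw [eq_inv_iff_mul_eq_one, ← pow_succ, ← orderOf_dvd_iff_pow_eq_one, S.ord]; exact S.dvd

theorem uu_pow2 (τ : F) : uu s τ ^ q ^ 2 = uu s τ := by
  obtain ⟨p, k, hp, _, e⟩ := S.frob
  haveI := Fact.mk hp
  haveI : Nontrivial V := Module.nontrivial_of_finrank_pos (R := F) (by rw [S.hV]; omega)
  haveI : CharP (End F V) p := charP_of_injective_algebraMap (algebraMap F _).injective p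
  have e2 : q ^ 2 = p ^ (k * 2) := by rw [e, pow_mul]
  rw [uu, e2, sub_pow_char_pow_of_commute _ _ (Algebra.commutes _ _).symm,
    add_pow_char_pow_of_commute _ _ (comm_ph (by group)), ← map_pow, ← map_pow, ← map_pow, inv_pow,
    ← e2, S.pow_q2, inv_inv, ← S.hq, FiniteField.pow_card, add_comm]

theorem exists_tau : ∃ (τ : F) (x : V), τ ≠ 2 ∧ x ≠ 0 ∧ uu s τ x = 0 := by
  classical
  by_contra hn
  push Not at hn
  have key : ∀ t : Finset F, (∀ σ ∈ t, σ ≠ 2) → ∀ x,
      aeval (uu s 0) (∏ σ ∈ t, (X - C σ)) x = 0 → x = 0 := fun t => by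
    induction t using Finset.induction_on with
    | empty => simp
    | insert σ t hσ ih =>
      intro h1 x hx
      rw [Finset.prod_insert hσ, mul_comm, map_mul, End.mul_apply] at hx
      have := ih (fun a ha => h1 a (Finset.mem_insert_of_mem ha)) _ hx
      by_contra x0
      refine hn σ x (h1 σ (Finset.mem_insert_self _ _)) x0 ?_
      simpa [uu_app] using this
  have e : (∏ σ : F, (X - C σ) : F[X]) = X ^ Fintype.card F - X := by
    have := prod_multiset_X_sub_C_of_monic_of_roots_card_eq (p := (X ^ Fintype.card F - X : F[X]))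
      (monic_X_pow_sub (by simpa using Fintype.one_lt_card (α := F)))
      (by rw [FiniteField.roots_X_pow_card_sub_X, FiniteField.X_pow_card_sub_X_natDegree_eq _
        Fintype.one_lt_card]; rfl)
    rwa [FiniteField.roots_X_pow_card_sub_X] at this
  have h2 : ∀ x, uu s 2 x = 0 := fun x => key (Finset.univ.erase 2)
    (fun σ h => Finset.ne_of_mem_erase h) _ (by
      have := LinearMap.congr_fun (congrArg (aeval (uu s 0)) e) x
      rw [← Finset.prod_erase_mul _ _ (Finset.mem_univ (2 : F)), map_mul, End.mul_apply, map_sub,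
        map_sub, map_pow, aeval_X, S.hq, S.uu_pow2, sub_self] at this
      simpa [uu_app] using this)
  have h3 : s = 1 := LinearEquiv.ext fun x => by
    obtain ⟨p, k, hp, _, e⟩ := S.frob
    have h4 : s (s x - x) = s x - x := by
      have := h2 (s x)
      rw [uu_app, H6.inv_apply_apply, two_smul] at this
      rw [map_sub, ← sub_eq_zero, ← this]; abel
    have h5 : ∀ n : ℕ, (s ^ n) x = x + (n : F) • (s x - x) := fun n => by
      induction n with
      | zero => simp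
      | succ n ih => rw [pow_succ', mul_app, ih, map_add, map_smul, h4, Nat.cast_succ, add_smul,
          one_smul]; abel
    have h6 := h5 r
    rw [← pow_one r, S.pow_r, one_app, left_eq_add, smul_eq_zero, pow_one] at h6
    refine sub_eq_zero.1 (h6.resolve_left fun h7 => ?_)
    have h8 := (Nat.prime_dvd_prime_iff_eq hp S.hr).1 ((CharP.cast_eq_zero_iff F p r).1 h7)
    have h9 : r ∣ q ^ 2 := by
      rw [← S.hq, ← h8]; exact (CharP.cast_eq_zero_iff F p _).1 (FiniteField.cast_card_eq_zero F)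
    exact S.hr.one_lt.ne' (Nat.dvd_one.1 ((Nat.dvd_add_right h9).1 S.dvd))
  exact S.hr.one_lt.ne' (by rw [← S.ord, h3, orderOf_one])

theorem adj (τ : F) (x y : V) : h (uu s τ x) y = h x (uu s (star τ) y) := by
  simp only [uu_app, HF.sub_left, HF.add_left, HF.smul_left, HF.sub_right, HF.add_right,
    HF.smul_right, star_star, HF.GU_left S.gu, HF.GU_right S.gu]
  ring

/-- the eigenspaces for `τ` and `τ̄` are in duality -/
theorem dual (hx : uu s τ x = 0) (e : ∀ y, uu s (star τ) y = 0 → h y x = 0) : x = 0 :=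
  h.nd fun v => by
    obtain ⟨n, hn⟩ : ∃ n, q ^ 2 = n + 2 := ⟨q ^ 2 - 2, by
      have := Fintype.one_lt_card (α := F); rw [S.hq] at this; omega⟩
    have h1 := e (v - (uu s (star τ) ^ (n + 1)) v) (by
      rw [map_sub, ← End.mul_apply, ← pow_succ', ← hn, S.uu_pow2, sub_self])
    rwa [HF.sub_left, pow_succ', End.mul_apply, S.adj, star_star, hx, HF.zero_right, sub_zero] at h1

theorem indep (t2 : τ ≠ 2) (hx : uu s τ x = 0) (x0 : x ≠ 0) : LinearIndependent F ![x, s x] := by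
  refine LinearIndependent.pair_iff' x0 |>.2 fun c e => x0 ?_
  exact S.zero_of_fix t2 hx (S.eig1 S.pow_r e.symm)

theorem two_le (t2 : τ ≠ 2) (hx : uu s τ x = 0) (x0 : x ≠ 0) :
    2 ≤ finrank F (LinearMap.ker (uu s τ)) := by
  haveI := S.fd
  have h1 : uu s τ (s x) = 0 := by
    rw [show s x = ph s x from rfl, ← capp (comm_uu (Commute.refl _) τ), hx, map_zero]
  have : LinearIndependent F ![(⟨x, hx⟩ : LinearMap.ker (uu s τ)), ⟨s x, h1⟩] :=
    LinearIndependent.of_comp (LinearMap.ker (uu s τ)).subtype (by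
      convert S.indep t2 hx x0 using 1
      ext i; fin_cases i <;> rfl)
  simpa using this.fintype_card_le_finrank

theorem uq (hx : uu s τ x = 0) : uu (s ^ q) (star τ) x = 0 := by
  have := Fintype.one_lt_card (α := F)
  obtain ⟨n, hn⟩ : ∃ n, q = n + 1 := ⟨q - 1, by
    rcases q with _ | q
    · rw [S.hq] at this; simp at this
    · rfl⟩
  rw [S.hst, ← S.uu_pow, hn, pow_succ, End.mul_apply, hx, map_zero]

theorem ne_star (t2 : τ ≠ 2) (hx : uu s τ x = 0) (x0 : x ≠ 0) : star τ ≠ τ := fun e => by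
  have h1 := S.uq hx
  obtain ⟨n, hn⟩ : ∃ n, q = n + 1 := ⟨q - 1, by
    have := Fintype.one_lt_card (α := F)
    rcases q with _ | q
    · rw [S.hq] at this; simp at this
    · rfl⟩
  have c : ∀ j y, uu s τ y = 0 → uu s τ ((s ^ j) y) = 0 := fun j y hy => by
    rw [show (s ^ j) y = ph (s ^ j) y from rfl, ← capp (comm_uu (comm_ph (by group)) τ), hy, map_zero]
  have d1 : ¬ r ∣ n := fun d => S.r2 ((Nat.prime_dvd_prime_iff_eq S.hr Nat.prime_two).1
    ((Nat.dvd_add_right (d.mul_right (n + 2))).1 (by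
      convert S.dvd using 1; rw [hn]; ring)))
  have d2 : ¬ r ∣ n + 2 := fun d => S.r2 ((Nat.prime_dvd_prime_iff_eq S.hr Nat.prime_two).1
    ((Nat.dvd_add_right (d.mul_left n)).1 (by convert S.dvd using 1; rw [hn]; ring)))
  have h2 : (s ^ (n + 2)) ((s ^ n) x - x) = (s ^ n) x - x := by
    have h3 := congrArg (s ^ q) (sub_eq_zero.2 (h1.trans (e ▸ hx).symm))
    simp only [uu_app, e, map_sub, map_add, map_zero, ← mul_app] at h3
    rw [map_sub, ← mul_app, ← sub_eq_zero, ← h3, hn, mul_inv_cancel, one_app,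
      show s ^ (n + 1) * s ^ (n + 1) = s ^ (n + 2) * s ^ n by group,
      show s ^ (n + 1) * s = s ^ (n + 2) by group, show s ^ (n + 1) * s⁻¹ = s ^ n by group]
    abel
  have h4 := S.zero_of_fix t2 (by rw [map_sub, c n x hx, hx, sub_zero]) (S.fix_of_pow d2 h2)
  exact x0 (S.zero_of_fix t2 hx (S.fix_of_pow d1 (sub_eq_zero.1 h4)))

theorem star_ne (t2 : τ ≠ 2) : star τ ≠ 2 := fun e => t2 (by
  rw [← star_star τ, e, star_ofNat])

theorem exists_star (hx : uu s τ x = 0) (x0 : x ≠ 0) : ∃ y, y ≠ 0 ∧ uu s (star τ) y = 0 := by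
  by_contra hn
  push Not at hn
  exact x0 (S.dual hx fun y hy => by rw [not_imp_not.1 (hn y) hy, HF.zero_left])

theorem rank_le (τ : F) :
    finrank F (LinearMap.ker (uu s τ)) ≤ finrank F (LinearMap.ker (uu s (star τ))) := by
  haveI := S.fd
  haveI : Finite V := Module.finite_of_finite F
  haveI : Finite (Dual F (LinearMap.ker (uu s (star τ)))) := Module.finite_of_finite F
  have := Nat.card_le_card_of_injective (fun x : LinearMap.ker (uu s τ) =>
    (h.lin x).comp (LinearMap.ker (uu s (star τ))).subtype) fun x y e => Subtype.ext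
      (sub_eq_zero.1 (S.dual (τ := τ) (by rw [map_sub, x.2, y.2, sub_zero]) fun v hv => by
        rw [HF.sub_right, sub_eq_zero]; exact LinearMap.congr_fun e ⟨v, hv⟩))
  rw [Module.natCard_eq_pow_finrank (K := F) (V := _ →ₗ[F] F), Subspace.dual_finrank_eq,
    Module.natCard_eq_pow_finrank (K := F) (V := LinearMap.ker _)] at this
  exact (Nat.pow_le_pow_iff_right Finite.one_lt_card).1 this

theorem disj (t2 : τ ≠ 2) (hx : uu s τ x = 0) (hx' : uu s (star τ) x = 0) : x = 0 := by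
  by_contra x0
  rw [uu_shift s _ τ, hx, zero_add, smul_eq_zero, sub_eq_zero] at hx'
  exact S.ne_star t2 hx x0 (hx'.resolve_right x0).symm

theorem rank_sup (t2 : τ ≠ 2) :
    finrank F ↥(LinearMap.ker (uu s τ) ⊔ LinearMap.ker (uu s (star τ))) =
      finrank F (LinearMap.ker (uu s τ)) + finrank F (LinearMap.ker (uu s (star τ))) := by
  haveI := S.fd
  rw [← Submodule.finrank_sup_add_finrank_inf_eq, (Submodule.eq_bot_iff (_ ⊓ _)).2
    fun y hy => S.disj t2 hy.1 hy.2, finrank_bot, add_zero]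

theorem rank_two (t2 : τ ≠ 2) (hx : uu s τ x = 0) (x0 : x ≠ 0) :
    finrank F (LinearMap.ker (uu s τ)) = 2 := by
  haveI := S.fd
  have h1 := S.rank_sup t2
  have h2 := Submodule.finrank_le (LinearMap.ker (uu s τ) ⊔ LinearMap.ker (uu s (star τ)))
  have h3 := S.rank_le τ
  have h4 := S.two_le t2 hx x0
  rw [S.hV] at h2
  omega

/-- an endomorphism commuting with `s` is injective or zero on the eigenspace -/
theorem zero_on (t2 : τ ≠ 2) (hx : uu s τ x = 0) (x0 : x ≠ 0) {f : End F V}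
    (c : Commute f (ph s)) (e : f x = 0) {y : V} (hy : uu s τ y = 0) : f y = 0 := by
  haveI := S.fd
  have h1 : Submodule.span F (Set.range ![x, s x]) ≤ LinearMap.ker (uu s τ) := by
    rw [Submodule.span_le]
    rintro _ ⟨i, rfl⟩
    fin_cases i
    · exact hx
    · show uu s τ (ph s x) = 0
      rw [← capp (comm_uu (Commute.refl _) τ), hx, map_zero]
  have h2 := Submodule.eq_of_le_of_finrank_eq h1 (by
    rw [finrank_span_eq_card (S.indep t2 hx x0), S.rank_two t2 hx x0]; rfl)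
  have h3 : Submodule.span F (Set.range ![x, s x]) ≤ LinearMap.ker f := by
    rw [Submodule.span_le]
    rintro _ ⟨i, rfl⟩
    fin_cases i
    · exact e
    · show f (ph s x) = 0
      rw [capp c, e, map_zero]
  exact h3 (h2 ▸ hy)

theorem lin_on (t2 : τ ≠ 2) (hx : uu s τ x = 0) (x0 : x ≠ 0) {f : End F V}
    (c : Commute f (ph s)) : ∃ a b : F, ∀ y, uu s τ y = 0 → f y = a • y + b • s y := by
  haveI := S.fd
  have h1 : Submodule.span F (Set.range ![x, s x]) ≤ LinearMap.ker (uu s τ) := by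
    rw [Submodule.span_le]
    rintro _ ⟨i, rfl⟩
    fin_cases i
    · exact hx
    · show uu s τ (ph s x) = 0
      rw [← capp (comm_uu (Commute.refl _) τ), hx, map_zero]
  have h2 := Submodule.eq_of_le_of_finrank_eq h1 (by
    rw [finrank_span_eq_card (S.indep t2 hx x0), S.rank_two t2 hx x0]; rfl)
  have h3 : f x ∈ Submodule.span F (Set.range ![x, s x]) := by
    rw [h2, LinearMap.mem_ker, ← capp (comm_uu c τ), hx, map_zero]
  rw [Matrix.range_cons, Matrix.range_cons, Matrix.range_empty, Set.union_empty,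
    Set.singleton_union, Submodule.mem_span_pair] at h3
  obtain ⟨a, b, e⟩ := h3
  refine ⟨a, b, fun y hy => sub_eq_zero.1 (S.zero_on t2 hx x0 (f := f - (a • 1 + b • ph s))
    (c.sub_left (((Commute.one_left _).smul_left a).add_left ((Commute.refl _).smul_left b)))
    (sub_eq_zero.2 e.symm) hy)⟩

/-- the fixed line -/
theorem exists_e (t2 : τ ≠ 2) (hx : uu s τ x = 0) (x0 : x ≠ 0) : ∃ e : V, e ≠ 0 ∧
    (∀ f : End F V, Commute f (ph s) → ∃ c : F, f e = c • e) ∧
    (∀ v, ∃ (c : F) (w w' : V), uu s τ w = 0 ∧ uu s (star τ) w' = 0 ∧ v = c • e + w + w') ∧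
    ∀ (c : F) (w w' : V), uu s τ w = 0 → uu s (star τ) w' = 0 → c • e + w + w' = 0 →
      c • e = 0 ∧ w = 0 ∧ w' = 0 := by
  haveI := S.fd
  obtain ⟨y, y0, hy⟩ := S.exists_star hx x0
  have ne := S.ne_star t2 hx x0
  have cc : Commute (uu s τ) (uu s (star τ)) := comm_uu (comm_uu (Commute.refl _) _).symm _
  have hk : LinearMap.ker (uu s τ * uu s (star τ)) =
      LinearMap.ker (uu s τ) ⊔ LinearMap.ker (uu s (star τ)) := by
    refine le_antisymm (fun v hv => Submodule.mem_sup.2 ⟨(τ - star τ)⁻¹ • uu s (star τ) v, ?_,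
      -((τ - star τ)⁻¹ • uu s τ v), ?_, ?_⟩) (sup_le (fun v hv => ?_) fun v hv => ?_)
    · exact Submodule.smul_mem _ _ hv
    · exact neg_mem (Submodule.smul_mem _ _ ((capp cc v).symm.trans hv))
    · rw [uu_shift s (star τ) τ, smul_add, smul_smul, inv_mul_cancel₀ (sub_ne_zero.2 ne.symm),
        one_smul]; abel
    · rw [LinearMap.mem_ker, End.mul_apply, capp cc, hv, map_zero]
    · rw [LinearMap.mem_ker, End.mul_apply, hv, map_zero]
  have hr : finrank F (LinearMap.range (uu s τ * uu s (star τ))) = 1 := by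
    have := LinearMap.finrank_range_add_finrank_ker (uu s τ * uu s (star τ))
    rw [hk, S.rank_sup t2, S.rank_two t2 hx x0, S.rank_two (S.star_ne t2) hy y0, S.hV] at this
    omega
  obtain ⟨⟨e, he⟩, e0, hs⟩ := finrank_eq_one_iff'.1 hr
  have e0' : e ≠ 0 := fun h => e0 (Subtype.ext h)
  have h1 : ∀ f : End F V, Commute f (ph s) → ∃ c : F, f e = c • e := fun f c => by
    obtain ⟨v, rfl⟩ := he
    obtain ⟨a, ha⟩ := hs ⟨_, f v, rfl⟩
    exact ⟨a, (capp ((comm_uu c _).mul_right (comm_uu c _)) v).trans (congrArg Subtype.val ha).symm⟩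
  obtain ⟨c, hc⟩ := h1 _ (Commute.refl _)
  have h2 : s e = e := S.eig1 S.pow_r hc
  have h3 : ∀ σ, uu s σ e = (2 - σ) • e := fun σ => by
    rw [uu_app, show s⁻¹ e = e by rw [← h2, H6.inv_apply_apply, h2], h2, sub_smul, two_smul]
  have h4 : (uu s τ * uu s (star τ)) e = ((2 - star τ) * (2 - τ)) • e := by
    rw [End.mul_apply, h3, map_smul, h3, smul_smul]
  have h5 : (2 - star τ) * (2 - τ) ≠ 0 :=
    mul_ne_zero (sub_ne_zero.2 (S.star_ne t2).symm) (sub_ne_zero.2 t2.symm)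
  refine ⟨e, e0', h1, fun v => ?_, fun c w w' hw hw' e => ?_⟩
  · obtain ⟨a, ha⟩ := hs ⟨_, v, rfl⟩
    have : v - (a / ((2 - star τ) * (2 - τ))) • e ∈ LinearMap.ker (uu s τ * uu s (star τ)) := by
      rw [LinearMap.mem_ker, map_sub, map_smul, h4, smul_smul, div_mul_cancel₀ _ h5, sub_eq_zero]
      exact (congrArg Subtype.val ha).symm
    obtain ⟨w, hw, w', hw', e⟩ := Submodule.mem_sup.1 (hk ▸ this)
    exact ⟨_, w, w', hw, hw', by rw [add_assoc, e, add_sub_cancel]⟩
  · have h6 := congrArg (uu s τ * uu s (star τ)) e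
    rw [map_add, map_add, map_smul, h4, LinearMap.mem_ker.1 (hk ▸ Submodule.mem_sup_left hw),
      LinearMap.mem_ker.1 (hk ▸ Submodule.mem_sup_right hw'), add_zero, add_zero, map_zero,
      smul_comm, smul_eq_zero] at h6
    have h7 := h6.resolve_left h5
    rw [h7, zero_add] at e
    have h8 : w = 0 := S.disj t2 hw (by rw [eq_neg_of_add_eq_zero_left e, map_neg, hw', neg_zero])
    exact ⟨h7, h8, by simpa [h8] using e⟩

theorem one_of (t2 : τ ≠ 2) (hx : uu s τ x = 0) (x0 : x ≠ 0) {g : V ≃ₗ[F] V} (hg : g ∈ h.GU)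
    (c : g * s = s * g) (he : ∀ e, s e = e → g e = e) (e : g x = x) : g = 1 := by
  obtain ⟨e0, -, h1, h2, -⟩ := S.exists_e t2 hx x0
  obtain ⟨a, ha⟩ := h1 _ (Commute.refl _)
  have hW : ∀ y, uu s τ y = 0 → g y = y := fun y hy => sub_eq_zero.1
    (S.zero_on t2 hx x0 (f := ph g - 1) ((comm_ph c).sub_left (Commute.one_left _))
      (sub_eq_zero.2 e) hy)
  refine LinearEquiv.ext fun v => ?_
  obtain ⟨b, w, w', hw, hw', rfl⟩ := h2 v
  have : g w' = w' := sub_eq_zero.1 (S.dual (τ := star τ) (by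
    rw [map_sub, show g w' = ph g w' from rfl, ← capp (comm_uu (comm_ph c) _), hw', map_zero,
      sub_zero]) fun y hy => by
    rw [star_star] at hy
    rw [HF.sub_right, ← HF.GU_app hg y w', hW y hy, sub_self])
  rw [map_add, map_add, map_smul, he e0 (S.eig1 S.pow_r ha), hW w hw, this, one_app]

theorem fix_line (t2 : τ ≠ 2) (hx : uu s τ x = 0) (x0 : x ≠ 0) {g : V ≃ₗ[F] V}
    (c : g * s = s * g) : ∃ a : F, ∀ e, s e = e → g e = a • e := by
  obtain ⟨e0, -, h1, h2, h3⟩ := S.exists_e t2 hx x0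
  obtain ⟨a, ha⟩ := h1 _ (comm_ph c)
  obtain ⟨a', ha'⟩ := h1 _ (Commute.refl _)
  refine ⟨a, fun e he => ?_⟩
  obtain ⟨b, w, w', hw, hw', rfl⟩ := h2 e
  have k : ∀ σ y, uu s σ y = 0 → uu s σ (s y - y) = 0 := fun σ y hy => by
    rw [map_sub, show s y = ph s y from rfl, ← capp (comm_uu (Commute.refl _) σ), hy, map_zero,
      sub_zero]
  obtain ⟨-, h4, h5⟩ := h3 0 (s w - w) (s w' - w') (k _ _ hw) (k _ _ hw') (by
    rw [map_add, map_add, map_smul, S.eig1 S.pow_r ha'] at he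
    rw [← sub_eq_zero.2 he, zero_smul]; abel)
  rw [S.zero_of_fix t2 hw (sub_eq_zero.1 h4), S.zero_of_fix (S.star_ne t2) hw' (sub_eq_zero.1 h5),
    add_zero, add_zero, map_smul, show g e0 = a • e0 from ha, smul_comm]

/-- an `r`-element of the centraliser with a fixed vector in the eigenspace is trivial -/
theorem one_of_r (t2 : τ ≠ 2) (hx : uu s τ x = 0) (x0 : x ≠ 0) {g : V ≃ₗ[F] V} (hg : g ∈ h.GU)
    (c : g * s = s * g) {k : ℕ} (hk : g ^ r ^ k = 1) (e : g x = x) : g = 1 :=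
  let ⟨_, ha⟩ := S.fix_line t2 hx x0 c
  S.one_of t2 hx x0 hg c (fun e he => S.eig1 hk (ha e he)) e

/-- the centraliser is abelian -/
theorem comm {g g' : V ≃ₗ[F] V} (hg : g ∈ h.GU) (hg' : g' ∈ h.GU) (c : g * s = s * g)
    (c' : g' * s = s * g') : g * g' = g' * g := by
  obtain ⟨τ, x, t2, x0, hx⟩ := S.exists_tau
  obtain ⟨a, b, h1⟩ := S.lin_on t2 hx x0 (comm_ph c)
  obtain ⟨u, hu⟩ := S.fix_line t2 hx x0 c
  obtain ⟨u', hu'⟩ := S.fix_line t2 hx x0 c'
  have c1 : Commute g s := c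
  have c2 : Commute g' s := c'
  refine (inv_mul_eq_one.1 (S.one_of t2 hx x0 (mul_mem (inv_mem (mul_mem hg' hg)) (mul_mem hg hg'))
    ((c2.mul_left c1).inv_left.mul_left (c1.mul_left c2)) (fun e he => ?_) ?_)).symm
  · rw [mul_app, ← LinearEquiv.injective _ |>.eq_iff (f := (g' * g : V ≃ₗ[F] V)),
      H6.apply_inv_apply, mul_app, mul_app, hu e he, hu' e he, map_smul, map_smul, hu e he, hu' e he,
      smul_comm]
  · rw [mul_app, ← LinearEquiv.injective _ |>.eq_iff (f := (g' * g : V ≃ₗ[F] V)),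
      H6.apply_inv_apply, mul_app, mul_app, show g x = _ from h1 x hx, show g (g' x) = _ from
        h1 (g' x) (by rw [show g' x = ph g' x from rfl, ← capp (comm_uu (comm_ph c') τ), hx,
          map_zero]), map_add, map_smul, map_smul, ← mul_app g', c', mul_app]

theorem of_uu (t2 : τ ≠ 2) (hx : uu s τ x = 0) (x0 : x ≠ 0) {g g' : V ≃ₗ[F] V} (hg : g ∈ h.GU)
    (hg' : g' ∈ h.GU) (c : g * s = s * g) (c' : g' * s = s * g') (hk : g ^ r ^ 1 = 1)
    (hk' : g' ^ r ^ 1 = 1) {σ : F} (e : uu g σ x = 0) (e' : ∀ y, uu s τ y = 0 → uu g' σ y = 0) :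
    g = g' ∨ g = g'⁻¹ := by
  have cc : Commute g g' := S.comm hg hg' c c'
  have c1 : Commute g s := c
  have c2 : Commute g' s := c'
  have k : ∀ g' : V ≃ₗ[F] V, g' ∈ h.GU → Commute g' s → Commute g g' → g' ^ r ^ 1 = 1 → ∀ y, y ≠ 0 →
      uu s τ y = 0 → g y = g' y → g = g' := fun g' hg' c2 cc hk' y y0 hy e =>
    (inv_mul_eq_one.1 (S.one_of_r t2 hy y0 (mul_mem (inv_mem hg') hg) (c2.inv_left.mul_left c1)
      (k := 1) (by rw [cc.symm.inv_left.mul_pow, hk, inv_pow, hk', inv_one, one_mul])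
      (by rw [mul_app, e, H6.inv_apply_apply]))).symm
  by_cases h0 : g x - g'⁻¹ x = 0
  · exact Or.inr (k _ (inv_mem hg') c2.inv_left cc.inv_right (by rw [inv_pow, hk', inv_one]) x x0 hx
      (sub_eq_zero.1 h0))
  have w : ∀ g : V ≃ₗ[F] V, Commute g s → uu s τ (g x) = 0 := fun g c => by
    rw [show g x = ph g x from rfl, ← capp (comm_uu (comm_ph c) τ), hx, map_zero]
  refine Or.inl (k _ hg' c2 cc hk' _ h0 (by rw [map_sub, w g c1, w _ c2.inv_left, sub_zero]) ?_)
  have h1 := congrArg g e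
  have h2 := e' _ (w g c1)
  rw [uu_app, map_sub, map_add, map_smul, H6.apply_inv_apply, map_zero] at h1
  rw [uu_app, ← mul_app g'⁻¹, ← cc.inv_right.eq, mul_app] at h2
  rw [map_sub, map_sub, H6.apply_inv_apply, ← sub_eq_zero, ← sub_eq_zero.2 (h1.trans h2.symm)]
  abel

/-- at most four conjugates of `s` commute with `s` -/
theorem conj4 {g : V ≃ₗ[F] V} (hg : g ∈ h.GU) (c : g * s * g⁻¹ * s = s * (g * s * g⁻¹)) :
    g * s * g⁻¹ = s ∨ g * s * g⁻¹ = s⁻¹ ∨ g * s * g⁻¹ = s ^ q ∨ g * s * g⁻¹ = (s ^ q)⁻¹ := by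
  obtain ⟨τ, x, t2, x0, hx⟩ := S.exists_tau
  obtain ⟨e, -, h1, h2, -⟩ := S.exists_e t2 hx x0
  obtain ⟨a, ha⟩ := h1 _ (Commute.refl _)
  have he : s e = e := S.eig1 S.pow_r ha
  have m := mul_mem (mul_mem hg S.gu) (inv_mem hg)
  have hk : (g * s * g⁻¹) ^ r ^ 1 = 1 := by rw [conj_pow, S.pow_r]; simp
  have t : ∀ σ y, uu (g * s * g⁻¹) σ y = g (uu s σ (g⁻¹ y)) := fun σ y => by
    simp only [uu_app, mul_inv_rev, inv_inv, mul_app, map_sub, map_add, map_smul,
      H6.apply_inv_apply]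
  have cc : ∀ σ σ' y, uu s σ (uu s σ' y) = uu s σ' (uu s σ y) := fun σ σ' =>
    capp (comm_uu (comm_uu (Commute.refl _) _).symm _)
  have z : ∀ v, uu s 2 (uu s τ (uu s (star τ) v)) = 0 := fun v => by
    obtain ⟨b, w, w', hw, hw', rfl⟩ := h2 v
    have : uu s 2 e = 0 := by
      rw [uu_app, show s⁻¹ e = e by rw [← he, H6.inv_apply_apply, he], he, two_smul, sub_self]
    simp only [map_add, map_smul, hw', map_zero, add_zero]
    rw [cc τ _ w, hw, cc τ, cc 2, cc 2, this]
    simp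
  have c' : ∀ σ, Commute (uu (g * s * g⁻¹) σ) (ph s) := fun σ => (comm_uu (comm_ph c).symm σ).symm
  have w : ∀ σ y, uu s τ y = 0 → uu s τ (uu (g * s * g⁻¹) σ y) = 0 := fun σ y hy => by
    rw [← capp (comm_uu (c' σ) τ), hy, map_zero]
  by_cases e1 : uu (g * s * g⁻¹) (star τ) x = 0
  · exact Or.inr (Or.inr (S.of_uu t2 hx x0 m (pow_mem S.gu q) c (by group) hk
      (by rw [← pow_mul, mul_comm, pow_mul, S.pow_r, one_pow]) e1 fun y hy => S.uq hy))
  by_cases e2 : uu (g * s * g⁻¹) τ (uu (g * s * g⁻¹) (star τ) x) = 0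
  · rcases S.of_uu t2 (w _ _ hx) e1 m S.gu c rfl hk S.pow_r e2 fun y hy => hy with h | h
    · exact Or.inl h
    · exact Or.inr (Or.inl h)
  have e3 : uu (g * s * g⁻¹) 2 (uu (g * s * g⁻¹) τ (uu (g * s * g⁻¹) (star τ) x)) = 0 := by
    simp only [t, H6.inv_apply_apply, z, map_zero]
  have := S.of_uu t2 (w _ _ (w _ _ hx)) e2 m (one_mem _) c (by simp) hk (one_pow _) e3
    fun y _ => by rw [uu_app, inv_one, one_app, two_smul, sub_self]
  have e4 : s = 1 := by simpa using this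
  exact absurd (by rw [← S.ord, e4, orderOf_one]) S.hr.one_lt.ne'

/-- `r`-subgroups of the centraliser have order dividing `q² + 1` -/
theorem card_dvd {R : Subgroup (V ≃ₗ[F] V)} (h1 : R ≤ h.GU) (h2 : ∀ g ∈ R, g * s = s * g)
    {k : ℕ} (h3 : Nat.card R = r ^ k) : r ^ k ∣ q ^ 2 + 1 := by
  classical
  haveI := S.fd
  haveI : Finite V := Module.finite_of_finite F
  obtain ⟨τ, x, t2, x0, hx⟩ := S.exists_tau
  let X := {y : V // y ≠ 0 ∧ uu s τ y = 0}
  letI : MulAction R X :=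
    { smul := fun g y => ⟨g.1 y.1, by simpa using y.2.1, by
        rw [show g.1 y.1 = ph g.1 y.1 from rfl, ← capp (comm_uu (comm_ph (h2 _ g.2)) τ), y.2.2,
          map_zero]⟩
      one_smul := fun _ => rfl
      mul_smul := fun _ _ _ => rfl }
  have d : Nat.card R ∣ Nat.card X := by
    rw [Nat.card_congr (MulAction.selfEquivOrbitsQuotientProd (G := R) (X := X) fun y =>
      (Subgroup.eq_bot_iff_forall _).2 fun g hg => Subtype.ext (S.one_of_r t2 y.2.2 y.2.1 (h1 g.2)
        (h2 _ g.2) (k := k) (h3 ▸ congrArg Subtype.val (pow_card_eq_one' (x := g)))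
        (congrArg Subtype.val hg))), Nat.card_prod]
    exact Dvd.intro_left _ rfl
  have e : Nat.card X + 1 = (q ^ 2) ^ 2 := by
    rw [← S.hq, ← S.rank_two t2 hx x0, ← Nat.card_eq_fintype_card,
      ← Module.natCard_eq_pow_finrank, ← Finite.card_option]
    exact Nat.card_congr ((Equiv.optionCongr ⟨fun y => ⟨⟨y.1, y.2.2⟩, fun e => y.2.1
      (congrArg Subtype.val e)⟩, fun y => ⟨y.1.1, fun e => y.2 (Subtype.ext e), y.1.2⟩,
      fun _ => rfl, fun _ => rfl⟩).trans (Equiv.optionSubtypeNe (0 : LinearMap.ker (uu s τ))))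
  have h4 := Fintype.card_pos (α := F)
  rw [S.hq] at h4
  refine Nat.Coprime.dvd_of_dvd_mul_right (n := q ^ 2 - 1) (Nat.Coprime.pow_left k
    ((Nat.Prime.coprime_iff_not_dvd S.hr).2 fun d => S.r2 ((Nat.prime_dvd_prime_iff_eq S.hr
      Nat.prime_two).1 (by
        have := Nat.dvd_sub S.dvd d
        rwa [show q ^ 2 + 1 - (q ^ 2 - 1) = 2 by omega] at this)))) ?_
  rw [← Nat.sq_sub_sq, one_pow, ← e, ← h3]
  simpa using d

/-- fixed vectors of scalar multiples of an element with non-trivial `r`-part -/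
theorem fixed {g : V ≃ₗ[F] V} (hg : g ∈ h.GU) (c : g * s = s * g) {j k : ℕ} (h1 : g ^ j ≠ 1)
    (h2 : (g ^ j) ^ r ^ k = 1) : ∃ (e : V) (a : F), ∀ (z : F) (w : V), z • g w = w →
      (∃ b : F, w = b • e) ∧ (z * a ≠ 1 → w = 0) := by
  obtain ⟨τ, x, t2, x0, hx⟩ := S.exists_tau
  obtain ⟨e, -, h3, h4, h5⟩ := S.exists_e t2 hx x0
  obtain ⟨a, ha⟩ := h3 _ (comm_ph c)
  refine ⟨e, a, fun z v hv => ?_⟩
  obtain ⟨b, w, w', hw, hw', rfl⟩ := h4 v
  have k : ∀ σ y, uu s σ y = 0 → uu s σ (z • g y - y) = 0 := fun σ y hy => by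
    rw [map_sub, map_smul, show g y = ph g y from rfl, ← capp (comm_uu (comm_ph c) σ), hy, map_zero,
      smul_zero, sub_zero]
  obtain ⟨h6, h7, h8⟩ := h5 (b * (z * a - 1)) _ _ (k _ _ hw) (k _ _ hw') (by
    rw [map_add, map_add, map_smul, show g e = a • e from ha] at hv
    rw [← sub_eq_zero.2 hv]
    simp only [smul_add, smul_smul, mul_sub, sub_smul, mul_one]
    rw [show z * (b * a) = b * (z * a) by ring]; abel)
  have k2 : ∀ σ y, σ ≠ 2 → uu s σ y = 0 → z • g y - y = 0 → y = 0 := fun σ y hσ hy e => by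
    by_contra y0
    have z0 : z ≠ 0 := fun e' => y0 (by simpa [e'] using e)
    have e1 : g y = z⁻¹ • y := by rw [eq_inv_smul_iff₀ z0, sub_eq_zero.1 e]
    exact h1 (S.one_of_r hσ hy y0 (pow_mem hg j) (Commute.pow_left c j) h2
      (S.eig1 h2 (eig_pow e1 j)))
  rw [k2 _ _ t2 hw h7, k2 _ _ (S.star_ne t2) hw' h8, add_zero, add_zero]
  refine ⟨⟨b, rfl⟩, fun h9 => ?_⟩
  rwa [mul_comm, mul_smul, smul_eq_zero, or_iff_right (sub_ne_zero.2 h9)] at h6

end St

end Cfsg.Agent.H6.U5.TT
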